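import Cfsg.Statements.S3733
import Mathlib

set_option autoImplicit false
open Cfsg

namespace Cfsg.Agent.S3733

open Subgroup
open scoped IsMulCommutative

/-- Let A and V be subgroups of a finite group with V abelian and nontrivial and A normalizing V. Suppose a nonempty finite family of proper subgroups of A partitions A: every non-identity element of A lies in exactly one member. If the number of members minus one is coprime to the order of V, then some member B of the family has a non-identity fixed point on V, that is V ∩ C(B) ≠ 1. -/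
theorem result {G : Type*} [Group G] [Finite G] (A V : Subgroup G) (hVab : IsMulCommutative V) (hV : V ≠ ⊥) (hAV : A ≤ Subgroup.normalizer (V : Set G)) (𝒜 : Finset (Subgroup G)) (hne : 𝒜.Nonempty) (hprop : ∀ B ∈ 𝒜, B < A) (hpart : ∀ a ∈ A, a ≠ 1 → ∃! B, B ∈ 𝒜 ∧ a ∈ B) (hk : (𝒜.card - 1).Coprime (Nat.card V)) : ∃ B ∈ 𝒜, V ⊓ Subgroup.centralizer (B : Set G) ≠ ⊥ := by
  classical
  by_contra hcon
  push Not at hcon
  have := Fintype.ofFinite G
  -- the norm map of a subgroup `B ≤ A`
  have hmem : ∀ a ∈ A, ∀ v : V, a * v * a⁻¹ ∈ V := fun a ha v =>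
    (mem_normalizer_iff.mp (hAV ha) v).mp v.2
  let c : A → V → V := fun a v => ⟨a * v * (a : G)⁻¹, hmem a a.2 v⟩
  let N : Subgroup G → V → V := fun B v => ∏ a ∈ Finset.univ.filter (fun a : A => (a : G) ∈ B), c a v
  have hfix : ∀ B ≤ A, ∀ v : V, (N B v : G) ∈ centralizer (B : Set G) := by
    intro B hB v
    rw [mem_centralizer_iff]
    intro b hb
    let φ : V →* V := MonoidHom.mk' (c ⟨b, hB hb⟩) (fun x y => Subtype.ext (by simp [c, mul_assoc]))
    have h1 : φ (N B v) = N B v := by
      simp only [N]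
      rw [map_prod]
      refine Finset.prod_bij (fun a _ => ⟨b, hB hb⟩ * a) ?_ ?_ ?_ ?_
      · intro a ha
        simp only [Finset.mem_filter, Finset.mem_univ, true_and] at ha ⊢
        exact B.mul_mem hb ha
      · intro a _ a' _ h
        exact mul_left_cancel h
      · intro a ha
        simp only [Finset.mem_filter, Finset.mem_univ, true_and] at ha ⊢
        exact ⟨(⟨b, hB hb⟩ : A)⁻¹ * a, B.mul_mem (B.inv_mem hb) ha, by simp⟩
      · intro a _
        exact Subtype.ext (by simp [φ, c, mul_assoc])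
    have h2 : b * (N B v : G) * b⁻¹ = N B v := congrArg Subtype.val h1
    rwa [mul_inv_eq_iff_eq_mul] at h2
  have hN : ∀ B ∈ 𝒜, ∀ v, N B v = 1 := fun B hB v => by
    have : (N B v : G) ∈ V ⊓ centralizer (B : Set G) := ⟨(N B v).2, hfix B (hprop B hB).le v⟩
    rw [hcon B hB] at this
    exact Subtype.ext this
  have hNA : ∀ v, N A v = 1 := fun v => by
    obtain ⟨B, hB⟩ := hne
    have : (N A v : G) ∈ V ⊓ centralizer (B : Set G) :=
      ⟨(N A v).2, centralizer_le (hprop B hB).le (hfix A le_rfl v)⟩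
    rw [hcon B hB] at this
    exact Subtype.ext this
  have hc1 : ∀ v, c 1 v = v := fun v => Subtype.ext (by simp [c])
  have key : ∀ v : V, v ^ (𝒜.card - 1) = 1 := fun v => by
    have h1 : ∏ B ∈ 𝒜, N B v = 1 := Finset.prod_eq_one (fun B hB => hN B hB v)
    simp only [N, Finset.prod_filter] at h1
    rw [Finset.prod_comm] at h1
    have h2 := hNA v
    simp only [N, SetLike.coe_mem, Finset.filter_true] at h2
    rw [← Finset.mul_prod_erase _ _ (Finset.mem_univ 1)] at h1 h2
    have h3 : ∀ a ∈ Finset.univ.erase (1 : A),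
        (∏ B ∈ 𝒜, if (a : G) ∈ B then c a v else 1) = c a v := by
      intro a ha
      obtain ⟨B, ⟨hB1, hB2⟩, hB3⟩ := hpart a a.2 (fun h => (Finset.mem_erase.mp ha).1 (Subtype.ext h))
      rw [Finset.prod_eq_single_of_mem B hB1, if_pos hB2]
      intro B' hB' hne'
      rw [if_neg (fun h => hne' (hB3 B' ⟨hB', h⟩))]
    rw [Finset.prod_congr rfl h3] at h1
    simp only [OneMemClass.coe_one, one_mem, if_true, hc1, Finset.prod_const] at h1 h2
    obtain ⟨k, hk⟩ : ∃ k, 𝒜.card = k + 1 := ⟨𝒜.card - 1, by have := hne.card_pos; omega⟩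
    rw [hk, pow_succ, mul_assoc, h2, mul_one] at h1
    rw [hk]; exact h1
  apply hV
  rw [eq_bot_iff]
  intro v hv
  have := pow_gcd_eq_one.mpr ⟨key ⟨v, hv⟩, pow_card_eq_one'⟩
  rw [hk, pow_one] at this
  exact congrArg Subtype.val this

end Cfsg.Agent.S3733
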