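import Cfsg.Statements.S3735
import Cfsg.Agent.Lib.Coprime.TIHall

set_option autoImplicit false
open Cfsg

namespace Cfsg.Agent.S3735

/-- Clifford's Theorem for actions on finite abelian groups, first part. Let H and V be subgroups of a finite group with V abelian and H normalizing V, and let A be a normal subgroup of H. If every H-invariant subgroup of V has an H-invariant complement in V, then every A-invariant subgroup of V has an A-invariant complement in V. -/
theorem result {G : Type*} [Group G] [Finite G] (H A V : Subgroup G) (hVab : IsMulCommutative V) (hHV : H ≤ Subgroup.normalizer (V : Set G)) (hAH : A ≤ H) (hAn : H ≤ Subgroup.normalizer (A : Set G)) (hss : ∀ U : Subgroup G, U ≤ V → H ≤ Subgroup.normalizer (U : Set G) → ∃ W : Subgroup G, W ≤ V ∧ H ≤ Subgroup.normalizer (W : Set G) ∧ U ⊓ W = ⊥ ∧ U ⊔ W = V) (U : Subgroup G) (hUV : U ≤ V) (hAU : A ≤ Subgroup.normalizer (U : Set G)) : ∃ W : Subgroup G, W ≤ V ∧ A ≤ Subgroup.normalizer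 (W : Set G) ∧ U ⊓ W = ⊥ ∧ U ⊔ W = V := by
  have hcomm : ∀ {B C : Subgroup G}, B ≤ V → C ≤ V → B ≤ Subgroup.normalizer (C : Set G) := by
    intro B C hB hC
    exact (Subgroup.le_centralizer_iff.mp (hC.trans ((Subgroup.le_centralizer V).trans
      (Subgroup.centralizer_le hB)))).trans (Subgroup.centralizer_le_normalizer _)
  let Mn : Subgroup G → Prop := fun M => M ≤ V ∧ A ≤ Subgroup.normalizer (M : Set G) ∧ M ≠ ⊥ ∧
    ∀ K : Subgroup G, K ≤ M → A ≤ Subgroup.normalizer (K : Set G) → K ≠ ⊥ → K = M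
  have hconj : ∀ h ∈ H, ∀ K : Subgroup G, A ≤ Subgroup.normalizer (K : Set G) →
      A ≤ Subgroup.normalizer ((K.map (MulAut.conj h).toMonoidHom : Subgroup G) : Set G) := by
    intro h hh K hK
    rw [← Coprime.map_conj_eq_of_mem_normalizer (hAn hh)]
    exact (Subgroup.map_mono hK).trans (Subgroup.le_normalizer_map _)
  have hMn : ∀ h ∈ H, ∀ M, Mn M → Mn (M.map (MulAut.conj h).toMonoidHom) := by
    rintro h hh M ⟨h1, h2, h3, h4⟩
    refine ⟨?_, hconj h hh M h2, ?_, fun K hK hAK hK1 => ?_⟩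
    · rw [← Coprime.map_conj_eq_of_mem_normalizer (hHV hh)]
      exact Subgroup.map_mono h1
    · rwa [Ne, Subgroup.map_eq_bot_iff_of_injective _ (MulAut.conj h).injective]
    · rw [← h4 (K.map (MulAut.conj h⁻¹).toMonoidHom) ?_ (hconj _ (H.inv_mem hh) K hAK) ?_,
        Coprime.map_conj_map_conj, mul_inv_cancel, Coprime.map_conj_one]
      · have := Subgroup.map_mono (f := (MulAut.conj h⁻¹).toMonoidHom) hK
        rwa [Coprime.map_conj_map_conj, inv_mul_cancel, Coprime.map_conj_one] at this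
      · rwa [Ne, Subgroup.map_eq_bot_iff_of_injective _ (MulAut.conj h⁻¹).injective]
  have hS : V ≤ sSup {M | Mn M} := by
    obtain ⟨W, hWV, hHW, h1, h2⟩ := hss (sSup {M | Mn M}) (sSup_le fun M hM => hM.1) (by
      intro h hh
      rw [Subgroup.mem_normalizer_iff_map_conj_eq]
      refine Subgroup.eq_of_le_of_card_ge ?_ (Coprime.card_map_conj _ _).ge
      rw [Subgroup.map_le_iff_le_comap]
      exact sSup_le fun M hM => Subgroup.map_le_iff_le_comap.mp (le_sSup (hMn h hh M hM)))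
    by_cases hW : W = ⊥
    · rw [← h2, hW, sup_bot_eq]
    · obtain ⟨M, hM, hM', hmin⟩ := Core.exists_minimal_le
        (P := fun K => A ≤ Subgroup.normalizer (K : Set G) ∧ K ≠ ⊥) ⟨hAH.trans hHW, hW⟩
      exact absurd (le_bot_iff.mp (h1 ▸ le_inf (le_sSup ⟨hM.trans hWV, hM'.1, hM'.2,
        fun K hK h3 h4 => hmin K ⟨h3, h4⟩ hK⟩) hM)) hM'.2
  obtain ⟨W, -, ⟨h1, h2, h3⟩, hmax⟩ := Core.exists_maximal_ge
    (P := fun W => W ≤ V ∧ A ≤ Subgroup.normalizer (W : Set G) ∧ U ⊓ W = ⊥) (H := ⊥)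
    ⟨bot_le, Subgroup.le_normalizer_of_normal, inf_bot_eq _⟩
  refine ⟨W, h1, h2, h3, le_antisymm (sup_le hUV h1) (hS.trans (sSup_le fun M hM => ?_))⟩
  by_contra hle
  have h4 : M ⊓ (U ⊔ W) = ⊥ := by
    by_contra h4
    exact hle (inf_eq_left.mp (hM.2.2.2 _ inf_le_left
      (Core.le_normalizer_inf hM.2.1 (Core.le_normalizer_sup hAU h2)) h4))
  have h5 := hmax (W ⊔ M) ⟨sup_le h1 hM.1, Core.le_normalizer_sup h2 hM.2.1, by
    rw [eq_bot_iff]
    rintro x ⟨hx, hx'⟩
    obtain ⟨w, hw, m, hm, rfl⟩ := (Core.mem_sup_of_le_normalizer (hcomm h1 hM.1)).mp hx'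
    have : m ∈ M ⊓ (U ⊔ W) := ⟨hm, (Subgroup.mul_mem_cancel_left _
      (Subgroup.mem_sup_right hw)).mp (Subgroup.mem_sup_left hx)⟩
    rw [h4, Subgroup.mem_bot] at this
    rw [this, mul_one] at hx ⊢
    exact h3 ▸ ⟨hx, hw⟩⟩ le_sup_left
  exact hle ((le_sup_right.trans h5.le).trans le_sup_right)

end Cfsg.Agent.S3735
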