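import Cfsg.Statements.S3739
import Cfsg.Agent.Lib.Coprime.RankTwo

set_option autoImplicit false
open Cfsg

namespace Cfsg.Agent.S3739

/-- Let G be a finite group with C_G(O₂(G)) ≤ O₂(G) containing an element of order 6, and let d be a non-identity 3-element of G normalizing a nontrivial elementary abelian 2-subgroup W with C_W(d) = 1. Then G has an elementary abelian subgroup of order 8. -/
theorem result {G : Type*} [Group G] [Finite G] (hchar : Subgroup.centralizer (Cfsg.pCore 2 G : Set G) ≤ Cfsg.pCore 2 G) (hsix : ∃ g : G, orderOf g = 6) (d : G) (hd1 : d ≠ 1) (hd : IsPGroup 3 ↥(Subgroup.zpowers d)) (W : Subgroup G) (hW : Cfsg.IsElementaryAbelian 2 W) (hW1 : W ≠ ⊥) (hdW : d ∈ Subgroup.normalizer (W : Set G)) (hfpf : W ⊓ Subgroup.centralizer {d} = ⊥) : ∃ E : Subgroup G, Cfsg.IsElementaryAbelian 2 E ∧ Nat.card E = 8 := by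
  have : Fact (Nat.Prime 3) := ⟨Nat.prime_three⟩
  by_contra hno
  have hrank : ∀ V ≤ (⊤ : Subgroup G), IsElementaryAbelian 2 V → Nat.card V ≤ 4 := by
    intro V _ hV
    by_contra! h
    have hV2 := PGrp.IsElementaryAbelian.isPGroup hV
    obtain ⟨k, hk⟩ := hV2.exists_card_eq
    have h3 : 3 ≤ k := by
      by_contra! h'
      interval_cases k <;> omega
    obtain ⟨E, hE⟩ := Sylow.exists_subgroup_card_pow_prime (G := V) 2 (n := 3)
      (hk ▸ pow_dvd_pow 2 h3)
    exact hno ⟨E.map V.subtype, PGrp.isElementaryAbelian_of_le hV (Subgroup.map_subtype_le E),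
      (Core.card_map_subtype E).trans hE⟩
  set Q := pCore 2 G with hQdef
  have hQ : IsPGroup 2 Q := Core.isPGroup_pCore 2
  have hnQ : ∀ A : Subgroup G, A ≤ Subgroup.normalizer (Q : Set G) := fun A =>
    Subgroup.le_normalizer_of_normal
  have hW2 := PGrp.IsElementaryAbelian.isPGroup hW
  have hW4 := Coprime.card_eq_four_of_fpf hd hW2 (hrank W le_top hW) hW1 hdW hfpf
  have h3Q : ∀ x : G, IsPGroup 3 (Subgroup.zpowers x) →
      x ∈ Subgroup.centralizer (Q : Set G) → x = 1 := fun x hx hc =>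
    Subgroup.mem_bot.mp (IsPGroup.disjoint_of_ne 3 2 (by norm_num) _ _ hx hQ |>.le_bot
      ⟨Subgroup.mem_zpowers x, hchar hc⟩)
  have hQ1 : Q ≠ ⊥ := fun e => hd1 (h3Q d hd (by rw [e]; simp [Subgroup.mem_centralizer_iff]))
  -- the elementary abelian normal subgroup Z
  set Z := omegaOne 2 (Q ⊓ Subgroup.centralizer (Q : Set G)) with hZdef
  have hZc : IsMulCommutative ↥(Q ⊓ Subgroup.centralizer (Q : Set G)) :=
    PGrp.isMulCommutative_iff_mem.mpr fun a ha b hb => hb.2 a ha.1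
  have hZe : IsElementaryAbelian 2 Z := PGrp.isElementaryAbelian_omegaOne hZc
  have hZle : Z ≤ Q ⊓ Subgroup.centralizer (Q : Set G) := PGrp.omegaOne_le _
  have hZn : ∀ A : Subgroup G, A ≤ Subgroup.normalizer (Z : Set G) := fun A =>
    (Core.le_normalizer_inf (hnQ A) (Core.le_normalizer_centralizer (hnQ A))).trans
      (PGrp.normalizer_le_normalizer_omegaOne _)
  have hZ1 : Z ≠ ⊥ := PGrp.omegaOne_ne_bot (hQ.to_le inf_le_left)
    (PGrp.inf_centralizer_ne_bot hQ hQ (hnQ Q) hQ1)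
  have hZ2 := PGrp.IsElementaryAbelian.isPGroup hZe
  have hWZ : W = Z := by
    have h1 := PGrp.inf_centralizer_ne_bot hW2 hZ2 (hZn W) hZ1
    have h2 : Z ⊓ Subgroup.centralizer (W : Set G) ≤ W ⊓ Z := fun x hx =>
      ⟨Coprime.mem_of_sq_eq_one_of_rank hrank hW le_top hW4 trivial (hZe.2 x hx.1) hx.2, hx.1⟩
    have h3 := Coprime.card_eq_four_of_fpf hd (hW2.to_le (inf_le_left : W ⊓ Z ≤ W))
      (hW4 ▸ Subgroup.card_le_of_le inf_le_left) (fun e => h1 (le_bot_iff.mp (e ▸ h2)))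
      (Core.le_normalizer_inf (Subgroup.zpowers_le.mpr hdW) (hZn _) (Subgroup.mem_zpowers d))
      (le_bot_iff.mp (hfpf ▸ inf_le_inf_right _ inf_le_left))
    have h4 : W ⊓ Z = W := Core.eq_of_le_of_card_eq inf_le_left (h3.trans hW4.symm)
    exact Subgroup.eq_of_le_of_card_ge (inf_eq_left.mp h4) (hW4 ▸ hrank Z le_top hZe)
  have hWn : ∀ A : Subgroup G, A ≤ Subgroup.normalizer (W : Set G) := hWZ ▸ hZn
  have hWQ : Q ≤ Subgroup.centralizer (W : Set G) :=
    Subgroup.le_centralizer_iff.mp (hWZ ▸ hZle.trans inf_le_right)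
  have hfix : ∀ a : G, W ⊓ Subgroup.centralizer {a} = ⊥ → Q ⊓ Subgroup.centralizer {a} = ⊥ := by
    intro a ha
    by_contra h
    obtain ⟨x, hx, hxo⟩ := PGrp.exists_orderOf_eq_prime_of_ne_bot (hQ.to_le inf_le_left) h
    have h1 : x ∈ W := Coprime.mem_of_sq_eq_one_of_rank hrank hW le_top hW4 trivial
      (hxo ▸ pow_orderOf_eq_one x) (hWQ hx.1)
    rw [show x = 1 from Subgroup.mem_bot.mp (ha ▸ Subgroup.mem_inf.mpr ⟨h1, hx.2⟩),
      orderOf_one] at hxo
    omega
  have hdich : ∀ a : G, IsPGroup 3 (Subgroup.zpowers a) →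
      a ∉ Subgroup.centralizer (W : Set G) → W ⊓ Subgroup.centralizer {a} = ⊥ := by
    intro a ha hc
    have h1 := Coprime.card_modEq_card_inf_centralizer ha (hWn _)
    rw [PGrp.centralizer_zpowers, hW4] at h1
    have h2 : W ⊓ Subgroup.centralizer {a} < W := lt_of_le_of_ne inf_le_left fun e => hc
      fun w hw => (Subgroup.mem_centralizer_singleton_iff.mp (inf_eq_left.mp e hw))
    have h3 := Core.card_lt_card_of_lt h2
    unfold Nat.ModEq at h1
    exact Subgroup.card_eq_one.mp (by omega)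
  obtain ⟨n, hn⟩ := hd.exists_card_eq
  rw [Nat.card_zpowers] at hn
  have hn1 : 1 ≤ n := by
    by_contra! h
    rw [show n = 0 by omega, pow_zero, orderOf_eq_one_iff] at hn
    exact hd1 hn
  have hd3 : orderOf d = 3 := Coprime.orderOf_eq_three_of_fpf hn1 hn hQ (hnQ ⊤ trivial)
    (eq_bot_iff.mpr fun x hx => h3Q x (hd.to_le (Subgroup.zpowers_le.mpr hx.1)) hx.2)
    (hfix d hfpf) fun V _ hV => hrank V le_top hV
  have hdC : d ∉ Subgroup.centralizer (W : Set G) := fun h => hW1 (by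
    rw [← hfpf, left_eq_inf]
    exact fun w hw => Subgroup.mem_centralizer_singleton_iff.mpr (h w hw))
  obtain ⟨g, hg⟩ := hsix
  have he : orderOf (g ^ 2) = 3 := by rw [orderOf_pow' g two_ne_zero, hg]; rfl
  have ht : orderOf (g ^ 3) = 2 := by rw [orderOf_pow' g three_ne_zero, hg]; rfl
  have he3 : IsPGroup 3 (Subgroup.zpowers (g ^ 2)) :=
    IsPGroup.of_card (n := 1) (by rw [Nat.card_zpowers, he, pow_one])
  have hcomm : g ^ 3 ∈ Subgroup.centralizer {g ^ 2} :=
    Subgroup.mem_centralizer_singleton_iff.mpr (Commute.pow_pow_self g 3 2)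
  have heC : g ^ 2 ∈ Subgroup.centralizer (W : Set G) := by
    by_contra hc
    have h1 := hdich _ he3 hc
    have ht2 : IsPGroup 2 (Subgroup.zpowers (g ^ 3)) :=
      IsPGroup.of_card (n := 1) (by rw [Nat.card_zpowers, ht, pow_one])
    have h2 := PGrp.inf_centralizer_ne_bot ht2 hW2 (hWn _) hW1
    have h3 := Coprime.card_eq_four_of_fpf he3 (hW2.to_le inf_le_left)
      (hW4 ▸ Subgroup.card_le_of_le inf_le_left) h2
      (Core.le_normalizer_inf (hWn _) (Core.le_normalizer_centralizer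
        (Subgroup.zpowers_le.mpr (PGrp.mem_normalizer_zpowers_of_commute
          (Commute.pow_pow_self g 3 2)))) (Subgroup.mem_zpowers _))
      (le_bot_iff.mp (h1 ▸ inf_le_inf_right _ inf_le_left))
    have h4 := Core.eq_of_le_of_card_eq inf_le_left (h3.trans hW4.symm)
    have h5 : g ^ 3 ∈ W := Coprime.mem_of_sq_eq_one_of_rank hrank hW le_top hW4 trivial
      (ht ▸ pow_orderOf_eq_one _)
      (Subgroup.le_centralizer_iff.mp (inf_eq_left.mp h4) (Subgroup.mem_zpowers _))
    rw [show g ^ 3 = 1 from Subgroup.mem_bot.mp (h1 ▸ Subgroup.mem_inf.mpr ⟨h5, hcomm⟩),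
      orderOf_one] at ht
    omega
  have hWN : W.Normal := Core.normal_iff_top_le_normalizer.mpr (hWn ⊤)
  set C := Subgroup.centralizer (W : Set G) with hCdef
  have hCN : C.Normal := inferInstance
  obtain ⟨S, hS⟩ := hd.exists_le_sylow
  obtain ⟨S', hS'⟩ := he3.exists_le_sylow
  obtain ⟨x, rfl⟩ := MulAction.exists_smul_eq G S' S
  set S := x • S' with hSdef
  have hSC : C.subgroupOf (S : Subgroup G) ≠ ⊥ := by
    intro h
    have h1 : x * g ^ 2 * x⁻¹ ∈ (S : Subgroup G) :=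
      Subgroup.smul_mem_pointwise_smul _ (MulAut.conj x) _ (hS' (Subgroup.mem_zpowers _))
    have h2 : (⟨_, h1⟩ : (S : Subgroup G)) ∈ C.subgroupOf S := hCN.conj_mem _ heC x
    rw [h, Subgroup.mem_bot, Subtype.ext_iff] at h2
    have h3 : g ^ 2 = 1 := by simpa [mul_inv_eq_iff_eq_mul] using h2
    rw [h3, orderOf_one] at he
    omega
  obtain ⟨⟨e, heS⟩, heC', heZ, heo⟩ := PGrp.exists_mem_center_orderOf_eq S.isPGroup' hSC
  rw [← Subgroup.orderOf_coe] at heo
  change orderOf e = 3 at heo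
  change e ∈ C at heC'
  have hde : Commute e d := (congrArg Subtype.val
    (Subgroup.mem_center_iff.mp heZ ⟨d, hS (Subgroup.mem_zpowers d)⟩)).symm
  have hdz : d ∉ Subgroup.zpowers e := fun h => hdC (Subgroup.zpowers_le.mpr heC' h)
  obtain ⟨hA, hA9⟩ := PGrp.elemAb_sq_of_commute heo (hd3 ▸ pow_orderOf_eq_one d) hdz hde
  have hA3 := PGrp.IsElementaryAbelian.isPGroup hA
  have h1 : Q ≤ Subgroup.centralizer {e} := by
    refine Coprime.le_of_forall_centralizer_le hA.1
      (PGrp.not_isCyclic_of_elemAb hA.2 (by omega)) (hnQ _)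
      (Coprime.coprime_card_of_isPGroup (by rw [hA9]; norm_num) hQ) fun a ha ha1 => ?_
    by_cases haC : a ∈ C
    · have h2 : (Subgroup.zpowers e ⊔ Subgroup.zpowers d) ⊓ C < Subgroup.zpowers e ⊔
          Subgroup.zpowers d := lt_of_le_of_ne inf_le_left fun h =>
        hdC (inf_eq_left.mp h (Subgroup.mem_sup_right (Subgroup.mem_zpowers d)))
      have h3 := Nat.le_of_dvd Nat.card_pos (PGrp.mul_card_dvd_of_lt hA3 h2)
      have h4 : Subgroup.zpowers a = (Subgroup.zpowers e ⊔ Subgroup.zpowers d) ⊓ C :=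
        Subgroup.eq_of_le_of_card_ge (Subgroup.zpowers_le.mpr ⟨ha, haC⟩)
          (by rw [Nat.card_zpowers, orderOf_eq_prime (hA.2 a ha) ha1]; omega)
      rw [← PGrp.centralizer_zpowers, ← PGrp.centralizer_zpowers, h4]
      exact inf_le_right.trans (Subgroup.centralizer_le (SetLike.coe_subset_coe.mpr
        (le_inf le_sup_left (Subgroup.zpowers_le.mpr heC'))))
    · rw [hfix a (hdich a (hA3.to_le (Subgroup.zpowers_le.mpr ha)) haC)]
      exact bot_le
  have h2 := h3Q e (hA3.to_le le_sup_left) fun q hq =>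
    Subgroup.mem_centralizer_singleton_iff.mp (h1 hq)
  rw [h2, orderOf_one] at heo
  omega

end Cfsg.Agent.S3739
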