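import Cfsg.Statements.S3741
import Cfsg.Agent.Lib.PGrp.Extraspecial

set_option autoImplicit false
open Cfsg

namespace Cfsg.Agent.S3741

/-- Let A and B be subgroups of a finite p-group with [A, B] ≤ A ∩ B and [A, B] of order at most p. Then |A : C_A(B)| = |B : C_B(A)|. -/
theorem result {G : Type*} [Group G] [Finite G] {p : ℕ} [Fact p.Prime] (hG : IsPGroup p G) (A B : Subgroup G) (hAB : ⁅A, B⁆ ≤ A ⊓ B) (hcard : Nat.card ↥⁅A, B⁆ ≤ p) : (A ⊓ Subgroup.centralizer (B : Set G)).relIndex A = (B ⊓ Subgroup.centralizer (A : Set G)).relIndex B := by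
  rw [Subgroup.inf_relIndex_left, Subgroup.inf_relIndex_left]
  have := PGrp.isCyclic_of_card_le_prime (hG.to_subgroup _) hcard
  have key : ∀ P : Subgroup G, P ≤ Subgroup.normalizer ((⁅A, B⁆ : Subgroup G) : Set G) →
      ⁅A, B⁆ ≤ Subgroup.centralizer (P : Set G) := fun P hP => by
    by_cases hb : ⁅A, B⁆ = ⊥
    · rw [hb]; exact bot_le
    have h1 := PGrp.inf_centralizer_ne_bot (hG.to_subgroup P) (hG.to_subgroup _) hP hb
    have h2 := Nat.le_of_dvd Nat.card_pos (PGrp.mul_card_dvd_of_lt (hG.to_subgroup _)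
      (bot_lt_iff_ne_bot.mpr hb))
    rw [Subgroup.card_bot, one_mul] at h2
    exact inf_eq_left.mp (PGrp.eq_of_le_of_card_prime inf_le_left (le_antisymm hcard h2) h1)
  exact PGrp.relIndex_centralizer_symm le_rfl (key A (Subgroup.normalizer_commutator_ge_left A B))
    (key B (Subgroup.normalizer_commutator_ge_right A B))

end Cfsg.Agent.S3741
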