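import Cfsg.Statements.S3742


set_option autoImplicit false
open Cfsg

namespace Cfsg.Agent.S3742

open QuaternionGroup Equiv

/-- The elements of order four of the quaternion group as four-cycles. -/
def cyc : QuaternionGroup 2 → Perm (Fin 4)
  | .a i => if i = 1 then swap 0 1 * swap 1 2 * swap 2 3 else
      if i = 3 then swap 2 3 * swap 1 2 * swap 0 1 else 1
  | .xa i => if i = 0 then swap 0 1 * swap 1 3 * swap 3 2 else
      if i = 2 then swap 3 2 * swap 1 3 * swap 0 1 else
      if i = 1 then swap 0 2 * swap 2 1 * swap 1 3 else swap 1 3 * swap 2 1 * swap 0 2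

/-- The action of the symmetric group by conjugation of four-cycles. -/
def act (σ : Perm (Fin 4)) (q : QuaternionGroup 2) : QuaternionGroup 2 :=
  (([a 1, a 3, xa 0, xa 1, xa 2, xa 3] : List (QuaternionGroup 2)).find?
    fun x => cyc x = σ * cyc q * σ⁻¹).getD q

theorem act_one : ∀ q, act 1 q = q := by decide +kernel

theorem act_mul : ∀ σ τ q, act (σ * τ) q = act σ (act τ q) := by decide +kernel

theorem act_map_mul : ∀ σ x y, act σ (x * y) = act σ x * act σ y := by decide +kernel

theorem act_inj : ∀ σ, (∀ q, act σ q = q) → σ = 1 := by decide +kernel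

theorem act_surj : ∀ x y : QuaternionGroup 2, x * y ≠ y * x →
    ∃ σ, act σ (a 1) = x ∧ act σ (xa 0) = y := by decide +kernel

theorem gen : ∀ q : QuaternionGroup 2, ∃ m : Fin 4, ∃ n : Fin 2,
    q = a 1 ^ (m : ℕ) * xa 0 ^ (n : ℕ) := by decide +kernel

/-- The homomorphism to the automorphism group. -/
def hom : Perm (Fin 4) →* MulAut (QuaternionGroup 2) where
  toFun σ :=
    { toFun := act σ
      invFun := act σ⁻¹
      left_inv := fun q => by rw [← act_mul, inv_mul_cancel, act_one]
      right_inv := fun q => by rw [← act_mul, mul_inv_cancel, act_one]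
      map_mul' := act_map_mul σ }
  map_one' := MulEquiv.ext act_one
  map_mul' σ τ := MulEquiv.ext (act_mul σ τ)

/-- The automorphism group of the quaternion group of order 8 is isomorphic to the symmetric group of degree 4. -/
theorem result : Nonempty (MulAut (QuaternionGroup 2) ≃* Equiv.Perm (Fin 4)) := by
  refine ⟨(MulEquiv.ofBijective hom ⟨(injective_iff_map_eq_one _).mpr fun σ h =>
    act_inj σ fun q => congrArg (fun f : MulAut (QuaternionGroup 2) => f q) h, fun α => ?_⟩).symm⟩
  obtain ⟨σ, h1, h2⟩ := act_surj (α (a 1)) (α (xa 0)) fun h => by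
    rw [← map_mul, ← map_mul, α.apply_eq_iff_eq] at h
    exact absurd h (by decide)
  refine ⟨σ, MulEquiv.ext fun q => ?_⟩
  obtain ⟨m, n, rfl⟩ := gen q
  rw [map_mul, map_mul, map_pow, map_pow, map_pow, map_pow, ← h1, ← h2]
  rfl

end Cfsg.Agent.S3742
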