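import Cfsg.Statements.S3747
import Mathlib
import Cfsg.Agent.Lib.Core.Primitive

set_option autoImplicit false
open Cfsg

namespace Cfsg.Agent.S3747

/-- Let G be a finite group. (a) If K is a component of G with trivial centre, then the normal closure of K in G is a minimal normal subgroup of G. (b) If the Fitting subgroup of G is trivial, then the layer E(G) is generated by the minimal normal subgroups of G. -/
theorem result {G : Type*} [Group G] [Finite G] : (∀ K : Subgroup G, Cfsg.IsComponent K → Subgroup.center ↥K = ⊥ → (Subgroup.normalClosure (K : Set G) ≠ ⊥ ∧ ∀ N : Subgroup G, N.Normal → N ≤ Subgroup.normalClosure (K : Set G) → N = ⊥ ∨ N = Subgroup.normalClosure (K : Set G))) ∧ (Cfsg.fittingSubgroup G = ⊥ → sSup {N : Subgroup G | N ≠ ⊥ ∧ N.Normal ∧ ∀ N' : Subgroup G, N'.Normal → N' ≤ N → N' = ⊥ ∨ N' = N} = Cfsg.layer G) := by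
  refine ⟨fun K hK hZ => ?_, fun hF => ?_⟩
  · have h := Core.isMinNormal_normalClosure_of_component hK hZ
    exact ⟨h.ne_bot, h.eq_bot_or_eq⟩
  · rw [← Core.socle_eq_layer_of_fitting_eq_bot hF, Core.socle]
    congr 1
    ext N
    exact ⟨fun h => ⟨h.2.1, h.1, h.2.2⟩, fun h => ⟨h.ne_bot, h.normal, h.eq_bot_or_eq⟩⟩

end Cfsg.Agent.S3747
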