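import Cfsg.Statements.S3749
import Mathlib
import Cfsg.Agent.Lib.Core.Primitive
import Cfsg.Agent.Lib.Coprime.Sylow

set_option autoImplicit false
open Cfsg

namespace Cfsg.Agent.S3749

open Subgroup Cfsg.Agent.Core Cfsg.Agent.Coprime

/-- Call a proper subgroup M of G primitive when M = N_G(N) for every non-trivial normal subgroup N of M. Let M be a primitive subgroup of the finite group G, p a prime with O_p(M) ≠ 1, and N a normal subgroup of G with M ∩ N = 1. Then p does not divide the order of N; for every prime q there is exactly one Sylow q-subgroup of N normalized by M; and if the order of N has at least two prime divisors then M is not a maximal subgroup of G. -/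
theorem result {G : Type*} [Group G] [Finite G] (M : Subgroup G) (hM : M ≠ ⊤) (hprim : ∀ N : Subgroup G, N ≤ M → M ≤ Subgroup.normalizer (N : Set G) → N ≠ ⊥ → Subgroup.normalizer (N : Set G) = M) {p : ℕ} [Fact p.Prime] (hOp : Cfsg.pCore p ↥M ≠ ⊥) (N : Subgroup G) [N.Normal] (hMN : M ⊓ N = ⊥) : ¬ p ∣ Nat.card N ∧ (∀ q : ℕ, [Fact q.Prime] → ∃! Q : Sylow q ↥N, M ≤ Subgroup.normalizer ((Q : Subgroup ↥N).map N.subtype : Set G)) ∧ ((∃ q r : ℕ, q.Prime ∧ r.Prime ∧ q ≠ r ∧ q ∣ Nat.card N ∧ r ∣ Nat.card N) → ¬ IsCoatom M) := by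
  set A := pCoreOf p M with hA
  have hAne : A ≠ ⊥ := fun h => hOp (by
    rw [hA, pCoreOf, map_eq_bot_iff_of_injective _ M.subtype_injective] at h
    exact h)
  have hAp : IsPGroup p A := isPGroup_pCoreOf M
  have hNA : normalizer (A : Set G) = M := hprim A (pCoreOf_le M) (le_normalizer_pCoreOf M) hAne
  have hC : N ⊓ centralizer (A : Set G) = ⊥ := by
    rw [eq_bot_iff, ← hMN, inf_comm M N, ← hNA]
    exact inf_le_inf_left _ (centralizer_le_normalizer _)
  have hNtop : normalizer (N : Set G) = ⊤ := normalizer_eq_top N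
  have h1 : ¬ p ∣ Nat.card N := by
    intro hp
    obtain ⟨S, hS, hAS⟩ := exists_isSylowIn_ge (le_top (a := A)) hAp
    have hSN := hS.inf_of_le_normalizer (le_top (a := N)) hNtop.ge
    have hne : S ⊓ N ≠ ⊥ := by
      intro h
      have := hSN.2.2
      rw [h, relIndex_bot_left] at this
      exact this hp
    have := inf_centralizer_ne_bot_of_isNilpotent (N := S ⊓ N) (K := S) hS.2.1.isNilpotent
      inf_le_left (le_normalizer_inf le_normalizer (le_top.trans hNtop.ge)) hne
    apply this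
    rw [eq_bot_iff, ← hC]
    exact inf_le_inf inf_le_right (centralizer_le hAS)
  have hcop : (Nat.card A).Coprime (Nat.card N) := by
    obtain ⟨k, hk⟩ := IsPGroup.iff_card.1 hAp
    rw [hk]
    exact ((Nat.Prime.coprime_iff_not_dvd Fact.out).2 h1).pow_left k
  have hAN : A ≤ normalizer (N : Set G) := le_top.trans hNtop.ge
  have hsol : Group.IsSolvable A ∨ Group.IsSolvable N := Or.inl (isSolvable_of_isPGroup hAp)
  have huniq : ∀ (q : ℕ) [Fact q.Prime] (Q R : Subgroup G), IsSylowIn q Q N → IsSylowIn q R N →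
      A ≤ normalizer (Q : Set G) → A ≤ normalizer (R : Set G) → R = Q := by
    intro q _ Q R hQ hR hAQ hAR
    obtain ⟨c, hc, rfl⟩ := invariant_sylow_conj hAN hcop hsol hQ hR hAQ hAR
    rw [hC, mem_bot] at hc
    rw [hc, Core.map_conj_one]
  have hex : ∀ (q : ℕ) [Fact q.Prime], ∃ Q : Subgroup G, IsSylowIn q Q N ∧
      M ≤ normalizer (Q : Set G) := by
    intro q _
    obtain ⟨Q, hQ, hAQ⟩ := exists_invariant_sylow q hAN hcop hsol
    refine ⟨Q, hQ, fun m hm => map_conj_eq_iff.1 (huniq q Q _ hQ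
      (hQ.map_conj_of_mem_normalizer (hNtop.ge (mem_top m))) hAQ ?_)⟩
    rw [normalizer_map_conj]
    have : A.map (MulAut.conj m).toMonoidHom = A := map_conj_eq_iff.2 (hNA.ge hm)
    rw [← this]
    exact map_mono hAQ
  refine ⟨h1, fun q _ => ?_, ?_⟩
  · obtain ⟨Q, hQ, hMQ⟩ := hex q
    obtain ⟨S, -, hS⟩ := hQ.exists_sylow
    refine ⟨S, ?_, fun T hT => ?_⟩
    · show M ≤ normalizer (((S : Subgroup N).map N.subtype : Subgroup G) : Set G)
      rw [hS]; exact hMQ
    · have hT' : M ≤ normalizer (((T : Subgroup N).map N.subtype : Subgroup G) : Set G) := hT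
      have := huniq q Q _ hQ (isSylowIn_map_subtype T) ((pCoreOf_le M).trans hMQ)
        ((pCoreOf_le M).trans hT')
      rw [← hS] at this
      exact Sylow.ext (map_injective N.subtype_injective this)
  · rintro ⟨q, r, hq, hr, hqr, hqN, hrN⟩ hmax
    have := Fact.mk hq
    obtain ⟨Q, hQ, hMQ⟩ := hex q
    have hQne : Q ≠ ⊥ := by
      intro h
      have := hQ.2.2
      rw [h, relIndex_bot_left] at this
      exact this hqN
    have htop : M ⊔ Q = ⊤ := by
      refine hmax.2 _ (lt_of_le_of_ne le_sup_left fun h => hQne ?_)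
      rw [eq_bot_iff, ← hMN]
      exact le_inf (le_sup_right.trans h.ge) hQ.1
    have h2 := sup_inf_eq_inf_sup_of_le_normalizer hMQ hQ.1
    rw [htop, top_inf_eq, hMN, bot_sup_eq] at h2
    obtain ⟨k, hk⟩ := IsPGroup.iff_card.1 hQ.2.1
    rw [h2, hk] at hrN
    exact hqr ((Nat.prime_dvd_prime_iff_eq hr hq).1 (hr.dvd_of_dvd_pow hrN)).symm

end Cfsg.Agent.S3749
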