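import Cfsg.Statements.S3750
import Mathlib
import Cfsg.Agent.Lib.Core.Primitive

set_option autoImplicit false
open Cfsg

namespace Cfsg.Agent.S3750


open Cfsg.Agent.Core Subgroup

/-- Call a proper subgroup M of G primitive when M = N_G(N) for every non-trivial normal subgroup N of M. Let M be a primitive subgroup of the finite group G and N a normal subgroup of G with M ∩ F*(N) ≠ 1. Then F(G) = 1 and F*(N) = F*(G) = E(G); in particular every minimal normal subgroup of G is contained in N. -/
theorem result {G : Type*} [Group G] [Finite G] (M : Subgroup G) (hM : M ≠ ⊤) (hprim : ∀ N : Subgroup G, N ≤ M → M ≤ Subgroup.normalizer (N : Set G) → N ≠ ⊥ → Subgroup.normalizer (N : Set G) = M) (N : Subgroup G) [N.Normal] (hMF : M ⊓ (Cfsg.generalizedFittingSubgroup ↥N).map N.subtype ≠ ⊥) : Cfsg.fittingSubgroup G = ⊥ ∧ (Cfsg.generalizedFittingSubgroup ↥N).map N.subtype = Cfsg.generalizedFittingSubgroup G ∧ Cfsg.generalizedFittingSubgroup G = Cfsg.layer G ∧ ∀ K : Subgroup G, K.Normal → K ≠ ⊥ → (∀ K' : Subgroup G, K'.Normal → K' ≤ K → K' = ⊥ ∨ K' = K)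 → K ≤ N := by
  set F := (Cfsg.generalizedFittingSubgroup ↥N).map N.subtype with hF
  have hFn : F.Normal := inferInstance
  have h1 := hprim (M ⊓ F) inf_le_left (le_normalizer_inf le_normalizer le_normalizer_of_normal) hMF
  have h2 : centralizer (F : Set G) = ⊥ :=
    eq_bot_of_isSubnormal_of_primitive hM hprim (Subgroup.Normal.isSubnormal inferInstance)
      (((Subgroup.centralizer_le (s := ((M ⊓ F : Subgroup G) : Set G)) fun _ h => h.2).trans
        (Subgroup.centralizer_le_normalizer _)).trans h1.le)
  have hFN : F ≤ N := Subgroup.map_subtype_le _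
  have h3 : centralizer (N : Set G) = ⊥ := le_bot_iff.1 (h2 ▸ Subgroup.centralizer_le hFN)
  have h4 : fittingSubgroup N = ⊥ := by
    by_contra hb
    refine inf_centralizer_ne_bot_of_isNilpotent isNilpotent_fitting le_rfl le_normalizer hb ?_
    rw [← Subgroup.map_eq_bot_iff_of_injective _ N.subtype_injective, ← le_bot_iff, ← h2]
    exact (Subgroup.map_mono fitting_inf_centralizer_le_centralizer_generalizedFitting).trans
      (Subgroup.map_centralizer_le_centralizer_image _ _)
  have h5 : fittingSubgroup G = ⊥ := by
    have h6 := map_fitting_subtype_eq N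
    rw [h4, Subgroup.map_bot] at h6
    exact le_bot_iff.1 (h3 ▸ le_centralizer_of_inf_eq_bot h6.symm)
  have h6 : layer G ≤ N := layer_le fun K hK =>
    (component_le_or_le_centralizer hK (Subgroup.Normal.isSubnormal inferInstance)).resolve_right
      fun h => component_ne_bot hK (le_bot_iff.1 (h3 ▸ h))
  have h7 : generalizedFittingSubgroup G = layer G := by
    rw [generalizedFittingSubgroup, h5, sup_bot_eq]
  refine ⟨h5, le_antisymm (map_generalizedFitting_subtype_le
    (Subgroup.Normal.isSubnormal inferInstance)) ?_, h7, fun K hK hb hmin => ?_⟩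
  · rw [h7]
    exact (layer_le_map_layer_subtype h6).trans (Subgroup.map_mono layer_le_generalizedFitting)
  · exact (IsMinNormal.le_generalizedFitting ⟨hK, hb, hmin⟩).trans (h7.le.trans h6)

end Cfsg.Agent.S3750
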