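import Cfsg.Statements.S3752
import Mathlib
import Cfsg.Agent.Lib.Core.Local

set_option autoImplicit false
open Cfsg

namespace Cfsg.Agent.S3752

open Subgroup Cfsg.Agent.Core

theorem layer_le_aux {G : Type*} [Group G] [Finite G] {M₁ M₂ : Subgroup G}
    (h₁ : (generalizedFittingSubgroup ↥M₁).map M₁.subtype ≤ M₂)
    (h₂ : (generalizedFittingSubgroup ↥M₂).map M₂.subtype ≤ M₁) :
    (layer M₁).map M₁.subtype ≤ (layer M₂).map M₂.subtype := by
  refine map_le_iff_le_comap.2 (layer_le fun K hK => map_le_iff_le_comap.1 ?_)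
  set K' := K.map M₁.subtype with hK'
  set F := (generalizedFittingSubgroup ↥M₂).map M₂.subtype with hF
  have hq : IsQuasisimple K' := (isQuasisimple_map_iff_of_injective M₁.subtype_injective).2 hK.2
  have hs : SubnormalIn K' M₁ := subnormalIn_map_subtype_iff.2 hK.1
  have hK2 : K' ≤ M₂ :=
    (map_mono ((component_le_layer hK).trans layer_le_generalizedFitting)).trans h₁
  have hFs : SubnormalIn F M₂ := subnormalIn_map_subtype_iff.2 (Normal.isSubnormal inferInstance)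
  have hKF : K' ≤ F := by
    rcases SubnormalIn.le_or_le_centralizer_of_isQuasisimple
      (hs.of_le (le_inf hs.le hK2) inf_le_left) hq
      (hFs.of_le (le_inf h₂ hFs.le) inf_le_right) with h | h
    · exact h
    · exact (le_inf hK2 h).trans (centralizer_le_iff_map_subtype.1 centralizer_generalizedFitting_le)
  have hc : IsComponent (K'.subgroupOf M₂) :=
    (component_subgroupOf_iff hK2).2 ⟨(hs.of_le hKF h₂).trans hFs, hq⟩
  have := map_mono (f := M₂.subtype) (component_le_layer hc)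
  rwa [map_subgroupOf_eq_of_le hK2] at this

/-- Bender's Theorem on primitive pairs. Two distinct subgroups M₁, M₂ of G form a primitive pair when, for {i, j} = {1, 2}, every non-trivial normal subgroup A of M_i contained in M₁ ∩ M₂ satisfies N_{M_j}(A) = M₁ ∩ M₂; the pair has characteristic p when moreover C_{M_i}(O_p(M_i)) ≤ O_p(M_i) for both i and O_p(M₁)O_p(M₂) ≤ M₁ ∩ M₂. If (M₁, M₂) is a primitive pair of the finite group G with F*(M₁) ≤ M₂ and F*(M₂) ≤ M₁, then for some prime p the pair has characteristic p. -/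
theorem result {G : Type*} [Group G] [Finite G] (M₁ M₂ : Subgroup G) (hne : M₁ ≠ M₂) (hP : ∀ A : Subgroup G, A ≠ ⊥ → A ≤ M₁ ⊓ M₂ → (M₁ ≤ Subgroup.normalizer (A : Set G) → M₂ ⊓ Subgroup.normalizer (A : Set G) = M₁ ⊓ M₂) ∧ (M₂ ≤ Subgroup.normalizer (A : Set G) → M₁ ⊓ Subgroup.normalizer (A : Set G) = M₁ ⊓ M₂)) (h₁ : (Cfsg.generalizedFittingSubgroup ↥M₁).map M₁.subtype ≤ M₂) (h₂ : (Cfsg.generalizedFittingSubgroup ↥M₂).map M₂.subtype ≤ M₁) : ∃ p : ℕ, p.Prime ∧ Subgroup.centralizer (Cfsg.pCore p ↥M₁ : Set ↥M₁) ≤ Cfsg.pCore p ↥M₁ ∧ Subgroup.centralizer (Cfsg.pCore p ↥M₂ : Set ↥M₂) ≤ Cfsg.pCore p ↥M₂ ∧ (Cfsg.pCore p ↥M₁).map M₁.subtype ⊔ (Cfsg.pCore p ↥M₂).map M₂.subtype ≤ M₁ ⊓ M₂ := by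
  have hprim : ∀ A : Subgroup G, A ≤ M₁ → A ≤ M₂ → M₁ ≤ normalizer (A : Set G) →
      M₂ ≤ normalizer (A : Set G) → A = ⊥ := fun A a1 a2 n1 n2 => by
    by_contra hA
    have h := hP A hA (le_inf a1 a2)
    have e1 := h.1 n1
    have e2 := h.2 n2
    rw [inf_eq_left.2 n2] at e1
    rw [inf_eq_left.2 n1] at e2
    exact hne (e2.trans e1.symm)
  have hE : (layer M₁).map M₁.subtype = (layer M₂).map M₂.subtype :=
    le_antisymm (layer_le_aux h₁ h₂) (layer_le_aux h₂ h₁)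
  have hE₁ : (layer M₁).map M₁.subtype = ⊥ := hprim _ (map_subtype_le _)
    (hE ▸ map_subtype_le _) (le_normalizer_map_subtype _ _) (hE ▸ le_normalizer_map_subtype _ _)
  have hE₂ : (layer M₂).map M₂.subtype = ⊥ := hE ▸ hE₁
  rw [map_eq_bot_iff_of_injective _ (subtype_injective _)] at hE₁ hE₂
  have hG₁ : generalizedFittingSubgroup M₁ = fittingSubgroup M₁ := by
    rw [generalizedFittingSubgroup, hE₁, bot_sup_eq]
  have hG₂ : generalizedFittingSubgroup M₂ = fittingSubgroup M₂ := by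
    rw [generalizedFittingSubgroup, hE₂, bot_sup_eq]
  have hF₁ := centralizer_generalizedFitting_le (G := M₁)
  have hF₂ := centralizer_generalizedFitting_le (G := M₂)
  rw [hG₁] at h₁ hF₁
  rw [hG₂] at h₂ hF₂
  have hO₁ : ∀ p : ℕ, p.Prime → pCoreOf p M₁ ≤ M₂ := fun p hp =>
    haveI := Fact.mk hp
    (pCoreOf_le_fittingOf p M₁).trans h₁
  have hO₂ : ∀ p : ℕ, p.Prime → pCoreOf p M₂ ≤ M₁ := fun p hp =>
    haveI := Fact.mk hp
    (pCoreOf_le_fittingOf p M₂).trans h₂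
  rcases bender h₁ h₂ (centralizer_le_iff_map_subtype.1 hF₁) (centralizer_le_iff_map_subtype.1 hF₂)
    (fun p hp hb => (inf_le_inf_left _ (centralizer_le_normalizer _)).trans
      (((hP _ hb (le_inf (pCoreOf_le _) (hO₁ p hp))).1 (le_normalizer_pCoreOf _)).le.trans
        inf_le_left))
    (fun p hp hb => (inf_le_inf_left _ (centralizer_le_normalizer _)).trans
      (((hP _ hb (le_inf (hO₂ p hp) (pCoreOf_le _))).2 (le_normalizer_pCoreOf _)).le.trans
        inf_le_right)) with ⟨p, hp, c1, c2⟩ | ⟨q, hq, hb, he⟩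
  · exact ⟨p, hp, isCharIn_iff.1 c1, isCharIn_iff.1 c2,
      sup_le (le_inf (pCoreOf_le _) (hO₁ p hp)) (le_inf (hO₂ p hp) (pCoreOf_le _))⟩
  · exact absurd (hprim _ (pCoreOf_le _) (hO₁ q hq) (le_normalizer_pCoreOf _)
      (he ▸ le_normalizer_pCoreOf _)) hb

end Cfsg.Agent.S3752
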