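import Cfsg.Statements.S3753
import Mathlib
import Cfsg.Agent.Lib.Core.Stable2

set_option autoImplicit false
open Cfsg

namespace Cfsg.Agent.S3753

open Subgroup Cfsg.Agent.Core
open scoped commutatorElement Pointwise

theorem abelian_of_sylow {G : Type*} [Group G] [Finite G] {M : Subgroup G}
    (h : ∀ S : Sylow 2 M, IsMulCommutative (S : Subgroup M)) (P : Subgroup G) (hP : P ≤ M)
    (h2 : IsPGroup 2 P) : IsMulCommutative P := by
  obtain ⟨S, hS⟩ := exists_le_map_sylow h2 hP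
  exact PGrp.isMulCommutative_of_le (PGrp.isMulCommutative_map (h S) _) hS

/-- Two distinct subgroups M₁, M₂ of G form a primitive pair when, for {i, j} = {1, 2}, every non-trivial normal subgroup A of M_i contained in M₁ ∩ M₂ satisfies N_{M_j}(A) = M₁ ∩ M₂; the pair has characteristic p when moreover C_{M_i}(O_p(M_i)) ≤ O_p(M_i) for both i and O_p(M₁)O_p(M₂) ≤ M₁ ∩ M₂. If the finite group G has a primitive pair (M₁, M₂) of characteristic p for some prime p, then M₁ or M₂ has non-abelian Sylow 2-subgroups. In particular no group of odd order has a primitive pair of characteristic p. -/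
theorem result {G : Type*} [Group G] [Finite G] {p : ℕ} [Fact p.Prime] (M₁ M₂ : Subgroup G) (hne : M₁ ≠ M₂) (hP : ∀ A : Subgroup G, A ≠ ⊥ → A ≤ M₁ ⊓ M₂ → (M₁ ≤ Subgroup.normalizer (A : Set G) → M₂ ⊓ Subgroup.normalizer (A : Set G) = M₁ ⊓ M₂) ∧ (M₂ ≤ Subgroup.normalizer (A : Set G) → M₁ ⊓ Subgroup.normalizer (A : Set G) = M₁ ⊓ M₂)) (hc₁ : Subgroup.centralizer (Cfsg.pCore p ↥M₁ : Set ↥M₁) ≤ Cfsg.pCore p ↥M₁) (hc₂ : Subgroup.centralizer (Cfsg.pCore p ↥M₂ : Set ↥M₂) ≤ Cfsg.pCore p ↥M₂) (hO : (Cfsg.pCore p ↥M₁).map M₁.subtype ⊔ (Cfsg.pCore p ↥M₂).map M₂.subtype ≤ M₁ ⊓ M₂) : (∃ S : Sylow 2 ↥M₁, ¬ IsMulCommutative (S : Subgroup ↥M₁)) ∨ (∃ S : Sylow 2 ↥M₂, ¬ IsMulCommutative (S : Subgroup ↥M₂)) := by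
  by_contra hcon
  push Not at hcon
  have a₁ := abelian_of_sylow hcon.1
  have a₂ := abelian_of_sylow hcon.2
  have c₁ : IsCharIn p M₁ := isCharIn_iff.2 hc₁
  have c₂ : IsCharIn p M₂ := isCharIn_iff.2 hc₂
  have hQ₁ : pCoreOf p M₁ ≤ M₂ := le_sup_left.trans (hO.trans inf_le_right)
  have hQ₂ : pCoreOf p M₂ ≤ M₁ := le_sup_right.trans (hO.trans inf_le_left)
  have hprim : ∀ A : Subgroup G, A ≤ M₁ → A ≤ M₂ → M₁ ≤ normalizer (A : Set G) →
      M₂ ≤ normalizer (A : Set G) → A = ⊥ := fun A a1 a2 n1 n2 => by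
    by_contra hA
    have h := hP A hA (le_inf a1 a2)
    have e1 := h.1 n1
    have e2 := h.2 n2
    rw [inf_eq_left.2 n2] at e1
    rw [inf_eq_left.2 n1] at e2
    exact hne (e2.trans e1.symm)
  have hbot : ∀ M : Subgroup G, IsCharIn p M → pCoreOf p M = ⊥ → M = ⊥ := fun M h e => by
    rw [IsCharIn, e, inf_eq_left.2 (le_centralizer_iff.1 bot_le)] at h
    exact eq_bot_iff.2 h
  have hQb : pCoreOf p M₂ ≠ ⊥ := fun e => by
    have e2 := hbot _ c₂ e
    exact hne ((hbot _ c₁ (eq_bot_iff.2 (hQ₁.trans e2.le))).trans e2.symm)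
  by_cases hp2 : p = 2
  · subst hp2
    have k : ∀ M M' : Subgroup G, (∀ P ≤ M, IsPGroup 2 P → IsMulCommutative P) → IsCharIn 2 M →
        pCoreOf 2 M' ≤ M → pCoreOf 2 M' ≤ pCoreOf 2 M := fun M M' a c h =>
      (le_inf h (le_sup_left.trans ((le_centralizer_iff_isMulCommutative.2 (a _ (sup_le h
        (pCoreOf_le M)) (IsPGroup.to_sup_of_normal_right' (isPGroup_pCoreOf _) (isPGroup_pCoreOf _)
          (h.trans (le_normalizer_pCoreOf M))))).trans (centralizer_le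
            (le_sup_right : pCoreOf 2 M ≤ _))))).trans c
    have e := le_antisymm (k _ _ a₁ c₁ hQ₂) (k _ _ a₂ c₂ hQ₁)
    exact hQb (hprim _ hQ₂ (pCoreOf_le _) (e ▸ le_normalizer_pCoreOf _) (le_normalizer_pCoreOf _))
  obtain ⟨S, hS⟩ := Coprime.exists_isSylowIn p M₂
  have hSb : S ≠ ⊥ := fun e => hQb (eq_bot_iff.2 ((pCoreOf_le_of_isSylowIn hS).trans e.le))
  set Z := omegaOne p (S ⊓ centralizer (S : Set G)) with hZdef
  have hZ : Z ≤ S ⊓ centralizer (S : Set G) := PGrp.omegaOne_le _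
  have hZp : ∀ z ∈ Z, z ^ p = 1 := (PGrp.isElementaryAbelian_omegaOne
    (le_centralizer_iff_isMulCommutative.1 (inf_le_right.trans (centralizer_le inf_le_left)))).2
  have hZb : Z ≠ ⊥ := PGrp.omegaOne_ne_bot (hS.2.1.to_le inf_le_left)
    (PGrp.inf_centralizer_ne_bot hS.2.1 hS.2.1 le_normalizer hSb)
  have hV := isElementaryAbelian_invClosure c₂ hS hZ hZp
  have hV₂ := (invClosure_le_pCoreOf c₂ hS hZ).trans inf_le_left
  have hU := fun w => mem_centralizer_invClosure_of_quadratic (w := w) hp2 a₂ hS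
    (hZ.trans inf_le_right) hV
  set V := invClosure Z M₂ with hVdef
  have hVb : V ≠ ⊥ := fun e => hZb (eq_bot_iff.2 ((le_invClosure Z M₂).trans e.le))
  have hVn : M₂ ≤ normalizer (V : Set G) := le_normalizer_invClosure Z M₂
  have hV₁ : V ≤ pCoreOf p M₁ :=
    le_pCoreOf_of_isMulCommutative hp2 a₁ c₁ hV.1 (hV₂.trans hQ₂) (hQ₁.trans hVn)
  have hn : ∀ {W K : Subgroup G} (g : G), W.map (MulAut.conj g⁻¹).toMonoidHom ≤
      normalizer (K : Set G) →
      W ≤ normalizer ((K.map (MulAut.conj g).toMonoidHom : Subgroup G) : Set G) :=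
    fun g h => by rw [normalizer_map_conj]; exact (map_conj_le_iff.1 h).trans (by rw [inv_inv])
  have hcomm : ∀ g h : G, V.map (MulAut.conj (h⁻¹ * g)).toMonoidHom ≤ M₂ →
      V.map (MulAut.conj (h⁻¹ * g)⁻¹).toMonoidHom ≤ M₂ → V.map (MulAut.conj g).toMonoidHom ≤
        centralizer ((V.map (MulAut.conj h).toMonoidHom : Subgroup G) : Set G) :=
    fun g h h1 h2 => by
      rw [centralizer_map_conj, ← inv_inv h, ← map_conj_le_iff, map_conj_map_conj]
      exact fun w hw => hU w (h1 hw) fun v hv => quadratic_of_mem_normalizer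
        (PGrp.isMulCommutative_map hV.1 _) hw (hn _ (h2.trans hVn) hv)
  have hm : ∀ {W M : Subgroup G} {m : G}, W ≤ pCoreOf p M → m ∈ M →
      W.map (MulAut.conj m).toMonoidHom ≤ pCoreOf p M := fun h hm =>
    (map_mono h).trans (map_conj_eq_iff.2 (le_normalizer_pCoreOf _ hm)).le
  set W₁ := invClosure V M₁ with hW₁
  have hW₁e : IsElementaryAbelian p W₁ := by
    rw [hW₁, invClosure_eq_iSup]
    refine isElementaryAbelian_sSup (by
      rintro _ ⟨m, rfl⟩; exact PGrp.isElementaryAbelian_map hV _) ?_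
    rintro _ ⟨m, rfl⟩ _ ⟨k, rfl⟩
    have := mul_mem (inv_mem k.2) m.2
    exact hcomm _ _ ((hm hV₁ this).trans hQ₁) ((hm hV₁ (inv_mem this)).trans hQ₁)
  have hW₁n : M₁ ≤ normalizer (W₁ : Set G) := le_normalizer_invClosure _ _
  have hW₁₁ : W₁ ≤ pCoreOf p M₁ := invClosure_le hV₁ (le_normalizer_pCoreOf _)
  have hW₁₂ : W₁ ≤ pCoreOf p M₂ :=
    le_pCoreOf_of_isMulCommutative hp2 a₂ c₂ hW₁e.1 (hW₁₁.trans hQ₁) (hQ₂.trans hW₁n)
  have hC₁ : M₁ ⊓ centralizer (W₁ : Set G) ≤ M₂ := (inf_le_inf_left _ ((centralizer_le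
    (le_invClosure V M₁)).trans (centralizer_le_normalizer _))).trans
      (((hP V hVb (le_inf (hV₂.trans hQ₂) (hV₁.trans hQ₁))).2 hVn).le.trans inf_le_right)
  set W₂ := invClosure W₁ M₂ with hW₂
  have hW₂n : M₂ ≤ normalizer (W₂ : Set G) := le_normalizer_invClosure _ _
  have hW₂₂ : W₂ ≤ pCoreOf p M₂ := invClosure_le hW₁₂ (le_normalizer_pCoreOf _)
  have hW₂₁ : W₂ ≤ pCoreOf p M₁ := invClosure_le_of_forall fun m hm' w hw =>
    mem_pCoreOf_of_quadratic_of_centralizer_le hp2 a₁ hW₁e hW₁n hC₁ (hQ₂ (hm hW₁₂ hm' hw))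
      (hm hW₁₂ hm' hw) fun v hv => quadratic_of_mem_normalizer
        (PGrp.isMulCommutative_map hW₁e.1 _) hw
        (hn _ ((hm hW₁₂ (inv_mem hm')).trans (hQ₂.trans hW₁n)) hv)
  have hC₂ : M₂ ⊓ centralizer (W₂ : Set G) ≤ M₁ := (inf_le_inf_left _ ((centralizer_le
    (le_invClosure W₁ M₂)).trans (centralizer_le_normalizer _))).trans
      (((hP W₁ (fun e => hVb (eq_bot_iff.2 ((le_invClosure V M₁).trans e.le)))
        (le_inf (hW₁₂.trans hQ₂) (hW₁₁.trans hQ₁))).1 hW₁n).le.trans inf_le_left)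
  have hgen : ∀ K : Subgroup G, (∀ a ∈ M₂, ∀ b ∈ M₁,
      V.map (MulAut.conj (a * b)).toMonoidHom ≤ K) → W₂ ≤ K := fun K h =>
    invClosure_le_of_forall fun a ha => map_conj_le_iff.2 (invClosure_le_of_forall fun b hb =>
      map_conj_le_iff.1 (by rw [map_conj_map_conj]; exact h a ha b hb))
  have hle₂ : ∀ a ∈ M₂, ∀ b ∈ M₁, V.map (MulAut.conj (a * b)).toMonoidHom ≤ W₂ :=
    fun a ha b hb => by
      rw [← map_conj_map_conj]
      exact (map_mono (map_conj_le_invClosure V hb)).trans (map_conj_le_invClosure W₁ ha)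
  have hW₂c : W₂ ≤ centralizer (W₂ : Set G) := hgen _ fun a ha b hb => le_centralizer_iff.1
    (hgen _ fun a' ha' b' hb' => by
      have k : ∀ x ∈ M₁, ∀ y ∈ M₂, ∀ z ∈ M₁,
          V.map (MulAut.conj (x * (y * z))).toMonoidHom ≤ M₂ := fun x hx y hy z hz => by
        rw [← map_conj_map_conj]
        exact (hm ((hle₂ y hy z hz).trans hW₂₁) hx).trans hQ₁
      refine hcomm _ _ ?_ ?_
      · simpa [mul_assoc] using k _ (inv_mem hb) _ (mul_mem (inv_mem ha) ha') _ hb'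
      · simpa [mul_assoc] using k _ (inv_mem hb') _ (mul_mem (inv_mem ha') ha) _ hb)
  have hW₂e : IsElementaryAbelian p W₂ :=
    ⟨le_centralizer_iff_isMulCommutative.1 hW₂c, fun x hx => ((PGrp.mem_omegaOne_iff_of_comm
      (le_centralizer_iff_isMulCommutative.1 hW₂c)).1 (hgen (omegaOne p W₂) (fun a ha b hb =>
        PGrp.le_omegaOne_of_pow_eq_one (hle₂ a ha b hb) (PGrp.isElementaryAbelian_map hV _).2)
          hx)).2⟩
  set E : Set G := (M₁ : Set G) ∪ M₂ with hE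
  have hE1 : (1 : G) ∈ E := Or.inl (one_mem _)
  have hEi : E⁻¹ = E := by rw [hE, Set.union_inv, inv_coe_set, inv_coe_set]
  have hE2 : ∀ g ∈ E ^ 2, V.map (MulAut.conj g).toMonoidHom ≤ W₂ := by
    rw [pow_two]
    rintro _ ⟨a, ha, b, hb, rfl⟩
    have k : V.map (MulAut.conj b).toMonoidHom ≤ W₁ := by
      rcases hb with hb | hb
      · exact map_conj_le_invClosure V hb
      · exact (map_conj_eq_iff.2 (hVn hb)).le.trans (le_invClosure _ _)
    change V.map (MulAut.conj (a * b)).toMonoidHom ≤ W₂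
    rw [← map_conj_map_conj]
    rcases ha with ha | ha
    · exact (map_mono k).trans ((map_conj_eq_iff.2 (hW₁n ha)).le.trans (le_invClosure _ _))
    · exact (map_mono k).trans (map_conj_le_invClosure W₁ ha)
  have main : ∀ n, ∀ g ∈ E ^ (n + 2),
      V.map (MulAut.conj g).toMonoidHom ≤ pCoreOf p M₁ ⊓ pCoreOf p M₂ := by
    intro n
    induction n with
    | zero => exact fun g hg => (hE2 g hg).trans (le_inf hW₂₁ hW₂₂)
    | succ n ih =>
      have k : ∀ g ∈ E ^ (n + 1 + 2), V.map (MulAut.conj g).toMonoidHom ≤ pCoreOf p M₁ ∨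
          V.map (MulAut.conj g).toMonoidHom ≤ pCoreOf p M₂ := by
        rw [show n + 1 + 2 = (n + 2) + 1 by omega, pow_succ']
        rintro _ ⟨a, ha, b, hb, rfl⟩
        change V.map (MulAut.conj (a * b)).toMonoidHom ≤ _ ∨ V.map (MulAut.conj (a * b)).toMonoidHom ≤ _
        rw [← map_conj_map_conj]
        exact ha.imp (hm ((ih b hb).trans inf_le_left)) (hm ((ih b hb).trans inf_le_right))
      intro g hg
      have hq : ∀ w ∈ V.map (MulAut.conj g).toMonoidHom, ∀ v ∈ W₂, ⁅w, ⁅w, v⁆⁆ = 1 := by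
        rw [pow_add] at hg
        obtain ⟨a, ha, b, hb, rfl⟩ := hg
        intro w hw v hv
        refine quadratic_of_mem_normalizer (W := W₂.map (MulAut.conj a).toMonoidHom)
          (PGrp.isMulCommutative_map hW₂e.1 _) ?_ (hn a (le_trans ?_ hW₂n) hv)
        · refine map_mono (hE2 b hb) ?_
          rwa [map_conj_map_conj]
        · refine map_conj_le_iff.2 (hgen _ fun x hx y hy => map_conj_le_iff.1 ?_)
          rw [map_conj_map_conj]
          refine (k _ ?_).elim (fun h => h.trans hQ₁) fun h => h.trans (pCoreOf_le _)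
          rw [pow_add]
          refine Set.mul_mem_mul ?_ (by rw [pow_two]; exact Set.mul_mem_mul (Or.inr hx) (Or.inl hy))
          rw [← hEi, inv_pow]
          exact Set.inv_mem_inv.2 ha
      rcases k g hg with h | h
      · exact le_inf h fun w hw => mem_pCoreOf_of_quadratic_of_centralizer_le hp2 a₂ hW₂e hW₂n hC₂
          (hQ₁ (h hw)) (h hw) (hq w hw)
      · exact le_inf (fun w hw => mem_pCoreOf_of_quadratic_of_centralizer_le hp2 a₁ hW₁e hW₁n hC₁
          (hQ₂ (h hw)) (h hw) fun v hv => hq w hw v (le_invClosure _ _ hv)) h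
  set N : Subgroup G := ⨆ x : {x : ℕ × G // x.2 ∈ E ^ (x.1 + 2)},
    V.map (MulAut.conj x.1.2).toMonoidHom with hN
  have hNQ : N ≤ pCoreOf p M₁ ⊓ pCoreOf p M₂ := iSup_le fun x => main _ _ x.2
  have hNn : ∀ m ∈ E, m ∈ normalizer (N : Set G) := fun m hm' =>
    mem_normalizer_of_map_conj_le (by
      rw [Subgroup.map_iSup]
      refine iSup_le fun x => ?_
      rw [map_conj_map_conj]
      exact le_iSup_of_le ⟨(x.1.1 + 1, m * x.1.2), by
        rw [show x.1.1 + 1 + 2 = (x.1.1 + 2) + 1 by omega, pow_succ']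
        exact Set.mul_mem_mul hm' x.2⟩ le_rfl)
  refine hVb (eq_bot_iff.2 (le_trans ?_ (hprim N (hNQ.trans (inf_le_left.trans (pCoreOf_le _)))
    (hNQ.trans (inf_le_right.trans (pCoreOf_le _))) (fun m h => hNn m (Or.inl h))
      fun m h => hNn m (Or.inr h)).le))
  exact le_iSup_of_le ⟨(0, 1), Set.one_mem_pow hE1⟩ (map_conj_one V).ge

end Cfsg.Agent.S3753
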