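import Cfsg.Statements.S3754
import Mathlib
import Cfsg.Agent.Lib.Core.TwoConj
import Cfsg.Agent.Lib.PGrp.Frattini

set_option autoImplicit false
open Cfsg

namespace Cfsg.Agent.S3754

open Subgroup Cfsg.Agent.Core

/-- Let M be a finite p-soluble group and A a p-subgroup of M with Φ(A) ≤ O_p(M) but A ≰ O_p(M). Then there is x ∈ O_{p,p'}(M) such that L = ⟨A, xAx⁻¹⟩ satisfies: x ∈ O^p(L) and O^p(L) ≤ O_{p,p'}(M); [O^p(L), A] = O^p(L); A ∩ O_p(L) has index p in A; and [A ∩ O_p(L), L] ≤ O_p(M). Here O^p(L) is the subgroup generated by the p'-elements of L and O_{p,p'}(M) the preimage of O_{p'}(M/O_p(M)). -/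
theorem result {M : Type*} [Group M] [Finite M] {p : ℕ} [Fact p.Prime] (hM : Cfsg.IsPSolvable p M) (A : Subgroup M) (hA : IsPGroup p A) (hΦ : (frattini ↥A).map A.subtype ≤ Cfsg.pCore p M) (hnot : ¬ A ≤ Cfsg.pCore p M) : ∃ x ∈ (Cfsg.pPrimeCore p (M ⧸ Cfsg.pCore p M)).comap (QuotientGroup.mk' (Cfsg.pCore p M)), x ∈ (Cfsg.pResidual p ↥(A ⊔ A.map (MulAut.conj x).toMonoidHom)).map (A ⊔ A.map (MulAut.conj x).toMonoidHom).subtype ∧ (Cfsg.pResidual p ↥(A ⊔ A.map (MulAut.conj x).toMonoidHom)).map (A ⊔ A.map (MulAut.conj x).toMonoidHom).subtype ≤ (Cfsg.pPrimeCore p (M ⧸ Cfsg.pCore p M)).comap (QuotientGroup.mk' (Cfsg.pCore p M)) ∧ ⁅(Cfsg.pResidual p ↥(A ⊔ A.map (MulAut.conj x).toMonoidHom)).map (A ⊔ A.map (MulAut.conj x).toMonoidHom).subtype, A⁆ = (Cfsg.pResidual p ↥(A ⊔ A.map (MulAut.conj x).toMonoidHom)).map (A ⊔ A.map (MulAut.conj x).toMonoidHom).subtype ∧ (A ⊓ (Cfsg.pCore p ↥(A ⊔ A.map (MulAut.conj x).toMonoidHom)).map (A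 ⊔ A.map (MulAut.conj x).toMonoidHom).subtype).relIndex A = p ∧ ⁅A ⊓ (Cfsg.pCore p ↥(A ⊔ A.map (MulAut.conj x).toMonoidHom)).map (A ⊔ A.map (MulAut.conj x).toMonoidHom).subtype, A ⊔ A.map (MulAut.conj x).toMonoidHom⁆ ≤ Cfsg.pCore p M := by
  obtain ⟨h1, h2⟩ := (PGrp.map_frattini_subtype_le_iff hA).1 hΦ
  obtain ⟨x, hx, B, k1, k2, k3, k4, k5, k6, k7⟩ := exists_two_conj hM hA h1 h2 hnot
  have hxL := pResidualOf_le _ hx
  set L := A ⊔ A.map (MulAut.conj x).toMonoidHom with hL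
  have hBL : B ≤ L := k1.trans le_sup_left
  have hB : B ≤ pCoreOf p L := by
    refine le_trans (le_sup_left : B ≤ B ⊔ (pCore p M ⊓ L)) (le_pCoreOf (sup_le hBL inf_le_right)
      ?_ (IsPGroup.to_sup_of_normal_right' (hA.to_le k1) ((isPGroup_pCore p).to_le inf_le_left)
        (hBL.trans (le_normalizer_inf le_normalizer_of_normal le_normalizer))))
    intro g hg
    refine mem_normalizer_of_map_conj_le ?_
    rw [Subgroup.map_sup]
    refine sup_le ?_ (le_sup_of_le_right (map_conj_eq_iff.2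
      (le_normalizer_inf le_normalizer_of_normal le_normalizer hg)).le)
    refine (map_conj_le_commutator_sup B hg).trans (sup_le (le_sup_of_le_right (le_inf ?_ ?_))
      le_sup_left)
    · rw [Subgroup.commutator_comm]; exact k4
    · exact Coprime.commutator_le_of_le_normalizer (hBL.trans le_normalizer)
  have hnA : ¬ A ≤ pCoreOf p L := fun h => k7 ((isPGroup_pCoreOf L).to_le (sup_le h
    ((map_mono h).trans (map_conj_eq_iff.2 (le_normalizer_pCoreOf L hxL)).le)))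
  have hAB : A ⊓ pCoreOf p L = B := by
    have e := relIndex_mul_relIndex B (A ⊓ pCoreOf p L) A (le_inf k1 hB) inf_le_left
    rw [k2] at e
    rcases (Nat.dvd_prime (Fact.out : p.Prime)).1 (Dvd.intro _ e) with h | h
    · exact le_antisymm (relIndex_eq_one.1 h) (le_inf k1 hB)
    · rw [h] at e
      exact absurd ((relIndex_eq_one.1 (Nat.eq_of_mul_eq_mul_left (Fact.out : p.Prime).pos
        (e.trans (mul_one p).symm))).trans inf_le_right) hnA
  rw [← hAB] at k2 k4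
  exact ⟨x, k5 hx, hx, k5, k6, k2, k4⟩

end Cfsg.Agent.S3754
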