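import Cfsg.Statements.S3758
import Cfsg.Agent.Lib.ZN.Final

set_option autoImplicit false
open Cfsg

namespace Cfsg.Agent.S3758

/-- Let G be a finite group of even order in which every 2-local subgroup is solvable and C_G(Ω₁(Z(S))) ≤ N_G(S) for every Sylow 2-subgroup S, and suppose O_{2'}(G) = 1 = O₂(G). Fix a Sylow 2-subgroup S, put Z = Ω₁(Z(S)), H = O²(G) (generated by the elements of odd order) and R = S ∩ H. Then one of the following holds: H has a strongly embedded subgroup; R is dihedral (of order at least 4) or semidihedral; Z ∩ R has order 2 and is weakly closed in R with respect to H; or Z has order 4 and is exactly the subgroup generated by the involutions of R. -/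
theorem result {G : Type*} [Group G] [Finite G] (heven : Even (Nat.card G)) (hN : ∀ L : Subgroup G, Cfsg.IsTwoLocal L → Group.IsSolvable L) (hZ : ∀ S : Sylow 2 G, Subgroup.centralizer (Cfsg.omegaOne 2 ((S : Subgroup G) ⊓ Subgroup.centralizer ((S : Subgroup G) : Set G)) : Set G) ≤ Subgroup.normalizer ((S : Subgroup G) : Set G)) (hO' : Cfsg.pPrimeCore 2 G = ⊥) (hO : Cfsg.pCore 2 G = ⊥) (S : Sylow 2 G) : (∃ M : Subgroup ↥(Cfsg.pResidual 2 G), Cfsg.IsStronglyEmbedded M) ∨ ((∃ n : ℕ, 2 ≤ n ∧ Nonempty (↥((S : Subgroup G) ⊓ Cfsg.pResidual 2 G) ≃* DihedralGroup n)) ∨ Cfsg.IsQuasiDihedral ↥((S : Subgroup G) ⊓ Cfsg.pResidual 2 G)) ∨ (Nat.card ↥(Cfsg.omegaOne 2 ((S : Subgroup G) ⊓ Subgroup.centralizer ((S : Subgroup G) : Set G)) ⊓ Cfsg.pResidual 2 G) = 2 ∧ ∀ h ∈ Cfsg.pResidual 2 G, ∀ z ∈ Cfsg.omegaOne 2 ((S : Subgroup G) ⊓ Subgroup.centralizer ((S : Subgroup G) : Set G)) ⊓ Cfsg.pResidual 2 G, h * z * h⁻¹ ∈ (S : Subgroup G)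 → h * z * h⁻¹ ∈ Cfsg.omegaOne 2 ((S : Subgroup G) ⊓ Subgroup.centralizer ((S : Subgroup G) : Set G))) ∨ (Nat.card ↥(Cfsg.omegaOne 2 ((S : Subgroup G) ⊓ Subgroup.centralizer ((S : Subgroup G) : Set G))) = 4 ∧ Cfsg.omegaOne 2 ((S : Subgroup G) ⊓ Cfsg.pResidual 2 G) = Cfsg.omegaOne 2 ((S : Subgroup G) ⊓ Subgroup.centralizer ((S : Subgroup G) : Set G))) := by
  have hS := Coprime.isSylowIn_top S
  have hN' : ∀ X : Subgroup G, IsPGroup 2 X → X ≠ ⊥ → OO.Sol (Subgroup.normalizer (X : Set G)) :=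
    fun X h1 h2 => hN _ ⟨X, h1, h2, rfl⟩
  rcases ZN.zc_main (fun t ht => OO.sol_of_le (hN' _ (ZN.isPGroup_zpowers_inv ht)
    (by simpa using ZN.ne_one_of_inv ht)) (OO.cent_zpowers t ▸ OO.cent_le_norm _)) heven hO' hO hS
    (hZ S) with h | h | h | h
  exacts [Or.inl h, Or.inr (Or.inr (Or.inl h)), Or.inr (Or.inr (Or.inr h)),
    (ZN.zn_main hN' heven (fun T hT => by obtain ⟨P, rfl⟩ := hT.exists_sylow_top; exact hZ P) hO' hO
      hS h).imp_right fun h => Or.inl (h.iso (hS.isPGroup.to_le inf_le_left))]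

end Cfsg.Agent.S3758
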