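import Cfsg.Statements.S3760
import Mathlib

set_option autoImplicit false
open Cfsg

namespace Cfsg.Agent.S3760

/-- Let the group G act transitively on a set X, let x ∈ X with stabilizer H = G_x, and let K ≤ H. Then N_G(K) acts transitively on the set of fixed points of K if and only if every G-conjugate of K contained in H is already an H-conjugate of K. -/
theorem result {G : Type*} [Group G] {X : Type*} [MulAction G X] (htrans : ∀ a b : X, ∃ g : G, g • a = b) (x : X) (K : Subgroup G) (hK : K ≤ MulAction.stabilizer G x) : (∀ a b : X, (∀ k ∈ K, k • a = a) → (∀ k ∈ K, k • b = b) → ∃ g ∈ Subgroup.normalizer (K : Set G), g • a = b) ↔ ∀ g : G, K.map (MulAut.conj g).toMonoidHom ≤ MulAction.stabilizer G x → ∃ h ∈ MulAction.stabilizer G x, K.map (MulAut.conj g).toMonoidHom = K.map (MulAut.conj h).toMonoidHom := by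
  constructor
  · intro h g hg
    -- g⁻¹ • x is fixed by K
    have h1 : ∀ k ∈ K, k • (g⁻¹ • x) = g⁻¹ • x := by
      intro k hk
      have := hg ⟨k, hk, rfl⟩
      rw [MulAction.mem_stabilizer_iff] at this
      simp only [MulEquiv.toMonoidHom_eq_coe, MonoidHom.coe_coe, MulAut.conj_apply] at this
      rw [mul_smul, mul_smul] at this
      rw [eq_inv_smul_iff, this]
    obtain ⟨n, hn, hn'⟩ := h x (g⁻¹ • x) (fun k hk => hK hk) h1
    refine ⟨g * n, ?_, ?_⟩
    · rw [MulAction.mem_stabilizer_iff, mul_smul, hn', smul_inv_smul]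
    · ext z
      simp only [Subgroup.mem_map, MulEquiv.toMonoidHom_eq_coe, MonoidHom.coe_coe,
        MulAut.conj_apply]
      constructor
      · rintro ⟨k, hk, rfl⟩
        refine ⟨n⁻¹ * k * n, ?_, by group⟩
        simpa using (Subgroup.mem_normalizer_iff.1 (Subgroup.inv_mem _ hn) k).1 hk
      · rintro ⟨k, hk, rfl⟩
        exact ⟨n * k * n⁻¹, (Subgroup.mem_normalizer_iff.1 hn k).1 hk, by group⟩
  · intro h
    have key : ∀ a : X, (∀ k ∈ K, k • a = a) →
        ∃ g ∈ Subgroup.normalizer (K : Set G), g • a = x := by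
      intro a ha
      obtain ⟨g, hg⟩ := htrans a x
      obtain ⟨t, ht, ht'⟩ := h g (by
        rintro _ ⟨k, hk, rfl⟩
        rw [MulAction.mem_stabilizer_iff]
        simp only [MulEquiv.toMonoidHom_eq_coe, MonoidHom.coe_coe, MulAut.conj_apply]
        rw [← hg, mul_smul, inv_smul_smul, mul_smul, ha k hk])
      refine ⟨t⁻¹ * g, ?_, ?_⟩
      · rw [Subgroup.mem_normalizer_iff]
        intro k
        constructor
        · intro hk
          have : g * k * g⁻¹ ∈ K.map (MulAut.conj g).toMonoidHom := ⟨k, hk, rfl⟩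
          rw [ht'] at this
          obtain ⟨k', hk', e⟩ := this
          simp only [MulEquiv.toMonoidHom_eq_coe, MonoidHom.coe_coe, MulAut.conj_apply] at e
          have : t⁻¹ * g * k * (t⁻¹ * g)⁻¹ = k' := by
            calc t⁻¹ * g * k * (t⁻¹ * g)⁻¹ = t⁻¹ * (g * k * g⁻¹) * t := by group
              _ = k' := by rw [← e]; group
          rw [this]; exact hk'
        · intro hk
          have : t * (t⁻¹ * g * k * (t⁻¹ * g)⁻¹) * t⁻¹ ∈ K.map (MulAut.conj t).toMonoidHom :=
            ⟨_, hk, rfl⟩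
          rw [← ht'] at this
          obtain ⟨k', hk', e⟩ := this
          simp only [MulEquiv.toMonoidHom_eq_coe, MonoidHom.coe_coe, MulAut.conj_apply] at e
          have : k = k' := by
            calc k = g⁻¹ * (t * (t⁻¹ * g * k * (t⁻¹ * g)⁻¹) * t⁻¹) * g := by group
              _ = k' := by rw [← e]; group
          rw [this]; exact hk'
      · rw [mul_smul, hg, inv_smul_eq_iff]
        exact ht.symm
    intro a b ha hb
    obtain ⟨g₁, hg₁, e₁⟩ := key a ha
    obtain ⟨g₂, hg₂, e₂⟩ := key b hb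
    exact ⟨g₂⁻¹ * g₁, Subgroup.mul_mem _ (Subgroup.inv_mem _ hg₂) hg₁, by
      rw [mul_smul, e₁, ← e₂, inv_smul_smul]⟩

end Cfsg.Agent.S3760
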