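import Cfsg.Statements.S3761
import Cfsg.Agent.Lib.PGrp.RankOne

set_option autoImplicit false
open Cfsg

namespace Cfsg.Agent.S3761

/-- Let G be a finite non-abelian p-group with a cyclic normal subgroup U of order p^n such that C_G(U) = U. Then either p = 2 and G is dihedral, generalized quaternion or semidihedral of order 2^(n+1); or, writing U₁ for the subgroup generated by the p-th powers of elements of U and M = C_G(U₁), the subgroup U has index p in M and the subgroup Ω₁(M) generated by the elements of M of order dividing p is elementary abelian of order p² and characteristic in G. -/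
theorem result {G : Type*} [Group G] [Finite G] {p : ℕ} [Fact p.Prime] (hG : IsPGroup p G) (hna : ¬ IsMulCommutative G) (U : Subgroup G) [U.Normal] (hU : IsCyclic U) (n : ℕ) (hUn : Nat.card U = p ^ n) (hC : Subgroup.centralizer (U : Set G) = U) : (p = 2 ∧ Nat.card G = 2 ^ (n + 1) ∧ ((∃ m : ℕ, Nonempty (G ≃* DihedralGroup m)) ∨ (∃ m : ℕ, Nonempty (G ≃* QuaternionGroup m)) ∨ Cfsg.IsQuasiDihedral G)) ∨ (U.relIndex (Subgroup.centralizer (Cfsg.powerClosure p 1 U : Set G)) = p ∧ Cfsg.IsElementaryAbelian p (Cfsg.omegaOne p (Subgroup.centralizer (Cfsg.powerClosure p 1 U : Set G))) ∧ Nat.card ↥(Cfsg.omegaOne p (Subgroup.centralizer (Cfsg.powerClosure p 1 U : Set G))) = p ^ 2 ∧ (Cfsg.omegaOne p (Subgroup.centralizer (Cfsg.powerClosure p 1 U : Set G))).Characteristic) := by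
  obtain ⟨x, rfl⟩ := (U.isCyclic_iff_exists_zpowers_eq_top).mp hU
  rw [Nat.card_zpowers] at hUn
  rw [PGrp.centralizer_zpowers] at hC
  rw [PGrp.powerClosure_zpowers, PGrp.centralizer_zpowers, pow_one]
  rcases PGrp.dqs_or_modular hG hna hUn hC with ⟨h1, y, h2⟩ | ⟨h1, h2, y, hyp, hy⟩
  · refine Or.inl ⟨h1, h2.2.1, ?_⟩
    rcases h2.iso with h | h | h
    · exact Or.inl ⟨_, h⟩
    · exact Or.inr (Or.inl ⟨_, h⟩)
    · exact Or.inr (Or.inr h)
  obtain ⟨m, rfl⟩ : ∃ m, n = m + 1 := ⟨n - 1, by omega⟩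
  right
  have hM := PGrp.modular_centralizer_eq hG hUn hC hy
  have hΩ := PGrp.modular_omegaOne hG (by omega) hUn hyp hy
  have hE := PGrp.modular_elemAb hG hUn hyp hy
  rw [← hΩ, ← hM] at hE
  refine ⟨?_, hE.1, hE.2, ?_⟩
  · rw [hM, sup_comm, Subgroup.relIndex_sup_right]
    exact PGrp.relIndex_zpowers_eq_prime (PGrp.modular_not_mem hG hUn hy) (hyp ▸ one_mem _)
  · have := PGrp.centralizer_pow_normal (x := x) p
    rw [Subgroup.characteristic_iff_map_le]
    intro φ
    have hn : ((omegaOne p (Subgroup.centralizer {x ^ p})).map φ.toMonoidHom).Normal :=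
      Subgroup.Normal.map inferInstance _ φ.surjective
    have he := (PGrp.isElementaryAbelian_map hE.1 φ.toMonoidHom).2
    exact PGrp.le_omegaOne_of_pow_eq_one (PGrp.le_centralizer_pow_of_normal hG hUn he) he

end Cfsg.Agent.S3761
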