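import Cfsg.Statements.S3764
import Cfsg.Agent.Lib.Mod.Extraspecial

set_option autoImplicit false
open Cfsg

namespace Cfsg.Agent.S3764

open Subgroup Module Polynomial _root_.Cfsg.Agent.Mod in
theorem aux {G : Type*} [Group G] [Finite G] {p q r : ℕ} (hp : p.Prime) (hq : q.Prime)
    (hr : r.Prime) (hpq : p ≠ q) (hqr : q ≠ r) (x : G) (Q V : Subgroup G) [V.Normal]
    (hX : orderOf x = r) (hQ : Cfsg.IsExtraspecial q ↥Q) (hXQ : x ∈ normalizer (Q : Set G))
    (hCQ : Q ⊓ centralizer (zpowers x : Set G) = Q ⊓ centralizer (Q : Set G))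
    (hV : Cfsg.IsElementaryAbelian p V) (hfaith : Q ⊓ centralizer (V : Set G) = ⊥)
    (hCV : V ⊓ centralizer (zpowers x : Set G) = ⊥) :
    q = 2 ∧ ∃ n : ℕ, r = 2 ^ n + 1 ∧ Nat.card Q = 2 ^ (2 * n + 1) := by
  have := Fact.mk hp
  have := Fact.mk hq
  obtain ⟨W, _, _, _, ρ, ι, hl⟩ := exists_isLin (AlgebraicClosure (ZMod p)) hV
  have hk : (q : AlgebraicClosure (ZMod p)) ≠ 0 :=
    natCast_ne_zero_of_not_dvd _ (by rwa [Nat.prime_dvd_prime_iff_eq hp hq])
  have hQk := card_ne_zero_of_isPGroup hQ.1.1 hk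
  have hsol := Coprime.isSolvable_of_isPGroup hQ.1.1
  have hcop : r.Coprime (Nat.card Q) := by
    obtain ⟨m, hm⟩ := IsPGroup.iff_card.1 hQ.1.1
    rw [hm]
    exact ((Nat.coprime_primes hr hq).2 hqr.symm).pow_right _
  obtain ⟨U₀, -, hU₀, hZ⟩ := (isInv_top (ρ := ρ) Q).exists_isIrr_not_le_fix hQk
    (R := Q ⊓ centralizer (Q : Set G)) fun h => by
      have h1 : Q ⊓ centralizer (Q : Set G) = ⊥ := eq_bot_iff.2 (hfaith ▸ le_inf inf_le_left
        fun g hg => hl.eq_one_iff.1 (fix_eq_top_iff.1 (top_le_iff.1 h) g hg))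
      have := PGrp.IsExtraspecial.card_inf_centralizer hQ
      rw [h1, card_bot] at this
      exact hq.one_lt.ne this
  have h1 : ⁅Q, zpowers x⁆ = Q := by
    refine PGrp.eq_of_sup_map_frattini
      (Coprime.commutator_le_of_le_normalizer (zpowers_le.2 hXQ)) ?_
    rw [hQ.1.2.1, PGrp.map_center_subtype, ← hCQ, sup_comm,
      Coprime.centralizer_sup_commutator (zpowers_le.2 hXQ) (by rwa [Nat.card_zpowers, hX])
        (Or.inr hsol)]
  obtain ⟨U, hUc, hU, i, hi, -, -, h2, h3, -⟩ := hallHigman_core (n := 0) hsol hQk hr hcop hXQ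
    (by simpa using hX) (by simpa using h1) (by simpa [hCQ] using inf_le_right)
    hU₀.hcomp_mem_comps (fun h => hZ ((le_hcomp.trans h).trans (fix_anti inf_le_left)))
    (geom_ne_zero hr.ne_zero) (fun w _ => by
      rw [aeval_geom_eq_zero (by rw [← hX, pow_orderOf_eq_one, map_one])
        (hl.fix_eq_bot_iff.2 hCV)]; rfl)
    ((natDegree_geom_le _).trans_lt (by simpa using hr.pos))
  obtain rfl : i = 0 := by omega
  obtain ⟨d, hd⟩ := hU.exists_finrank_eq_pow hQ.1.1 hQk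
  have h4 := hU.mul_sq_finrank_eq hQ hk fun h => hZ (le_hcomp.trans (by
    rwa [← hU₀.hcomp_eq_of_le hQk hU hUc, hcomp_le_fix inf_le_left]))
  rw [zero_add, Nat.sub_zero, pow_one, hd] at h3
  obtain rfl := eq_two_of_pow_add_one_eq_prime hq hr h3 (Nat.pos_of_ne_zero fun h => by
    simp [hd, h] at h2)
  exact ⟨rfl, d, h3.symm, by rw [← h4, hd]; ring⟩


/-- Let p, q, r be distinct primes and let X, Q, V be subgroups of a finite group with X of order r, Q an extraspecial q-group normalized by X with C_Q(X) = Z(Q), and V an elementary abelian p-group normalized by X and Q on which XQ acts faithfully ((X ⊔ Q) ∩ C(V) = 1). If C_V(X) = 1, then q = 2, r = 2^n + 1 for some n, and Q has order 2^(2n+1). -/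
theorem result {G : Type*} [Group G] [Finite G] {p q r : ℕ} (hp : p.Prime) (hq : q.Prime) (hr : r.Prime) (hpq : p ≠ q) (hpr : p ≠ r) (hqr : q ≠ r) (X Q V : Subgroup G) (hX : Nat.card X = r) (hQ : Cfsg.IsExtraspecial q ↥Q) (hXQ : X ≤ Subgroup.normalizer (Q : Set G)) (hCQ : Q ⊓ Subgroup.centralizer (X : Set G) = (Subgroup.center ↥Q).map Q.subtype) (hV : Cfsg.IsElementaryAbelian p V) (hXV : X ≤ Subgroup.normalizer (V : Set G)) (hQV : Q ≤ Subgroup.normalizer (V : Set G)) (hfaith : (X ⊔ Q) ⊓ Subgroup.centralizer (V : Set G) = ⊥) (hCV : V ⊓ Subgroup.centralizer (X : Set G) = ⊥) : q = 2 ∧ ∃ n : ℕ, r = 2 ^ n + 1 ∧ Nat.card Q = 2 ^ (2 * n + 1) := by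
  obtain ⟨x, rfl, ho⟩ := Mod.exists_zpowers_eq_of_prime_card hr hX
  have hx := hXV (Subgroup.mem_zpowers x)
  rw [PGrp.map_center_subtype] at hCQ
  have := Fact.mk hq
  have := aux hp hq hr hpq hqr (⟨x, hx⟩ : Subgroup.normalizer (V : Set G)) (Q.subgroupOf _)
    (V.subgroupOf _) ((Subgroup.orderOf_coe _).symm.trans ho)
    (PGrp.IsExtraspecial.congr hQ (Subgroup.subgroupOfEquivOfLe hQV).symm)
    (Mod.mem_normalizer_subgroupOf (hXQ (Subgroup.mem_zpowers x)))
    (by rw [← Mod.zpowers_subgroupOf, Mod.inf_centralizer_subgroupOf hXV,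
      Mod.inf_centralizer_subgroupOf hQV, hCQ])
    (Mod.isElementaryAbelian_subgroupOf hV)
    (by
      rw [Mod.inf_centralizer_subgroupOf Subgroup.le_normalizer, eq_bot_iff,
        ← Subgroup.bot_subgroupOf, ← hfaith]
      exact Subgroup.comap_mono (inf_le_inf_right _ le_sup_right))
    (by rw [← Mod.zpowers_subgroupOf, Mod.inf_centralizer_subgroupOf hXV, hCV,
      Subgroup.bot_subgroupOf])
  rwa [Core.card_subgroupOf_of_le hQV] at this

end Cfsg.Agent.S3764
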