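import Cfsg.Statements.S3766
import Mathlib
import Cfsg.Agent.Lib.Core.Subnormal

set_option autoImplicit false
open Cfsg

namespace Cfsg.Agent.S3766

open Subgroup Cfsg.Agent.Core
open scoped commutatorElement

theorem commutator_fitting_le {G : Type*} [Group G] [Finite G] {U V : Subgroup G}
    (h : IsChiefFactor U V) : ⁅U, fittingSubgroup G⁆ ≤ V := by
  have := h.2.2.1
  have h1 := (isMinNormal_map_of_isChiefFactor h).le_centralizer_fitting
  rw [← map_mk_eq_bot_iff, map_commutator, commutator_eq_bot_iff_le_centralizer]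
  exact h1.trans (centralizer_le (map_fitting_le (QuotientGroup.mk'_surjective V)))

theorem isNilpotent_of_forall_lt {G : Type*} [Group G] [Finite G] {K : Subgroup G} [K.Normal]
    (h : ∀ W : Subgroup G, W.Normal → W ≤ K → W ≠ ⊥ → ⁅W, K⁆ < W) : Group.IsNilpotent K := by
  have key : ∀ W : Subgroup G, (∃ n, K.lowerCentralSeries n = W) → ∃ n, K.lowerCentralSeries n = ⊥ := by
    intro W
    induction W using subgroup_induction_lt with
    | h W ih =>
      rintro ⟨n, hn⟩
      by_cases hW : W = ⊥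
      · exact ⟨n, hn.trans hW⟩
      refine ih _ (h W (hn ▸ inferInstance) (hn ▸ lowerCentralSeries_le_self K n) hW) ⟨n + 1, ?_⟩
      rw [Subgroup.lowerCentralSeries_succ, hn]
  exact (isNilpotent_iff_lowerCentralSeries (S := K)).2 (key K ⟨0, rfl⟩)

/-- The centralizer of a section. -/
def secCent {G : Type*} [Group G] (U V : Subgroup G) [V.Normal] : Subgroup G :=
  (centralizer ((U.map (QuotientGroup.mk' V) : Subgroup (G ⧸ V)) : Set (G ⧸ V))).comap
    (QuotientGroup.mk' V)

theorem mem_secCent {G : Type*} [Group G] {U V : Subgroup G} [V.Normal] {g : G} :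
    g ∈ secCent U V ↔ ∀ u ∈ U, u * g * u⁻¹ * g⁻¹ ∈ V := by
  have key : ∀ u : G, u * g * u⁻¹ * g⁻¹ ∈ V ↔ QuotientGroup.mk' V u * QuotientGroup.mk' V g =
      QuotientGroup.mk' V g * QuotientGroup.mk' V u := by
    intro u
    rw [← commutatorElement_eq_one_iff_mul_comm, ← map_commutatorElement, ← MonoidHom.mem_ker,
      QuotientGroup.ker_mk', commutatorElement_def]
  simp only [key, secCent, mem_comap, mem_centralizer_iff]
  constructor
  · exact fun h u hu => h _ (mem_map_of_mem _ hu)
  · rintro h _ ⟨u, hu, rfl⟩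
    exact h u hu

/-- Let G be a finite solvable group and N a normal subgroup of G. Call a pair V < U of normal subgroups of G a chief factor of G when no normal subgroup of G lies strictly between them; an element g centralizes the chief factor U/V when u g u⁻¹ g⁻¹ ∈ V for all u ∈ U. Then an element of G lies in the Fitting subgroup F(N) if and only if it lies in N and centralizes every chief factor of G; and also if and only if it lies in N and centralizes every chief factor U/V of G with U ≤ F(N). -/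
theorem result {G : Type*} [Group G] [Finite G] (hG : Group.IsSolvable G) (N : Subgroup G) [N.Normal] (g : G) : (g ∈ (Cfsg.fittingSubgroup ↥N).map N.subtype ↔ g ∈ N ∧ ∀ U V : Subgroup G, (U.Normal ∧ V.Normal ∧ V < U ∧ ∀ W : Subgroup G, W.Normal → V ≤ W → W ≤ U → W = V ∨ W = U) → ∀ u ∈ U, u * g * u⁻¹ * g⁻¹ ∈ V) ∧ (g ∈ (Cfsg.fittingSubgroup ↥N).map N.subtype ↔ g ∈ N ∧ ∀ U V : Subgroup G, (U.Normal ∧ V.Normal ∧ V < U ∧ ∀ W : Subgroup G, W.Normal → V ≤ W → W ≤ U → W = V ∨ W = U) → U ≤ (Cfsg.fittingSubgroup ↥N).map N.subtype → ∀ u ∈ U, u * g * u⁻¹ * g⁻¹ ∈ V) := by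
  set F := (fittingSubgroup N).map N.subtype with hF
  have hF' : F = fittingSubgroup G ⊓ N := map_fitting_subtype_eq N
  have hFn : F.Normal := by rw [hF']; infer_instance
  have h1 : g ∈ F → g ∈ N ∧ ∀ U V : Subgroup G, IsChiefFactor U V →
      ∀ u ∈ U, u * g * u⁻¹ * g⁻¹ ∈ V := by
    intro hg
    rw [hF'] at hg
    exact ⟨hg.2, fun U V h u hu => commutator_fitting_le h (commutator_mem_commutator hu hg.1)⟩
  have h2 : (g ∈ N ∧ ∀ U V : Subgroup G, IsChiefFactor U V → U ≤ F →
      ∀ u ∈ U, u * g * u⁻¹ * g⁻¹ ∈ V) → g ∈ F := by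
    rintro ⟨hgN, hg⟩
    set C := normalClosure ({g} : Set G) with hC
    have hCN : C ≤ N := normalClosure_le_normal (Set.singleton_subset_iff.2 hgN)
    have hCU : ∀ U V : Subgroup G, IsChiefFactor U V → U ≤ F → ⁅U, C⁆ ≤ V := by
      intro U V h hU
      have := h.2.1
      have := h.2.2.1
      have hn : (secCent U V).Normal := by unfold secCent; infer_instance
      have : C ≤ secCent U V :=
        normalClosure_le_normal (Set.singleton_subset_iff.2 (mem_secCent.2 (hg U V h hU)))
      exact commutator_le.2 fun u hu c hc => mem_secCent.1 (this hc) u hu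
    by_contra hgF
    have hlt : F ⊓ C < C := lt_of_le_of_ne inf_le_right fun he =>
      hgF ((he.ge.trans inf_le_left) (subset_normalClosure rfl))
    obtain ⟨K, hK, hKC⟩ := exists_isChiefFactor_le hlt
    have := hK.2.1
    have hKK : ⁅K, K⁆ ≤ F ⊓ C := by
      have hc := (isMinNormal_map_of_isChiefFactor hK).isMulCommutative inferInstance
      rw [← map_mk_eq_bot_iff, map_commutator, commutator_eq_bot_iff_le_centralizer]
      exact le_centralizer_iff_isMulCommutative.2 hc
    have hnil : Group.IsNilpotent K := by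
      refine isNilpotent_of_forall_lt fun W hW hWK hne => ?_
      by_cases hWF : W ≤ F
      · obtain ⟨V, hV, -⟩ := exists_isChiefFactor_ge (bot_lt_iff_ne_bot.2 hne)
        exact lt_of_le_of_lt ((commutator_mono le_rfl hKC).trans (hCU W V hV hWF)) hV.1
      · refine lt_of_le_of_ne (commutator_le_left W K) fun he => hWF ?_
        rw [← he]
        exact (commutator_mono hWK le_rfl).trans (hKK.trans inf_le_left)
    refine not_le_of_gt hK.1 (le_inf ?_ hKC)
    rw [hF']
    exact le_inf (le_fitting hnil) (hKC.trans hCN)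
  refine ⟨⟨fun h => ⟨(h1 h).1, fun U V hUV => (h1 h).2 U V ⟨hUV.2.2.1, hUV.1, hUV.2.1, hUV.2.2.2⟩⟩,
    fun h => h2 ⟨h.1, fun U V hUV _ => h.2 U V ⟨hUV.2.1, hUV.2.2.1, hUV.1, hUV.2.2.2⟩⟩⟩,
    ⟨fun h => ⟨(h1 h).1, fun U V hUV _ => (h1 h).2 U V ⟨hUV.2.2.1, hUV.1, hUV.2.1, hUV.2.2.2⟩⟩,
    fun h => h2 ⟨h.1, fun U V hUV => h.2 U V ⟨hUV.2.1, hUV.2.2.1, hUV.1, hUV.2.2.2⟩⟩⟩⟩

end Cfsg.Agent.S3766
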