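import Cfsg.Statements.S3768
import Cfsg.Agent.Lib.Frob.Basic

set_option autoImplicit false
open Cfsg

namespace Cfsg.Agent.S3768

/-- Let G be a finite Frobenius group with Frobenius complement R and Frobenius kernel K (the identity together with the elements in no conjugate of R), and let N be a normal subgroup of G not containing K. Then G/N is a Frobenius group with Frobenius complement RN/N whose Frobenius kernel is the image of K. -/
theorem result {G : Type*} [Group G] [Finite G] (R : Subgroup G) (hR : Cfsg.IsFrobeniusComplement R) (N : Subgroup G) [N.Normal] (hKN : ¬ Cfsg.frobeniusKernel R ⊆ N) : Cfsg.IsFrobeniusComplement (R.map (QuotientGroup.mk' N)) ∧ Cfsg.frobeniusKernel (R.map (QuotientGroup.mk' N)) = QuotientGroup.mk' N '' Cfsg.frobeniusKernel R := by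
  obtain ⟨K, hK, e, hF, hsup⟩ := Frob.exists_isFrobPair hR
  rw [← e] at hKN ⊢
  have h1 := hF.map (QuotientGroup.mk' N) (by rwa [QuotientGroup.ker_mk'])
  have h2 : K.map (QuotientGroup.mk' N) ⊔ R.map (QuotientGroup.mk' N) = ⊤ := by
    rw [← Subgroup.map_sup, hsup, Subgroup.map_top_of_surjective _ (QuotientGroup.mk'_surjective N)]
  exact ⟨h1.isFrobeniusComplement h2, h1.frobeniusKernel_eq h2⟩

end Cfsg.Agent.S3768
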