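import Cfsg.Statements.S3772
import Cfsg.Agent.Lib.PGrp.ExtraspecialTwo
import Cfsg.Agent.Lib.PGrp.Count

set_option autoImplicit false
open Cfsg

namespace Cfsg.Agent.S3772

open scoped commutatorElement Classical

/-- The sign of an element: `1` at the identity and `-1` elsewhere. -/
noncomputable def sgn {G : Type*} [Group G] (g : G) : ℤ := if g = 1 then 1 else -1

theorem sgn_mul {G : Type*} [Group G] {Z : Subgroup G} (hZ : Nat.card Z = 2) {a b : G}
    (ha : a ∈ Z) (hb : b ∈ Z) : sgn (a * b) = sgn a * sgn b := by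
  by_cases h1 : a = 1
  · simp [sgn, h1]
  by_cases h2 : b = 1
  · simp [sgn, h2]
  have h3 := PGrp.eq_of_mem_of_card_two hZ ha (Z.inv_mem hb) (by simp [h1, h2])
  simp [sgn, h1, h2, mul_eq_one_iff_eq_inv.mpr h3]

theorem sgn_eq_neg_one {G : Type*} [Group G] {a : G} (h : a ≠ 1) : sgn a = -1 := if_neg h

theorem sum_eq_zero_of_mul {H : Type*} [Group H] [Fintype H] (f : H → ℤ)
    (hf : ∀ a b, f (a * b) = f a * f b) {a : H} (ha : f a = -1) : ∑ x, f x = 0 := by
  have h := Equiv.sum_comp (Equiv.mulLeft a) f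
  simp only [Equiv.coe_mulLeft, hf, ha, neg_mul, one_mul, Finset.sum_neg_distrib] at h
  omega

theorem sum_sq {G : Type*} [Group G] [Fintype G] {Z : Subgroup G} (hZ : Nat.card Z = 2)
    (hc : Z ≤ Subgroup.center G) (h1 : ∀ x : G, x ^ 2 ∈ Z) (h2 : ∀ x y : G, ⁅x, y⁆ ∈ Z) :
    (∑ x : G, sgn (x ^ 2)) ^ 2 =
      Nat.card G * ∑ w : Subgroup.center G, sgn ((w : G) ^ 2) := by
  have cm : ∀ x y g : G, Commute ⁅x, y⁆ g := fun x y g => PGrp.commute_of_mem_center (hc (h2 x y)) g
  have h3 : ∀ x : G, sgn (x ^ 2) * ∑ y : G, sgn (y ^ 2) = ∑ w : G, sgn (w ^ 2) * sgn ⁅w, x⁆ := by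
    intro x
    rw [Finset.mul_sum, ← Equiv.sum_comp (Equiv.mulLeft x)]
    refine Finset.sum_congr rfl fun w _ => ?_
    rw [Equiv.coe_mulLeft, PGrp.mul_pow_of_commute (cm _ _ _) (cm _ _ _), Nat.choose_self, pow_one,
      sgn_mul hZ (Z.mul_mem (h1 x) (h1 w)) (h2 w x), sgn_mul hZ (h1 x) (h1 w)]
    have : sgn (x ^ 2) * sgn (x ^ 2) = 1 := by unfold sgn; split_ifs <;> norm_num
    linear_combination (sgn (w ^ 2) * sgn ⁅w, x⁆) * this
  rw [sq, Finset.sum_mul, Finset.sum_congr rfl fun x _ => h3 x, Finset.sum_comm, Finset.mul_sum,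
    ← Finset.sum_subtype (s := Finset.univ.filter (· ∈ Subgroup.center G)) (by simp)
      (fun w => (Nat.card G : ℤ) * sgn (w ^ 2)), Finset.sum_filter]
  refine Finset.sum_congr rfl fun w _ => ?_
  rw [← Finset.mul_sum]
  split_ifs with hw
  · rw [Finset.sum_congr rfl (g := fun _ => 1) fun x _ => by
      rw [commutatorElement_eq_one_iff_mul_comm.mpr (Subgroup.mem_center_iff.mp hw x).symm]
      simp [sgn]]
    simp [mul_comm]
  · rw [Subgroup.mem_center_iff] at hw
    push Not at hw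
    obtain ⟨g, hg⟩ := hw
    rw [sum_eq_zero_of_mul (fun x => sgn ⁅w, x⁆) (fun a b => by
      rw [PGrp.commutatorElement_mul_right_of_commute (cm _ _ _), sgn_mul hZ (h2 _ _) (h2 _ _)])
      (sgn_eq_neg_one fun e => hg (commutatorElement_eq_one_iff_mul_comm.mp e).symm), mul_zero]

theorem sum_sgn_eq {G : Type*} [Group G] [Fintype G] :
    ∑ x : G, sgn (x ^ 2) = 2 * Nat.card {x : G // x ^ 2 = 1} - Nat.card G := by
  rw [PGrp.card_subtype_eq_sum, Nat.card_eq_fintype_card, ← Finset.card_univ, Finset.card_eq_sum_ones]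
  push_cast
  rw [Finset.mul_sum, ← Finset.sum_sub_distrib]
  refine Finset.sum_congr rfl fun x _ => ?_
  unfold sgn
  split_ifs <;> norm_num

/-- Let G be a finite 2-group whose Frattini subgroup Φ(G) has order 2, with |G : Φ(G)| = 2^d, and let j be the number of elements x of G with x² = 1. Then j = 2^d, or j = 2^d + 2^(d−r) or j = 2^d − 2^(d−r) for some positive integer r with 2r ≤ d. Moreover if d = 2r and j is 2^d + 2^r or 2^d − 2^r, then G is extraspecial. -/
theorem result {G : Type*} [Group G] [Finite G] (hG : IsPGroup 2 G) (hΦ : Nat.card (frattini G) = 2) (d : ℕ) (hd : (frattini G).index = 2 ^ d) : (Nat.card {x : G // x ^ 2 = 1} = 2 ^ d ∨ ∃ r : ℕ, 1 ≤ r ∧ 2 * r ≤ d ∧ (Nat.card {x : G // x ^ 2 = 1} = 2 ^ d + 2 ^ (d - r) ∨ Nat.card {x : G // x ^ 2 = 1} + 2 ^ (d - r) = 2 ^ d)) ∧ (∀ r : ℕ, d = 2 * r → (Nat.card {x : G // x ^ 2 = 1} = 2 ^ d + 2 ^ r ∨ Nat.card {x : G // x ^ 2 = 1} + 2 ^ r = 2 ^ d) → Cfsg.IsExtraspecial 2 G) := by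
  have := Fintype.ofFinite G
  have hc := PGrp.le_center_of_card_eq_prime hG hΦ
  have h1 := PGrp.pow_mem_frattini hG
  have h2 := PGrp.commutatorElement_mem_frattini hG
  have h3 := sum_sq hΦ hc h1 h2
  have hcard : Nat.card G = 2 ^ (d + 1) := by rw [← (frattini G).index_mul_card, hd, hΦ, pow_succ]
  have : IsCyclic (frattini G) := isCyclic_of_prime_card hΦ
  obtain ⟨r, hr⟩ := PGrp.exists_index_center_eq hG (PGrp.commutator_le_frattini hG) hc
  have hrd : 2 * r ≤ d := by
    rw [← Nat.pow_dvd_pow_iff_le_right one_lt_two, ← hr, ← hd]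
    exact Subgroup.index_dvd_of_le hc
  rw [sum_sgn_eq, hcard] at h3
  set j := Nat.card {x : G // x ^ 2 = 1}
  have key : j = 2 ^ d ∨ (1 ≤ r ∧ (j = 2 ^ d + 2 ^ (d - r) ∨ j + 2 ^ (d - r) = 2 ^ d)) := by
    by_cases h4 : ∀ w ∈ Subgroup.center G, w ^ 2 = 1
    · refine Or.inr ⟨Nat.pos_of_ne_zero ?_, ?_⟩
      · rintro rfl
        rw [mul_zero, pow_zero, Subgroup.index_eq_one] at hr
        have := PGrp.frattini_eq_closure_sq hG
        rw [Subgroup.closure_eq_bot_iff.mpr (by
          rintro _ ⟨x, rfl⟩; exact h4 x (hr ▸ Subgroup.mem_top x))] at this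
        rw [this, Subgroup.card_bot] at hΦ
        omega
      rw [Finset.sum_congr rfl (g := fun _ => 1) fun w _ => by rw [h4 w w.2]; simp [sgn]] at h3
      obtain ⟨e, rfl⟩ := Nat.exists_eq_add_of_le hrd
      have h5 : Nat.card (Subgroup.center G) = 2 ^ (e + 1) := by
        have := (Subgroup.center G).index_mul_card
        rw [hr, hcard, add_assoc, pow_add] at this
        exact Nat.eq_of_mul_eq_mul_left (by positivity) this
      rw [Finset.sum_const, Finset.card_univ, ← Nat.card_eq_fintype_card, h5] at h3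
      have h6 : ((j : ℤ) - 2 ^ (2 * r + e)) ^ 2 = (2 ^ (r + e)) ^ 2 := by
        push_cast at h3
        simp only [nsmul_eq_mul, mul_one] at h3
        push_cast at h3
        have h7 : (4 : ℤ) * (((j : ℤ) - 2 ^ (2 * r + e)) ^ 2 - (2 ^ (r + e)) ^ 2) = 0 := by
          linear_combination h3
        omega
      rw [show 2 * r + e - r = r + e by omega]
      rcases sq_eq_sq_iff_eq_or_eq_neg.mp h6 with h | h
      · left; zify; linear_combination h
      · right; zify; linear_combination h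
    · left
      push Not at h4
      obtain ⟨w, hw, hw'⟩ := h4
      rw [sum_eq_zero_of_mul (fun w : Subgroup.center G => sgn ((w : G) ^ 2)) (fun a b => by
        rw [Subgroup.coe_mul, (PGrp.commute_of_mem_center a.2 b).mul_pow, sgn_mul hΦ (h1 _) (h1 _)])
        (a := ⟨w, hw⟩) (sgn_eq_neg_one hw'), mul_zero, pow_eq_zero_iff two_ne_zero] at h3
      zify
      push_cast at h3
      have h7 : (2 : ℤ) * (j - 2 ^ d) = 0 := by linear_combination h3
      omega
  refine ⟨key.imp_right fun h => ⟨r, h.1, hrd, h.2⟩, fun s hs hj => ?_⟩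
  have hpos := Nat.two_pow_pos s
  have hpos' := Nat.two_pow_pos (d - r)
  have h4 : 1 ≤ r ∧ 2 ^ (d - r) = 2 ^ s := by omega
  have h5 : d = 2 * r := by
    have := Nat.pow_right_injective le_rfl h4.2
    omega
  have h6 : frattini G = Subgroup.center G := by
    refine PGrp.eq_of_le_of_card_eq hc (Nat.eq_of_mul_eq_mul_left (Nat.two_pow_pos d) ?_)
    rw [← hd, Subgroup.index_mul_card, hd, h5, ← hr, Subgroup.index_mul_card]
  refine PGrp.isExtraspecial_of hG (h6 ▸ hΦ) (fun hc' => ?_)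
    ((PGrp.commutator_le_frattini hG).trans hc)
  have h7 : Subgroup.center G = ⊤ :=
    (commutator_eq_bot_iff_center_eq_top G).mp (PGrp.commutator_eq_bot_iff_comm.mpr hc')
  rw [h7, Subgroup.index_top, eq_comm, Nat.pow_eq_one] at hr
  omega

end Cfsg.Agent.S3772
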