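import Cfsg.Statements.S3775
import Cfsg.Agent.Lib.Coprime.Gaschuetz
import Cfsg.Agent.Lib.Core.MinNormal

set_option autoImplicit false
open Cfsg

namespace Cfsg.Agent.S3775

/-- Let A be a finite abelian p-group and X a group of automorphisms of A of order prime to p. Call a subgroup of A invariant when every element of X maps it onto itself. Then the following are equivalent: (i) A is not the direct product of two nontrivial invariant subgroups; (ii) every invariant subgroup of A is one of the subgroups Ω_i(A) = {a : a^(p^i) = 1}; (iii) the subgroup Ω₁(A) of elements of order dividing p has no invariant subgroups other than 1 and itself. -/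
theorem result {A : Type*} [CommGroup A] [Finite A] {p : ℕ} [Fact p.Prime] (hA : IsPGroup p A) (X : Subgroup (MulAut A)) (hX : (Nat.card X).Coprime p) : ((¬ ∃ B C : Subgroup A, B ≠ ⊥ ∧ C ≠ ⊥ ∧ (∀ x ∈ X, B.map x.toMonoidHom = B) ∧ (∀ x ∈ X, C.map x.toMonoidHom = C) ∧ B ⊓ C = ⊥ ∧ B ⊔ C = ⊤) ↔ (∀ B : Subgroup A, (∀ x ∈ X, B.map x.toMonoidHom = B) → ∃ i : ℕ, ∀ a : A, a ∈ B ↔ a ^ p ^ i = 1)) ∧ ((∀ B : Subgroup A, (∀ x ∈ X, B.map x.toMonoidHom = B) → ∃ i : ℕ, ∀ a : A, a ∈ B ↔ a ^ p ^ i = 1) ↔ (∀ B : Subgroup A, (∀ x ∈ X, B.map x.toMonoidHom = B) → (∀ b ∈ B, b ^ p = 1) → B = ⊥ ∨ ∀ a : A, a ∈ B ↔ a ^ p = 1)) := by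
  have hp : p.Prime := Fact.out
  have hinv : ∀ B : Subgroup A, (∀ x ∈ X, B.map x.toMonoidHom = B) ↔
      Coprime.InvBy X.subtype ⊤ B := fun B =>
    ⟨fun h x _ b hb => (h x x.2).le ⟨b, hb, rfl⟩, fun h x hx => Subgroup.eq_of_le_of_card_ge
      (by rintro _ ⟨b, hb, rfl⟩; exact h ⟨x, hx⟩ trivial b hb)
      (Subgroup.card_map_of_injective x.injective).ge⟩
  simp only [hinv]
  have hI : ∀ {B C : Subgroup A}, Coprime.InvBy X.subtype ⊤ B → Coprime.InvBy X.subtype ⊤ C →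
      Coprime.InvBy X.subtype ⊤ (B ⊓ C) :=
    fun hB hC x hx b hb => ⟨hB x hx b hb.1, hC x hx b hb.2⟩
  have hK : ∀ n : ℕ, Coprime.InvBy X.subtype ⊤ (powMonoidHom n : A →* A).ker :=
    fun n x _ b hb => by
      rw [MonoidHom.mem_ker, powMonoidHom_apply] at hb ⊢
      rw [← map_pow, hb, map_one]
  have hM : ∀ (n : ℕ) {B : Subgroup A}, Coprime.InvBy X.subtype ⊤ B →
      Coprime.InvBy X.subtype ⊤ (B.map (powMonoidHom n)) := by
    rintro n B hB x hx _ ⟨b, hb, rfl⟩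
    exact ⟨_, hB x hx b hb, by simp⟩
  have hO : ∀ B : Subgroup A, B ≠ ⊥ → B ⊓ (powMonoidHom p : A →* A).ker ≠ ⊥ := by
    intro B hB h
    obtain ⟨x, hx, ho⟩ := PGrp.exists_orderOf_eq_prime_of_ne_bot (hA.to_subgroup B) hB
    have : x ∈ B ⊓ (powMonoidHom p : A →* A).ker := ⟨hx, ho ▸ pow_orderOf_eq_one x⟩
    rw [h, Subgroup.mem_bot] at this
    rw [this, orderOf_one] at ho
    exact hp.one_lt.ne ho
  have hlt : ∀ B : Subgroup A, B ≠ ⊥ → B.map (powMonoidHom p) < B := by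
    intro B hB
    refine lt_of_le_of_ne (by rintro _ ⟨b, hb, rfl⟩; exact B.pow_mem hb p) fun e => hO B hB ?_
    have := Core.card_inf_ker_mul_card_map (powMonoidHom p : A →* A) B
    rw [e, Nat.mul_eq_right Nat.card_pos.ne', Subgroup.card_eq_one] at this
    rwa [inf_comm]
  have h32 : (∀ B : Subgroup A, Coprime.InvBy X.subtype ⊤ B → (∀ b ∈ B, b ^ p = 1) →
      B = ⊥ ∨ ∀ a : A, a ∈ B ↔ a ^ p = 1) → ∀ B : Subgroup A, Coprime.InvBy X.subtype ⊤ B →
      ∃ i : ℕ, ∀ a : A, a ∈ B ↔ a ^ p ^ i = 1 := by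
    intro h
    have key : ∀ C : Subgroup A, Coprime.InvBy X.subtype ⊤ C → ∀ B ≤ C,
        Coprime.InvBy X.subtype ⊤ B → ∃ i : ℕ, ∀ a ∈ C, a ∈ B ↔ a ^ p ^ i = 1 := by
      intro C
      induction C using Core.subgroup_induction_lt with
      | h C ih =>
      intro hC B hBC hB
      by_cases hb : B = ⊥
      · exact ⟨0, fun a _ => by simp [hb]⟩
      have h1 := (h _ (hI hB (hK p)) fun b hb => hb.2).resolve_left (hO B hb)
      obtain ⟨i, hi⟩ := ih _ (hlt C fun e => hb (le_bot_iff.mp (e ▸ hBC))) (hM p hC) _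
        (Subgroup.map_mono hBC) (hM p hB)
      refine ⟨i + 1, fun a ha => ?_⟩
      rw [pow_succ', pow_mul, ← powMonoidHom_apply p a, ← hi _ ⟨a, ha, rfl⟩]
      refine ⟨fun h => ⟨a, h, rfl⟩, fun ⟨b, hb, e⟩ => ?_⟩
      have h2 : b⁻¹ * a ∈ B := ((h1 _).mpr (by
        rw [← powMonoidHom_apply, map_mul, map_inv, e, inv_mul_cancel])).1
      exact (B.mul_mem_cancel_left (B.inv_mem hb)).mp h2
    intro B hB
    obtain ⟨i, hi⟩ := key ⊤ (fun _ _ _ _ => trivial) B le_top hB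
    exact ⟨i, fun a => hi a trivial⟩
  have h23 : (∀ B : Subgroup A, Coprime.InvBy X.subtype ⊤ B →
      ∃ i : ℕ, ∀ a : A, a ∈ B ↔ a ^ p ^ i = 1) → ∀ B : Subgroup A, Coprime.InvBy X.subtype ⊤ B →
      (∀ b ∈ B, b ^ p = 1) → B = ⊥ ∨ ∀ a : A, a ∈ B ↔ a ^ p = 1 := by
    intro h B hB hBp
    obtain ⟨i, hi⟩ := h B hB
    rcases i with _ | i
    · exact Or.inl (eq_bot_iff.mpr fun a ha => by simpa using (hi a).mp ha)
    · exact Or.inr fun a => ⟨hBp a, fun ha => (hi a).mpr (by rw [pow_succ', pow_mul, ha, one_pow])⟩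
  refine ⟨⟨fun h => h32 fun B hB hBp => ?_, fun h => ?_⟩, h23, h32⟩
  · by_cases hb : B = ⊥
    · exact Or.inl hb
    refine Or.inr fun a => ⟨hBp a, fun ha => ?_⟩
    obtain ⟨n, hn, hn'⟩ : ∃ n, (∀ x : A, x ^ p ^ (n + 1) = 1) ∧
        ¬ (⊤ : Subgroup A) ≤ (powMonoidHom (p ^ n)).ker := by
      classical
      obtain ⟨k, hk⟩ := hA.exists_card_eq
      have hex : ∃ k, ∀ x : A, x ^ p ^ k = 1 := ⟨k, fun x => hk ▸ pow_card_eq_one'⟩
      have h0 : Nat.find hex ≠ 0 := fun e => hb (eq_bot_iff.mpr fun x _ => by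
        simpa [e] using Nat.find_spec hex x)
      obtain ⟨n, hn⟩ := Nat.exists_eq_succ_of_ne_zero h0
      exact ⟨n, by simpa [hn] using Nat.find_spec hex, fun h =>
        Nat.find_min hex (hn ▸ n.lt_succ_self) fun x => h (Subgroup.mem_top x)⟩
    obtain ⟨P, -, ⟨hP, hP'⟩, hmin⟩ := Core.exists_minimal_le
      (P := fun P => Coprime.InvBy X.subtype ⊤ P ∧ ¬ P ≤ (powMonoidHom (p ^ n)).ker) (H := ⊤)
      ⟨fun _ _ _ _ => trivial, hn'⟩
    have hcop : ∀ {Y : Type _} [Group Y] [Finite Y] (U : Subgroup Y), IsPGroup p U →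
        (Nat.card (⊤ : Subgroup X)).Coprime (Nat.card U) := fun U hU => by
      obtain ⟨k, hk⟩ := hU.exists_card_eq
      rw [hk, Subgroup.card_top]
      exact hX.pow_right k
    have h1 : P ⊓ (powMonoidHom (p ^ n)).ker ≤ P.map (powMonoidHom p) := by
      set F := P.map (powMonoidHom p)
      have hFP : F ≤ P := by rintro _ ⟨b, hb, rfl⟩; exact P.pow_mem hb p
      have hFK : F ≤ (powMonoidHom (p ^ n)).ker := by
        rintro _ ⟨b, -, rfl⟩
        rw [MonoidHom.mem_ker, powMonoidHom_apply, powMonoidHom_apply, ← pow_mul, ← pow_succ', hn]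
      let φ := Coprime.quotAutHom X.subtype F fun x => hM p hP x trivial
      have hφ : ∀ {U : Subgroup A}, Coprime.InvBy X.subtype ⊤ U →
          Coprime.InvBy φ ⊤ (U.map (QuotientGroup.mk' F)) := by
        rintro U hU x - _ ⟨u, hu, rfl⟩
        exact ⟨_, hU x trivial u hu, rfl⟩
      obtain ⟨W, -, h2, h3⟩ := PGrp.exists_compl_of_le (p := p) (A := P.map (QuotientGroup.mk' F))
        ⟨inferInstance, by
          rintro _ ⟨u, hu, rfl⟩
          rw [← map_pow, QuotientGroup.mk'_apply, QuotientGroup.eq_one_iff]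
          exact ⟨u, hu, rfl⟩⟩
        (Subgroup.map_mono (inf_le_left : P ⊓ (powMonoidHom (p ^ n)).ker ≤ P))
      obtain ⟨W, h4, h5, h6⟩ := Coprime.act_maschke φ inferInstance (hφ hP) (hφ (hI hP (hK _)))
        (hcop _ ((hA.to_quotient F).to_subgroup _)) h2 h3
      have h7 := congrArg (Subgroup.comap (QuotientGroup.mk' F)) h6
      rw [← Subgroup.map_comap_eq_self_of_surjective (QuotientGroup.mk'_surjective F) W,
        ← Subgroup.map_sup, Core.comap_map_mk, Core.comap_map_mk, sup_eq_left.mpr hFP] at h7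
      have h8 := hmin (W.comap (QuotientGroup.mk' F)) ⟨fun x _ w hw => h4 x trivial _ hw,
        fun h => hP' (h7 ▸ sup_le (sup_le inf_le_right h) hFK)⟩
        ((le_sup_right.trans le_sup_left).trans h7.le)
      intro x hx
      rw [← QuotientGroup.eq_one_iff, ← Subgroup.mem_bot, ← h5]
      exact ⟨⟨x, hx, rfl⟩, h8.ge hx.1⟩
    obtain ⟨C, -, hC, hmax⟩ := Core.exists_maximal_ge (P := fun C => P ⊓ C = ⊥) (inf_bot_eq P)
    have h2 : P ⊔ C = ⊤ := by
      by_contra h2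
      obtain ⟨x, hx, hx'⟩ : ∃ x, x ∉ P ⊔ C ∧ x ^ p ∈ P ⊔ C := by
        obtain ⟨x, hx, ho⟩ := PGrp.exists_orderOf_eq_prime_of_ne_bot
          ((hA.to_quotient (P ⊔ C)).to_subgroup ⊤)
          (have := QuotientGroup.nontrivial_iff.mpr h2; top_ne_bot)
        obtain ⟨x, rfl⟩ := QuotientGroup.mk_surjective x
        refine ⟨x, fun h => ?_, ?_⟩
        · rw [(QuotientGroup.eq_one_iff x).mpr h, orderOf_one] at ho
          exact hp.one_lt.ne ho
        · rw [← QuotientGroup.eq_one_iff, QuotientGroup.mk_pow, ← ho, pow_orderOf_eq_one]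
      obtain ⟨y, hy, c, hc, e⟩ := Subgroup.mem_sup.mp hx'
      have h3 : y ^ p ^ n ∈ P ⊓ C := ⟨P.pow_mem hy _, by
        have : y ^ p ^ n * c ^ p ^ n = 1 := by rw [← mul_pow, e, ← pow_mul, ← pow_succ', hn]
        rw [eq_inv_of_mul_eq_one_left this]
        exact C.inv_mem (C.pow_mem hc _)⟩
      rw [hC] at h3
      obtain ⟨z, hz, rfl⟩ := h1 ⟨hy, h3⟩
      have h4 : z⁻¹ * x ∉ P ⊔ C := fun h =>
        hx ((Subgroup.mul_mem_cancel_left _ (Subgroup.mem_sup_left (P.inv_mem hz))).mp h)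
      have h5 : (z⁻¹ * x) ^ p ∈ C := by
        rw [mul_pow, ← e, powMonoidHom_apply, inv_pow, inv_mul_cancel_left]; exact hc
      refine h4 (Subgroup.mem_sup_right ((hmax (C ⊔ Subgroup.zpowers (z⁻¹ * x)) ?_ le_sup_left).le
        (Subgroup.mem_sup_right (Subgroup.mem_zpowers _))))
      rw [eq_bot_iff]
      rintro w ⟨hw, hw'⟩
      obtain ⟨d, hd, v, hv, rfl⟩ := Subgroup.mem_sup.mp hw'
      obtain ⟨k, rfl⟩ := mem_powers_iff_mem_zpowers.mpr hv
      by_cases hk : p ∣ k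
      · obtain ⟨k, rfl⟩ := hk
        exact hC ▸ ⟨hw, C.mul_mem hd (by simp only [pow_mul]; exact C.pow_mem h5 k)⟩
      · refine (h4 (Subgroup.zpowers_le.mpr ((Subgroup.mul_mem_cancel_left _
          (Subgroup.mem_sup_right hd)).mp (Subgroup.mem_sup_left hw))
          (mem_zpowers_pow_iff.mpr ?_))).elim
        obtain ⟨j, hj⟩ := IsPGroup.iff_orderOf.mp hA (z⁻¹ * x)
        rw [hj]
        exact (hp.coprime_iff_not_dvd.mpr hk).symm.pow_right j
    obtain ⟨W, h3, h4, h5⟩ := Coprime.act_maschke X.subtype (V := ⊤) inferInstance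
      (fun _ _ _ _ => trivial) hP
      (hcop _ (hA.to_subgroup _)) hC h2
    have h6 : P = ⊤ := by
      by_contra h6
      exact h ⟨P, W, fun e => hP' (e ▸ bot_le), fun e => h6 (by rwa [e, sup_bot_eq] at h5), hP, h3,
        h4, h5⟩
    subst h6
    have h7 : ∀ a : A, a ^ p = 1 → ∀ j ≤ n, ∃ b, a = b ^ p ^ j := by
      intro a ha j
      induction j with
      | zero => exact fun _ => ⟨a, by simp⟩
      | succ j ih =>
        intro hj
        obtain ⟨b, rfl⟩ := ih (by omega)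
        obtain ⟨c, -, rfl⟩ := h1 ⟨trivial, show b ^ p ^ n = 1 by
          obtain ⟨i, rfl⟩ := Nat.exists_eq_add_of_le hj
          rw [pow_add, pow_mul, pow_succ, pow_mul, ha, one_pow]⟩
        exact ⟨c, by rw [powMonoidHom_apply, ← pow_mul, pow_succ']⟩
    have h8 := hmin (B.comap (powMonoidHom (p ^ n))) ⟨fun x _ b hb => by
      rw [Subgroup.mem_comap, powMonoidHom_apply] at hb ⊢
      rw [← map_pow]
      exact hB x trivial _ hb, fun h => hb (eq_bot_iff.mpr fun b hb => by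
        obtain ⟨c, rfl⟩ := h7 b (hBp b hb) n le_rfl
        exact h hb)⟩ le_top
    obtain ⟨b, rfl⟩ := h7 a ha n le_rfl
    exact h8.ge (Subgroup.mem_top b)
  · rintro ⟨B, C, hB, hC, h1, h2, h3, -⟩
    have h4 := (h23 h _ (hI h1 (hK p)) fun b hb => hb.2).resolve_left (hO B hB)
    have h5 := (h23 h _ (hI h2 (hK p)) fun b hb => hb.2).resolve_left (hO C hC)
    exact hO B hB (eq_bot_iff.mpr (h3 ▸ fun a ha => ⟨ha.1, ((h5 a).mpr ha.2).1⟩))

end Cfsg.Agent.S3775
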