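import Cfsg.Statements.S3778
import Mathlib
import Cfsg.Agent.Lib.Reg.IterComm
import Cfsg.Agent.Lib.Cls.Basic

set_option autoImplicit false
open Cfsg

namespace Cfsg.Agent.S3778

open scoped commutatorElement in
/-- elements commuting with `x` modulo `N` -/
def cmod {G : Type*} [Group G] (N : Subgroup G) [N.Normal] (x : G) : Subgroup G :=
  (Subgroup.centralizer {(x : G ⧸ N)}).comap (QuotientGroup.mk' N)

open scoped commutatorElement in
theorem mem_cmod {G : Type*} [Group G] {N : Subgroup G} [N.Normal] {x y : G} :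
    y ∈ cmod N x ↔ ⁅y, x⁆ ∈ N := by
  rw [cmod, Subgroup.mem_comap, Subgroup.mem_centralizer_singleton_iff, ← QuotientGroup.eq_one_iff,
    ← commutatorElement_eq_one_iff_mul_comm]
  rfl

/-- If G is a finite p-group in which every conjugacy class has at most p^b elements (every element has centralizer of index at most p^b), then G is abelian when b = 0, and when b ≥ 1 its nilpotency class c satisfies (c − 1)(p − 1) < bp, that is c < bp/(p − 1) + 1, and hence c ≤ 2b. -/
theorem result {G : Type*} [Group G] [Finite G] {p : ℕ} [Fact p.Prime] (hG : IsPGroup p G) (b : ℕ) (hb : ∀ x : G, (Subgroup.centralizer ({x} : Set G)).index ≤ p ^ b) : ∃ c : ℕ, (⊤ : Subgroup G).lowerCentralSeries c = ⊥ ∧ (b ≠ 0 → (c - 1) * (p - 1) < b * p ∧ c ≤ 2 * b) ∧ (b = 0 → c ≤ 1) := by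
  classical
  have hp := (Fact.out : p.Prime)
  have := hG.isNilpotent
  have hex := Subgroup.nilpotent_iff_lowerCentralSeries.mp this
  refine ⟨Nat.find hex, Nat.find_spec hex, ?_, ?_⟩
  swap
  · rintro rfl
    apply Nat.find_min'
    rw [Subgroup.top_lowerCentralSeries_one, commutator_eq_bot_iff_center_eq_top, eq_top_iff]
    intro x _
    rw [← Cls.index_centralizer_eq_one_iff]
    have h1 := hb x
    have h2 : (Subgroup.centralizer ({x} : Set G)).index ≠ 0 := Subgroup.index_ne_zero_of_finite
    rw [pow_zero] at h1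
    omega
  intro hb0
  set c := Nat.find hex with hc
  have hcs : (⊤ : Subgroup G).lowerCentralSeries c = ⊥ := Nat.find_spec hex
  let γ : ℕ → Subgroup G := (⊤ : Subgroup G).lowerCentralSeries
  -- `D j` : elements centralizing `γ j` modulo `γ (j + 2)`
  let D : ℕ → Subgroup G := fun j => ⨅ y ∈ γ j, (cmod (γ (j + 2)) y)
  have hD : ∀ j, j + 2 ≤ c → D j ≠ ⊤ := by
    intro j hj h
    have h1 : γ (j + 1) ≠ ⊥ := Nat.find_min hex (by omega)
    refine (PGrp.commutator_top_lt hG h1).not_ge ?_
    change ⁅γ j, ⊤⁆ ≤ γ (j + 2)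
    rw [Subgroup.commutator_comm, Subgroup.commutator_le]
    intro x _ y hy
    have : x ∈ D j := h ▸ Subgroup.mem_top x
    exact mem_cmod.mp (Subgroup.mem_iInf.mp (Subgroup.mem_iInf.mp this y) hy)
  have := Fintype.ofFinite G
  have hcount : ∀ x : G, ∀ k, p ^ ((Finset.range k).filter fun j => x ∉ D j).card ≤
      (cmod (γ (k + 1)) x).index := by
    intro x k
    induction k with
    | zero => exact Nat.pos_of_ne_zero Subgroup.index_ne_zero_of_finite
    | succ k ih =>
      have hle : cmod (γ (k + 1 + 1)) x ≤ cmod (γ (k + 1)) x := fun y hy =>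
        mem_cmod.mpr (Subgroup.lowerCentralSeries_antitone _ (by omega) (mem_cmod.mp hy))
      rw [Finset.range_add_one, Finset.filter_insert]
      split_ifs with h
      swap
      · rw [Finset.card_insert_of_notMem (by simp), pow_succ', ← Subgroup.relIndex_mul_index hle]
        refine Nat.mul_le_mul (Nat.le_of_dvd (Nat.pos_of_ne_zero Subgroup.index_ne_zero_of_finite)
          (PGrp.dvd_relIndex_of_not_le (hG.to_subgroup _) fun h' => h ?_)) ih
        refine Subgroup.mem_iInf.mpr fun y => Subgroup.mem_iInf.mpr fun hy => mem_cmod.mpr ?_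
        rw [← commutatorElement_inv]
        exact Subgroup.inv_mem _ (mem_cmod.mp (h' (mem_cmod.mpr
          (Subgroup.commutator_mem_commutator hy (Subgroup.mem_top x)))))
      · exact ih.trans (Nat.le_of_dvd (Nat.pos_of_ne_zero Subgroup.index_ne_zero_of_finite)
          (Subgroup.index_dvd_of_le hle))
  have hle : ∀ x : G, ((Finset.range (c - 1)).filter fun j => x ∉ D j).card ≤ b := by
    intro x
    rw [← Nat.pow_le_pow_iff_right hp.one_lt]
    refine (hcount x (c - 1)).trans (le_trans ?_ (hb x))
    refine Nat.le_of_dvd (Nat.pos_of_ne_zero Subgroup.index_ne_zero_of_finite) ?_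
    rw [show cmod (γ (c - 1 + 1)) x = Subgroup.centralizer {x} from ?_]
    ext y
    have : γ (c - 1 + 1) = ⊥ := eq_bot_iff.mpr
      ((Subgroup.lowerCentralSeries_antitone _ (by omega)).trans hcs.le)
    rw [mem_cmod, this, Subgroup.mem_bot, commutatorElement_eq_one_iff_mul_comm,
      Subgroup.mem_centralizer_singleton_iff]
  have hsum : ∑ x : G, ((Finset.range (c - 1)).filter fun j => x ∉ D j).card < Nat.card G * b := by
    rw [Nat.card_eq_fintype_card, ← smul_eq_mul, ← Finset.card_univ, ← Finset.sum_const]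
    refine Finset.sum_lt_sum (fun x _ => hle x) ⟨1, Finset.mem_univ _, ?_⟩
    simpa using Nat.pos_of_ne_zero hb0
  have hsum2 : (c - 1) * ((p - 1) * Nat.card G) ≤
      p * ∑ x : G, ((Finset.range (c - 1)).filter fun j => x ∉ D j).card := by
    have e := Finset.sum_card_bipartiteAbove_eq_sum_card_bipartiteBelow (fun x j => x ∉ D j)
      (s := Finset.univ) (t := Finset.range (c - 1))
    simp only [Finset.bipartiteAbove] at e
    rw [e, Finset.mul_sum]
    refine le_trans (le_of_eq ?_) (Finset.card_nsmul_le_sum _ _ ((p - 1) * Nat.card G) ?_)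
    · simp
    · intro j hj
      have h1 := PGrp.mul_card_dvd_of_lt (hG.to_subgroup ⊤)
        (lt_top_iff_ne_top.mpr (hD j (by simp at hj; omega)))
      rw [Subgroup.card_top] at h1
      have h2 := Nat.le_of_dvd Nat.card_pos h1
      have h3 : (Finset.bipartiteBelow (fun x j => x ∉ D j) Finset.univ j).card + Nat.card (D j) =
          Nat.card G := by
        rw [Nat.card_eq_fintype_card (α := G), Nat.card_eq_fintype_card, Fintype.card_subtype,
          Finset.bipartiteBelow, add_comm, Finset.card_filter_add_card_filter_not, Finset.card_univ]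
      obtain ⟨q, rfl⟩ : ∃ q, p = q + 1 := ⟨p - 1, by have := hp.pos; omega⟩
      simp only [Nat.add_sub_cancel]
      nlinarith
  have h1 : (c - 1) * (p - 1) < b * p := by
    have h2 := hsum2.trans_lt (Nat.mul_lt_mul_of_pos_left hsum hp.pos)
    have h3 : (c - 1) * (p - 1) * Nat.card G < b * p * Nat.card G := by
      calc _ = (c - 1) * ((p - 1) * Nat.card G) := by ring
        _ < _ := h2
        _ = _ := by ring
    exact Nat.lt_of_mul_lt_mul_right h3
  refine ⟨h1, ?_⟩
  obtain ⟨q, rfl⟩ : ∃ q, p = q + 2 := ⟨p - 2, by have := hp.two_le; omega⟩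
  by_contra h
  have h2 : 2 * b ≤ c - 1 := by omega
  have h3 := (Nat.mul_le_mul_right (q + 2 - 1) h2).trans_lt h1
  simp only [show q + 2 - 1 = q + 1 by omega] at h3
  nlinarith

end Cfsg.Agent.S3778
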