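import Cfsg.Statements.S3779
import Mathlib
import Cfsg.Agent.Lib.Reg.Higman
import Cfsg.Agent.Lib.Transfer.Fpf

set_option autoImplicit false
open Cfsg

namespace Cfsg.Agent.S3779

/-- Let G be a finite group with an automorphism of prime order p fixing only the identity. Then G is nilpotent; if p = 2 then G is abelian, if p = 3 then G has class at most 2, and in general the class of G is at most ξ = 1 + (p−1) + (p−1)² + ⋯ + (p−1)^(n−1) with n = 2^(p−1) − 1 (the Higman–Kreknin–Kostrikin bound). -/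
theorem result {G : Type*} [Group G] [Finite G] {p : ℕ} (hp : p.Prime) (α : MulAut G) (hα : orderOf α = p) (hfpf : ∀ g : G, α g = g → g = 1) : (p = 2 → (⊤ : Subgroup G).lowerCentralSeries 1 = ⊥) ∧ (p = 3 → (⊤ : Subgroup G).lowerCentralSeries 2 = ⊥) ∧ (⊤ : Subgroup G).lowerCentralSeries (Finset.sum (Finset.range (2 ^ (p - 1) - 1)) (fun i => (p - 1) ^ i)) = ⊥ := by
  have : Fact p.Prime := ⟨hp⟩
  have h1 : α ^ p = 1 := by rw [← hα, pow_orderOf_eq_one]
  have h2 := Transfer.isNilpotent_of_fixedPointFree_aut hp α h1 hfpf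
  have h3 : (Nat.card (⊤ : Subgroup G)).Coprime p := by
    have h4 := Reg.card_modEq_card_fixed h1
    have h5 : Nat.card {g : G // α g = g} = 1 :=
      Nat.card_eq_one_iff_exists.mpr ⟨⟨1, map_one α⟩, fun g => Subtype.ext (hfpf _ g.2)⟩
    rw [h5] at h4
    rw [Subgroup.card_top, Nat.Coprime, h4.gcd_eq, Nat.gcd_one_left]
  have h4 := Reg.lowerCentralSeries_higmanBound_eq_bot (H := ⊤) h1 (fun _ _ => trivial)
    (fun g _ => hfpf g) h3
  refine ⟨?_, ?_, ?_⟩
  · rintro rfl
    simpa [Reg.higmanBound] using h4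
  · rintro rfl
    simpa [Reg.higmanBound] using h4
  · refine eq_bot_iff.mpr (le_trans (Subgroup.lowerCentralSeries_antitone _ ?_) h4.le)
    unfold Reg.higmanBound
    split_ifs with h
    · subst h; decide
    · exact le_rfl

end Cfsg.Agent.S3779
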