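import Cfsg.Statements.S3780
import Mathlib
import Cfsg.Agent.Lib.PGrp.Frattini

set_option autoImplicit false
open Cfsg

namespace Cfsg.Agent.S3780

theorem card_ker_pow_le {R A : Type*} [Ring R] [AddCommGroup A] [Module R A] [Finite A]
    (f : Module.End R A) (k : ℕ) :
    Nat.card (LinearMap.ker (f ^ k)) ≤ Nat.card (LinearMap.ker f) ^ k := by
  induction k with
  | zero =>
    have : LinearMap.ker (f ^ 0) = ⊥ := by ext; simp
    rw [this]; simp
  | succ k ih =>
    let g : LinearMap.ker (f ^ (k + 1)) →+ LinearMap.ker (f ^ k) :=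
      ((f.comp (Submodule.subtype _)).codRestrict _ fun x => by
        obtain ⟨x, hx⟩ := x
        rwa [LinearMap.mem_ker, pow_succ] at hx).toAddMonoidHom
    rw [← g.ker.card_mul_index, AddSubgroup.index_ker, pow_succ' (Nat.card _)]
    refine Nat.mul_le_mul ?_ ((AddSubgroup.card_le_card_addGroup _).trans ih)
    exact Nat.card_le_card_of_injective
      (fun x => (⟨x.1.1, congrArg Subtype.val x.2⟩ : LinearMap.ker f))
      fun x y h => Subtype.ext (Subtype.ext (Subtype.ext_iff.mp h :))

/-- Let V be a finite abelian p-group and α an automorphism of V of order p whose fixed-point subgroup has order p^n. Then V can be generated by pn elements: some subset of V with at most pn elements generates V. -/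
theorem result {V : Type*} [CommGroup V] [Finite V] {p : ℕ} [Fact p.Prime] (hV : IsPGroup p V) (α : MulAut V) (hα : orderOf α = p) (n : ℕ) (hfix : Nat.card {v : V // α v = v} = p ^ n) : ∃ S : Finset V, S.card ≤ p * n ∧ Subgroup.closure (S : Set V) = ⊤ := by
  have hp := (Fact.out : p.Prime)
  obtain ⟨d, hd⟩ := hV.index (frattini V)
  obtain ⟨S, hS, hS'⟩ := PGrp.exists_generators_card_eq hV hd
  refine ⟨S, ?_, hS'⟩
  rw [hS, ← Nat.pow_le_pow_iff_right hp.one_lt, ← hd, mul_comm, pow_mul, ← hfix]
  let a : Module.End ℤ (Additive V) := (MonoidHom.toAdditive α.toMonoidHom).toIntLinearMap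
  have ha : ∀ k : ℕ, ∀ v : V, (a ^ k) (Additive.ofMul v) = Additive.ofMul ((α ^ k) v) := by
    intro k
    induction k with
    | zero => simp
    | succ k ih => intro v; rw [pow_succ, pow_succ]; exact ih (α v)
  have ha1 : a ^ p = 1 := by
    ext v
    have := ha p v.toMul
    rw [← hα, pow_orderOf_eq_one, hα] at this
    exact this
  obtain ⟨s, hs⟩ : ∃ s, (a - 1) ^ p = p * s := by
    have h := Commute.add_pow_prime_eq hp (Commute.one_right (a - 1))
    rw [sub_add_cancel, ha1, one_pow, add_right_comm, right_eq_add, add_eq_zero_iff_eq_neg,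
      mul_assoc, mul_assoc, ← mul_neg] at h
    exact ⟨_, h⟩
  have h1 : (powMonoidHom p : V →* V).range ≤ frattini V := by
    rintro _ ⟨x, rfl⟩
    exact PGrp.pow_mem_frattini hV x
  have h2 : (frattini V).index ≤ Nat.card (powMonoidHom p : V →* V).ker := by
    rw [← Subgroup.index_range]
    exact Nat.le_of_dvd (Nat.pos_of_ne_zero Subgroup.index_ne_zero_of_finite)
      (Subgroup.index_dvd_of_le h1)
  have h3 : Nat.card (powMonoidHom p : V →* V).ker ≤ Nat.card (LinearMap.ker ((a - 1) ^ p)) := by
    refine Nat.card_le_card_of_injective (fun x => ⟨Additive.ofMul x.1, ?_⟩)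
      fun x y h => Subtype.ext (Subtype.ext_iff.mp h :)
    have hx : p • Additive.ofMul x.1 = 0 := x.2
    rw [LinearMap.mem_ker, hs, Module.End.mul_apply, Module.End.natCast_apply, ← map_nsmul, hx,
      map_zero]
  refine h2.trans (h3.trans ((card_ker_pow_le _ p).trans (le_of_eq ?_)))
  congr 1
  refine Nat.card_congr (Equiv.subtypeEquiv Additive.toMul fun v => ?_)
  rw [LinearMap.mem_ker]
  exact sub_eq_zero

end Cfsg.Agent.S3780
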