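import Cfsg.Statements.S3781
import Mathlib
import Cfsg.Agent.Lib.Reg.IterComm

set_option autoImplicit false
open Cfsg

namespace Cfsg.Agent.S3781

/-- Let G be a finite p-group and n ≥ 1, and write γ_1(G) = G, γ_{k+1}(G) = [γ_k(G), G], and likewise γ_k(N) for a subgroup N. Let N be a normal subgroup of G contained in γ_n(G). If i > 1 and γ_{i+1}(N) ≠ 1, then |γ_i(N) : γ_{i+1}(N)| ≥ p^n. -/
theorem result {G : Type*} [Group G] [Finite G] {p : ℕ} [Fact p.Prime] (hG : IsPGroup p G) (n : ℕ) (hn : 1 ≤ n) (N : Subgroup G) [N.Normal] (hN : N ≤ (⊤ : Subgroup G).lowerCentralSeries (n - 1)) (i : ℕ) (hi : 1 < i) (hne : N.lowerCentralSeries i ≠ ⊥) : p ^ n ≤ (N.lowerCentralSeries i).relIndex (N.lowerCentralSeries (i - 1)) := by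
  obtain ⟨i, rfl⟩ : ∃ j, i = j + 1 := ⟨i - 1, by omega⟩
  obtain ⟨n, rfl⟩ : ∃ j, n = j + 1 := ⟨n - 1, by omega⟩
  simp only [Nat.add_sub_cancel] at hN ⊢
  have hle : N.lowerCentralSeries (i + 1) ≤ N.lowerCentralSeries i :=
    N.lowerCentralSeries_antitone (by omega)
  have h1 : N.lowerCentralSeries (i + 1) ≤ Cfsg.iterCommutator (N.lowerCentralSeries i) ⊤ (n + 1) :=
    (Subgroup.commutator_mono le_rfl hN).trans
      (Reg.commutator_lowerCentralSeries_le_iterCommutator _ ⊤ n)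
  have h2 := Reg.card_mul_pow_le_of_iterCommutator_not_le hG (N.lowerCentralSeries (i + 1)) n
    (N.lowerCentralSeries i) hle fun h =>
      (PGrp.commutator_top_lt hG hne).not_ge (h1.trans (Subgroup.commutator_mono h le_rfl))
  rw [← PGrp.card_mul_relIndex hle] at h2
  exact Nat.le_of_mul_le_mul_left h2 Nat.card_pos

end Cfsg.Agent.S3781
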