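import Cfsg.Statements.S3782
import Mathlib
import Cfsg.Agent.Lib.Reg.AlperinAut
import Cfsg.Agent.Lib.Transfer.Fpf
import Cfsg.Agent.Lib.Core.Fitting

set_option autoImplicit false
open Cfsg

namespace Cfsg.Agent.S3782

/-- Alperin's Theorem: for each prime p and each n ≥ 0 there is an integer l such that every finite solvable group admitting an automorphism of order p with exactly p^n fixed points has derived length at most l. -/
theorem result (p : ℕ) (hp : p.Prime) (n : ℕ) : ∃ l : ℕ, ∀ (G : Type) [Group G] [Finite G], Group.IsSolvable G → ∀ α : MulAut G, orderOf α = p → Nat.card {g : G // α g = g} = p ^ n → derivedSeries G l = ⊥ := by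
  have : Fact p.Prime := ⟨hp⟩
  obtain ⟨l, hl⟩ := Reg.exists_derivedSeries_eq_bot_of_isPGroup p n
  refine ⟨((p ^ n) ^ (p * 1)).factorial + l + Reg.higmanBound p, fun G _ _ hG α hα hn => ?_⟩
  have h1 : α ^ p = 1 := by rw [← hα, pow_orderOf_eq_one]
  refine Reg.derivedSeries_add_eq_bot (N := pPrimeCore p G) ?_ ?_
  · set G' := G ⧸ pPrimeCore p G
    set β := PGrp.quotientAutHom (pPrimeCore p G) α with hβ
    have hβ1 : β ^ p = 1 := by rw [hβ, ← map_pow, h1, map_one]
    have hβ2 := (Reg.card_fixed_quotient_le (pPrimeCore p G) α).trans hn.le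
    set Q := pCore p G'
    have hQ : IsPGroup p Q := Core.isPGroup_pCore p
    set γ := MulAut.characteristic Q β with hγ
    have hγ1 : γ ^ p = 1 := by rw [hγ, ← map_pow, hβ1, map_one]
    have hγ2 := (Reg.card_fixed_characteristic_le Q β).trans hβ2
    let θ : G' →* MulAut (Q ⧸ frattini Q) :=
      (PGrp.quotientAutHom (frattini Q)).comp MulAut.conjNormal
    have hθ : θ.ker ≤ Q := by
      refine Core.le_pCore ?_
      rw [← MonoidHom.comap_ker]
      refine (PGrp.isPGroup_ker_quotientAutHom_frattini hQ).comap_of_ker_isPGroup _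
        (hQ.to_le (le_trans (fun g hg => ?_)
          (Core.centralizer_pCore_le Core.pPrimeCore_quotient_pPrimeCore)))
      refine Subgroup.mem_centralizer_iff.mpr fun x hx => ?_
      have h2 : g * x * g⁻¹ = x := congrArg Subtype.val (DFunLike.congr_fun hg (⟨x, hx⟩ : Q))
      rw [← mul_inv_eq_iff_eq_mul.mp h2]
    have h2 := (Reg.card_le_card_mul_card_fixed_pow hγ1 (M := ⊤) (K := frattini Q)
      (fun _ _ => trivial) (fun x hx =>
        (Subgroup.characteristic_iff_le_comap.mp inferInstance γ) hx) le_top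
      (PGrp.commutator_le_frattini hQ) (e := 1)
      (fun x _ => by rw [pow_one]; exact PGrp.pow_mem_frattini hQ x)).trans
        (Nat.mul_le_mul_left _ (Nat.pow_le_pow_left hγ2 _))
    rw [Subgroup.card_top, ← (frattini Q).card_mul_index] at h2
    have h3 : Nat.card (Q ⧸ frattini Q) ≤ (p ^ n) ^ (p * 1) :=
      Nat.le_of_mul_le_mul_left h2 Nat.card_pos
    refine Reg.derivedSeries_add_eq_bot (N := Q) (Reg.derivedSeries_eq_bot_of_card_le ?_)
      (hl Q hQ γ hγ1 hγ2)
    calc Nat.card (G' ⧸ Q) ≤ θ.ker.index :=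
          Nat.le_of_dvd (Nat.pos_of_ne_zero Subgroup.index_ne_zero_of_finite)
            (Subgroup.index_dvd_of_le hθ)
      _ ≤ Nat.card (MulAut (Q ⧸ frattini Q)) := by
          rw [Subgroup.index_ker]; exact Subgroup.card_le_card_group _
      _ ≤ Nat.card (Equiv.Perm (Q ⧸ frattini Q)) :=
          Nat.card_le_card_of_injective _ MulEquiv.toEquiv_injective
      _ ≤ _ := by rw [Nat.card_perm]; exact Nat.factorial_le h3
  · set K := pPrimeCore p G
    have hK : (Nat.card K).Coprime p := Core.coprime_card_pPrimeCore p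
    set β := MulAut.characteristic K α with hβ
    have hβ1 : β ^ p = 1 := by rw [hβ, ← map_pow, h1, map_one]
    have hf : ∀ g : K, β g = g → g = 1 := fun g hg => by
      have h2 : orderOf (g : G) ∣ p ^ n := hn ▸ Subgroup.orderOf_dvd_natCard
        (α.toMonoidHom.eqLocus (MonoidHom.id G)) (congrArg Subtype.val hg)
      rw [Subgroup.orderOf_coe] at h2
      exact orderOf_eq_one_iff.mp
        (Nat.eq_one_of_dvd_coprimes (hK.pow_right n) (orderOf_dvd_natCard g) h2)
    have := Transfer.isNilpotent_of_fixedPointFree_aut hp β hβ1 hf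
    refine eq_bot_iff.mpr ((Subgroup.derived_le_lower_central _).trans (le_of_eq ?_))
    exact Reg.lowerCentralSeries_higmanBound_eq_bot (H := ⊤) hβ1 (fun _ _ => trivial)
      (fun g _ => hf g) (by rwa [Subgroup.card_top])

end Cfsg.Agent.S3782
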