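import Cfsg.Statements.S3785
import Mathlib
import Cfsg.Agent.Lib.Core.Subnormal
import Cfsg.Agent.Lib.PGrp.Critical

set_option autoImplicit false
open Cfsg

namespace Cfsg.Agent.S3785

open Subgroup Cfsg.Agent.Core

/-- Let G be a finite solvable group whose Fitting subgroup F(G) has odd order. If an element g of G commutes with every element of prime order of F(G), then g ∈ F(G). -/
theorem result {G : Type*} [Group G] [Finite G] (hG : Group.IsSolvable G) (hodd : Odd (Nat.card (Cfsg.fittingSubgroup G))) (g : G) (hg : ∀ x ∈ Cfsg.fittingSubgroup G, (orderOf x).Prime → g * x = x * g) : g ∈ Cfsg.fittingSubgroup G := by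
  set C := centralizer {x : G | x ∈ fittingSubgroup G ∧ (orderOf x).Prime} with hC
  have hCn : C.Normal := by
    refine ⟨fun w hw a z hz => ?_⟩
    have h1 : a⁻¹ * z * a⁻¹⁻¹ ∈ {x : G | x ∈ fittingSubgroup G ∧ (orderOf x).Prime} := by
      refine ⟨(inferInstance : (fittingSubgroup G).Normal).conj_mem z hz.1 a⁻¹, ?_⟩
      rw [← MulAut.conj_apply, MulEquiv.orderOf_eq]
      exact hz.2
    have h2 := hw _ h1
    calc z * (a * w * a⁻¹) = a * (a⁻¹ * z * a⁻¹⁻¹ * w) * a⁻¹ := by group
      _ = a * (w * (a⁻¹ * z * a⁻¹⁻¹)) * a⁻¹ := by rw [h2]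
      _ = a * w * a⁻¹ * z := by group
  have hgC : g ∈ C := fun x hx => (hg x hx.1 hx.2).symm
  -- an `r`-subgroup of `C` centralizes `O_q(G)` for `q ≠ r`
  have key : ∀ (q r : ℕ) [Fact q.Prime] [Fact r.Prime], q ≠ r → ∀ R : Subgroup G, IsPGroup r R →
      R ≤ C → R ≤ centralizer (pCore q G : Set G) := by
    intro q r hq hr hqr R hR hRC
    by_cases hq2 : q = 2
    · subst hq2
      have : pCore 2 G = ⊥ := by
        by_contra hne
        obtain ⟨k, hk⟩ := IsPGroup.iff_card.1 (isPGroup_pCore (G := G) 2)
        have h0 : k ≠ 0 := by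
          rintro rfl
          exact hne (Subgroup.card_eq_one.1 (by simpa using hk))
        have h2 : 2 ∣ Nat.card (fittingSubgroup G) :=
          (hk ▸ dvd_pow_self 2 h0 : 2 ∣ Nat.card (pCore 2 G)).trans
            (card_dvd_of_le (pCore_le_fitting 2))
        exact (Nat.not_even_iff_odd.2 hodd) (even_iff_two_dvd.2 h2)
      rw [this]
      intro x _ y hy
      rw [SetLike.mem_coe, mem_bot] at hy
      rw [hy, one_mul, mul_one]
    · refine PGrp.le_centralizer_of_omega_odd hq2 (isPGroup_pCore q)
        (by rw [normalizer_eq_top]; exact le_top)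
        (IsPGroup.coprime_card_of_ne r q hqr.symm _ _ hR (isPGroup_pCore q)) fun x hx hxq => ?_
      by_cases hx1 : x = 1
      · rw [hx1]; exact one_mem _
      · intro y hy
        refine (hRC hy x ⟨pCore_le_fitting q hx, ?_⟩).symm
        rw [orderOf_eq_prime hxq hx1]
        exact hq.out
  suffices h : C ≤ fittingSubgroup G from h hgC
  refine le_of_forall_isPGroup_le fun q hq Q hQC hQ => ?_
  let K : Subgroup G := C ⊓ ⨅ r : {r : ℕ // r.Prime ∧ r ≠ q}, centralizer (pCore r G : Set G)
  have hKn : K.Normal := by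
    have : (⨅ r : {r : ℕ // r.Prime ∧ r ≠ q}, centralizer (pCore r G : Set G)).Normal :=
      normal_iInf_normal fun r => inferInstance
    infer_instance
  have hQK : Q ≤ K := le_inf hQC (le_iInf fun r => by
    have := Fact.mk r.2.1
    exact key r q r.2.2 Q hQ hQC)
  have hKr : ∀ r : ℕ, r.Prime → r ≠ q → K ≤ centralizer (pCore r G : Set G) := fun r h1 h2 =>
    inf_le_right.trans (iInf_le (fun r : {r : ℕ // r.Prime ∧ r ≠ q} =>
      centralizer (pCore r G : Set G)) ⟨r, h1, h2⟩)
  have hKC : K ≤ C := inf_le_left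
  clear_value K
  have hcent : ∀ (r : ℕ) [Fact r.Prime], r ≠ q → ∀ R : Subgroup G, IsPGroup r R → R ≤ K →
      K ≤ centralizer (R : Set G) := by
    intro r hr hrq R hR hRK
    have h1 : R ≤ centralizer (fittingSubgroup G : Set G) := by
      rw [le_centralizer_iff]
      refine fitting_le_of_forall_pCore_le fun s hs => ?_
      rw [le_centralizer_iff]
      by_cases hsq : s = q
      · subst hsq
        exact key s r hrq.symm R hR (hRK.trans hKC)
      · exact hRK.trans (hKr s hs.out hsq)
    have h2 : R ≤ pCore r G := le_pCore_of_le_fitting hR (h1.trans centralizer_fitting_le)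
    exact (hKr r hr.out hrq).trans (centralizer_le h2)
  refine hQK.trans (le_fitting (isNilpotent_of_exists_sylow_normal fun r hr => ?_))
  have hc' : ∀ (s : ℕ) [Fact s.Prime], s ≠ q → ∀ S : Sylow s K, (S : Subgroup K) ≤ center K := by
    intro s _ hsq S x hx
    rw [mem_center_iff]
    intro y
    exact Subtype.ext (hcent s hsq _ (S.isPGroup'.map K.subtype) (map_subtype_le _) y.2 x
      (mem_map_of_mem _ hx)).symm
  let R : Sylow r K := default
  refine ⟨R, ?_⟩
  by_cases hrq : r = q
  · subst hrq
    refine normalizer_eq_top_iff.1 (eq_top_of_forall_sylow_le fun s hs => ?_)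
    by_cases hsr : s = r
    · subst hsr
      exact ⟨R, le_normalizer⟩
    · exact ⟨default, (hc' s hsr default).trans (center_le_normalizer _)⟩
  · exact normal_of_le_center (hc' r hrq R)

end Cfsg.Agent.S3785
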