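import Cfsg.Statements.S3786
import Cfsg.Agent.Lib.Mod.Commuting

set_option autoImplicit false
open Cfsg

namespace Cfsg.Agent.S3786

open Subgroup Module Polynomial Cfsg.Agent.Mod

universe u

variable {p : ℕ} [hp : Fact p.Prime]

/-- The `p ^ n`-th powers of elements of a `p`-subgroup commute. -/
def CommPow (p n : ℕ) (G : Type*) [Group G] : Prop :=
  ∀ P : Subgroup G, IsPGroup p P → ∀ x ∈ P, ∀ y ∈ P, Commute (x ^ p ^ n) (y ^ p ^ n)

theorem CommPow.of_ker_le {G G₁ G₂ : Type*} [Group G] [Group G₁] [Group G₂] [Finite G] {n : ℕ}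
    (h : CommPow p n G₁) (f : G →* G₁) {g : G →* G₂} (hg : Function.Surjective g)
    (hk : f.ker ≤ g.ker) : CommPow p n G₂ := fun P hP x hx y hy => by
  obtain ⟨R, -, hR, rfl⟩ := exists_isPGroup_map_eq (f := g) (K := ⊤) hP
    (by rw [map_top_of_surjective _ hg]; exact le_top)
  obtain ⟨x, hx, rfl⟩ := hx
  obtain ⟨y, hy, rfl⟩ := hy
  have := h _ (hR.map f) _ (mem_map_of_mem f hx) _ (mem_map_of_mem f hy)
  rw [← commutatorElement_eq_one_iff_commute, ← map_pow, ← map_pow, ← map_commutatorElement] at this ⊢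
  exact hk this

theorem step_one {G : Type u} [Group G] [Finite G] (hp2 : p ≠ 2) (hG : IsPSolvable p G) {n : ℕ}
    (h : PExp p (n + 1) G) : CommPow p n (G ⧸ pPrimePCore p G) := by
  obtain ⟨G₂, _, _, π, hπ, hc, hV, hC⟩ := exists_reduction hG
  obtain ⟨W, _, _, _, ρ, ι, hl⟩ := exists_isLin (AlgebraicClosure (ZMod p)) hV
  have h2 := h.of_surjective hπ
  have hker := hl.ker_eq.trans (le_antisymm hC (le_centralizer_iff_isMulCommutative.2 hV.1))
  have hτ := QuotientGroup.mk'_surjective ρ.ker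
  refine CommPow.of_ker_le (G₁ := G₂ ⧸ ρ.ker) (fun P hP x hx y hy => ?_)
    ((QuotientGroup.mk' ρ.ker).comp π) (QuotientGroup.mk'_surjective _) (by
      rw [← MonoidHom.comap_ker, QuotientGroup.ker_mk', QuotientGroup.ker_mk', hker, hc])
  refine commute_pow_of_forall_exceptional hp2 (kerRep_injective (ρ := ρ))
    (Coprime.isPSolvable_quotient (Coprime.isPSolvable_of_surjective hG π hπ) _) (by
      rw [← Core.map_pCore_eq hτ (by rw [QuotientGroup.ker_mk', hker]; exact Core.isPGroup_pCore p),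
        Core.map_mk_eq_bot_iff, hker]) hP (fun y hy => ?_) hx hy
  obtain ⟨m, hm⟩ := hP ⟨y, hy⟩
  obtain ⟨x, rfl, l, hx⟩ := exists_pow_pow_eq_one_map_eq hτ (congrArg Subtype.val hm)
  rw [kerRep_mk, ← aeval_geom_eq_pow]
  refine hl.aeval_geom_eq_zero (h2 _ ⟨l, hx⟩) fun a ha => h2 _ ?_
  obtain ⟨j, hj⟩ := (Core.isPGroup_pCore p).to_sup_of_normal_left
    (Core.isPGroup_zpowers_of_pow_eq_one hx) ⟨_, mul_mem_sup ha (mem_zpowers _)⟩
  exact ⟨j, congrArg Subtype.val hj⟩

theorem step_two {G : Type u} [Group G] [Finite G] (hp2 : p ≠ 2) (hG : IsPSolvable p G) {n : ℕ}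
    (h : PExp p (n + 1) G) (h' : CommPow p n G) : PExp p n (G ⧸ pPrimePCore p G) := by
  obtain ⟨G₂, _, _, π, hπ, hc, hV, hC⟩ := exists_reduction hG
  obtain ⟨W, _, _, _, ρ, ι, hl⟩ := exists_isLin (AlgebraicClosure (ZMod p)) hV
  have h2 := h.of_surjective hπ
  replace h' := h'.of_ker_le (MonoidHom.id G) hπ fun x hx => by rw [show x = 1 from hx]; exact one_mem _
  intro y ⟨m, hm⟩
  obtain ⟨x, rfl, l, hx⟩ := exists_pow_pow_eq_one_map_eq (QuotientGroup.mk'_surjective _) hm
  rw [← map_pow, QuotientGroup.mk'_apply, QuotientGroup.eq_one_iff, ← hc, mem_comap, map_pow]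
  by_contra hne
  have h3 : π x ^ p ^ l = 1 := by rw [← map_pow, hx, map_one]
  have hpos := pow_pos hp.out.pos n
  have hp3 : 3 * p ^ n ≤ p ^ (n + 1) :=
    pow_succ' p n ▸ Nat.mul_le_mul_right _ (lt_of_le_of_ne hp.out.two_le hp2.symm)
  have hdeg : ((X - C 1 : (AlgebraicClosure (ZMod p))[X]) ^ (p ^ n + (p ^ n - 1))).natDegree =
      p ^ n + (p ^ n - 1) := by rw [natDegree_pow, natDegree_X_sub_C, mul_one]
  obtain ⟨q, -, -, Q, -, -, i, hi, d, -, -, h5⟩ := hallHigman_pSolvable (ρ := ρ)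
    (Coprime.isPSolvable_of_surjective hG π hπ)
    (hl.ker_eq.trans (le_antisymm hC (le_centralizer_iff_isMulCommutative.2 hV.1))) hne
    (h2 _ ⟨l, h3⟩ ▸ one_mem _) (pow_ne_zero (p ^ n + (p ^ n - 1)) (X_sub_C_ne_zero 1))
    (hl.ext fun a ha => by
      have h4 := h' _ ((Core.isPGroup_pCore p).to_sup_of_normal_left
        (Core.isPGroup_zpowers_of_pow_eq_one h3)) _ (mem_sup_right (mem_zpowers _)) _
        (mul_mem_sup ha (mem_zpowers _))
      obtain ⟨h6, h7⟩ := hl.mul_pow (π x) ha (p ^ n)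
      have h8 := hl.conj (π x ^ p ^ n) _ h6
      rw [(h4.mul_right (Commute.refl _).inv_right).eq, mul_inv_cancel_right, h7,
        aeval_geom_eq_pow] at h8
      rw [map_pow, map_sub, aeval_X, map_one, map_one, pow_add, sub_one_pow_char_pow,
        Module.End.mul_apply, LinearMap.sub_apply, h8, Module.End.one_apply, sub_self,
        LinearMap.zero_apply]) (by omega)
  have := Nat.pow_le_pow_right hp.out.pos hi
  omega

theorem main {G : Type u} [Group G] [Finite G] (hp2 : p ≠ 2) (hG : IsPSolvable p G) {n : ℕ}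
    (h : PExp p n G) : PLengthLE p (2 * n) G := by
  induction n generalizing G with
  | zero => exact pLengthLE_zero_iff.2 h.coprime
  | succ n ih =>
    have h1 := Coprime.isPSolvable_quotient hG (pPrimePCore p G)
    exact pLengthLE_succ_of_quotient (pLengthLE_succ_of_quotient (ih
      (Coprime.isPSolvable_quotient h1 _) (step_two hp2 h1
        (h.of_surjective (QuotientGroup.mk'_surjective _)) (step_one hp2 hG h))))


/-- The Hall–Higman bound on p-length. Let p be an odd prime and G a finite p-soluble group whose Sylow p-subgroups have exponent dividing p^e. (a) If p is not of the form 2^k + 1, or if the Sylow 2-subgroups of G are abelian, then G has p-length at most e. (b) In every case G has p-length at most 2e. -/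
theorem result {G : Type*} [Group G] [Finite G] {p : ℕ} [Fact p.Prime] (hp : p ≠ 2) (hG : Cfsg.IsPSolvable p G) (e : ℕ) (hexp : ∀ (P : Sylow p G), ∀ x ∈ (P : Subgroup G), x ^ p ^ e = 1) : (((¬ ∃ k : ℕ, p = 2 ^ k + 1) ∨ ∀ S : Sylow 2 G, IsMulCommutative (S : Subgroup G)) → Cfsg.PLengthLE p e G) ∧ Cfsg.PLengthLE p (2 * e) G := by
  exact ⟨fun h => pLengthLE_of_pExp hG (pExp_of_sylow hexp) (noExc_of_odd hp h),
    main hp hG (pExp_of_sylow hexp)⟩

end Cfsg.Agent.S3786
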