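import Cfsg.Statements.S3787
import Cfsg.Agent.Lib.Mod.Unip
import Cfsg.Agent.Lib.Mod.Faithful
import Cfsg.Agent.Lib.Core.SymThree
import Cfsg.Agent.Lib.Transfer.MinNonNilp

set_option autoImplicit false
open Cfsg

namespace Cfsg.Agent.S3787

open Subgroup Module Polynomial Cfsg.Agent.Mod
open scoped commutatorElement

theorem core {W : Type*} [Group W] [Finite W] {p : ℕ} [hp : Fact p.Prime] {B : Subgroup W}
    [B.Normal] (hB : IsElementaryAbelian p B) {x v : W} (hx : x ^ p ∈ B) (hx' : x ∉ B)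
    (htop : B ⊔ zpowers x = ⊤) (hv : v ∈ B) (hs : (v * x) ^ p * (x ^ p)⁻¹ ≠ 1)
    (h : ∀ c ∈ B ⊓ centralizer (zpowers x : Set W), c ≠ 1 → (v * x) ^ p * (x ^ p)⁻¹ ∈ zpowers c) :
    ∃ (B : Subgroup W) (t : W), B.Normal ∧ IsMulCommutative B ∧ (∀ b ∈ B, b ^ p = 1) ∧
      Nat.card B = p ^ p ∧ orderOf t = p ∧ t ∉ B ∧ Nat.card W = p ^ (p + 1) ∧
      Nat.card ↥(B ⊓ Subgroup.centralizer ({t} : Set W)) = p := by
  obtain ⟨U, _, _, _, ρ, ι, hl⟩ := exists_isLin (ZMod p) hB
  have hBB : B ≤ centralizer (B : Set W) := le_centralizer_iff_isMulCommutative.2 hB.1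
  set s := (v * x) ^ p * (x ^ p)⁻¹ with hsdef
  have hsB : s ∈ B := (hl.mul_pow x hv p).1
  have h1 : ∀ c ∈ B ⊓ centralizer (zpowers x : Set W), c ≠ 1 → zpowers s = zpowers c :=
    fun c hc h0 => Core.eq_of_le_of_card_eq (zpowers_le.2 (h c hc h0)) (by
      rw [Nat.card_zpowers, Nat.card_zpowers, orderOf_eq_prime (hB.2 c hc.1) h0,
        orderOf_eq_prime (hB.2 s hsB) hs])
  have h2 : B ⊓ centralizer (zpowers x : Set W) = zpowers s := by
    refine le_antisymm (fun c hc => ?_) ?_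
    · by_cases h0 : c = 1
      · exact h0 ▸ one_mem _
      · exact h1 c hc h0 ▸ mem_zpowers c
    · obtain ⟨c, hc, h0⟩ := (Subgroup.bot_or_exists_ne_one _).resolve_left
        (PGrp.inf_centralizer_ne_bot (Core.isPGroup_zpowers_of_pow_eq_one (x := x) (k := 2)
          (by rw [pow_two, pow_mul, hB.2 _ hx])) (Core.isPGroup_of_isElementaryAbelian hB)
          le_normalizer_of_normal fun e => hs (mem_bot.1 (e ▸ hsB)))
      exact h1 c hc h0 ▸ zpowers_le.2 hc
  have h3 : Nat.card ↥(B ⊓ centralizer (zpowers x : Set W)) = p := by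
    rw [h2, Nat.card_zpowers, orderOf_eq_prime (hB.2 s hsB) hs]
  have h4 : finrank (ZMod p) U = p := by
    have h5 := finrank_eq_of_pow_eq_zero (T := ρ x - 1) (n := p ^ 1 - 1) (by
      rw [Nat.sub_add_cancel (pow_pos hp.out.pos 1), sub_one_pow_char_pow, pow_one,
        hl.eq_one_iff.2 (hBB hx), sub_self]) (fun e => hs (hl.eq_one hsB (by
      rw [← aeval_geom_eq_pow, pow_one] at e
      rw [(hl.mul_pow x hv p).2, e, LinearMap.zero_apply]))) (by
      have := hl.card_fix (zpowers x)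
      rw [h3] at this
      rw [← Nat.pow_right_injective hp.out.two_le (this.symm.trans (pow_one p).symm),
        show LinearMap.ker (ρ x - 1) = fix ρ (zpowers x) from Submodule.ext fun w =>
          sub_eq_zero.trans mem_fix_zpowers.symm])
    rwa [Nat.sub_add_cancel (pow_pos hp.out.pos 1), pow_one] at h5
  obtain ⟨m, hm⟩ := (Submonoid.mem_powers_iff _ _).1 (mem_powers_iff_mem_zpowers.2
    (h2.le (inv_mem ⟨hx, le_centralizer _ (npow_mem_zpowers x p)⟩)))
  have hvm := B.pow_mem hv m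
  have h5 : (v ^ m * x) ^ p = 1 := by
    rw [← mul_left_inj (x ^ p)⁻¹, one_mul]
    refine Eq.trans ?_ hm
    refine hl.inj (hl.mul_pow x hvm p).1 (B.pow_mem hsB m) ?_
    rw [(hl.mul_pow x hvm p).2, hl.map_pow hsB, hl.map_pow hv, map_nsmul, (hl.mul_pow x hv p).2]
  have h6 : v ^ m * x ∉ B := fun e => hx' ((B.mul_mem_cancel_left hvm).1 e)
  have h7 := orderOf_eq_prime h5 fun e => h6 (e ▸ one_mem _)
  have h8 : Nat.card B = p ^ p := by rw [hl.card_eq, h4]
  refine ⟨B, v ^ m * x, inferInstance, hB.1, hB.2, h8, h7, h6, ?_, ?_⟩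
  · have h9 : zpowers (v ^ m * x) ⊔ B = ⊤ := by
      rw [eq_top_iff, ← htop]
      refine sup_le le_sup_right (zpowers_le.2 ?_)
      exact (Subgroup.mul_mem_cancel_left _ (mem_sup_right hvm)).1 (mem_sup_left (mem_zpowers _))
    rw [← card_top, ← h9, Core.card_sup_of_disjoint le_normalizer_of_normal, Nat.card_zpowers, h7,
      h8, pow_succ']
    haveI : Fact (Nat.card (zpowers (v ^ m * x))).Prime := ⟨by rw [Nat.card_zpowers, h7]; exact hp.out⟩
    rcases (B.subgroupOf (zpowers (v ^ m * x))).eq_bot_or_eq_top_of_prime_card with e | e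
    · exact disjoint_iff.1 (subgroupOf_eq_bot.1 e).symm
    · exact (h6 (subgroupOf_eq_top.1 e (mem_zpowers _))).elim
  · rw [← h3]
    congr 2
    ext c
    simp only [mem_inf, and_congr_right_iff, zpowers_eq_closure, centralizer_closure,
      mem_centralizer_singleton_iff]
    intro hc
    rw [mul_assoc, ← mul_assoc c, ← hBB hc _ hvm, mul_assoc, mul_right_inj]


/-- Let G be a finite p-soluble group, p an odd prime not of the form 2^k + 1, and suppose the wreath product C_p ≀ C_p (of order p^(p+1)) is not involved in a Sylow p-subgroup of G: no section of a Sylow p-subgroup is isomorphic to it. Then G has p-length at most 1. -/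
theorem result {G : Type*} [Group G] [Finite G] {p : ℕ} [Fact p.Prime] (hp2 : p ≠ 2) (hnf : (¬ ∃ k : ℕ, p = 2 ^ k + 1)) (hG : Cfsg.IsPSolvable p G) (P : Sylow p G) (hwr : ∀ (W : Type) [Group W] [Finite W], (∃ (B : Subgroup W) (t : W), B.Normal ∧ IsMulCommutative B ∧ (∀ b ∈ B, b ^ p = 1) ∧ Nat.card B = p ^ p ∧ orderOf t = p ∧ t ∉ B ∧ Nat.card W = p ^ (p + 1) ∧ Nat.card ↥(B ⊓ Subgroup.centralizer ({t} : Set W)) = p) → ¬ Cfsg.Involves W ↥(P : Subgroup G)) : Cfsg.PLengthLE p 1 G := by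
  obtain ⟨G₂, _, _, π, hπ, hc, hV, hC⟩ := exists_reduction hG
  refine pLengthLE_one_of_sylow_le P ?_
  rw [← hc, ← map_le_iff_le_comap]
  by_contra hne
  set V := pCore p G₂
  have hVP : V ≤ (P : Subgroup G).map π := pCore_le_map_sylow hπ P
  obtain ⟨x, hxP, hx', hx⟩ : ∃ x ∈ (P : Subgroup G).map π, x ∉ V ∧ x ^ p ∈ V := by
    obtain ⟨y, hy, hy'⟩ := SetLike.not_le_iff_exists.1 hne
    obtain ⟨k, hk⟩ := P.2.map π ⟨y, hy⟩
    obtain ⟨j, h1, h2⟩ := Transfer.exists_pow_pow_not_mem (C := V) (q := p) (k := k)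
      (by rw [show y ^ p ^ k = 1 from congrArg Subtype.val hk]; exact one_mem _) hy'
    exact ⟨_, pow_mem hy _, h1, h2⟩
  have hp : p.Prime := Fact.out
  obtain ⟨U, _, _, _, ρ, ι, hl⟩ := exists_isLin (AlgebraicClosure (ZMod p)) hV
  have hVV : V ≤ centralizer (V : Set G₂) := le_centralizer_iff_isMulCommutative.2 hV.1
  obtain ⟨v, hv, hs⟩ : ∃ v ∈ V, (v * x) ^ p * (x ^ p)⁻¹ ≠ 1 := by
    by_contra! h
    obtain ⟨q, hq, hqp, Q, hQ, hn, i, -, d, hd, h5, -⟩ := hallHigman_pSolvable (ρ := ρ) (n := 0)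
      (Coprime.isPSolvable_of_surjective hG π hπ) (hl.ker_eq.trans (le_antisymm hC hVV)) (x := x)
      (by simpa using hx') (by simpa using hx) (geom_ne_zero hp.ne_zero)
      (hl.ext fun a ha => by rw [← (hl.mul_pow x ha p).2, h a ha, hl.map_one, LinearMap.zero_apply])
      ((natDegree_geom_le _).trans_lt (by simpa using Nat.sub_one_lt hp.ne_zero))
    exact noExc_of_odd hp2 (Or.inl hnf) q hq hqp Q hQ hn d _ hd h5
  obtain ⟨V₁, -, ⟨h1, h2, h3⟩, hmax⟩ := Core.exists_maximal_ge (H := ⊥)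
    (P := fun Y => Y ≤ V ∧ zpowers x ≤ normalizer (Y : Set G₂) ∧ (v * x) ^ p * (x ^ p)⁻¹ ∉ Y)
    ⟨bot_le, le_normalizer_of_normal, hs⟩
  have hxT : x ∈ V ⊔ zpowers x := mem_sup_right (mem_zpowers x)
  have hVT : V ≤ V ⊔ zpowers x := le_sup_left
  have hVn : ∀ Y ≤ V, V ≤ normalizer (Y : Set G₂) := fun Y hY =>
    (hVV.trans (centralizer_le (SetLike.coe_subset_coe.2 hY))).trans (centralizer_le_normalizer _)
  haveI := Core.normal_subgroupOf_of_le_normalizer (sup_le (hVn _ h1) h2)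
  obtain ⟨W, _, _, ⟨e⟩⟩ := Finite.exists_type_univ_nonempty_mulEquiv.{_, 0}
    (↥(V ⊔ zpowers x) ⧸ V₁.subgroupOf (V ⊔ zpowers x))
  let f := e.toMonoidHom.comp (QuotientGroup.mk' _)
  have hf : Function.Surjective f := e.surjective.comp (QuotientGroup.mk'_surjective _)
  have hk : ∀ g, f g = 1 ↔ (g : G₂) ∈ V₁ := fun g =>
    (MulEquiv.map_eq_one_iff e).trans (QuotientGroup.eq_one_iff g)
  have hmem : ∀ {Y : Subgroup G₂} (g : ↥(V ⊔ zpowers x)), V₁ ≤ Y → f g ∈ im f Y → (g : G₂) ∈ Y := by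
    rintro Y g hY ⟨y, hy, e⟩
    have := Y.mul_mem hy (hY ((hk (y⁻¹ * g)).1 (by rw [map_mul, map_inv, e, inv_mul_cancel])))
    simpa using this
  haveI := normal_im f hf (le_normalizer_of_normal (H := V))
  refine hwr W (core (B := im f V) (Core.isElementaryAbelian_map (isElementaryAbelian_subgroupOf hV) f)
    (x := f ⟨x, hxT⟩) (v := f ⟨v, hVT hv⟩) (by rw [← map_pow]; exact mem_im f hx)
    (fun h => hx' (hmem _ h1 h)) (by
      rw [← im_zpowers, ← im_sup f hVT le_sup_right, im, subgroupOf_self, map_top_of_surjective _ hf])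
    (mem_im f hv) (fun h => h3 ?_) ?_) (Core.involves_of_quotient (Core.involves_of_le
      (Core.involves_of_surjective f hf) (sup_le hVP (zpowers_le.2 hxP))) _
      (π.subgroupMap_surjective _))
  · rw [← map_mul, ← map_pow, ← map_pow, ← map_inv, ← map_mul, hk] at h
    exact h
  · rintro _ ⟨⟨c, hc, rfl⟩, hc'⟩ h0
    have h4 : V₁ ⊔ zpowers (c : G₂) ≤ V := sup_le h1 (zpowers_le.2 hc)
    have h5 : (v * x) ^ p * (x ^ p)⁻¹ ∈ V₁ ⊔ zpowers (c : G₂) := by
      by_contra h6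
      refine h0 ((hk c).2 (hmax _ ⟨h4, ?_, h6⟩ le_sup_left ▸ mem_sup_right (mem_zpowers _)))
      rw [zpowers_le]
      refine Transfer.mem_normalizer_of_conj_mem fun y hy => ?_
      refine (sup_le (fun y hy => ?_) (zpowers_le.2 ?_) :
        _ ≤ (V₁ ⊔ zpowers (c : G₂)).comap (MulAut.conj x).toMonoidHom) hy
      · exact mem_sup_left (Coprime.conj_mem_of_le_normalizer h2 (mem_zpowers x) hy)
      · have := (hk (⟨x, hxT⟩ * c * ⟨x, hxT⟩⁻¹ * c⁻¹)).1 (by
          simp only [map_mul, map_inv, hc' _ (mem_zpowers _)]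
          group)
        simpa using mul_mem_sup this (mem_zpowers (c : G₂))
    have h6 := mem_im f (x := (⟨v, hVT hv⟩ * ⟨x, hxT⟩) ^ p * (⟨x, hxT⟩ ^ p)⁻¹) h5
    rw [im_sup f (h1.trans hVT) (zpowers_le.2 c.2), im_zpowers f c.2,
      show im f V₁ = ⊥ from (Subgroup.map_eq_bot_iff _).2 fun g hg => (hk g).2 hg, bot_sup_eq] at h6
    simpa only [map_mul, map_pow, map_inv] using h6

end Cfsg.Agent.S3787
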