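import Cfsg.Statements.S3788
import Cfsg.Agent.Lib.Mod.PReduce
import Cfsg.Agent.Lib.Core.SymFour
import Cfsg.Agent.Lib.PGrp.Extraspecial
import Cfsg.Agent.Lib.Core.TwoF
import Cfsg.Agent.Lib.PGrp.ConjOrder

set_option autoImplicit false
open Cfsg

namespace Cfsg.Agent.S3788

open Subgroup Cfsg.Agent.Mod
open scoped commutatorElement

theorem aux {G : Type*} [Group G] [Finite G] {p : ℕ} [hp : Fact p.Prime] (hG : IsPSolvable p G)
    (hV : IsElementaryAbelian p (pCore p G)) (hC : centralizer (pCore p G : Set G) ≤ pCore p G)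
    {a : G} (hA : IsPGroup p (zpowers a)) (hn : pCore p G ≤ normalizer (zpowers a : Set G))
    (h : p ≠ 2 ∨ ¬ Involves (Equiv.Perm (Fin 4)) G) : a ∈ pCore p G := by
  set V := pCore p G with hVdef
  have hVV : V ≤ centralizer (V : Set G) := le_centralizer_iff_isMulCommutative.2 hV.1
  have hAA : zpowers a ≤ centralizer (zpowers a : Set G) := le_centralizer _
  have h1 : ⁅zpowers a, V⁆ ≤ zpowers a ⊓ V :=
    le_inf (Coprime.commutator_le_of_le_normalizer hn) (commutator_le_right _ _)
  have h2 : ∀ x ∈ zpowers a, x ^ p ∈ V := fun x hx => hC fun v hv => by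
    have h3 := h1 (commutator_mem_commutator hx hv)
    rw [eq_comm, ← commutatorElement_eq_one_iff_mul_comm,
      PGrp.commutatorElement_pow_left_of_commute (hAA hx _ h3.1), hV.2 _ h3.2]
  have hY := Coprime.centralizer_pPrimeCore_le (Coprime.isPSolvable_quotient hG V)
    Core.pCore_quotient_pCore
  by_cases hp2 : p = 2
  · subst hp2
    haveI : IsCyclic (zpowers a ⊓ V : Subgroup G) := isCyclic_of_le inf_le_left
    have h3 := Core.sq_relIndex_le_relIndex (M := ⊤) ((QuotientGroup.mk' V).comp (Subgroup.subtype _))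
      ((QuotientGroup.mk'_surjective V).comp fun g => ⟨⟨g, trivial⟩, rfl⟩)
      (fun m => (QuotientGroup.eq_one_iff _).trans ⟨fun h => hVV h, fun h => hC h⟩) hY
      (fun h' => h.resolve_left (not_not.2 rfl) (Core.involves_perm_four_of_involves_perm_three hC
        (Core.involves_of_subgroup h'))) (Core.isPGroup_pCore 2) hV.1 le_normalizer_of_normal
      (zpowers a) le_top hA
      (by rw [commutator_eq_bot_iff_le_centralizer.2 hAA]; exact bot_le) fun x hx => hVV (h2 x hx)
    rw [← PGrp.relIndex_centralizer_symm h1 (inf_le_left.trans hAA) (inf_le_right.trans hVV)] at h3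
    have h4 := Core.relIndex_pos' (centralizer (V : Set G)) (zpowers a)
    exact hC (relIndex_eq_one.1 (by nlinarith) (mem_zpowers a))
  let π := QuotientGroup.mk' V
  have hπ : ((pPrimeCore p (G ⧸ V)).comap π).map π = pPrimeCore p (G ⧸ V) :=
    map_comap_eq_self_of_surjective (QuotientGroup.mk'_surjective V) _
  have hcop : (Nat.card V).Coprime (V.relIndex ((pPrimeCore p (G ⧸ V)).comap π)) := by
    rw [← Core.card_map_mk_eq_relIndex, hπ]
    exact Core.coprime_card_of_isPGroup (Core.isPGroup_pCore p) (Core.coprime_card_pPrimeCore p)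
  obtain ⟨Q, hQ, hVQ, hd, hc⟩ := Coprime.sz_exists (Core.le_comap_mk V _) le_normalizer_of_normal
    hcop
  rw [← hc] at hcop
  have hsol : Group.IsSolvable V := Coprime.isSolvable_of_isPGroup (Core.isPGroup_pCore p)
  obtain ⟨n, hnV, e⟩ := Coprime.sz_eq_conj (A := Q) (B := Q.map (MulAut.conj a).toMonoidHom)
    le_normalizer_of_normal (by
      rw [hVQ, ← Coprime.map_conj_eq_of_normal (comap π _) a]
      exact map_mono hQ) hcop (Coprime.card_map_conj _ _) (Or.inl hsol)
  have ha' : n⁻¹ * a ∈ normalizer (Q : Set G) := by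
    rw [mem_normalizer_iff_map_conj_eq]
    change Q.map (MulAut.conj _).toMonoidHom = Q
    rw [← Coprime.map_conj_map_conj, e, Coprime.map_conj_map_conj, inv_mul_cancel,
      Coprime.map_conj_one]
  have hpow : (n⁻¹ * a) ^ p = a ^ p := by
    have h3 := h1 (commutator_mem_commutator (mem_zpowers a) (V.inv_mem hnV))
    rw [PGrp.mul_pow_of_odd (hp.out.odd_of_ne_two hp2) (hVV (V.inv_mem hnV) _ h3.2)
      (hAA (mem_zpowers a) _ h3.1) (hV.2 _ h3.2), hV.2 _ (V.inv_mem hnV), one_mul]
  have hap : a ^ p ∈ V ⊓ centralizer (Q : Set G) := by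
    refine ⟨h2 a (mem_zpowers a), fun x hx => ?_⟩
    rw [← commutatorElement_eq_one_iff_mul_comm, ← mem_bot, ← hd]
    exact ⟨commutator_le_right ⊤ V (commutator_mem_commutator trivial (h2 a (mem_zpowers a))),
      Coprime.commutator_le_of_le_normalizer (zpowers_le.2 (hpow ▸ pow_mem ha' p))
        (commutator_mem_commutator hx (mem_zpowers _))⟩
  have hU : ⁅V, Q⁆ ≤ V := commutator_le_left _ _
  have hUn : zpowers a ≤ normalizer ((⁅V, Q⁆ : Subgroup G) : Set G) := by
    rw [zpowers_le, ← mul_inv_cancel_left n a]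
    exact mul_mem (normalizer_commutator_ge_left _ _ hnV)
      (Core.le_normalizer_commutator le_normalizer_of_normal (zpowers_le.2 ha') (mem_zpowers _))
  by_contra hne
  have h3 : a ∉ centralizer ((⁅V, Q⁆ : Subgroup G) : Set G) := fun h3 => by
    have h4 : ⁅Q, zpowers (n⁻¹ * a)⁆ ≤ V ⊓ Q := by
      have h5 := Coprime.commutator_le_of_le_normalizer (zpowers_le.2 ha')
      refine le_inf (le_trans ?_ hC) h5
      rw [le_centralizer_iff, ← Coprime.centralizer_sup_commutator (A := Q) (G := V)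
        le_normalizer_of_normal hcop.symm (Or.inr hsol), sup_le_iff]
      refine ⟨inf_le_right.trans (centralizer_le (SetLike.coe_subset_coe.2 h5)), ?_⟩
      rw [← le_centralizer_iff, commutator_comm Q]
      refine (commutator_mono (zpowers_le.2 (mul_mem
        (centralizer_le (SetLike.coe_subset_coe.2 hU) (hVV (V.inv_mem hnV))) h3)) le_rfl).trans ?_
      exact Coprime.commutator_le_of_le_normalizer
        (Core.le_normalizer_centralizer (normalizer_commutator_ge_right _ _))
    rw [hd, le_bot_iff, Coprime.commutator_eq_bot_iff_le_centralizer'] at h4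
    have h5 : π a ∈ zpowers (π a) ⊓ pPrimeCore p (G ⧸ V) := by
      refine ⟨mem_zpowers _, hY ?_⟩
      rw [← hπ, ← hVQ, Subgroup.map_sup, (Core.map_mk_eq_bot_iff V V).2 le_rfl, bot_sup_eq,
        ← mul_inv_cancel_left n a, map_mul, show π n = 1 from (QuotientGroup.eq_one_iff n).2 hnV,
        one_mul]
      rintro _ ⟨x, hx, rfl⟩
      rw [← map_mul, h4 (mem_zpowers _) x hx, map_mul]
    rw [Core.inf_eq_bot_of_isPGroup_of_coprime (MonoidHom.map_zpowers π a ▸ hA.map π)
      (Core.coprime_card_pPrimeCore p)] at h5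
    exact hne ((QuotientGroup.eq_one_iff a).1 h5)
  rw [← zpowers_le, le_centralizer_iff, ← commutator_eq_bot_iff_le_centralizer] at h3
  obtain ⟨d, hd1, hd0⟩ := (Subgroup.bot_or_exists_ne_one _).resolve_left h3
  have h4 : d ∈ zpowers a ⊓ V := h1 (commutator_comm V _ ▸ commutator_mono hU le_rfl hd1)
  have h5 : ∀ x ∈ zpowers a, x ^ p = 1 → x ∈ zpowers d := fun x hx hxp =>
    PGrp.le_of_card_dvd_of_isCyclic (zpowers_le.2 hx) (zpowers_le.2 h4.1) (by
      rw [Nat.card_zpowers, Nat.card_zpowers, orderOf_eq_prime (hV.2 d h4.2) hd0]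
      exact orderOf_dvd_of_pow_eq_one hxp) (mem_zpowers x)
  have h6 : a ^ p ∈ V ⊓ centralizer (Q : Set G) ⊓ ⁅V, Q⁆ := ⟨hap, zpowers_le.2
    (Coprime.commutator_le_of_le_normalizer hUn hd1) (h5 _ (npow_mem_zpowers a p) (hV.2 _ hap.1))⟩
  rw [Coprime.centralizer_inf_commutator_eq_bot le_normalizer_of_normal hcop.symm hV.1] at h6
  exact hne (zpowers_le.2 h4.2 (h5 a (mem_zpowers a) h6))


/-- Let G be a finite p-soluble group, P a Sylow p-subgroup of G and A a cyclic normal subgroup of P. If p is odd, or if no section of G is isomorphic to the symmetric group of degree 4, then A ≤ O_{p',p}(G). -/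
theorem result {G : Type*} [Group G] [Finite G] {p : ℕ} [Fact p.Prime] (hG : Cfsg.IsPSolvable p G) (P : Sylow p G) (A : Subgroup G) (hAP : A ≤ (P : Subgroup G)) (hAn : (P : Subgroup G) ≤ Subgroup.normalizer (A : Set G)) (hA : IsCyclic A) (h : p ≠ 2 ∨ ¬ Cfsg.Involves (Equiv.Perm (Fin 4)) G) : A ≤ Cfsg.pPrimePCore p G := by
  obtain ⟨G₂, _, _, π, hπ, hc, hV, hC⟩ := exists_reduction hG
  obtain ⟨a, rfl⟩ := A.isCyclic_iff_exists_zpowers_eq_top.1 hA
  rw [← hc, zpowers_le]
  refine aux (Coprime.isPSolvable_of_surjective hG π hπ) hV hC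
    (MonoidHom.map_zpowers π a ▸ (P.2.to_le hAP).map π) ((pCore_le_map_sylow hπ P).trans ?_)
    (h.imp_right fun h h' => h (Core.involves_of_quotient h' π hπ))
  rw [← MonoidHom.map_zpowers]
  exact (map_mono hAn).trans (le_normalizer_map π)

end Cfsg.Agent.S3788
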