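import Cfsg.Statements.S3789
import Cfsg.Agent.Lib.Mod.Commuting

set_option autoImplicit false
open Cfsg

namespace Cfsg.Agent.S3789

open Subgroup Module Polynomial Cfsg.Agent.Mod
open scoped commutatorElement

universe u

variable {p : ℕ} [hp : Fact p.Prime]

theorem rep {k V : Type*} [Field k] [AddCommGroup V] [Module k V] [IsAlgClosed k]
    [FiniteDimensional k V] [CharP k p] {G : Type*} [Group G] [Finite G] {ρ : Representation k G V}
    (hp2 : p ≠ 2) (hρ : Function.Injective ρ) (hG : IsPSolvable p G) (h0 : pCore p G = ⊥)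
    {N : Subgroup G} (hN : IsPGroup p N) (h1 : ∀ z ∈ ⁅N, N⁆, (ρ z - 1) ^ 2 = 0)
    (h2 : ∀ z ∈ ⁅N, N⁆, ∀ x ∈ N, (ρ z - 1) * (ρ x - 1) ^ 2 = 0) : ⁅N, N⁆ = ⊥ := by
  by_contra hne
  have hNN := Coprime.commutator_le_of_le_normalizer (le_normalizer (H := N))
  obtain ⟨z, ⟨hz, hzN⟩, hz1⟩ := (Subgroup.bot_or_exists_ne_one _).resolve_left
    (PGrp.inf_centralizer_ne_bot hN (hN.to_le hNN) (normalizer_commutator_ge_right _ _) hne)
  obtain ⟨q, hq, hqp, R, hR, hNR, hR0, h3, h4, h5⟩ :=
    exists_critical_of_central hG h0 hN (hNN hz) hzN hz1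
  haveI := Fact.mk hq
  have hRk := card_ne_zero_of_isPGroup hR (natCast_ne_zero_of_ne k hq hqp)
  obtain ⟨c, hc, hcR⟩ := exists_comp_not_le_fix hRk hρ hR0
  have hp3 : 2 < p := lt_of_le_of_ne hp.out.two_le hp2.symm
  have hf : ∀ x, aeval (ρ x) ((X - C 1 : k[X]) ^ 2) = (ρ x - 1) ^ 2 := fun x => by simp
  have hf0 : (X - C 1 : k[X]) ^ 2 ≠ 0 := pow_ne_zero _ (X_sub_C_ne_zero 1)
  have hdeg : ((X - C 1 : k[X]) ^ 2).natDegree = 2 := by rw [natDegree_pow, natDegree_X_sub_C]
  have hzp : z ^ p ^ 1 = 1 := hρ (by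
    obtain ⟨m, hm⟩ := Nat.exists_eq_add_of_le hp3.le
    rw [map_one, ← sub_eq_zero, ← sub_one_pow_char_pow, pow_one, hm, pow_add, h1 z hz, zero_mul])
  obtain ⟨U, hUc, hU, i, hi, -, h6, h7, h8, h9⟩ := hallHigman_core (n := 0) (x := z)
    (Coprime.isSolvable_of_isPGroup hR) hRk hp.out (coprime_card_of_prime hp.out hqp.symm hR)
    (hNR (hNN hz)) (orderOf_eq_prime_pow (by simpa using hz1) hzp) (by simpa using h3)
    (by simpa using h5) hc hcR hf0 (fun w _ => by rw [hf, h1 z hz]; rfl) (by rw [hdeg]; simpa)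
  obtain rfl := Nat.le_zero.1 hi
  have hzc : z ∈ stab ρ c := by simpa using h6 1
  simp only [hdeg, zero_add, pow_one, pow_zero, Nat.sub_zero] at h8 h9
  have hRc := isInv_of_mem_comps hc
  have hNc : N ≤ stab ρ c := fun x hx => by
    obtain ⟨t, ht0, ht⟩ := exists_period (stab ρ c) x
    obtain ⟨m, hm⟩ := hN ⟨x, hx⟩
    obtain ⟨j, -, rfl⟩ := (Nat.dvd_prime_pow hp.out).1 ((ht (p ^ m)).1
      (by rw [show x ^ p ^ m = 1 from congrArg Subtype.val hm]; exact one_mem _))
    rcases j with _ | j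
    · simpa using ht 1
    obtain ⟨g, hg0, hg1, hg2⟩ := exists_aeval_pow_eq_zero ht0 ((ht _).2 dvd_rfl)
      (iSupIndep_of_le_comps hRk (fun i => map_rho_mem_comps hc (pow_mem (hNR hx) _))
        (map_pow_injective fun m => (ht m).1) fun _ => le_rfl) hf0 (S := (ρ z - 1 : End k V) '' c)
      (by
        rintro _ ⟨w, hw, rfl⟩
        exact c.sub_mem (isInv_iff_le_stab.2 (zpowers_le.2 hzc) z (mem_zpowers z) w hw) hw) (by
        rintro _ ⟨w, -, rfl⟩
        have : Commute (ρ x) (ρ z) := Commute.map (hzN x hx) ρ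
        rw [hf, ← Module.End.mul_apply, (((this.sub_right (Commute.one_right _)).sub_left
          (Commute.one_left _)).pow_left 2).eq, h2 z hz x hx]
        rfl)
    have : p ≤ p ^ (j + 1) := Nat.le_self_pow j.succ_ne_zero p
    obtain ⟨a, rfl⟩ := natDegree_eq_zero.1 (show g.natDegree = 0 by rw [hdeg] at hg1; nlinarith)
    refine (hcR (le_kerOn_iff.1 (h3 ▸ (commutator_mono le_rfl (zpowers_le.2 ?_)).trans
      (commutator_comm _ R ▸ Coprime.commutator_le_of_le_normalizer (normalizer_kerOn hRc))))).elim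
    refine mem_kerOn.2 fun w hw => ?_
    have := hg2 _ ⟨w, hw, rfl⟩
    rw [aeval_C, Module.algebraMap_end_apply, smul_eq_zero] at this
    exact sub_eq_zero.1 (this.resolve_left fun h => hg0 (by rw [h, map_zero]))
  have hRR := Coprime.commutator_le_of_le_normalizer (le_normalizer (H := R))
  have h10 := hU.sq_finrank_eq_on hRk ((le_scal_of_mem_comps hRR h4 hc).trans (scal_anti hUc))
  have h11 : R ⊓ scal ρ c = R ⊓ scal ρ U := by
    rw [IsIrr.eq_hcomp_of_le hRk hc hU hUc]
    ext g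
    exact and_congr_right fun hg => mem_scal_hcomp hg
  have h12 := commutator_commutator_le_of_relIndex_lt (Y := R ⊓ scal ρ c) hN hNR
    (Core.le_normalizer_inf hNR (normalizer_scal (isInv_iff_le_stab.2 hNc)))
    (Core.le_normalizer_inf le_normalizer (normalizer_scal hRc))
    (by rw [h11, inf_comm, inf_relIndex_right, ← h10]; nlinarith)
  rw [relIndex_eq_one.2 (h3.ge.trans ((commutator_mono le_rfl (zpowers_le.2 hz)).trans
    (h12.trans (h11.le.trans inf_le_right))))] at h10
  nlinarith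

theorem step {G : Type u} [Group G] [Finite G] (hp2 : p ≠ 2) (hG : IsPSolvable p G) (P : Sylow p G)
    {N : Subgroup G} (hN : N ≤ P) (hn : (P : Subgroup G) ≤ normalizer (N : Set G))
    (h : ⁅⁅N, N⁆, ⁅N, N⁆⁆ = ⊥) : ⁅N, N⁆ ≤ pPrimePCore p G := by
  obtain ⟨G₂, _, _, π, hπ, hc, hV, hC⟩ := exists_reduction hG
  obtain ⟨W, _, _, _, ρ, ι, hl⟩ := exists_isLin (AlgebraicClosure (ZMod p)) hV
  have hker := hl.ker_eq.trans (le_antisymm hC (le_centralizer_iff_isMulCommutative.2 hV.1))
  have hτ := QuotientGroup.mk'_surjective ρ.ker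
  set V := pCore p G₂
  set M := N.map π
  have hVM : V ≤ normalizer (M : Set G₂) :=
    (pCore_le_map_sylow hπ P).trans ((map_mono hn).trans (le_normalizer_map π))
  have hMM : ⁅M, M⁆ ≤ centralizer ((⁅M, M⁆ : Subgroup G₂) : Set G₂) := by
    rw [← commutator_eq_bot_iff_le_centralizer, ← map_commutator, ← map_commutator, h,
      Subgroup.map_bot]
  have key : ∀ g, ∀ a ∈ V, ⁅g, a⁆ ∈ V ∧ (ρ g - 1) (ι a) = ι ⁅g, a⁆ := fun g a ha =>
    ⟨commutator_le_right ⊤ V (commutator_mem_commutator trivial ha), (hl.commutator g ha).symm⟩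
  have key2 : ∀ z ∈ ⁅M, M⁆, ∀ a ∈ V, a ∈ ⁅M, M⁆ → (ρ z - 1) (ι a) = 0 := fun z hz a ha ha' => by
    rw [(key z a ha).2, commutatorElement_eq_one_iff_mul_comm.2 (hMM ha' z hz), hl.map_one]
  rw [← hc, ← map_le_iff_le_comap, ← hker, ← Core.map_mk_eq_bot_iff, map_commutator, map_commutator]
  refine rep hp2 (kerRep_injective (ρ := ρ))
    (Coprime.isPSolvable_quotient (Coprime.isPSolvable_of_surjective hG π hπ) _) (by
      rw [← Core.map_pCore_eq hτ (by rw [QuotientGroup.ker_mk', hker]; exact Core.isPGroup_pCore p),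
        Core.map_mk_eq_bot_iff, hker]) (((P.2.to_le hN).map π).map _) ?_ ?_
  · rw [← map_commutator]
    rintro _ ⟨z, hz, rfl⟩
    refine hl.ext fun a ha => ?_
    rw [kerRep_mk, pow_two, Module.End.mul_apply, (key z a ha).2, key2 z hz _ (key z a ha).1
      (Coprime.commutator_le_of_le_normalizer (Core.le_normalizer_commutator hVM hVM)
        (commutator_mem_commutator hz ha)), LinearMap.zero_apply]
  · rw [← map_commutator]
    rintro _ ⟨z, hz, rfl⟩ _ ⟨x, hx, rfl⟩
    refine hl.ext fun a ha => ?_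
    have h1 := (key x a ha).1
    rw [kerRep_mk, kerRep_mk, pow_two, Module.End.mul_apply, Module.End.mul_apply, (key x a ha).2,
      (key x _ h1).2, key2 z hz _ (key x _ h1).1 (commutator_mem_commutator hx
        (Coprime.commutator_le_of_le_normalizer hVM (commutator_mem_commutator hx ha))),
      LinearMap.zero_apply]

theorem main {G : Type u} [Group G] [Finite G] (hp2 : p ≠ 2) (hG : IsPSolvable p G) (P : Sylow p G)
    {d : ℕ} (h : dser (P : Subgroup G) (d + 1) = ⊥) : PLengthLE p (d + 1) G := by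
  induction d generalizing G with
  | zero =>
    exact pLengthLE_one_of_comm hG P
      (le_centralizer_iff_isMulCommutative.1 (commutator_eq_bot_iff_le_centralizer.1 h))
  | succ d ih =>
    refine pLengthLE_succ_of_quotient (ih (Coprime.isPSolvable_quotient hG _)
      (P.mapSurjective (QuotientGroup.mk'_surjective _)) ?_)
    rw [Sylow.coe_mapSurjective, ← map_dser, Core.map_mk_eq_bot_iff]
    exact step hp2 hG P (dser_le _ d) (le_normalizer.trans (normalizer_le_normalizer_dser _ d)) h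


/-- Let p be an odd prime and G a finite p-soluble group whose Sylow p-subgroups have derived length at most d. Then G has p-length at most d. -/
theorem result {G : Type*} [Group G] [Finite G] {p : ℕ} [Fact p.Prime] (hp : p ≠ 2) (hG : Cfsg.IsPSolvable p G) (d : ℕ) (hd : ∀ P : Sylow p G, derivedSeries ↥(P : Subgroup G) d = ⊥) : Cfsg.PLengthLE p d G := by
  obtain ⟨P⟩ := Sylow.nonempty (p := p) (G := G)
  have h := (derivedSeries_eq_bot_iff _ _).1 (hd P)
  rcases d with _ | d
  · rw [pLengthLE_zero_iff, Nat.coprime_comm, (Fact.out : p.Prime).coprime_iff_not_dvd,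
      ← index_bot, ← show (P : Subgroup G) = ⊥ from h]
    exact P.not_dvd_index
  · exact main hp hG P h

end Cfsg.Agent.S3789
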