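import Cfsg.Statements.S3790
import Cfsg.Agent.Lib.Mod.PLength
import Cfsg.Agent.Lib.Mod.DSer

set_option autoImplicit false
open Cfsg

namespace Cfsg.Agent.S3790


/-- Let G be a finite solvable group and p a prime. Suppose p₁, …, p_r are distinct primes, all different from p, that include every prime dividing the order of G other than p, and that G has p_i-length at most l_i for each i. Then G has p-length at most the product of the numbers 1 + l_i. -/
theorem result {G : Type*} [Group G] [Finite G] (hG : Group.IsSolvable G) (p : ℕ) [Fact p.Prime] (r : ℕ) (q : Fin r → ℕ) (hq : ∀ i, (q i).Prime ∧ q i ≠ p) (hinj : Function.Injective q) (hcover : ∀ s : ℕ, s.Prime → s ∣ Nat.card G → s ≠ p → ∃ i, q i = s) (l : Fin r → ℕ) (hl : ∀ i, Cfsg.PLengthLE (q i) (l i) G) : Cfsg.PLengthLE p (Finset.univ.prod fun i => 1 + l i) G := by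
  induction r generalizing G with
  | zero =>
    rw [Finset.univ_eq_empty, Finset.prod_empty]
    refine Mod.pLengthLE_one_of_isPGroup (Core.isPGroup_iff_forall_prime_dvd.2 fun s hs hd => ?_)
    by_contra hne
    obtain ⟨i, -⟩ := hcover s hs hd hne
    exact i.elim0
  | succ r ih =>
    rw [Fin.prod_univ_succ]
    have := Fact.mk (hq 0).1
    have h0 := hl 0
    have h1 : ∀ i : Fin r, Cfsg.PLengthLE (q i.succ) (l i.succ) G := fun i => hl i.succ
    clear hl
    have key : ∀ (H : Type _) [Group H] [Finite H], Group.IsSolvable H → Nat.card H ∣ Nat.card G →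
        (Nat.card H).Coprime (q 0) → (∀ i : Fin r, Cfsg.PLengthLE (q i.succ) (l i.succ) H) →
        Cfsg.PLengthLE p (∏ i : Fin r, (1 + l i.succ)) H := by
      intro H _ _ hH hd hc hl
      refine ih hH (fun i => q i.succ) (fun i => hq _) (hinj.comp (Fin.succ_injective r))
        (fun s hs hs' hsp => ?_) _ hl
      obtain ⟨i, rfl⟩ := hcover s hs (hs'.trans hd) hsp
      refine Fin.cases (fun hs hs' _ => ?_) (fun i _ _ _ => ⟨i, rfl⟩) i hs hs' hsp
      exact absurd hs' (hs.coprime_iff_not_dvd.1 hc.symm)
    clear ih hcover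
    generalize l 0 = a at h0 ⊢
    induction a generalizing G with
    | zero => simpa using key G hG dvd_rfl (Mod.pLengthLE_zero_iff.1 h0) h1
    | succ a iha =>
      have hF : ∀ i : Fin r, Fact (q i.succ).Prime := fun i => ⟨(hq _).1⟩
      have h2 := key (pPrimeCore (q 0) G) inferInstance (Subgroup.card_subgroup_dvd_card _)
        (Core.coprime_card_pPrimeCore _) fun i => Mod.pLengthLE_subgroup (h1 i) _
      let π := (QuotientGroup.mk' (pCore (q 0) (G ⧸ pPrimeCore (q 0) G))).comp
        (QuotientGroup.mk' (pPrimeCore (q 0) G))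
      have hπ : Function.Surjective π :=
        (QuotientGroup.mk'_surjective _).comp (QuotientGroup.mk'_surjective _)
      have h3 := iha (G := (G ⧸ pPrimeCore (q 0) G) ⧸ pCore (q 0) (G ⧸ pPrimeCore (q 0) G))
        inferInstance (fun i => Mod.pLengthLE_of_surjective (h1 i) hπ)
        (fun H _ _ hH hd => key H hH (hd.trans (Subgroup.card_dvd_of_surjective π hπ)))
        (Mod.pLengthLE_quotient_ups_two h0 hπ fun x hx => (QuotientGroup.eq_one_iff _).2 hx)
      have h4 := Mod.pLengthLE_of_quotient_coprime _ (Core.coprime_card_of_isPGroup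
        (Core.isPGroup_pCore (q 0)) ((Nat.coprime_primes Fact.out (hq 0).1).2 (hq 0).2.symm)) h3
      convert Mod.pLengthLE_add _ h2 h4 using 1
      ring

end Cfsg.Agent.S3790
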