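import Cfsg.Statements.S3791
import Cfsg.Agent.Lib.Mod.PReduce
import Cfsg.Agent.Lib.Mod.DSer

set_option autoImplicit false
open Cfsg

namespace Cfsg.Agent.S3791


/-- The Hall–Higman bound on derived length: let G be a finite solvable group, let p₁, …, p_r be distinct primes that include every prime dividing the order of G, and suppose that for each i the Sylow p_i-subgroups of G have derived length at most d_i and G has p_i-length at most l_i. Then G has derived length at most Σ d_i l_i. -/
theorem result {G : Type*} [Group G] [Finite G] (hG : Group.IsSolvable G) (r : ℕ) (q : Fin r → ℕ) (hq : ∀ i, (q i).Prime) (hinj : Function.Injective q) (hcover : ∀ s : ℕ, s.Prime → s ∣ Nat.card G → ∃ i, q i = s) (d l : Fin r → ℕ) (hd : ∀ i, ∀ P : Subgroup G, (haveI := Fact.mk (hq i); ∃ S : Sylow (q i) G, (S : Subgroup G) = P) → derivedSeries ↥P (d i) = ⊥) (hl : ∀ i, Cfsg.PLengthLE (q i) (l i) G) : derivedSeries G (Finset.univ.sum fun i => d i * l i) = ⊥ := by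
  have hd' : ∀ i, ∀ P : Subgroup G, IsPGroup (q i) P → Mod.dser P (d i) = ⊥ := by
    intro i P hP
    have := Fact.mk (hq i)
    obtain ⟨S, hS⟩ := hP.exists_le_sylow
    exact eq_bot_iff.2 ((Mod.dser_mono hS _).trans
      ((Mod.derivedSeries_eq_bot_iff _ _).1 (hd i S ⟨S, rfl⟩)).le)
  clear hd
  induction hn : Nat.card G using Nat.strong_induction_on generalizing G l with
  | h n ih =>
  subst hn
  have hF : ∀ i, Fact (q i).Prime := fun i => ⟨hq i⟩
  have key : ∀ (N : Subgroup G) [N.Normal], N ≠ ⊥ → ∀ l : Fin r → ℕ,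
      (∀ i, Cfsg.PLengthLE (q i) (l i) (G ⧸ N)) → derivedSeries G (∑ i, d i * l i) ≤ N := by
    intro N _ hN l hl
    rw [← Core.map_mk_eq_bot_iff, map_derivedSeries_eq (QuotientGroup.mk'_surjective N)]
    refine ih _ (Core.card_quotient_lt hN) inferInstance
      (fun s hs hd => hcover s hs (hd.trans (Subgroup.card_quotient_dvd_card N))) l hl
      (fun i P hP => ?_) rfl
    obtain ⟨R, -, hR, rfl⟩ := Mod.exists_isPGroup_map_eq (f := QuotientGroup.mk' N) (K := ⊤) hP
      (by rw [Subgroup.map_top_of_surjective _ (QuotientGroup.mk'_surjective N)]; exact le_top)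
    rw [← Mod.map_dser, hd' i R hR, Subgroup.map_bot]
  rcases subsingleton_or_nontrivial G with hs | hs
  · exact Subsingleton.elim _ _
  obtain ⟨M, hM⟩ := Core.exists_isMinNormal (G := G)
  obtain ⟨p, hp, hMp⟩ := hM.exists_isPGroup inferInstance
  have := Fact.mk hp
  have := hM.normal
  have hpd : p ∣ Nat.card G := by
    obtain ⟨x, -, hx⟩ := PGrp.exists_orderOf_eq_prime_of_ne_bot hMp hM.ne_bot
    exact hx ▸ orderOf_dvd_natCard x
  obtain ⟨i, rfl⟩ := hcover p hp hpd
  have h1 : pCore (q i) G ≠ ⊥ := fun h => hM.ne_bot (eq_bot_iff.2 (h ▸ Core.le_pCore hMp))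
  by_cases h2 : pPrimeCore (q i) G = ⊥
  · obtain ⟨a, ha⟩ : ∃ a, l i = a + 1 := Nat.exists_eq_add_one_of_ne_zero fun h =>
      hp.coprime_iff_not_dvd.1 (Mod.pLengthLE_zero_iff.1 (h ▸ hl i)).symm hpd
    have h3 := key _ h1 (Function.update l i a) fun j => by
      by_cases hj : j = i
      · subst hj
        rw [Function.update_self]
        exact Mod.pLengthLE_quotient_ups_two (ha ▸ hl j) (QuotientGroup.mk'_surjective _)
          (by rw [QuotientGroup.ker_mk', Core.pPrimePCore_eq_pCore h2])
      · rw [Function.update_of_ne hj]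
        exact Mod.pLengthLE_quotient (hl j) _
    have h4 : ∑ j, d j * l j = ∑ j, d j * Function.update l i a j + d i := by
      have h5 : ∑ j ∈ Finset.univ.erase i, d j * Function.update l i a j =
          ∑ j ∈ Finset.univ.erase i, d j * l j :=
        Finset.sum_congr rfl fun j hj => by rw [Function.update_of_ne (Finset.ne_of_mem_erase hj)]
      rw [← Finset.add_sum_erase _ _ (Finset.mem_univ i),
        ← Finset.add_sum_erase _ _ (Finset.mem_univ i), Function.update_self, ha, h5]
      ring
    rw [h4, ← Mod.dser_top, Mod.dser_add, Mod.dser_top]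
    exact hd' i _ ((Core.isPGroup_pCore _).to_le h3)
  · rw [eq_bot_iff, ← Core.pCore_inf_pPrimeCore (p := q i)]
    exact le_inf (key _ h1 l fun j => Mod.pLengthLE_quotient (hl j) _)
      (key _ h2 l fun j => Mod.pLengthLE_quotient (hl j) _)

end Cfsg.Agent.S3791
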