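import Cfsg.Statements.S3792
import Cfsg.Agent.Lib.Coprime.Powell

set_option autoImplicit false
open Cfsg

namespace Cfsg.Agent.S3792

/-- Powell's Theorem: let G be a finite non-abelian simple group and p an odd prime dividing its order such that every proper subgroup of G is p-soluble. Then G can be generated by three elements. -/
theorem result {G : Type*} [Group G] [Finite G] [IsSimpleGroup G] (hna : ¬ IsMulCommutative G) {p : ℕ} [Fact p.Prime] (hp : p ≠ 2) (hdvd : p ∣ Nat.card G) (hprop : ∀ H : Subgroup G, H ≠ ⊤ → Cfsg.IsPSolvable p ↥H) : ∃ x y z : G, Subgroup.closure ({x, y, z} : Set G) = ⊤ := by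
  by_contra hcon
  push Not at hcon
  have h := Coprime.piCore_ne_bot_of_forall_triple (G := G) (p := p) fun a b c =>
    Coprime.isPSolvable_iff.1 (hprop _ (hcon a b c))
  rcases h with h | h
  · have h1 := (IsSimpleGroup.eq_bot_or_eq_top_of_normal _ inferInstance).resolve_left h
    have h2 : IsPGroup p G := Core.isPGroup_iff_forall_prime_dvd.2 (Core.piCore_eq_top_iff.1 h1)
    have := Coprime.isSolvable_of_isPGroup h2
    exact hna ⟨⟨IsSimpleGroup.comm_iff_isSolvable.2 this⟩⟩
  · have h1 := (IsSimpleGroup.eq_bot_or_eq_top_of_normal _ inferInstance).resolve_left h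
    exact Core.piCore_eq_top_iff.1 h1 p Fact.out hdvd rfl

end Cfsg.Agent.S3792
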