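import Cfsg.Statements.S3796
import Cfsg.Agent.Lib.Mod.TwoPrimes

set_option autoImplicit false
open Cfsg

namespace Cfsg.Agent.S3796


/-- Ward's Theorem: let G be a finite solvable group and A an elementary abelian group of automorphisms of G of order p² (p a prime) with no non-identity common fixed point. Then G has Fitting height at most 2: G has Fitting height at most m when there is a chain of normal subgroups 1 = F₀ ≤ F₁ ≤ ⋯ ≤ F_m = G with each F_{i+1}/F_i nilpotent. -/
theorem result {G : Type*} [Group G] [Finite G] (hG : Group.IsSolvable G) {p : ℕ} (hp : p.Prime) (A : Subgroup (MulAut G)) (hA : Cfsg.IsElementaryAbelian p A) (hcard : Nat.card A = p ^ 2) (hfpf : ∀ g : G, (∀ a ∈ A, a g = g) → g = 1) : ∃ F : Fin (2 + 1) → Subgroup G, F 0 = ⊥ ∧ F (Fin.last 2) = ⊤ ∧ Monotone F ∧ (∀ i, (F i).Normal) ∧ ∀ i : Fin 2, ∃ k : ℕ, (F i.succ).lowerCentralSeries k ≤ F i.castSucc := by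
  haveI := Fact.mk hp
  have hf : ∀ g, (∀ a : A, A.subtype a g = g) → g = 1 := fun g hg =>
    hfpf g fun a ha => hg ⟨a, ha⟩
  have h := Mod.fpf_semidirect A.subtype hG
    (Mod.coprime_of_fpf_of_isPGroup _ (IsPGroup.of_card hcard) hf) hf
  exact Mod.fitChain_iff.2 ((Mod.lns_map_eq_bot_iff_of_injective
    SemidirectProduct.inl_injective).1 (h.lns_two_eq_bot ⟨p, p, hp, hp, by
      rw [Coprime.card_map_inr, Subgroup.card_top, hcard, sq]⟩))

end Cfsg.Agent.S3796
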