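import Cfsg.Statements.S3797
import Mathlib
import Cfsg.Agent.Lib.Core.InvConj
import Cfsg.Agent.Lib.Mod.PLength

set_option autoImplicit false
open Cfsg

namespace Cfsg.Agent.S3797

open Subgroup Cfsg.Agent.Core

theorem homocyclic {S : Type*} [CommGroup S] [Finite S] (hS : IsPGroup 2 S)
    (h : ∀ x y : S, x ≠ 1 → x ^ 2 = 1 → y ≠ 1 → y ^ 2 = 1 → ∃ a : MulAut S, a x = y) :
    ∃ m r : ℕ, Nonempty (S ≃* (Fin r → Multiplicative (ZMod (2 ^ m)))) := by
  classical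
  obtain ⟨ι, _, n, hn, ⟨e⟩⟩ := CommGroup.equiv_prod_multiplicative_zmod_of_finite S
  have h1 : ∀ i, ∃ m, n i = 2 ^ (m + 1) := fun i => by
    have : NeZero (n i) := ⟨by have := hn i; omega⟩
    obtain ⟨k, hk⟩ := IsPGroup.iff_card.1 ((hS.of_equiv e).of_surjective
      (Pi.evalMonoidHom (fun i => Multiplicative (ZMod (n i))) i) (Function.surjective_eval i))
    rw [Nat.card_congr Multiplicative.toAdd, Nat.card_zmod] at hk
    rcases k with _ | k
    · have := hn i; omega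
    · exact ⟨k, hk⟩
  choose m hm using h1
  obtain rfl : n = fun i => 2 ^ (m i + 1) := funext hm
  let u : ∀ i, (j : ι) → Multiplicative (ZMod (2 ^ (m j + 1))) := fun i =>
    Pi.mulSingle i (Multiplicative.ofAdd 1)
  have hz : ∀ i k (x : Multiplicative (ZMod (2 ^ (m i + 1)))), m i + 1 ≤ k → x ^ 2 ^ k = 1 :=
    fun i k x hk => by
      refine orderOf_dvd_iff_pow_eq_one.1 ((orderOf_dvd_natCard x).trans ?_)
      rw [Nat.card_congr Multiplicative.toAdd, Nat.card_zmod]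
      exact pow_dvd_pow 2 hk
  have hu1 : ∀ i, (u i ^ 2 ^ m i) i ≠ 1 := fun i hi => by
    simp only [u, Pi.pow_apply, Pi.mulSingle_eq_same] at hi
    have := orderOf_dvd_iff_pow_eq_one.2 hi
    rw [orderOf_ofAdd_eq_addOrderOf, ZMod.addOrderOf_one,
      Nat.pow_dvd_pow_iff_le_right (by norm_num)] at this
    omega
  have hu2 : ∀ i, (u i ^ 2 ^ m i) ^ 2 = 1 := fun i => by
    rw [← pow_mul, ← pow_succ, ← Pi.mulSingle_pow, hz i _ _ le_rfl, Pi.mulSingle_one]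
  have hle : ∀ i j, m i ≤ m j := fun i j => by
    have k1 : ∀ i, e.symm (u i ^ 2 ^ m i) ≠ 1 := fun i hi =>
      hu1 i (by rw [(MulEquiv.map_eq_one_iff _).1 hi]; rfl)
    have k2 : ∀ i, e.symm (u i ^ 2 ^ m i) ^ 2 = 1 := fun i => by rw [← map_pow, hu2, map_one]
    obtain ⟨a, ha⟩ := h _ _ (k1 i) (k2 i) (k1 j) (k2 j)
    rw [map_pow, map_pow, eq_comm, MulEquiv.symm_apply_eq, map_pow] at ha
    by_contra hh
    exact hu1 j (by rw [ha]; exact hz j _ _ (by omega))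
  rcases isEmpty_or_nonempty ι with hι | ⟨⟨i₀⟩⟩
  · exact ⟨0, 0, ⟨e.trans MulEquiv.ofUnique⟩⟩
  · obtain ⟨k, hk⟩ : ∃ k, m = fun _ => k := ⟨m i₀, funext fun i => le_antisymm (hle _ _) (hle _ _)⟩
    subst hk
    exact ⟨_, _, ⟨e.trans (MulEquiv.arrowCongr (Fintype.equivFin ι) (MulEquiv.refl _))⟩⟩

/-- Let G be a finite solvable group of even order whose Sylow 2-subgroups contain more than one involution, and suppose all involutions of G are conjugate. Then G has 2-length at most 1, and a Sylow 2-subgroup S of G is either homocyclic (a direct product of cyclic groups of one common order) or a non-abelian 2-group with more than one involution admitting a solvable group of automorphisms transitive on its involutions. -/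
theorem result {G : Type*} [Group G] [Finite G] (hG : Group.IsSolvable G) (heven : Even (Nat.card G)) (S : Sylow 2 G) (htwo : ∃ x y : G, x ∈ (S : Subgroup G) ∧ y ∈ (S : Subgroup G) ∧ x ≠ y ∧ x ≠ 1 ∧ x ^ 2 = 1 ∧ y ≠ 1 ∧ y ^ 2 = 1) (hconj : ∀ x y : G, x ≠ 1 → x ^ 2 = 1 → y ≠ 1 → y ^ 2 = 1 → IsConj x y) : Cfsg.PLengthLE 2 1 G ∧ ((∃ m r : ℕ, Nonempty (↥(S : Subgroup G) ≃* (Fin r → Multiplicative (ZMod (2 ^ m))))) ∨ (¬ IsMulCommutative (S : Subgroup G) ∧ ∃ Y : Subgroup (MulAut ↥(S : Subgroup G)), Group.IsSolvable Y ∧ ∀ x y : ↥(S : Subgroup G), x ≠ 1 → x ^ 2 = 1 → y ≠ 1 → y ^ 2 = 1 → ∃ a ∈ Y, a x = y)) := by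
  obtain ⟨a, b, haS, hbS, hab, ha, ha2, hb, hb2⟩ := htwo
  have hG2 : IsPSolvable 2 G := Coprime.isPSolvable_of_isSolvable hG
  have hO := coprime_card_pPrimeCore (G := G) 2
  have hinj : ∀ x ∈ (S : Subgroup G), (x : G ⧸ pPrimeCore 2 G) = 1 → x = 1 := fun x hx h =>
    mem_bot.1 (inf_eq_bot_of_isPGroup_of_coprime S.isPGroup' hO ▸
      mem_inf.2 ⟨hx, (QuotientGroup.eq_one_iff x).1 h⟩)
  have hconj' : ∀ x y : G ⧸ pPrimeCore 2 G, x ≠ 1 → x ^ 2 = 1 → y ≠ 1 → y ^ 2 = 1 → IsConj x y := by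
    intro x y x1 x2 y1 y2
    obtain ⟨x, hx, rfl⟩ := exists_lift_pow_eq_one hO x2
    obtain ⟨y, hy, rfl⟩ := exists_lift_pow_eq_one hO y2
    exact (QuotientGroup.mk' _).map_isConj
      (hconj x y (fun e => x1 (by simp [e])) hx (fun e => y1 (by simp [e])) hy)
  have hi := coprime_index_pCore_of_isConj (Coprime.isPSolvable_quotient hG2 (pPrimeCore 2 G))
    pPrimeCore_quotient_pPrimeCore (a := a) (b := b)
    (fun e => hab (inv_mul_eq_one.1 (hinj _ (mul_mem (inv_mem haS) hbS) (by simp [e]))))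
    (fun e => ha (hinj a haS e)) (by rw [← QuotientGroup.mk_pow, ha2]; rfl)
    (fun e => hb (hinj b hbS e)) (by rw [← QuotientGroup.mk_pow, hb2]; rfl) hconj'
  refine ⟨Mod.pLengthLE_of_quotient_coprime (pPrimeCore 2 G) hO
    (Mod.pLengthLE_add (m := 1) (n := 0) _ (Mod.pLengthLE_one_of_isPGroup (isPGroup_pCore 2))
      (Mod.pLengthLE_zero_iff.2 hi)), ?_⟩
  obtain ⟨Q, hQ⟩ : ∃ Q, Q = pCore 2 (G ⧸ pPrimeCore 2 G) := ⟨_, rfl⟩
  have : Q.Normal := hQ ▸ inferInstance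
  have hSQ : (S : Subgroup G).map (QuotientGroup.mk' _) = Q := by
    have h1 : Coprime.IsSylowIn 2 Q ⊤ := ⟨le_top, hQ ▸ isPGroup_pCore 2, by
      rw [relIndex_top_right, hQ, ← Nat.prime_two.coprime_iff_not_dvd]; exact hi.symm⟩
    exact h1.eq_of_le (hQ ▸ pCore_le_sylow (S.mapSurjective (QuotientGroup.mk'_surjective _)))
      le_top (S.isPGroup'.map _)
  let f : (S : Subgroup G) →* Q := ((QuotientGroup.mk' _).comp (S : Subgroup G).subtype).codRestrict Q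
    fun x => hSQ ▸ mem_map_of_mem _ x.2
  let e : (S : Subgroup G) ≃* Q := MulEquiv.ofBijective f ⟨(injective_iff_map_eq_one f).2
    fun x hx => Subtype.ext (hinj x x.2 (congrArg Subtype.val hx)), fun y => by
      obtain ⟨x, hx, h⟩ := hSQ.ge y.2
      exact ⟨⟨x, hx⟩, Subtype.ext h⟩⟩
  let ψ : (G ⧸ pPrimeCore 2 G) →* MulAut (S : Subgroup G) :=
    (MulAut.congr e).symm.toMonoidHom.comp MulAut.conjNormal
  have hY : ∀ x y : (S : Subgroup G), x ≠ 1 → x ^ 2 = 1 → y ≠ 1 → y ^ 2 = 1 →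
      ∃ a ∈ ψ.range, a x = y := by
    intro x y x1 x2 y1 y2
    have k1 : ∀ x : (S : Subgroup G), x ≠ 1 → (e x : G ⧸ pPrimeCore 2 G) ≠ 1 := fun x h h' =>
      h ((MulEquiv.map_eq_one_iff e).1 (Subtype.ext h'))
    have k2 : ∀ x : (S : Subgroup G), x ^ 2 = 1 → (e x : G ⧸ pPrimeCore 2 G) ^ 2 = 1 := fun x h => by
      rw [← coe_pow, ← map_pow, h, map_one, coe_one]
    obtain ⟨c, hc⟩ := isConj_iff.1 (hconj' _ _ (k1 x x1) (k2 x x2) (k1 y y1) (k2 y y2))
    refine ⟨_, ⟨c, rfl⟩, ?_⟩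
    change e.symm (MulAut.conjNormal c (e x)) = y
    rw [MulEquiv.symm_apply_eq]
    exact Subtype.ext hc
  by_cases hc : IsMulCommutative (S : Subgroup G)
  · left
    let _ : CommGroup (S : Subgroup G) := { mul_comm := hc.is_comm.comm }
    exact homocyclic S.isPGroup' fun x y x1 x2 y1 y2 => (hY x y x1 x2 y1 y2).imp fun _ h => h.2
  · exact Or.inr ⟨hc, ψ.range, Group.isSolvable_of_surjective ψ.rangeRestrict_surjective, hY⟩

end Cfsg.Agent.S3797
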