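import Cfsg.Statements.S3798
import Mathlib
import Cfsg.Agent.Lib.Core.OmegaTrans
import Cfsg.Agent.Lib.Mod.PLength
import Cfsg.Agent.Lib.PGrp.Critical

set_option autoImplicit false
open Cfsg

namespace Cfsg.Agent.S3798

open Subgroup Cfsg.Agent.Core

theorem core {G : Type*} [Group G] [Finite G] {p : ℕ} [hp : Fact p.Prime] (hp2 : p ≠ 2)
    (hG : IsPSolvable p G) (h0 : pPrimeCore p G = ⊥)
    (h : ∀ K : Subgroup G, K.Characteristic → p ∣ Nat.card K → ∀ x : G, x ^ p = 1 → x ∈ K) :
    (pCore p G).index.Coprime p := by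
  have hdvd : ∀ K : Subgroup G, K ≤ pCore p G → K ≠ ⊥ → p ∣ Nat.card K := fun K hK h1 => by
    obtain ⟨n, hn⟩ := IsPGroup.iff_card.1 ((isPGroup_pCore p).to_le hK)
    rcases n with _ | n
    · exact absurd (card_eq_one.1 (by simpa using hn)) h1
    · rw [hn]; exact dvd_pow_self p n.succ_ne_zero
  have hC := Coprime.centralizer_pCore_le hG h0
  obtain ⟨N, hN⟩ : ∃ N, N = (pPrimeCore p (G ⧸ pCore p G)).comap (QuotientGroup.mk' _) := ⟨_, rfl⟩
  have hNc : N.Characteristic := hN ▸ Subgroup.Characteristic.comap_quotient_mk inferInstance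
  have hQN : pCore p G ≤ N := fun x hx => by
    rw [hN, mem_comap, QuotientGroup.mk'_apply, (QuotientGroup.eq_one_iff x).2 hx]
    exact one_mem _
  have hrel : ((pCore p G).relIndex N).Coprime p := hN ▸ relIndex_comap_pPrimeCore _
  have hone : Subsingleton (G ⧸ pCore p G) → (pCore p G).index.Coprime p := fun hs => by
    rw [index, Nat.card_of_subsingleton (1 : G ⧸ pCore p G)]
    exact Nat.coprime_one_left p
  by_cases hW : centralizer (pCore p G : Set G) ⊓ centralizer (N : Set G) = ⊥
  · by_cases hZ : centralizer (pCore p G : Set G) = ⊥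
    · rcases subsingleton_or_nontrivial G with hs | hs
      · exact hone (QuotientGroup.mk_surjective.subsingleton)
      · have hQ := (Coprime.pCore_ne_bot_or hG).resolve_right (not_not.2 h0)
        have := (Subgroup.nontrivial_iff_ne_bot _).2 hQ
        obtain ⟨⟨⟨z, hz⟩, hz'⟩, hz1⟩ := @exists_ne _ (isPGroup_pCore (G := G) p).center_nontrivial 1
        have : z ∈ centralizer (pCore p G : Set G) := fun y hy =>
          congrArg Subtype.val (mem_center_iff.1 hz' ⟨y, hy⟩)
        rw [hZ, mem_bot] at this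
        exact absurd (Subtype.ext (Subtype.ext this)) hz1
    · exact coprime_index_of_inf_centralizer_eq_bot hG ((isPGroup_pCore p).to_le hC)
        (h _ inferInstance (hdvd _ hC hZ)) hQN hrel (le_centralizer_iff.1 le_rfl) hW
  · have h1 := h _ inferInstance (hdvd _ (inf_le_left.trans hC) hW)
    obtain ⟨R, hR⟩ := exists_pComplOf hG N
    have h2 := sup_eq_of_pComplOf hQN hrel hR
    have h3 := coprime_of_pComplOf hR
    obtain ⟨n, hn⟩ := IsPGroup.iff_card.1 (isPGroup_pCore (G := G) p)
    have h4 := PGrp.le_centralizer_of_omega_odd hp2 (A := R) (isPGroup_pCore p)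
      (le_normalizer_of_normal) (hn ▸ h3.pow_right n) fun x _ hx =>
        centralizer_le (SetLike.coe_subset_coe.2 (h2 ▸ le_sup_right)) (h1 x hx).2
    rw [sup_eq_left.2 (h4.trans hC)] at h2
    rcases subsingleton_or_nontrivial (G ⧸ pCore p G) with hs | hs
    · exact hone hs
    · refine absurd ?_ ((Coprime.pCore_ne_bot_or (Coprime.isPSolvable_quotient hG (pCore p G))).resolve_left
        (not_not.2 pCore_quotient_pCore))
      rw [eq_bot_iff]
      intro y hy
      obtain ⟨y, rfl⟩ := QuotientGroup.mk_surjective y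
      exact (QuotientGroup.eq_one_iff y).2 (h2 ▸ hN ▸ hy)

/-- The Gaschütz–Yen Theorem: let G be a finite p-soluble group, p an odd prime dividing its order, such that the automorphism group of G permutes the subgroups of G of order p transitively. Then G has p-length at most 1. -/
theorem result {G : Type*} [Group G] [Finite G] {p : ℕ} [Fact p.Prime] (hp : p ≠ 2) (hdvd : p ∣ Nat.card G) (hG : Cfsg.IsPSolvable p G) (htrans : ∀ U V : Subgroup G, Nat.card U = p → Nat.card V = p → ∃ a : MulAut G, U.map a.toMonoidHom = V) : Cfsg.PLengthLE p 1 G := by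
  have hprime := (Fact.out : p.Prime)
  have h : ∀ K : Subgroup G, K.Characteristic → p ∣ Nat.card K → ∀ x : G, x ^ p = 1 → x ∈ K := by
    intro K hK hd x hx
    by_cases h1 : x = 1
    · exact h1 ▸ K.one_mem
    obtain ⟨y, hy, ho⟩ := exists_mem_orderOf_eq_of_dvd_card hd
    obtain ⟨a, ha⟩ := htrans (zpowers y) (zpowers x) (by rw [Nat.card_zpowers, ho])
      (by rw [Nat.card_zpowers, orderOf_eq_prime hx h1])
    have := map_mono (f := a.toMonoidHom) ((zpowers_le).2 hy)
    rw [ha, characteristic_iff_map_eq.1 hK a] at this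
    exact this (mem_zpowers x)
  refine Mod.pLengthLE_of_quotient_coprime (pPrimeCore p G) (coprime_card_pPrimeCore p) ?_
  have := core hp (Coprime.isPSolvable_quotient hG (pPrimeCore p G)) pPrimeCore_quotient_pPrimeCore
    fun K hK hd y hy => by
      obtain ⟨x, hx, rfl⟩ := exists_lift_pow_eq_one (coprime_card_pPrimeCore p) hy
      refine h _ (Subgroup.Characteristic.comap_quotient_mk hK) (hd.trans ?_) x hx
      conv_lhs => rw [← map_comap_eq_self_of_surjective (QuotientGroup.mk'_surjective _) K]
      exact card_map_dvd _ _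
  exact Mod.pLengthLE_add (m := 1) (n := 0) _ (Mod.pLengthLE_one_of_isPGroup (isPGroup_pCore p))
    (Mod.pLengthLE_zero_iff.2 this)

end Cfsg.Agent.S3798
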