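import Cfsg.Statements.S3799
import Cfsg.Agent.Lib.PGrp.Critical
import Cfsg.Agent.Lib.PGrp.Extraspecial

set_option autoImplicit false
open Cfsg

namespace Cfsg.Agent.S3799

/-- The Heisenberg group. -/
@[ext] structure Heis (R : Type) (n : ℕ) where
  /-- row -/
  a : Fin n → R
  /-- column -/
  b : Fin n → R
  /-- corner -/
  c : R

variable {R : Type} [CommRing R] {n : ℕ}

instance instMulHeis : Mul (Heis R n) := ⟨fun x y => ⟨x.a + y.a, x.b + y.b, x.c + y.c + x.a ⬝ᵥ y.b⟩⟩
instance instOneHeis : One (Heis R n) := ⟨⟨0, 0, 0⟩⟩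
instance instInvHeis : Inv (Heis R n) := ⟨fun x => ⟨-x.a, -x.b, -x.c + x.a ⬝ᵥ x.b⟩⟩

@[simp] theorem mul_a (x y : Heis R n) : (x * y).a = x.a + y.a := rfl
@[simp] theorem mul_b (x y : Heis R n) : (x * y).b = x.b + y.b := rfl
@[simp] theorem mul_c (x y : Heis R n) : (x * y).c = x.c + y.c + x.a ⬝ᵥ y.b := rfl
@[simp] theorem one_a : (1 : Heis R n).a = 0 := rfl
@[simp] theorem one_b : (1 : Heis R n).b = 0 := rfl
@[simp] theorem one_c : (1 : Heis R n).c = 0 := rfl
@[simp] theorem inv_a (x : Heis R n) : x⁻¹.a = -x.a := rfl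
@[simp] theorem inv_b (x : Heis R n) : x⁻¹.b = -x.b := rfl
@[simp] theorem inv_c (x : Heis R n) : x⁻¹.c = -x.c + x.a ⬝ᵥ x.b := rfl

instance instGroupHeis : Group (Heis R n) := Group.ofLeftAxioms
  (fun x y z => by ext <;> simp [add_dotProduct, dotProduct_add] <;> ring)
  (fun x => by ext <;> simp) (fun x => by ext <;> simp)

theorem pow_eq (x : Heis R n) (k : ℕ) :
    x ^ k = ⟨(k : R) • x.a, (k : R) • x.b, k * x.c + k.choose 2 * x.a ⬝ᵥ x.b⟩ := by
  induction k with
  | zero => ext <;> simp
  | succ k ih =>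
    rw [pow_succ, ih]
    ext <;> simp [Nat.choose_succ_succ' k 1, smul_dotProduct] <;> ring

theorem mem_center_iff {x : Heis R n} : x ∈ Subgroup.center (Heis R n) ↔ x.a = 0 ∧ x.b = 0 := by
  refine Subgroup.mem_center_iff.trans ⟨fun h => ⟨funext fun i => ?_, funext fun i => ?_⟩,
    fun h y => by ext <;> simp [h.1, h.2, add_comm]⟩
  · simpa [add_comm] using congrArg Heis.c (h ⟨0, Pi.single i 1, 0⟩).symm
  · simpa [add_comm] using congrArg Heis.c (h ⟨Pi.single i 1, 0, 0⟩)

/-- The natural representation. -/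
def rep : Heis R n →* Module.End R (R × (Fin n → R) × R) where
  toFun x :=
    { toFun := fun v => (v.1 + x.a ⬝ᵥ v.2.1 + x.c * v.2.2, v.2.1 + v.2.2 • x.b, v.2.2)
      map_add' := fun v w => by
        ext <;> simp [dotProduct_add] <;> ring
      map_smul' := fun r v => by
        ext <;> simp [dotProduct_smul] <;> ring }
  map_one' := LinearMap.ext fun v => by simp
  map_mul' x y := LinearMap.ext fun v => by
    ext <;> simp [add_dotProduct, dotProduct_add, dotProduct_smul] <;> ring

theorem rep_injective : Function.Injective (rep (R := R) (n := n)) :=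
  (injective_iff_map_eq_one _).mpr fun x h => by
    have h1 := LinearMap.congr_fun h (0, 0, 1)
    simp only [rep, MonoidHom.coe_mk, OneHom.coe_mk, LinearMap.coe_mk, AddHom.coe_mk,
      dotProduct_zero, add_zero, mul_one, zero_add, one_smul, Module.End.one_apply,
      Prod.mk.injEq, and_true] at h1
    ext i
    · simpa [rep] using LinearMap.congr_fun h (0, Pi.single i 1, 0)
    · simp [h1.2]
    · simp [h1.1]

/-- Coordinates. -/
def equivProd : Heis R n ≃ (Fin n → R) × (Fin n → R) × R where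
  toFun x := (x.a, x.b, x.c)
  invFun x := ⟨x.1, x.2.1, x.2.2⟩

/-- The centre. -/
def centerEquiv : Subgroup.center (Heis R n) ≃ R where
  toFun x := x.1.c
  invFun c := ⟨⟨0, 0, c⟩, mem_center_iff.mpr ⟨rfl, rfl⟩⟩
  left_inv x := Subtype.ext (Heis.ext (mem_center_iff.mp x.2).1.symm
    (mem_center_iff.mp x.2).2.symm rfl)

/-- For every odd prime p and every n ≥ 1 there is an extraspecial p-group of order p^(1+2n) and exponent p; concretely, the general linear group of degree n + 2 over the field with p elements contains such a subgroup. -/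
theorem result (p : ℕ) [Fact p.Prime] (hp : p ≠ 2) (n : ℕ) (hn : 1 ≤ n) : ∃ E : Subgroup (Matrix.GeneralLinearGroup (Fin (n + 2)) (ZMod p)), Cfsg.IsExtraspecial p ↥E ∧ Nat.card E = p ^ (1 + 2 * n) ∧ ∀ x ∈ E, x ^ p = 1 := by
  have hc : Nat.card (Heis (ZMod p) n) = p ^ (1 + 2 * n) := by
    rw [Nat.card_congr equivProd]
    simp only [Nat.card_prod, Nat.card_fun, Nat.card_zmod, Nat.card_fin]
    ring
  have : Finite (Heis (ZMod p) n) := Finite.of_equiv _ equivProd.symm
  have hE : IsExtraspecial p (Heis (ZMod p) n) := by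
    refine PGrp.isExtraspecial_of (IsPGroup.of_card hc)
      ((Nat.card_congr centerEquiv).trans (Nat.card_zmod p)) (fun h => ?_) ?_
    · have h1 := mem_center_iff.mp (Subgroup.mem_center_iff.mpr fun y =>
        h.1.1 y (⟨fun _ => 1, 0, 0⟩ : Heis (ZMod p) n))
      exact one_ne_zero (congrFun h1.1 ⟨0, hn⟩)
    · rw [commutator_def, Subgroup.commutator_le]
      intro x _ y _
      simp [mem_center_iff, commutatorElement_def]
  let b := Module.finBasisOfFinrankEq (ZMod p) (ZMod p × (Fin n → ZMod p) × ZMod p) (n := n + 2)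
    (by simp [Module.finrank_prod]; ring)
  let f : Heis (ZMod p) n →* GL (Fin (n + 2)) (ZMod p) :=
    (Matrix.GeneralLinearGroup.toLin' b).symm.toMonoidHom.comp rep.toHomUnits
  have hf : Function.Injective f := (Matrix.GeneralLinearGroup.toLin' b).symm.injective.comp
    fun x y h => rep_injective (congrArg Units.val h)
  refine ⟨f.range, PGrp.IsExtraspecial.congr hE (MonoidHom.ofInjective hf),
    (Nat.card_congr (MonoidHom.ofInjective hf).toEquiv).symm.trans hc, ?_⟩
  rintro _ ⟨x, rfl⟩
  rw [← map_pow, pow_eq, (ZMod.natCast_eq_zero_iff _ p).mpr (PGrp.dvd_choose_two_of_odd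
    ((Fact.out : p.Prime).odd_of_ne_two hp)), ZMod.natCast_self, ← map_one f]
  congr 1
  ext <;> simp

end Cfsg.Agent.S3799
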