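import Cfsg.Statements.S3800
import Cfsg.Agent.Lib.Coprime.Sylow

set_option autoImplicit false
open Cfsg

namespace Cfsg.Agent.S3800

/-- Let G be a finite group, N a normal subgroup of G whose order is prime to p, and P a p-subgroup of G. Then in G/N the normalizer of the image of P is the image of N_G(P), and the centralizer of the image of P is the image of C_G(P). -/
theorem result {G : Type*} [Group G] [Finite G] {p : ℕ} [Fact p.Prime] (N : Subgroup G) [N.Normal] (hN : (Nat.card N).Coprime p) (P : Subgroup G) (hP : IsPGroup p P) : Subgroup.normalizer ((P.map (QuotientGroup.mk' N)) : Set (G ⧸ N)) = (Subgroup.normalizer (P : Set G)).map (QuotientGroup.mk' N) ∧ Subgroup.centralizer ((P.map (QuotientGroup.mk' N)) : Set (G ⧸ N)) = (Subgroup.centralizer (P : Set G)).map (QuotientGroup.mk' N) := by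
  have hcop : (Nat.card P).Coprime (Nat.card (QuotientGroup.mk' N).ker) := by
    obtain ⟨k, hk⟩ := hP.exists_card_eq
    rw [QuotientGroup.ker_mk', hk]
    exact Nat.Coprime.pow_left k hN.symm
  have hsol := Or.inl (b := Group.IsSolvable (QuotientGroup.mk' N).ker)
    (Coprime.isSolvable_of_isPGroup hP)
  exact ⟨(Coprime.map_normalizer_eq _ (QuotientGroup.mk'_surjective N) hcop hsol).symm,
    (Coprime.map_centralizer_eq _ (QuotientGroup.mk'_surjective N) hcop hsol).symm⟩

end Cfsg.Agent.S3800
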