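import Cfsg.Statements.S3950
import Mathlib
import Cfsg.Agent.Lib.Schur.Product
import Cfsg.Agent.Lib.Schur.ResCor

set_option autoImplicit false
open Cfsg

namespace Cfsg.Agent.S3950

/-- A finite abelian group has trivial Schur multiplier if and only if it is cyclic. -/
theorem result {G : Type*} [CommGroup G] [Finite G] : Cfsg.HasCyclicSchurMultiplier G 1 ↔ IsCyclic G := by
  refine ⟨fun h => ?_, fun h => Schur.hasSchurMultiplier_of_isCyclic⟩
  classical
  obtain ⟨ι, _, n, hn, ⟨e⟩⟩ := CommGroup.equiv_prod_multiplicative_zmod_of_finite G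
  by_cases hcop : Pairwise (Function.onFun Nat.Coprime n)
  · let e2 : Multiplicative (ZMod (∏ i, n i)) ≃* ((i : ι) → Multiplicative (ZMod (n i))) :=
      (AddEquiv.toMultiplicative (ZMod.prodEquivPi n hcop).toAddEquiv).trans
        (MulEquiv.piMultiplicative _)
    exact isCyclic_of_surjective (e2.trans e.symm) (e2.trans e.symm).surjective
  · exfalso
    simp only [Pairwise, Function.onFun, not_forall] at hcop
    obtain ⟨i, j, hij, hcop⟩ := hcop
    set d := Nat.gcd (n i) (n j) with hd
    have hd1 : 1 < d := by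
      have : 0 < d := Nat.gcd_pos_of_pos_left _ (by have := hn i; omega)
      have : d ≠ 1 := hcop
      omega
    have : Fact (1 < d) := ⟨hd1⟩
    let f₁ : G → ZMod d := fun g => ZMod.castHom (Nat.gcd_dvd_left _ _) (ZMod d) (e g i).toAdd
    let f₂ : G → ZMod d := fun g => ZMod.castHom (Nat.gcd_dvd_right _ _) (ZMod d) (e g j).toAdd
    have hf₁ : ∀ a b, f₁ (a * b) = f₁ a + f₁ b := fun a b => by simp only [f₁, map_mul, Pi.mul_apply, toAdd_mul, map_add]
    have hf₂ : ∀ a b, f₂ (a * b) = f₂ a + f₂ b := fun a b => by simp only [f₂, map_mul, Pi.mul_apply, toAdd_mul, map_add]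
    let β : G →* G →* Multiplicative (ZMod d) := MonoidHom.mk' (fun a => MonoidHom.mk'
      (fun b => Multiplicative.ofAdd (f₁ a * f₂ b)) (fun b c => by rw [hf₂, mul_add]; rfl))
      (fun a b => MonoidHom.ext fun c => by
        show Multiplicative.ofAdd (f₁ (a * b) * f₂ c) = _
        rw [hf₁, add_mul]; rfl)
    have hβ : ∀ a b, β a b = Multiplicative.ofAdd (f₁ a * f₂ b) := fun a b => rfl
    have h1 := Schur.ker_inf_commutator_eq_bot h (Schur.Twist.proj β) Schur.Twist.proj_surjective
      (fun x hx => by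
        have hx' : x.fst = 1 := hx
        exact Schur.Twist.mem_center x (hx' ▸ Subgroup.one_mem _) (fun g => by simp [hx']))
    let x := e.symm (Pi.mulSingle i (Multiplicative.ofAdd 1))
    let y := e.symm (Pi.mulSingle j (Multiplicative.ofAdd 1))
    have h2 := Schur.Twist.commutator_eq (β := β) x y (mul_comm _ _)
    have h3 : (⟨1, β x y * (β y x)⁻¹⟩ : Schur.Twist β) ∈
        (Schur.Twist.proj β).ker ⊓ commutator _ := by
      refine ⟨rfl, ?_⟩
      rw [← h2]
      exact Subgroup.commutator_mem_commutator (Subgroup.mem_top _) (Subgroup.mem_top _)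
    rw [h1] at h3
    have h4 := congrArg (fun z : Schur.Twist β => z.snd.toAdd) (Subgroup.mem_bot.mp h3)
    simp [hβ, f₁, f₂, x, y, Pi.mulSingle_eq_of_ne hij, Pi.mulSingle_eq_of_ne hij.symm,
      ZMod.cast_one (Nat.gcd_dvd_left (n i) (n j)), ZMod.cast_one (Nat.gcd_dvd_right (n i) (n j))]
      at h4

end Cfsg.Agent.S3950
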