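import Cfsg.Statements.S3951
import Mathlib
import Cfsg.Agent.Lib.Schur.Metacyclic

set_option autoImplicit false
open Cfsg

namespace Cfsg.Agent.S3951

open Subgroup Multiplicative in

/-- For positive integers `m` and `n` with `n` dividing `m`, the Schur multiplier of the abelian group `ZMod m × ZMod n` (written multiplicatively) is cyclic of order `n`. In particular the elementary abelian group of order `p ^ 2` has multiplier of order `p`. -/
theorem result (m n : ℕ) [NeZero m] [NeZero n] (hnm : n ∣ m) : Cfsg.HasCyclicSchurMultiplier (Multiplicative (ZMod m × ZMod n)) n := by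
  have hn0 : 0 < n := Nat.pos_of_ne_zero (NeZero.ne n)
  refine Schur.metacyclic_multiplier_aux (ofAdd (1, 0)) (ofAdd (0, 1)) m n 1 0 1 n hn0
    one_pos hn0 one_pos (by rw [one_pow]) ?_ ?_ ?_ ?_ ?_ (by simp) ?_
  · rw [eq_top_iff]
    intro x _
    have : x = ofAdd (1, 0) ^ x.toAdd.1.val * ofAdd (0, 1) ^ x.toAdd.2.val := by
      apply Multiplicative.toAdd.injective
      ext <;> simp
    rw [this]
    exact mul_mem (pow_mem (subset_closure (by simp)) _) (pow_mem (subset_closure (by simp)) _)
  · rw [orderOf_ofAdd_eq_addOrderOf, Prod.addOrderOf_mk]; simp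
  · apply Multiplicative.toAdd.injective
    ext <;> simp
  · simp
  · rintro k ⟨j, hj⟩
    have := congrArg (fun x => x.toAdd.2) hj
    simp only [toAdd_zpow, toAdd_ofAdd, Prod.smul_mk, smul_zero, zsmul_eq_mul, mul_one] at this
    exact (ZMod.intCast_zmod_eq_zero_iff_dvd _ _).mp this.symm
  · simp [Nat.gcd_eq_right hnm]

end Cfsg.Agent.S3951
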