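import Cfsg.Statements.S3953
import Mathlib
import Cfsg.Agent.Lib.Schur.ResCor

set_option autoImplicit false
open Cfsg

namespace Cfsg.Agent.S3953

/-- Let `P` be a Sylow `p`-subgroup of the finite group `G`, let `A` be the Schur multiplier of `G` and `B` that of `P`. Then the `p`-primary component of `A` is isomorphic to a direct factor of `B`: there are subgroups `C` and `D` of `B` meeting trivially and generating `B`, with `C` isomorphic to the `p`-primary component of `A`. -/
theorem result {G : Type*} [Group G] [Finite G] (p : ℕ) [Fact p.Prime] (P : Sylow p G) {A B : Type*} [CommGroup A] [CommGroup B] (hA : Cfsg.HasSchurMultiplier G A) (hB : Cfsg.HasSchurMultiplier P B) : ∃ C D : Subgroup B, C ⊓ D = ⊥ ∧ C ⊔ D = ⊤ ∧ Nonempty (CommGroup.primaryComponent A p ≃* C) := by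
  obtain ⟨res, cor, h⟩ := Schur.exists_res_cor (P : Subgroup G) hA hB
  obtain ⟨k, hk⟩ := IsPGroup.iff_card.mp P.isPGroup'
  have hBp : ∀ b : B, b ^ p ^ k = 1 := fun b => by
    rw [← hk]; exact Schur.pow_card_eq_one_mult hB b
  have hm : ¬ p ∣ (P : Subgroup G).index := P.not_dvd_index
  have hbij : Function.Bijective
      (fun x : CommGroup.primaryComponent A p => x ^ (P : Subgroup G).index) :=
    (CommGroup.primaryComponent.isPGroup.powEquiv' hm).bijective
  let f : CommGroup.primaryComponent A p →* B := res.comp (Subgroup.subtype _)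
  have hf : ∀ x, cor (f x) = ((x ^ (P : Subgroup G).index : CommGroup.primaryComponent A p) : A) :=
    fun x => h x
  have hf1 : ∀ x, cor (f x) = 1 → x = 1 := fun x hx => by
    apply hbij.1
    rw [hf] at hx
    apply Subtype.ext
    simpa using hx
  refine ⟨f.range, cor.ker, ?_, ?_, ⟨MonoidHom.ofInjective ?_⟩⟩
  · rw [eq_bot_iff]
    rintro _ ⟨⟨x, rfl⟩, hx⟩
    rw [hf1 x hx, map_one]; exact Subgroup.one_mem _
  · rw [eq_top_iff]
    intro b _
    obtain ⟨x, hx⟩ := hbij.2 ⟨cor b, k, by rw [← map_pow, hBp, map_one]⟩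
    have h1 : cor (f x) = cor b := by rw [hf]; exact congrArg Subtype.val hx
    have : b = f x * ((f x)⁻¹ * b) := by group
    rw [this]
    exact Subgroup.mul_mem_sup ⟨x, rfl⟩ (by simp [MonoidHom.mem_ker, h1])
  · rw [injective_iff_map_eq_one]
    intro x hx
    exact hf1 x (by rw [hx, map_one])

end Cfsg.Agent.S3953
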