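import Cfsg.Statements.S3957
import Mathlib
import Cfsg.Agent.Lib.Schur.Pullback

set_option autoImplicit false
universe u v
open Cfsg

namespace Cfsg.Agent.S3957

/-- Let `Q` be a finite group with Schur multiplier `A` and let `τ : Δ →* Q` be a finite stem extension, `Δ` in the universe of `Q`. Then there is a finite stem extension `σ : Γ →* Q` with kernel isomorphic to `A` (a Schur covering group) and a surjective homomorphism `β : Γ →* Δ` with `τ ∘ β = σ`. -/
theorem result {Q : Type u} [Group Q] [Finite Q] {A : Type v} [CommGroup A] (hA : Cfsg.HasSchurMultiplier Q A) {Δ : Type u} [Group Δ] [Finite Δ] (τ : Δ →* Q) (hτ : Cfsg.IsStemExtension τ) : ∃ (Γ : Type u) (_ : Group Γ) (_ : Finite Γ) (σ : Γ →* Q), Cfsg.IsStemExtension σ ∧ Nonempty (σ.ker ≃* A) ∧ ∃ β : Γ →* Δ, Function.Surjective β ∧ τ.comp β = σ := by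
  let π := FreeGroup.lift (id : Q → Q)
  have hπ : Function.Surjective π := Schur.freeGroup_lift_id_surjective
  have hc := Schur.hopfMap_ker_le_center π
  have hs := Schur.hopfMap_surjective π hπ
  obtain ⟨e0⟩ := Schur.nonempty_equiv_hopfMult hA π hπ
  obtain ⟨φ, hφ⟩ := Schur.exists_hopf_lift π τ hτ.1 hτ.2.1
  have hφ' : ∀ x, τ (φ x) = Schur.hopfMap π x := fun x => DFunLike.congr_fun hφ x
  have hK : φ.ker ≤ (Schur.hopfMap π).ker := fun x hx => by
    have : φ x = 1 := hx
    rw [MonoidHom.mem_ker, ← hφ', this, map_one]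
  have hK2 : (Schur.hopfMap π).ker ≤ φ.ker ⊔ ((Schur.hopfMap π).ker ⊓ commutator _) := by
    intro x hx
    have h1 : φ x ∈ τ.ker ⊓ commutator Δ := by
      have : φ x ∈ τ.ker := by rw [MonoidHom.mem_ker, hφ']; exact hx
      exact ⟨this, hτ.2.2 this⟩
    rw [← Schur.map_ker_inf_commutator_eq _ hs τ hτ.2.1 φ hφ] at h1
    obtain ⟨m, hm, hmx⟩ := h1
    have : x = (x * m⁻¹) * m := by group
    rw [this]
    exact Subgroup.mul_mem_sup (by simp [MonoidHom.mem_ker, hmx]) hm
  obtain ⟨S, hS1, hS2, hS3⟩ := Schur.exists_complement (Schur.hopfMap π) hc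
    (Schur.hopf_torsionFree π) _ hK hK2
  have : S.Normal := Schur.normal_of_le_center (hS1.trans (hK.trans hc))
  obtain ⟨h1, ⟨e⟩⟩ := Schur.stem_of_complement (Schur.hopfMap π) hs hc S (hS1.trans hK) hS2 hS3
  have := Schur.finite_ker_inf_commutator (Schur.hopfMap π) hc
  have : Finite (QuotientGroup.lift S (Schur.hopfMap π) (hS1.trans hK)).ker :=
    Finite.of_equiv _ e.symm.toEquiv
  have := Schur.finite_of_finite_ker (QuotientGroup.lift S (Schur.hopfMap π) (hS1.trans hK))
  have h2 : τ.comp (QuotientGroup.lift S φ hS1) =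
      QuotientGroup.lift S (Schur.hopfMap π) (hS1.trans hK) := by
    apply QuotientGroup.monoidHom_ext
    exact hφ
  exact ⟨_, _, this, _, h1, ⟨e.trans e0.symm⟩, QuotientGroup.lift S φ hS1,
    Schur.surjective_of_comp_stem _ h1.1 τ hτ _ h2, h2⟩

end Cfsg.Agent.S3957
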