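import Cfsg.Statements.S3960
import Mathlib
import Cfsg.Agent.Lib.Schur.Pullback

set_option autoImplicit false
universe u
open Cfsg

namespace Cfsg.Agent.S3960

/-- A finite perfect group `Q` has a universal central extension: a finite perfect group `G` in the universe of `Q` and a surjective homomorphism `π : G →* Q` with central kernel such that for every group `X` in that universe and every surjective homomorphism `ξ : X →* Q` with central kernel there is exactly one homomorphism `η : G →* X` with `ξ ∘ η = π`. -/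
theorem result {Q : Type u} [Group Q] [Finite Q] (hQ : Group.IsPerfect Q) : ∃ (G : Type u) (_ : Group G) (_ : Finite G) (π : G →* Q), Group.IsPerfect G ∧ Function.Surjective π ∧ π.ker ≤ Subgroup.center G ∧ ∀ (X : Type u) [Group X] (ξ : X →* Q), Function.Surjective ξ → ξ.ker ≤ Subgroup.center X → ∃! η : G →* X, ξ.comp η = π := by
  obtain ⟨A, _, hA⟩ := Schur.exists_hasSchurMultiplier Q
  obtain ⟨Γ, _, _, σ, hσ, hk⟩ := hA.1
  have hΓ := Schur.isPerfect_of_stem hQ σ hσ
  refine ⟨Γ, _, inferInstance, σ, hΓ, hσ.1, hσ.2.1, ?_⟩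
  intro X _ ξ hξ hc
  have hp := Schur.pbFst_surjective σ ξ hξ
  have h := Schur.ker_inf_commutator_eq_bot_of_cover hA σ hσ hk _ hp
    (Schur.pb_ker_le_center σ ξ hσ.2.1 hc)
  obtain ⟨s, hs⟩ := Schur.exists_section_of_perfect hΓ _ hp h
  have h1 : ξ.comp ((Schur.pbSnd σ ξ).comp s) = σ := by
    rw [← MonoidHom.comp_assoc, Schur.pb_comm, MonoidHom.comp_assoc, hs, MonoidHom.comp_id]
  exact ⟨_, h1, fun η hη => Schur.hom_eq_of_perfect hΓ ξ hc _ _ (hη.trans h1.symm)⟩

end Cfsg.Agent.S3960
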