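import Cfsg.Statements.S3961
import Mathlib
import Cfsg.Agent.Lib.Schur.Pullback

set_option autoImplicit false
universe u v
open Cfsg

namespace Cfsg.Agent.S3961

/-- Let `π : G →* Q` be a surjective homomorphism with central kernel from a finite perfect group `G` (a perfect cover of `Q`). Then `π` is universal, in the sense that every surjective homomorphism `ξ : X →* Q` with central kernel from a group `X` in the universe of `G` admits a homomorphism `η : G →* X` with `ξ ∘ η = π`, if and only if `G` has trivial Schur multiplier. -/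
theorem result {G : Type u} {Q : Type v} [Group G] [Group Q] [Finite G] (hG : Group.IsPerfect G) (π : G →* Q) (hπ : Function.Surjective π) (hker : π.ker ≤ Subgroup.center G) : (∀ (X : Type u) [Group X] (ξ : X →* Q), Function.Surjective ξ → ξ.ker ≤ Subgroup.center X → ∃ η : G →* X, ξ.comp η = π) ↔ Cfsg.HasCyclicSchurMultiplier G 1 := by
  constructor
  · intro h
    apply Schur.hasSchurMultiplier_of_subsingleton
    intro Δ _ _ τ hτ
    have hΔ := Schur.isPerfect_of_stem hG τ hτ
    have hc : (π.comp τ).ker ≤ Subgroup.center Δ := by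
      intro x hx
      have h1 : τ x ∈ Subgroup.center G := hker hx
      have h2 : x ∈ Subgroup.upperCentralSeries Δ 2 := by
        rw [Subgroup.mem_upperCentralSeries_succ_iff]
        intro y
        rw [Subgroup.upperCentralSeries_one]
        apply hτ.2.1
        rw [MonoidHom.mem_ker, map_commutatorElement, commutatorElement_eq_one_iff_mul_comm]
        exact (Subgroup.mem_center_iff.mp h1 _).symm
      rwa [Group.IsPerfect.upperCentralSeries_eq_center Δ (by norm_num)] at h2
    obtain ⟨η, hη⟩ := h Δ (π.comp τ) (hπ.comp hτ.1) hc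
    have h1 : τ.comp η = MonoidHom.id G :=
      Schur.hom_eq_of_perfect hG π hker _ _ (by rw [← MonoidHom.comp_assoc, hη]; rfl)
    have h2 := Schur.surjective_of_comp_stem (MonoidHom.id G) Function.surjective_id τ hτ η h1
    rw [eq_bot_iff]
    intro x hx
    obtain ⟨g, rfl⟩ := h2 x
    have h3 : τ (η g) = g := DFunLike.congr_fun h1 g
    have h4 : g = 1 := h3 ▸ hx
    simp [h4]
  · intro h X _ ξ hξ hc
    have hp := Schur.pbFst_surjective π ξ hξ
    have h1 := Schur.ker_inf_commutator_eq_bot h _ hp (Schur.pbFst_ker_le_center π ξ hc)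
    obtain ⟨s, hs⟩ := Schur.exists_section_of_perfect hG _ hp h1
    refine ⟨(Schur.pbSnd π ξ).comp s, ?_⟩
    rw [← MonoidHom.comp_assoc, Schur.pb_comm, MonoidHom.comp_assoc, hs, MonoidHom.comp_id]

end Cfsg.Agent.S3961
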