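import Cfsg.Statements.S3963
import Mathlib
import Cfsg.Agent.Lib.Schur.Dihedral

set_option autoImplicit false
open Cfsg

namespace Cfsg.Agent.S3963

open QuaternionGroup Subgroup in

/-- For every `n ≥ 1` the dicyclic (generalized quaternion) group of order `4 n` has trivial Schur multiplier. -/
theorem result (n : ℕ) [NeZero n] : Cfsg.HasCyclicSchurMultiplier (QuaternionGroup n) 1 := by
  have hn0 : 0 < n := Nat.pos_of_ne_zero (NeZero.ne n)
  have hr : ∀ i : ZMod (2 * n), a i ∈ zpowers (a 1 : QuaternionGroup n) := fun i =>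
    ⟨(i.val : ℤ), by simp only [zpow_natCast, a_one_pow]; simp⟩
  have hcast : ((2 * n - 1 : ℕ) : ℤ) = 2 * n - 1 := by
    rw [Nat.cast_sub (by omega)]; simp
  refine Schur.metacyclic_multiplier_aux (a 1) (xa 0) (2 * n) 2 (2 * n - 1) n n 1 (by norm_num)
    (by omega) one_pos hn0 (Schur.sq_pred_modEq _ _ (by omega) dvd_rfl) ?_ orderOf_a_one
    (by simp [sq]) ?_ ?_ ?_ ?_
  · rw [eq_top_iff]
    have h1 : zpowers (a 1 : QuaternionGroup n) ≤ closure {a 1, xa 0} :=
      zpowers_le.mpr (subset_closure (by simp))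
    rintro (i | i) _
    · exact h1 (hr i)
    · have : xa i = xa 0 * a i := by simp
      rw [this]
      exact mul_mem (subset_closure (by simp)) (h1 (hr i))
  · rw [mul_inv_eq_iff_eq_mul, a_one_pow, Nat.cast_sub (by omega), ZMod.natCast_self]; simp
  · apply Schur.two_dvd_of_zpow_mem _ _ (by rw [xa_sq]; exact hr _)
    intro h
    rw [← mem_powers_iff_mem_zpowers] at h
    obtain ⟨k, hk⟩ := h
    simp at hk
  · intro j
    rw [hcast]
    have : (2 * (n : ℤ) - 1 - 1) * j = 2 * (n * j - j) := by ring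
    rw [this, Nat.cast_mul, Nat.cast_ofNat, mul_dvd_mul_iff_left (by norm_num),
      dvd_sub_right (Dvd.intro _ rfl)]
  · have : ∑ i ∈ Finset.range 2, (2 * n - 1) ^ i = 2 * n := by
      simp [Finset.sum_range_succ]; omega
    rw [this]; simp

end Cfsg.Agent.S3963
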