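import Cfsg.Statements.S3964
import Mathlib
import Cfsg.Agent.Lib.Schur.Dihedral

set_option autoImplicit false
open Cfsg

namespace Cfsg.Agent.S3964

/-- For odd `n` the dihedral group of order `2 n` has trivial Schur multiplier. -/
theorem result (n : ℕ) (hn : Odd n) : Cfsg.HasCyclicSchurMultiplier (DihedralGroup n) 1 := by
  refine Schur.dihedral_multiplier n n 1 hn.pos one_pos (mul_one n) (fun j => ⟨fun h => ?_, fun h => h.mul_left _⟩)
  have : IsCoprime (n : ℤ) ((2 : ℕ) : ℤ) :=
    Nat.isCoprime_iff_coprime.mpr (Nat.coprime_two_right.mpr hn)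
  exact this.dvd_of_dvd_mul_left h

end Cfsg.Agent.S3964
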