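import Cfsg.Statements.S3965
import Mathlib
import Cfsg.Agent.Lib.Schur.Dihedral

set_option autoImplicit false
open Cfsg

namespace Cfsg.Agent.S3965

/-- For even `n ≥ 2` the dihedral group of order `2 n` has Schur multiplier cyclic of order `2`. -/
theorem result (n : ℕ) [NeZero n] (hn : Even n) : Cfsg.HasCyclicSchurMultiplier (DihedralGroup n) 2 := by
  obtain ⟨D, hD⟩ := hn
  have := NeZero.ne n
  refine Schur.dihedral_multiplier n D 2 (by omega) two_pos (by omega) (fun j => ?_)
  have : (n : ℤ) = 2 * D := by omega
  rw [this, mul_dvd_mul_iff_left (by norm_num)]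

end Cfsg.Agent.S3965
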