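import Cfsg.Statements.S3966
import Mathlib

set_option autoImplicit false
open Cfsg

namespace Cfsg.Agent.S3966

open QuaternionGroup Subgroup in

/-- For even `n ≥ 2` the dicyclic group of order `4 n` is a stem extension of the dihedral group of order `2 n` with kernel of order `2`: there is a surjective homomorphism `QuaternionGroup n →* DihedralGroup n` whose kernel is central, lies in the commutator subgroup and has two elements. Together with the order of the multiplier this exhibits the dicyclic group as a Schur covering group of the dihedral group. -/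
theorem result (n : ℕ) [NeZero n] (hn : Even n) : ∃ σ : QuaternionGroup n →* DihedralGroup n, Cfsg.IsStemExtension σ ∧ Nat.card σ.ker = 2 := by
  obtain ⟨m, hm⟩ := hn
  have hn0 := NeZero.ne n
  have : NeZero (2 * n) := ⟨by omega⟩
  let c : ZMod (2 * n) →+* ZMod n := ZMod.castHom (Dvd.intro_left 2 rfl) (ZMod n)
  let σ : QuaternionGroup n →* DihedralGroup n := MonoidHom.mk'
    (fun x => match x with
      | a i => DihedralGroup.r (c i)
      | xa i => DihedralGroup.sr (c i))
    (by rintro (i | i) (j | j) <;> simp)
  have hσa : ∀ i, σ (a i) = DihedralGroup.r (c i) := fun i => rfl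
  have hσx : ∀ i, σ (xa i) = DihedralGroup.sr (c i) := fun i => rfl
  have hc : Function.Surjective c := ZMod.castHom_surjective _
  have hnn : (n : ZMod (2 * n)) + n = 0 := by
    rw [← two_mul]; exact_mod_cast ZMod.natCast_self (2 * n)
  have hne : (n : ZMod (2 * n)) ≠ 0 := by
    rw [Ne, ZMod.natCast_eq_zero_iff]
    intro h
    have := Nat.le_of_dvd (by omega) h
    omega
  have hker : ∀ x, x ∈ σ.ker ↔ x = 1 ∨ x = a n := by
    intro x
    constructor
    · rcases x with i | i
      · intro h
        rw [MonoidHom.mem_ker, hσa, DihedralGroup.one_def, DihedralGroup.r.injEq] at h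
        have h1 : n ∣ i.val := by
          rw [← ZMod.natCast_eq_zero_iff, ← h, ← map_natCast c, ZMod.natCast_zmod_val]
        obtain ⟨k, hk⟩ := h1
        have h2 := ZMod.val_lt i
        have h3 : k < 2 := by
          by_contra h4
          have : n * 2 ≤ n * k := Nat.mul_le_mul_left _ (by omega)
          omega
        rw [← ZMod.natCast_zmod_val i, hk]
        interval_cases k
        · left; simp
        · right; simp
      · intro h
        rw [MonoidHom.mem_ker, hσx, DihedralGroup.one_def] at h
        cases h
    · rintro (rfl | rfl)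
      · exact one_mem _
      · rw [MonoidHom.mem_ker, hσa]; simp
  refine ⟨σ, ⟨?_, ?_, ?_⟩, ?_⟩
  · rintro (i | i)
    · obtain ⟨j, rfl⟩ := hc i
      exact ⟨a j, rfl⟩
    · obtain ⟨j, rfl⟩ := hc i
      exact ⟨xa j, rfl⟩
  · intro x hx
    rcases (hker x).mp hx with rfl | rfl
    · exact one_mem _
    · rw [mem_center_iff]
      rintro (i | i)
      · simp [add_comm]
      · simp only [xa_mul_a, a_mul_xa, xa.injEq]
        linear_combination hnn
  · intro x hx
    rcases (hker x).mp hx with rfl | rfl
    · exact one_mem _
    · have h1 := commutator_mem_commutator (mem_top (a (m : ZMod (2 * n)))) (mem_top (xa 0))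
      have h2 : (xa 0 : QuaternionGroup n)⁻¹ = xa n := by
        rw [inv_eq_iff_mul_eq_one, xa_mul_xa, hnn]; simp
      have h3 : (a m : QuaternionGroup n)⁻¹ = a (-m) := by
        rw [inv_eq_iff_mul_eq_one]; simp
      rw [commutatorElement_def, h2, h3] at h1
      simp only [xa_mul_a, a_mul_xa, xa_mul_xa] at h1
      have : (n : ZMod (2 * n)) = m + m := by rw [← Nat.cast_add, ← hm]
      have h4 : (n : ZMod (2 * n)) + n - (0 - m + -m) = n := by linear_combination hnn - this
      rwa [h4] at h1
  · rw [Nat.card_eq_two_iff]
    refine ⟨⟨1, one_mem _⟩, ⟨a n, (hker _).mpr (Or.inr rfl)⟩, ?_, ?_⟩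
    · intro h
      have := congrArg Subtype.val h
      simp only [one_def, a.injEq] at this
      exact hne this.symm
    · rw [Set.eq_univ_iff_forall]
      rintro ⟨x, hx⟩
      simpa using (hker x).mp hx

end Cfsg.Agent.S3966
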