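import Cfsg.Statements.S3967
import Mathlib
import Cfsg.Agent.Lib.Schur.Metacyclic

set_option autoImplicit false
open Cfsg

namespace Cfsg.Agent.S3967

open Subgroup Multiplicative

/-- Multiplication by a unit of `ZMod m`. -/
def mulAutZMod (m : ℕ) (r r' : ZMod m) (h : r * r' = 1) : MulAut (Multiplicative (ZMod m)) where
  toFun x := ofAdd (r * x.toAdd)
  invFun x := ofAdd (r' * x.toAdd)
  left_inv x := by
    apply Multiplicative.toAdd.injective
    simp only [toAdd_ofAdd]; linear_combination x.toAdd * h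
  right_inv x := by
    apply Multiplicative.toAdd.injective
    simp only [toAdd_ofAdd]; linear_combination x.toAdd * h
  map_mul' x y := by
    apply Multiplicative.toAdd.injective
    simp only [toAdd_ofAdd, toAdd_mul]; ring

theorem mulAutZMod_apply (m : ℕ) (r r' : ZMod m) (h : r * r' = 1) (j : ZMod m) :
    mulAutZMod m r r' h (ofAdd j) = ofAdd (r * j) := rfl

theorem mulAutZMod_pow (m : ℕ) (r r' : ZMod m) (h : r * r' = 1) (k : ℕ) (j : ZMod m) :
    (mulAutZMod m r r' h ^ k) (ofAdd j) = ofAdd (r ^ k * j) := by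
  induction k with
  | zero => simp
  | succ k ih =>
    rw [pow_succ', MulAut.mul_apply, ih, mulAutZMod_apply]
    congr 1; ring

theorem exists_model (m n r t : ℕ) (hm : 0 < m) (hn : 0 < n) (hrn : r ^ n ≡ 1 [MOD m])
    (ht : (r : ZMod m) * t = t) :
    ∃ (G : Type) (_ : Group G) (a b : G), orderOf a = m ∧ b ^ n = a ^ t ∧ b * a * b⁻¹ = a ^ r := by
  have : NeZero m := ⟨hm.ne'⟩
  have hrn' : (r : ZMod m) ^ n = 1 := by
    have := (ZMod.natCast_eq_natCast_iff _ _ _).mpr hrn
    simpa using this
  have hrr : (r : ZMod m) * (r : ZMod m) ^ (n - 1) = 1 := by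
    rw [← pow_succ', Nat.sub_add_cancel hn, hrn']
  let φ := mulAutZMod m r _ hrr
  have hφn : φ ^ n = 1 := by
    ext1 x
    have := mulAutZMod_pow m r _ hrr n x.toAdd
    rw [hrn', one_mul] at this
    exact this
  let α : Schur.CycExt φ := SemidirectProduct.inl (ofAdd 1)
  let β : Schur.CycExt φ := SemidirectProduct.inr (ofAdd 1)
  let z : Schur.CycExt φ := ⟨ofAdd (-(t : ZMod m)), ofAdd (n : ℤ)⟩
  have hz : z ∈ center _ := Schur.mem_center_cycExt φ z (by
      show φ (ofAdd _) = ofAdd _
      rw [mulAutZMod_apply, mul_neg, ht])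
    (by show φ ^ (n : ℤ) = 1; rw [zpow_natCast, hφn])
  have hz' : z = (α ^ t)⁻¹ * β ^ n := by
    rw [← map_pow SemidirectProduct.inl, ← map_pow SemidirectProduct.inr, ← map_inv,
      ← SemidirectProduct.mk_eq_inl_mul_inr]
    apply SemidirectProduct.ext
    · apply Multiplicative.toAdd.injective; simp [z]
    · apply Multiplicative.toAdd.injective; simp [z]
  have : (zpowers z).Normal := Schur.normal_of_le_center (zpowers_le.mpr hz)
  let q := QuotientGroup.mk' (zpowers z)
  refine ⟨_, inferInstance, q α, q β, ?_, ?_, ?_⟩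
  · have hinj : Function.Injective (q.comp SemidirectProduct.inl) := by
      rw [injective_iff_map_eq_one]
      intro x hx
      obtain ⟨k, hk⟩ := (QuotientGroup.eq_one_iff _).mp hx
      have h1 := congrArg (fun y => (SemidirectProduct.rightHom y).toAdd) hk
      simp only [map_zpow, SemidirectProduct.rightHom_inl, toAdd_zpow, toAdd_one] at h1
      have h2 : k • (n : ℤ) = 0 := h1
      have h3 : k = 0 := by simpa [hn.ne'] using h2
      rw [h3] at hk
      apply SemidirectProduct.inl_injective (φ := zpowersHom _ φ)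
      simpa using hk.symm
    have := orderOf_injective _ hinj (ofAdd 1)
    rw [orderOf_ofAdd_eq_addOrderOf, ZMod.addOrderOf_one] at this
    exact this
  · have : q ((α ^ t)⁻¹ * β ^ n) = 1 := (QuotientGroup.eq_one_iff _).mpr (hz' ▸ mem_zpowers z)
    rw [map_mul, map_inv, map_pow, map_pow, inv_mul_eq_one] at this
    exact this.symm
  · rw [← map_inv, ← map_mul, ← map_mul, Schur.cycExt_conj, ← map_pow, ← map_pow,
      mulAutZMod_apply]
    congr 2
    apply Multiplicative.toAdd.injective; simp

theorem finite_of_metacyclic {G : Type*} [Group G] (a b : G) (m n r t : ℕ) (hm : 0 < m)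
    (hn : 0 < n) (hgen : closure {a, b} = ⊤) (ha : a ^ m = 1) (hb : b ^ n = a ^ t)
    (hab : b * a * b⁻¹ = a ^ r) : Finite G := by
  have ha' : IsOfFinOrder a := isOfFinOrder_iff_pow_eq_one.mpr ⟨m, hm, ha⟩
  have hb' : IsOfFinOrder b := isOfFinOrder_iff_pow_eq_one.mpr ⟨n * m, Nat.mul_pos hn hm, by
    rw [pow_mul, hb, ← pow_mul, mul_comm, pow_mul, ha, one_pow]⟩
  have : Finite (zpowers a) := (finite_zpowers.mpr ha').to_subtype
  have : Finite (zpowers b) := (finite_zpowers.mpr hb').to_subtype
  have hnorm : (zpowers a).Normal := by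
    rw [← normalizer_eq_top_iff, eq_top_iff, ← hgen, closure_le]
    rintro x (rfl | rfl)
    · exact le_normalizer (mem_zpowers x)
    · apply mem_normalizer_fintype
      rintro _ ⟨j, rfl⟩
      simp only [SetLike.mem_coe]
      rw [← conj_zpow, hab]
      exact zpow_mem (pow_mem (mem_zpowers a) _) j
  refine Finite.of_surjective (fun p : zpowers a × zpowers b => (p.1 : G) * p.2) ?_
  intro g
  have : g ∈ zpowers a ⊔ zpowers b := by
    have : closure {a, b} ≤ zpowers a ⊔ zpowers b := by
      rw [closure_le]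
      rintro x (rfl | rfl)
      · exact mem_sup_left (mem_zpowers _)
      · exact mem_sup_right (mem_zpowers _)
    exact this (hgen ▸ mem_top g)
  rw [← SetLike.mem_coe, normal_mul] at this
  obtain ⟨x, hx, y, hy, rfl⟩ := this
  exact ⟨(⟨x, hx⟩, ⟨y, hy⟩), rfl⟩

/-- Let `m, n ≥ 1`, `r ≥ 1` with `r ^ n ≡ 1 (mod m)`, and `l` a natural number; put `d = gcd(m, r - 1)`, `t = m l / d` and `h = d · gcd(m, 1 + r + ⋯ + r^(n-1)) / m`. The group presented by generators `a, b` and relations `a ^ m = 1`, `b ^ n = a ^ t`, `b a b⁻¹ = a ^ r` (a metacyclic group of order `m n`) has Schur multiplier cyclic of order `gcd(l, h)`. -/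
theorem result (m n r l : ℕ) (hm : 0 < m) (hn : 0 < n) (hr : 0 < r) (hrn : r ^ n ≡ 1 [MOD m]) : Cfsg.HasCyclicSchurMultiplier (PresentedGroup ({FreeGroup.of true ^ m, (FreeGroup.of false) ^ n * (FreeGroup.of true ^ (m * l / Nat.gcd m (r - 1)))⁻¹, FreeGroup.of false * FreeGroup.of true * (FreeGroup.of false)⁻¹ * (FreeGroup.of true ^ r)⁻¹} : Set (FreeGroup Bool))) (Nat.gcd l (Nat.gcd m (r - 1) * Nat.gcd m (∑ i ∈ Finset.range n, r ^ i) / m)) := by
  set t := m * l / Nat.gcd m (r - 1) with ht
  set rels : Set (FreeGroup Bool) := {FreeGroup.of true ^ m, (FreeGroup.of false) ^ n * (FreeGroup.of true ^ t)⁻¹, FreeGroup.of false * FreeGroup.of true * (FreeGroup.of false)⁻¹ * (FreeGroup.of true ^ r)⁻¹} with hrels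
  let a : PresentedGroup rels := PresentedGroup.of true
  let b : PresentedGroup rels := PresentedGroup.of false
  have ha : a ^ m = 1 := by
    have := PresentedGroup.one_of_mem (rels := rels) (x := FreeGroup.of true ^ m) (by simp [hrels])
    rwa [map_pow] at this
  have hb : b ^ n = a ^ t := by
    have := PresentedGroup.mk_eq_mk_of_mul_inv_mem (rels := rels) (x := FreeGroup.of false ^ n)
      (y := FreeGroup.of true ^ t) (by simp [hrels])
    rwa [map_pow, map_pow] at this
  have hab : b * a * b⁻¹ = a ^ r := by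
    have := PresentedGroup.mk_eq_mk_of_mul_inv_mem (rels := rels)
      (x := FreeGroup.of false * FreeGroup.of true * (FreeGroup.of false)⁻¹)
      (y := FreeGroup.of true ^ r) (by simp [hrels])
    rwa [map_pow, map_mul, map_mul, map_inv] at this
  have hgen : closure {a, b} = ⊤ := by
    rw [← PresentedGroup.closure_range_of rels]
    congr 1
    ext x
    simp only [Set.mem_insert_iff, Set.mem_singleton_iff, Set.mem_range, Bool.exists_bool]
    constructor
    · rintro (rfl | rfl)
      exacts [Or.inr rfl, Or.inl rfl]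
    · rintro (rfl | rfl)
      exacts [Or.inr rfl, Or.inl rfl]
  have hlift : ∀ (G : Type) [Group G] (x y : G), x ^ m = 1 → y ^ n = x ^ t →
      y * x * y⁻¹ = x ^ r → ∃ f : PresentedGroup rels →* G, f a = x ∧ f b = y := by
    intro G _ x y h1 h2 h3
    have h : ∀ w ∈ rels, FreeGroup.lift (fun i : Bool => if i then x else y) w = 1 := by
      rintro w (rfl | rfl | rfl)
      · simp [h1]
      · simp [h2]
      · simp [h3]
    exact ⟨PresentedGroup.toGroup h, PresentedGroup.toGroup.of h, PresentedGroup.toGroup.of h⟩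
  have := finite_of_metacyclic a b m n r t hm hn hgen ha hb hab
  refine Schur.metacyclic_multiplier a b m n r l hm hn hr hrn hgen ?_ hb hab ?_
  · obtain ⟨G, _, x, y, h1, h2, h3⟩ := exists_model m n r t hm hn hrn (by
      obtain ⟨D, hD⟩ : Nat.gcd m (r - 1) ∣ m := Nat.gcd_dvd_left _ _
      obtain ⟨u, hu⟩ : Nat.gcd m (r - 1) ∣ r - 1 := Nat.gcd_dvd_right _ _
      have hd0 : 0 < Nat.gcd m (r - 1) := Nat.gcd_pos_of_pos_left _ hm
      have e2 : t = D * l := by
        rw [ht]
        set d := Nat.gcd m (r - 1)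
        conv_lhs => rw [hD]
        rw [mul_assoc, Nat.mul_div_cancel_left _ hd0]
      have e3 : r * t = t + m * (u * l) := by
        set d := Nat.gcd m (r - 1)
        have : r = d * u + 1 := by omega
        rw [this, e2, hD]; ring
      rw [← Nat.cast_mul, e3]; simp)
    obtain ⟨f, hf, -⟩ := hlift G x y (by rw [← h1, pow_orderOf_eq_one]) h2 h3
    apply Nat.dvd_antisymm (orderOf_dvd_of_pow_eq_one ha)
    rw [← h1, ← hf]
    exact orderOf_map_dvd f a
  · obtain ⟨f, hf, hf'⟩ := hlift (Multiplicative (ZMod n)) 1 (ofAdd 1) (by simp) (by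
      apply Multiplicative.toAdd.injective; simp) (by simp)
    rintro k ⟨j, hj⟩
    have := congrArg (fun x => (f x).toAdd) hj
    simp only [map_zpow, hf, hf', one_zpow, toAdd_one, toAdd_zpow, toAdd_ofAdd, zsmul_eq_mul,
      mul_one] at this
    exact (ZMod.intCast_zmod_eq_zero_iff_dvd _ _).mp this.symm

end Cfsg.Agent.S3967
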