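import Cfsg.Statements.S3968
import Mathlib
import Cfsg.Agent.Lib.Char.Burnside
import Cfsg.Agent.Lib.Cls.Basic
import Cfsg.Agent.Lib.PGrp.Basic

set_option autoImplicit false
open Cfsg

namespace Cfsg.Agent.S3968

open Subgroup
open scoped commutatorElement

theorem irr_ne_zero_of_center {G : Type*} [Group G] {ψ : G → ℂ} (h : IsIrrCharacter G ψ) {z : G}
    (hz : z ∈ center G) : ψ z ≠ 0 := by
  have h1 := Char.irr_one_ne_zero h
  obtain ⟨n, ρ, hρ, rfl⟩ := h
  obtain ⟨c, hc⟩ := Char.schur_scalar ρ hρ (ρ z) fun g => by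
    rw [← map_mul, ← map_mul, mem_center_iff.mp hz g]
  have e : ρ.character z = c * ρ.character 1 := by
    simp only [Representation.character, hc, map_one, map_smul, smul_eq_mul]
  rw [e]
  refine mul_ne_zero ?_ h1
  rintro rfl
  apply h1
  have : ρ 1 = 0 := by rw [← mul_inv_cancel z, map_mul, hc, zero_smul, zero_mul]
  simp only [Representation.character, this, map_zero]

/-- Let `p` be a prime and `G` a finite group with a faithful irreducible complex character of degree `p` (so `G` is an irreducible linear group in `p` variables). If `p ^ 2` divides the order of `G`, then the centre of `G` is nontrivial. -/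
theorem result {G : Type*} [Group G] [Finite G] (p : ℕ) (hp : p.Prime) (χ : Cfsg.IrrCharacter G) (hdeg : χ.1 1 = p) (hfaith : ∀ g : G, χ.1 g = χ.1 1 → g = 1) (hdiv : p ^ 2 ∣ Nat.card G) : Subgroup.center G ≠ ⊥ := by
  classical
  intro hZ
  haveI := Fact.mk hp
  obtain ⟨P⟩ : Nonempty (Sylow p G) := inferInstance
  have hχ := Char.isCharacter_of_irr χ.2
  have hker : Char.charKer χ.1 = ⊥ :=
    eq_bot_iff.mpr fun g hg => hfaith g ((Char.mem_charKer hχ g).mp hg)
  have hvan : ∀ z : P, z ∈ center P → z ≠ 1 → χ.1 z = 0 := fun z hz h1 => by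
    refine (Char.irr_eq_zero_or_mem_center χ.2 hdeg z ?_).resolve_right fun h => ?_
    · refine hp.coprime_iff_not_dvd.mpr (Cls.not_dvd_index_of_sylow_le (Q := P) fun g hg => ?_)
      exact Cls.mem_centralizer_single.mpr (congrArg Subtype.val (mem_center_iff.mp hz ⟨g, hg⟩))
    · have := Char.charCenter_le_center (Char.char_isClassFunction hχ) hker h
      rw [hZ] at this
      exact h1 (Subtype.ext this)
  have hP2 : p ^ 2 ∣ Nat.card (P : Subgroup G) := P.pow_dvd_card_of_pow_dvd_card hdiv
  have hχP := Char.isCharacter_restrict (P : Subgroup G) hχ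
  obtain ⟨s, hs, hsum⟩ := Char.exists_irr_multiset hχP
  by_cases h1 : ∀ ψ ∈ s, ψ 1 = 1
  · have hab : ∀ a b : (P : Subgroup G), a * b = b * a := fun a b => by
      have : χ.1 (⁅a, b⁆ : (P : Subgroup G)) = χ.1 (1 : (P : Subgroup G)) := by
        have e := fun x => congrFun hsum x
        rw [e, e, Pi.multiset_sum_apply, Pi.multiset_sum_apply]
        refine congrArg _ (Multiset.map_congr rfl fun ψ hψ => ?_)
        obtain ⟨l, rfl⟩ := Char.exists_hom_of_one (Char.isCharacter_of_irr (hs ψ hψ)) (h1 ψ hψ)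
        simp only [commutatorElement_def, map_mul, map_one]
        rw [mul_comm (l a), mul_assoc (l b), ← map_mul, mul_inv_cancel, map_one, mul_one,
          ← map_mul, mul_inv_cancel, map_one]
      exact commutatorElement_eq_one_iff_mul_comm.mp (Subtype.ext (hfaith _ this))
    have := Fintype.ofFinite (P : Subgroup G)
    obtain ⟨n, hn⟩ := Char.classInner_char_nat hχP Char.isCharacter_one
    rw [classInner, Finset.sum_eq_single 1 (fun z _ hz => by
      rw [hvan z (mem_center_iff.mpr fun g => hab g z) hz, zero_mul]) (by simp)] at hn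
    simp only [OneMemClass.coe_one, hdeg, Pi.one_apply, map_one, mul_one] at hn
    rw [inv_mul_eq_iff_eq_mul₀ (Char.natCard_ne_zero_complex _)] at hn
    have h2 : p = Nat.card (P : Subgroup G) * n := by exact_mod_cast hn
    have h3 : p ^ 2 ∣ p ^ 1 := by
      rw [pow_one]; exact hP2.trans ⟨n, h2⟩
    have := (Nat.pow_dvd_pow_iff_le_right hp.one_lt).mp h3
    omega
  · push Not at h1
    obtain ⟨ψ, hψ, h1⟩ := h1
    obtain ⟨t, rfl⟩ := Multiset.exists_cons_of_mem hψ
    obtain ⟨n, hn0, hn⟩ := Char.irr_one_eq_nat (hs ψ hψ)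
    have ht : IsCharacter _ t.sum := Char.isCharacter_multiset_sum t fun φ hφ =>
      Char.isCharacter_of_irr (hs φ (Multiset.mem_cons_of_mem hφ))
    obtain ⟨m, hm⟩ := Char.char_one_eq_nat ht
    obtain ⟨k, hk⟩ := P.isPGroup'.exists_card_eq
    have h2 : p ≤ n := by
      obtain ⟨j, -, rfl⟩ := (Nat.dvd_prime_pow hp).mp (hk ▸ Char.irr_degree_dvd_card (hs ψ hψ) hn)
      rcases j with _ | j
      · exact absurd hn (by simpa using h1)
      · exact Nat.le_self_pow j.succ_ne_zero p
    have h3 := congrFun hsum 1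
    rw [Multiset.sum_cons, Pi.add_apply, hn, hm, OneMemClass.coe_one, hdeg] at h3
    have h4 : p = n + m := by exact_mod_cast h3
    have h5 : t.sum = 0 := Char.char_eq_zero_of_one ht (by rw [hm, show m = 0 by omega]; simp)
    have : Nontrivial (P : Subgroup G) := Finite.one_lt_card_iff_nontrivial.mp
      ((Nat.one_lt_pow two_ne_zero hp.one_lt).trans_le (Nat.le_of_dvd Nat.card_pos hP2))
    have := P.isPGroup'.center_nontrivial
    obtain ⟨⟨z, hz⟩, hz1⟩ := exists_ne (1 : center (P : Subgroup G))
    have h6 := congrFun hsum z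
    rw [Multiset.sum_cons, h5, add_zero, hvan z hz fun h => hz1 (Subtype.ext h)] at h6
    exact irr_ne_zero_of_center (hs ψ hψ) hz h6.symm

end Cfsg.Agent.S3968
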