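import Cfsg.Statements.S3970
import Mathlib
import Cfsg.Agent.Lib.Schur.AutRank
import Cfsg.Agent.Lib.Coprime.Sylow

set_option autoImplicit false
open Cfsg

namespace Cfsg.Agent.S3970

open Subgroup

universe u

theorem aux (n : ℕ) : ∀ (G : Type u) [Group G] [Finite G], Nat.card G = n →
    (∀ p : ℕ, p.Prime → p ∣ Nat.card G → (∃ q : ℕ, q.Prime ∧ q ∣ Nat.card G ∧ p < q) →
      ∀ P : Sylow p G, IsMulCommutative (P : Subgroup G) ∧ Group.rank (P : Subgroup G) ≤ 2) →
    ¬ 12 ∣ Nat.card G → Group.IsSolvable G := by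
  induction n using Nat.strong_induction_on with
  | _ n ih =>
  intro G _ _ hn h h12
  by_cases h1 : Nat.card G = 1
  · have := (Nat.card_eq_one_iff_unique.mp h1).1
    infer_instance
  set p := (Nat.card G).minFac with hpdef
  have hp : p.Prime := Nat.minFac_prime h1
  haveI := Fact.mk hp
  have hpd : p ∣ Nat.card G := Nat.minFac_dvd _
  have hmin : ∀ q : ℕ, q.Prime → q ∣ Nat.card G → p ≤ q := fun q hq h =>
    Nat.minFac_le_of_dvd hq.two_le h
  by_cases hq : ∃ q : ℕ, q.Prime ∧ q ∣ Nat.card G ∧ p < q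
  swap
  · have : IsPGroup p G := by
      obtain ⟨k, hk⟩ := Cls.eq_pow_of_forall_prime_eq (p := p) (Nat.card_pos (α := G)).ne'
        fun q h1 h2 => le_antisymm (not_lt.mp fun h3 => hq ⟨q, h1, h2, h3⟩) (hmin q h1 h2)
      exact IsPGroup.of_card hk
    exact Coprime.isSolvable_of_isPGroup this
  obtain ⟨P⟩ : Nonempty (Sylow p G) := inferInstance
  obtain ⟨hab, hr⟩ := h p hp hpd hq P
  have hp2 := hp.two_le
  have hlt : ∀ q : ℕ, q.Prime → q ≠ p → q ∣ Nat.card G → ¬ q ∣ p - 1 := fun q h1 h2 h3 h4 => by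
    have := hmin q h1 h3
    have := Nat.le_of_dvd (by omega) h4
    omega
  have hcomp : HasNormalPComplement p G := by
    by_cases hr1 : Group.rank (P : Subgroup G) ≤ 1
    · refine Schur.hasNormalPComplement_of_abelian_of_rank_le P hab hr1 fun q h1 h2 h3 => ?_
      simpa using hlt q h1 h2 h3
    refine Schur.hasNormalPComplement_of_abelian_of_rank_le P hab hr fun q h1 h2 h3 h4 => ?_
    have e : ∏ i ∈ Finset.Icc 1 2, (p ^ i - 1) = (p - 1) * ((p + 1) * (p - 1)) := by
      rw [← Nat.sq_sub_sq]; simp [Finset.prod_Icc_succ_top]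
    rw [e, h1.dvd_mul, h1.dvd_mul] at h4
    have h5 : q ∣ p + 1 := by
      rcases h4 with h4 | h4 | h4
      · exact absurd h4 (hlt q h1 h2 h3)
      · exact h4
      · exact absurd h4 (hlt q h1 h2 h3)
    have h6 : q = p + 1 := by
      have := hmin q h1 h3
      have := Nat.le_of_dvd (by omega) h5
      omega
    have h7 : p = 2 := by
      by_contra h8
      have h9 := hp.odd_of_ne_two h8
      have : q = 2 := h1.even_iff.mp (h6 ▸ h9.add_one)
      omega
    have h8 : p ^ 2 ∣ Nat.card G := by
      have h9 := PGrp.index_frattini_eq_pow_rank P.isPGroup'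
      rw [show Group.rank (P : Subgroup G) = 2 by omega] at h9
      exact (h9 ▸ index_dvd_card _).trans (card_subgroup_dvd_card _)
    rw [h7] at h8 h6
    rw [h6] at h3
    exact h12 (Nat.Coprime.mul_dvd_of_dvd_of_dvd (by norm_num : Nat.Coprime (2 ^ 2) (2 + 1)) h8 h3)
  obtain ⟨K, hK, hKc, hKq⟩ := Transfer.hasNormalPComplement_iff_exists_normal.mp hcomp
  have hKd := card_subgroup_dvd_card K
  have hKs : Group.IsSolvable K := by
    refine ih (Nat.card K) ?_ K rfl ?_ fun h => h12 (h.trans hKd)
    · rw [← hn]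
      refine lt_of_le_of_ne (Nat.le_of_dvd Nat.card_pos hKd) fun h => ?_
      exact hp.one_lt.ne' (Nat.eq_one_of_dvd_coprimes hKc (h ▸ hpd) dvd_rfl)
    · rintro r hr hrd ⟨q, hq1, hq2, hq3⟩ R
      haveI := Fact.mk hr
      have h3 : ¬ r ∣ K.relIndex ⊤ := by
        rw [relIndex_top_right]
        obtain ⟨k, hk⟩ := hKq.exists_card_eq
        intro h4
        rw [index_eq_card, hk] at h4
        have := (Nat.prime_dvd_prime_iff_eq hr hp).mp (hr.dvd_of_dvd_pow h4)
        subst this
        exact hp.one_lt.ne' (Nat.eq_one_of_dvd_coprimes hKc hrd dvd_rfl)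
      obtain ⟨S, hS⟩ := ((Coprime.isSylowIn_map_subtype R).trans le_top h3).exists_sylow_top
      obtain ⟨h4, h5⟩ := h r hr (hrd.trans hKd) ⟨q, hq1, hq2.trans hKd, hq3⟩ S
      have e : (R : Subgroup K) ≃* (S : Subgroup G) :=
        ((R : Subgroup K).equivMapOfInjective _ K.subtype_injective).trans
          (MulEquiv.subgroupCongr hS.symm)
      refine ⟨⟨⟨fun a b => e.injective ?_⟩⟩, (Group.rank_congr e).le.trans h5⟩
      rw [map_mul, map_mul, h4.is_comm.comm]
  have := Coprime.isSolvable_of_isPGroup hKq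
  exact solvable_of_ker_le_range K.subtype (QuotientGroup.mk' K) (by simp)

/-- Let `G` be a finite group such that for every prime `p` dividing its order, other than the largest such prime, the Sylow `p`-subgroups are abelian and generated by at most two elements, and suppose `12` does not divide the order of `G`. Then `G` is solvable. In particular a group of cube-free order not divisible by `12` is solvable. -/
theorem result {G : Type*} [Group G] [Finite G] (h : ∀ p : ℕ, p.Prime → p ∣ Nat.card G → (∃ q : ℕ, q.Prime ∧ q ∣ Nat.card G ∧ p < q) → ∀ P : Sylow p G, IsMulCommutative (P : Subgroup G) ∧ Group.rank (P : Subgroup G) ≤ 2) (h12 : ¬ 12 ∣ Nat.card G) : Group.IsSolvable G := by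
  exact aux _ G rfl h h12

end Cfsg.Agent.S3970
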