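import Cfsg.Statements.S3971
import Mathlib
import Cfsg.Agent.Lib.Schur.AutRank

set_option autoImplicit false
open Cfsg

namespace Cfsg.Agent.S3971

open Subgroup

/-- Let `G` be a finite group of order `2 ^ a * n` with `n` odd and not divisible by `3`, and suppose `G` has an element of order `2 ^ (a - 1)` (so a Sylow `2`-subgroup has a cyclic subgroup of index at most `2`). Then `G` has a normal subgroup of order `n`. -/
theorem result {G : Type*} [Group G] [Finite G] (a n : ℕ) (hG : Nat.card G = 2 ^ a * n) (hn : Odd n) (h3 : ¬ 3 ∣ n) (hx : ∃ x : G, orderOf x = 2 ^ (a - 1)) : ∃ N : Subgroup G, N.Normal ∧ Nat.card N = n := by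
  obtain ⟨x, hx⟩ := hx
  obtain ⟨P, hP⟩ := (IsPGroup.of_card (p := 2) (G := zpowers x)
    (by rw [Nat.card_zpowers, hx])).exists_le_sylow
  have hn2 : ¬ 2 ∣ n := fun h => (Nat.not_even_iff_odd.mpr hn) (even_iff_two_dvd.mpr h)
  have hPc : Nat.card (P : Subgroup G) = 2 ^ a := by
    rw [P.card_eq_multiplicity, hG, Nat.factorization_mul (by positivity) hn.pos.ne']
    simp [Nat.factorization_eq_zero_of_not_dvd hn2, Nat.prime_two.factorization_self]
  have hi : (zpowers x).relIndex P ≤ 2 := by
    have h := PGrp.card_mul_relIndex hP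
    rw [hPc, Nat.card_zpowers, hx] at h
    rcases a with _ | a
    · simp only [Nat.zero_sub, pow_zero, one_mul] at h
      omega
    · rw [Nat.add_sub_cancel, pow_succ] at h
      exact (Nat.eq_of_mul_eq_mul_left (by positivity) h).le
  have hcomp : HasNormalPComplement 2 G := by
    refine Transfer.frobenius_of_coprime_centralizes P fun X hX _ g hg hg2 => ?_
    have hr : Group.rank X ≤ 2 := by
      haveI : IsCyclic ((zpowers x).subgroupOf X) := by
        refine isCyclic_of_injective (G' := zpowers x)
          ((X.subtype.comp ((zpowers x).subgroupOf X).subtype).codRestrict (zpowers x)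
            fun y => y.2) ?_
        intro a b h
        exact Subtype.ext (Subtype.ext (congrArg (fun y : zpowers x => (y : G)) h))
      refine Schur.rank_le_two_of_index_le_two (C := (zpowers x).subgroupOf X) ?_
      exact (relIndex_le_of_le_right hX (index_ne_zero_of_finite)).trans hi
    refine Schur.mem_centralizer_of_rank_le (P.isPGroup'.to_le hX) hr hg hg2 ?_
    have e : ∏ i ∈ Finset.Icc 1 2, (2 ^ i - 1) = 3 := by decide
    rw [e]
    refine ((Nat.Prime.coprime_iff_not_dvd Nat.prime_three).mpr fun h => ?_).symm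
    have := h.trans (_root_.orderOf_dvd_natCard g)
    rw [hG, Nat.prime_three.dvd_mul] at this
    rcases this with h | h
    · exact absurd (Nat.prime_three.dvd_of_dvd_pow h) (by norm_num)
    · exact h3 h
  obtain ⟨Q, N, hN, hc⟩ := hcomp
  refine ⟨N, hN, ?_⟩
  have h1 := hc.card_mul_card
  rw [Nat.card_congr (Q.equiv P).toEquiv, hPc, hG, mul_comm] at h1
  exact Nat.eq_of_mul_eq_mul_left (by positivity) h1

end Cfsg.Agent.S3971
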