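import Cfsg.Statements.S3972
import Mathlib
import Cfsg.Agent.Lib.Schur.SRing
import Cfsg.Agent.Lib.PGrp.RankOne

set_option autoImplicit false
open Cfsg

namespace Cfsg.Agent.S3972

open Subgroup MulAction
open scoped IsMulCommutative

/-- Let `p` be a prime, `m ≥ 2`, and `G` a transitive but not doubly transitive permutation group on `p ^ m` points containing a permutation of order `p ^ m` (necessarily a full cycle). Then `G` is imprimitive, and the normal closure in `G` of the `p ^ (m - 1)`-th power of that permutation is an intransitive normal subgroup. -/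
theorem result {Ω : Type*} [Fintype Ω] [DecidableEq Ω] (p m : ℕ) (hp : p.Prime) (hm : 2 ≤ m) (hΩ : Fintype.card Ω = p ^ m) (G : Subgroup (Equiv.Perm Ω)) (htr : MulAction.IsPretransitive G Ω) (h2 : ¬ MulAction.IsMultiplyPretransitive G Ω 2) (g : G) (hg : orderOf g = p ^ m) : ¬ MulAction.IsPreprimitive G Ω ∧ ¬ MulAction.IsPretransitive (Subgroup.normalClosure ({g ^ (p ^ (m - 1))} : Set G)) Ω := by
  haveI := Fact.mk hp
  obtain ⟨n, rfl⟩ : ∃ n, m = n + 1 := ⟨m - 1, by omega⟩
  rw [Nat.add_sub_cancel]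
  set z := g ^ p ^ n with hz
  have hzo : orderOf z = p := by
    rw [hz, orderOf_pow_of_dvd (pow_ne_zero _ hp.ne_zero) (hg ▸ pow_dvd_pow _ n.le_succ), hg,
      pow_succ, Nat.mul_div_cancel_left _ (pow_pos hp.pos _)]
  have hz1 : z ≠ 1 := fun h => hp.one_lt.ne' (by rw [← hzo, h, orderOf_one])
  have hzg : z ∈ zpowers g := pow_mem (mem_zpowers g) _
  have hPG : IsPGroup p (zpowers g) := IsPGroup.of_card (by rw [Nat.card_zpowers, hg])
  have hsub : ∀ L : Subgroup (zpowers g), L ≠ ⊥ → ⟨z, hzg⟩ ∈ L := fun L hL => by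
    obtain ⟨u, hu, huo⟩ := PGrp.exists_orderOf_eq_prime_of_ne_bot (hPG.to_subgroup L) hL
    have h1 : (u : G) ∈ zpowers z := PGrp.mem_zpowers_of_pow_eq_one hg u.2
      (by rw [← huo, ← orderOf_coe, pow_orderOf_eq_one])
    have h2 : zpowers (u : G) = zpowers z := eq_of_le_of_card_ge (zpowers_le.mpr h1)
      (by rw [Nat.card_zpowers, Nat.card_zpowers, hzo, orderOf_coe, huo])
    obtain ⟨k, hk⟩ : z ∈ zpowers (u : G) := h2 ▸ mem_zpowers z
    have : (⟨z, hzg⟩ : zpowers g) = u ^ k := Subtype.ext hk.symm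
    exact this ▸ zpow_mem hu k
  obtain ⟨ω, hω⟩ : ∃ ω : Ω, z • ω ≠ ω := by
    by_contra h
    push Not at h
    exact hz1 (Subtype.ext (Equiv.ext h))
  have hinj : Function.Injective fun c : zpowers g => c • ω := fun a b (h : a • ω = b • ω) => by
    have h1 : stabilizer (zpowers g) ω = ⊥ := by
      by_contra h1
      exact hω (hsub _ h1)
    have h2 : b⁻¹ * a ∈ stabilizer (zpowers g) ω := by
      rw [mem_stabilizer_iff, mul_smul, h, inv_smul_smul]
    rw [h1, mem_bot, inv_mul_eq_one] at h2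
    exact h2.symm
  let e : zpowers g ≃ Ω := Equiv.ofBijective _ ((Nat.bijective_iff_injective_and_card _).mpr
    ⟨hinj, by rw [Nat.card_zpowers, hg, Nat.card_eq_fintype_card, hΩ]⟩)
  have he : ∀ a b : zpowers g, e (a * b) = (a : G) • e b := fun a b => mul_smul a b ω
  let φ : G →* Equiv.Perm (zpowers g) := e.symm.permCongrHom.toMonoidHom.comp G.subtype
  have hφ : ∀ γ c, e (φ γ c) = γ • e c := fun γ c => by simp [φ]; rfl
  have hΓ : ∀ c, Equiv.mulLeft c ∈ φ.range := fun c =>
    ⟨c, Equiv.ext fun a => e.injective (by rw [hφ, ← he]; rfl)⟩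
  have hQ : Nat.card (powMonoidHom p : zpowers g →* zpowers g).ker = p := by
    rw [IsCyclic.card_powMonoidHom_ker, Nat.card_zpowers, hg]
    exact Nat.gcd_eq_right (dvd_pow_self p n.succ_ne_zero)
  have hC : (powMonoidHom p : zpowers g →* zpowers g).ker ≠ ⊤ := fun h => by
    rw [h, card_top, Nat.card_zpowers, hg] at hQ
    have := Nat.pow_right_injective hp.two_le (hQ.trans (pow_one p).symm)
    omega
  obtain ⟨L, hL, hL1, hL2⟩ : ∃ L : Subgroup (zpowers g), Schur.SInv φ.range L ∧ L ≠ ⊥ ∧ L ≠ ⊤ := by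
    by_contra h
    have hprim : ∀ L : Subgroup (zpowers g), Schur.SInv φ.range L → L = ⊥ ∨ L = ⊤ := fun L hL => by
      by_contra h'
      exact h ⟨L, hL, fun h => h' (Or.inl h), fun h => h' (Or.inr h)⟩
    refine h2 (is_two_pretransitive_iff.mpr fun {a b c d} hab hcd => ?_)
    obtain ⟨a, rfl⟩ := e.surjective a
    obtain ⟨b, rfl⟩ := e.surjective b
    obtain ⟨c, rfl⟩ := e.surjective c
    obtain ⟨d, rfl⟩ := e.surjective d
    obtain ⟨_, ⟨γ, rfl⟩, h⟩ := Schur.mem_sOrb_of_primitive hp hQ hprim hΓ hC (x := a / b)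
      (y := c / d) (fun h => hab (by rw [div_eq_one.mp h])) fun h => hcd (by rw [div_eq_one.mp h])
    refine ⟨((d / φ γ 1 : zpowers g) : G) * γ * (b⁻¹ : zpowers g), ?_, ?_⟩
    · rw [mul_smul, mul_smul, ← he, ← hφ, ← he, inv_mul_eq_div, div_mul_eq_mul_div, mul_div_assoc,
        h, mul_div_cancel]
    · rw [mul_smul, mul_smul, ← he, ← hφ, ← he, inv_mul_cancel, div_mul_cancel]
  let K : Subgroup G :=
    { carrier := {γ | ∀ c, φ γ c / c ∈ L}
      one_mem' := fun c => by simp
      mul_mem' := fun {a b} ha hb c => by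
        simpa using mul_mem (ha (φ b c)) (hb c)
      inv_mem' := fun {a} ha c => by
        simpa using inv_mem (ha (φ a⁻¹ c)) }
  have : K.Normal := ⟨fun γ hγ δ c => by
    simpa using hL _ ⟨δ, rfl⟩ _ _ (hγ (φ δ⁻¹ c))⟩
  have hK : normalClosure {z} ≤ K := normalClosure_le_normal (Set.singleton_subset_iff.mpr
    fun c => by
      have : φ z c = ⟨z, hzg⟩ * c := e.injective (by rw [hφ, he])
      rw [this, mul_div_cancel_right]
      exact hsub L hL1)
  have hnt : ¬ IsPretransitive (normalClosure ({z} : Set G)) Ω := fun h => hL2 <| by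
    rw [eq_top_iff]
    intro c _
    obtain ⟨γ, hγ⟩ := h.exists_smul_eq (e 1) (e c)
    have h1 : φ γ 1 = c := e.injective (by rw [hφ]; exact hγ)
    simpa [h1] using hK γ.2 1
  refine ⟨fun h => hnt (h.isQuasiPreprimitive.isPretransitive_of_normal fun h' => hω ?_), hnt⟩
  exact (h' ▸ Set.mem_univ ω : ω ∈ fixedPoints _ Ω) ⟨z, subset_normalClosure rfl⟩

end Cfsg.Agent.S3972
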