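import Cfsg.Statements.S3973
import Mathlib
import Cfsg.Agent.Lib.Schur.ResCor

set_option autoImplicit false
open Cfsg

namespace Cfsg.Agent.S3973

open Subgroup
open scoped IsMulCommutative

theorem rank_le_finrank {V A : Type*} [AddCommGroup V] [Module.Finite ℤ V] [Module.Free ℤ V]
    [CommGroup A] [Group.FG A] (φ : V →+ Additive A) (hφ : Function.Surjective φ) :
    Group.rank A ≤ Module.finrank ℤ V := by
  classical
  let b := Module.finBasis ℤ V
  let S : Finset A := Finset.univ.image (fun i => (φ (b i)).toMul)
  have hS : closure (S : Set A) = ⊤ := by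
    rw [eq_top_iff]
    intro a _
    obtain ⟨v, hv⟩ := hφ (Additive.ofMul a)
    have h1 : v ∈ Submodule.span ℤ (Set.range b) := by rw [b.span_eq]; trivial
    have h2 : (φ v).toMul ∈ closure (S : Set A) := by
      clear hv
      induction h1 using Submodule.span_induction with
      | mem x hx =>
        obtain ⟨i, rfl⟩ := hx
        exact subset_closure (by simp [S])
      | zero => simp
      | add x y _ _ hx hy => rw [map_add, toMul_add]; exact mul_mem hx hy
      | smul c x _ hx => rw [map_zsmul, toMul_zsmul]; exact zpow_mem hx c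
    rwa [hv] at h2
  exact (Group.rank_le hS).trans (Finset.card_image_le.trans (by simp))

/-- If a finite group is presented by `n` generators and a finite set of `r` relators, then its Schur multiplier can be generated by `r - n` elements. In particular a finite group with a presentation having as many relators as generators has trivial Schur multiplier. -/
theorem result (n : ℕ) (rels : Finset (FreeGroup (Fin n))) [Finite (PresentedGroup (rels : Set (FreeGroup (Fin n))))] {A : Type*} [CommGroup A] [Finite A] (hA : Cfsg.HasSchurMultiplier (PresentedGroup (rels : Set (FreeGroup (Fin n)))) A) : Group.rank A ≤ rels.card - n := by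
  classical
  let π := PresentedGroup.mk (rels : Set (FreeGroup (Fin n)))
  have hπ : Function.Surjective π := PresentedGroup.mk_surjective _
  obtain ⟨e⟩ := Schur.nonempty_equiv_hopfMult hA π hπ
  have hrel : ∀ r : rels, (r : FreeGroup (Fin n)) ∈ π.ker := fun r =>
    PresentedGroup.one_of_mem r.2
  let z : rels → (Schur.hopfMap π).ker := fun r => Schur.toHopfKer π ⟨r, hrel r⟩
  let f : (rels → ℤ) →ₗ[ℤ] Additive (Schur.hopfMap π).ker :=
    Fintype.linearCombination ℤ (fun r => Additive.ofMul (z r))
  have hf : Function.Surjective f := by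
    let W : Subgroup (Schur.hopfMap π).ker := AddSubgroup.toSubgroup' f.range.toAddSubgroup
    let W' := W.map (Schur.hopfMap π).ker.subtype
    have : W'.Normal := Schur.normal_of_le_center
      ((map_subtype_le _).trans (Schur.hopfMap_ker_le_center π))
    have h1 : normalClosure (rels : Set (FreeGroup (Fin n))) ≤ W'.comap (QuotientGroup.mk' _) := by
      apply normalClosure_le_normal
      intro r hr
      refine ⟨z ⟨r, hr⟩, ⟨Pi.single ⟨r, hr⟩ 1, ?_⟩, rfl⟩
      simp [f]
      rfl
    intro x
    obtain ⟨r, hr⟩ := Schur.toHopfKer_surjective π x.toMul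
    obtain ⟨y, ⟨c, hc⟩, hy⟩ := h1 (PresentedGroup.mk_eq_one_iff.mp r.2)
    refine ⟨c, ?_⟩
    have : y = x.toMul := by rw [← hr]; exact Subtype.ext hy
    rw [hc, this]; rfl
  let g₀ : Schur.HopfExt π →* Abelianization (FreeGroup (Fin n)) :=
    QuotientGroup.lift _ Abelianization.of (by
      rw [Abelianization.ker_of]; exact commutator_mono le_top le_rfl)
  have hg₀ : ∀ x, g₀ x = 1 ↔ x ∈ commutator _ := fun x => by
    obtain ⟨x, rfl⟩ := QuotientGroup.mk_surjective x
    rw [Schur.mk_mem_commutator_hopf_iff, ← Abelianization.ker_of]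
    rfl
  let g : Additive (Schur.hopfMap π).ker →ₗ[ℤ] FreeAbelianGroup (Fin n) :=
    (MonoidHom.toAdditive (g₀.comp (Schur.hopfMap π).ker.subtype)).toIntLinearMap
  let h := g.comp f
  let N := Nat.card (PresentedGroup (rels : Set (FreeGroup (Fin n))))
  have hN : (N : ℤ) ≠ 0 := by exact_mod_cast Nat.card_pos.ne'
  have h1 : ∀ v : FreeAbelianGroup (Fin n), (N : ℤ) • v ∈ h.range := fun v => by
    obtain ⟨x, hx⟩ := QuotientGroup.mk'_surjective (commutator _)
      (Additive.toMul (α := Abelianization (FreeGroup (Fin n))) v)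
    have hxN : x ^ N ∈ π.ker := by rw [MonoidHom.mem_ker, map_pow, pow_card_eq_one']
    obtain ⟨c, hc⟩ := hf (Additive.ofMul (Schur.toHopfKer π ⟨_, hxN⟩))
    refine ⟨c, ?_⟩
    show g (f c) = _
    rw [hc, natCast_zsmul]
    show Additive.ofMul (Abelianization.of (x ^ N)) = _
    rw [map_pow]
    exact congrArg (fun y => Additive.ofMul (y ^ N)) hx
  have h2 : n ≤ Module.finrank ℤ h.range := by
    have := LinearMap.finrank_le_finrank_of_injective
      (f := ((N : ℤ) • LinearMap.id).codRestrict h.range h1)
      (fun a b hab => smul_right_injective _ hN (congrArg Subtype.val hab))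
    rwa [Module.finrank_eq_card_basis (FreeAbelianGroup.basis (Fin n)), Fintype.card_fin] at this
  have h3 : Module.finrank ℤ h.range + Module.finrank ℤ h.ker = rels.card := by
    rw [← (LinearMap.quotKerEquivRange h).finrank_eq, Submodule.finrank_quotient_add_finrank]
    simp
  have h4 : ∀ c : h.ker, ((f c).toMul : Schur.HopfExt π) ∈ Schur.hopfMult π := fun c =>
    ⟨(f c).toMul.2, (hg₀ _).mp c.2⟩
  let φ : h.ker →+ Additive A :=
    { toFun := fun c => Additive.ofMul (e.symm ⟨_, h4 c⟩)
      map_zero' := by
        rw [← ofMul_one, ← map_one e.symm]; congr 2; simp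
      map_add' := fun a b => by
        rw [← ofMul_mul, ← map_mul e.symm]; congr 2; simp }
  have hφ : Function.Surjective φ := by
    intro a
    obtain ⟨c, hc⟩ := hf (Additive.ofMul ⟨e a.toMul, (e a.toMul).2.1⟩)
    have hc' : c ∈ h.ker := by
      show g (f c) = 0
      rw [hc]
      exact (hg₀ _).mpr (e a.toMul).2.2
    refine ⟨⟨c, hc'⟩, ?_⟩
    show Additive.ofMul (e.symm ⟨_, h4 ⟨c, hc'⟩⟩) = a
    have : (⟨_, h4 ⟨c, hc'⟩⟩ : Schur.hopfMult π) = e a.toMul := by
      apply Subtype.ext
      show ((f c).toMul : Schur.HopfExt π) = _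
      rw [hc]; rfl
    rw [this]; simp
  have := rank_le_finrank φ hφ
  omega

end Cfsg.Agent.S3973
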