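import Cfsg.Statements.S3974
import Mathlib
import Cfsg.Agent.Lib.Schur.Pullback

set_option autoImplicit false
universe u v
open Cfsg

namespace Cfsg.Agent.S3974

open Subgroup Function Schur
open scoped IsMulCommutative commutatorElement

theorem mem_commutator_of_map_mem {Γ Q : Type*} [Group Γ] [Group Q] (σ : Γ →* Q)
    (hσ : Surjective σ) {x : Γ} (hx : σ x ∈ commutator Q) :
    ∃ y ∈ commutator Γ, ∃ z ∈ σ.ker, x = y * z := by
  have h1 : (commutator Γ).map σ = commutator Q := by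
    rw [map_commutator_eq, MonoidHom.range_eq_top.mpr hσ]; rfl
  rw [← h1] at hx
  obtain ⟨y, hy, hyx⟩ := hx
  exact ⟨y, hy, y⁻¹ * x, by simp [MonoidHom.mem_ker, hyx], by group⟩

theorem eq_on_commutator {W X P : Type*} [Group W] [Group X] [Group P] (ξ : X →* P)
    (hc : ξ.ker ≤ center X) (η η' : W →* X) (h : ξ.comp η = ξ.comp η') {w : W}
    (hw : w ∈ commutator W) : η w = η' w := by
  have h1 : commutator W ≤ η.eqLocus η' := by
    rw [commutator_def, commutator_le]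
    intro a _ b _
    show η ⁅a, b⁆ = η' ⁅a, b⁆
    rw [map_commutatorElement, map_commutatorElement]
    exact commutatorElement_eq_of_map_eq ξ hc (DFunLike.congr_fun h a) (DFunLike.congr_fun h b)
  exact h1 hw

theorem bijective_restrict {Q A Γ Y : Type*} [Group Q] [CommGroup A] [Group Γ] [Group Y]
    (hA : HasSchurMultiplier Q A) (σ : Γ →* Q) (hσ : IsStemExtension σ)
    (hk : Nonempty (σ.ker ≃* A)) (p : Y →* Γ) (hp : Surjective p)
    (hc : (σ.comp p).ker ≤ center Y) (ha : ∀ z ∈ (σ.comp p).ker, z ^ Nat.card A = 1)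
    (hcop : Nat.Coprime (Nat.card (Abelianization Q)) (Nat.card A)) :
    Bijective (p.comp (((powMonoidHom (Nat.card (Abelianization Q))).comp
      (Abelianization.of (G := Y))).ker).subtype) := by
  have hbot := ker_inf_commutator_eq_bot_of_cover hA σ hσ hk p hp hc
  set q := Nat.card (Abelianization Q)
  have hof : ∀ y : Y, Abelianization.of y = 1 ↔ y ∈ commutator Y := fun y => by
    rw [← Abelianization.ker_of]; rfl
  constructor
  · rw [injective_iff_map_eq_one]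
    rintro ⟨y, hy⟩ h1
    have h1' : p y = 1 := h1
    have h2 : Abelianization.of y ^ q = 1 := hy
    have h3 : Abelianization.of y ^ Nat.card A = 1 := by
      rw [← map_pow, ha y (by simp [h1']), map_one]
    have h4 := pow_gcd_eq_one.mpr ⟨h2, h3⟩
    rw [hcop, pow_one, hof] at h4
    have : y ∈ p.ker ⊓ commutator Y := ⟨h1', h4⟩
    rw [hbot] at this
    exact Subtype.ext this
  · intro g
    obtain ⟨y, rfl⟩ := hp g
    obtain ⟨y', hy', z, hz, hyz⟩ := mem_commutator_of_map_mem (σ.comp p) (hσ.1.comp hp)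
      (x := y ^ q) (by
        rw [← Abelianization.ker_of, MonoidHom.mem_ker, map_pow, map_pow, pow_card_eq_one'])
    obtain ⟨k, hk⟩ := exists_pow_eq_self_of_coprime (x := z) (n := q)
      (hcop.coprime_dvd_right (orderOf_dvd_of_pow_eq_one (ha z hz)))
    have h1 : p (z ^ k) ∈ commutator Γ := hσ.2.2 (pow_mem hz k)
    obtain ⟨w, hw, w', hw', h2⟩ := mem_commutator_of_map_mem p hp h1
    refine ⟨⟨y * (z ^ k)⁻¹ * w, ?_⟩, ?_⟩
    · show Abelianization.of _ ^ q = 1
      rw [map_mul, (hof w).mpr hw, mul_one, map_mul, mul_pow, ← map_pow, hyz, ← map_pow, inv_pow,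
        ← pow_mul, mul_comm k, pow_mul, hk, map_mul, (hof y').mpr hy', map_inv]
      simp
    · show p (y * (z ^ k)⁻¹ * w) = p y
      rw [map_mul, map_mul, map_inv, h2, map_mul, show p w' = 1 from hw']
      simp

theorem exists_not_pow {K : Type*} [Group K] [Finite K] {p : ℕ} (hp : p.Prime)
    (h : p ∣ Nat.card K) : ∃ a : K, ∀ b : K, b ^ p ≠ a := by
  have := Fact.mk hp
  obtain ⟨x, hx⟩ := exists_prime_orderOf_dvd_card' p h
  by_contra hcon
  push Not at hcon
  have hinj : Injective (fun b : K => b ^ p) := Finite.injective_iff_surjective.mpr hcon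
  have : x = 1 := hinj (by simp only [one_pow]; rw [← hx, pow_orderOf_eq_one])
  rw [this, orderOf_one] at hx
  exact hp.one_lt.ne hx

/-- Let `Q` be a finite group with Schur multiplier `A`. Any two Schur covering groups of `Q` (finite stem extensions `σ₁ : Γ₁ →* Q`, `σ₂ : Γ₂ →* Q` with kernels isomorphic to `A`, `Γ₁, Γ₂` in the universe of `Q`) are isomorphic over `Q` — there is a group isomorphism `e : Γ₁ ≃* Γ₂` with `σ₂ ∘ e = σ₁` — if and only if the order of the commutator quotient of `Q` is coprime to the order of `A`. In particular a finite perfect group has a unique Schur covering group up to isomorphism over it. -/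
theorem result {Q : Type u} [Group Q] [Finite Q] {A : Type v} [CommGroup A] (hA : Cfsg.HasSchurMultiplier Q A) : (∀ (Γ₁ Γ₂ : Type u) [Group Γ₁] [Finite Γ₁] [Group Γ₂] [Finite Γ₂] (σ₁ : Γ₁ →* Q) (σ₂ : Γ₂ →* Q), Cfsg.IsStemExtension σ₁ → Cfsg.IsStemExtension σ₂ → Nonempty (σ₁.ker ≃* A) → Nonempty (σ₂.ker ≃* A) → ∃ e : Γ₁ ≃* Γ₂, σ₂.comp e.toMonoidHom = σ₁) ↔ Nat.Coprime (Nat.card (Abelianization Q)) (Nat.card A) := by
  refine ⟨fun h => ?_, fun hcop Γ₁ Γ₂ _ _ _ _ σ₁ σ₂ hσ₁ hσ₂ hk₁ hk₂ => ?_⟩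
  · by_contra hcop
    obtain ⟨p, hp, hpQ, hpA⟩ := Nat.Prime.not_coprime_iff_dvd.mp hcop
    have := Fact.mk hp
    obtain ⟨Γ₁, _, _, σ₁, hσ₁, ⟨e₁⟩⟩ := hA.1
    have := isMulCommutative_of_le_center hσ₁.2.1
    obtain ⟨a₀, ha₀⟩ := exists_not_pow (K := σ₁.ker) hp (by rwa [Nat.card_congr e₁.toEquiv])
    obtain ⟨x, hx⟩ := exists_prime_orderOf_dvd_card' p hpQ
    obtain ⟨ι, _, n, hn, ⟨f⟩⟩ :=
      CommGroup.equiv_prod_multiplicative_zmod_of_finite (Abelianization Q)
    obtain ⟨i, hi⟩ : ∃ i, f x i ≠ 1 := by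
      by_contra hcon
      push Not at hcon
      have : x = 1 := f.injective (by rw [map_one]; exact funext hcon)
      rw [this, orderOf_one] at hx
      exact hp.one_lt.ne hx
    set q := n i
    have hq0 : (q : ℤ) ≠ 0 := by have := hn i; omega
    let χ : Q →* Multiplicative (ZMod q) :=
      (Pi.evalMonoidHom _ i).comp (f.toMonoidHom.comp Abelianization.of)
    let c : Multiplicative ℤ →* Multiplicative (ZMod q) :=
      AddMonoidHom.toMultiplicative (Int.castAddHom (ZMod q))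
    have hc : Surjective c := ZMod.intCast_surjective
    have hc1 : ∀ j : Multiplicative ℤ, c j = 1 ↔ (q : ℤ) ∣ j.toAdd := fun j =>
      ZMod.intCast_zmod_eq_zero_iff_dvd _ _
    let p₁ := pbFst (χ.comp σ₁) c
    let p₂ := pbSnd (χ.comp σ₁) c
    have hp₁ : Surjective p₁ := pbFst_surjective _ _ hc
    let ε := σ₁.comp p₁
    have hε : Surjective ε := hσ₁.1.comp hp₁
    have hεc : ε.ker ≤ center _ := fun y hy =>
      mem_center_pb (hσ₁.2.1 hy) (by rw [center_eq_top]; trivial)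
    have hW : ∀ w ∈ commutator (pb (χ.comp σ₁) c), p₂ w = 1 := fun w hw =>
      Abelianization.commutator_subset_ker p₂ hw
    have hW' : ∀ w : pb (χ.comp σ₁) c, p₁ w ∈ commutator Γ₁ → p₂ w = 1 → w ∈ commutator _ := by
      intro w h1 h2
      rw [← map_commutator_eq_of_comp ε hε σ₁ hσ₁.2.1 p₁ rfl] at h1
      obtain ⟨w', hw', h3⟩ := h1
      have : w' = w := Subtype.ext (Prod.ext h3 ((hW w' hw').trans h2.symm))
      exact this ▸ hw'
    have hmem : ∀ a ∈ σ₁.ker, ∀ j : ℤ, (q : ℤ) ∣ j →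
        (a, Multiplicative.ofAdd j) ∈ pb (χ.comp σ₁) c := fun a ha j hj => by
      rw [mem_pb, MonoidHom.comp_apply, show σ₁ a = 1 from ha, map_one]
      exact ((hc1 _).mpr hj).symm
    let s : pb (χ.comp σ₁) c := ⟨_, hmem _ (inv_mem a₀.2) q dvd_rfl⟩
    have hS : zpowers s ≤ ε.ker := zpowers_le.mpr (inv_mem a₀.2 : _ ∈ σ₁.ker)
    have : (zpowers s).Normal := normal_of_le_center (hS.trans hεc)
    obtain ⟨h1, ⟨e₂⟩⟩ := stem_of_complement ε hε hεc (zpowers s) hS (by
      rw [eq_bot_iff]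
      rintro _ ⟨⟨k, rfl⟩, h2⟩
      have h3 := congrArg Multiplicative.toAdd (hW _ h2)
      rw [map_zpow] at h3
      have h4 : k • (q : ℤ) = 0 := h3
      have : k = 0 := (smul_eq_zero.mp h4).resolve_right hq0
      simp [this]) (by
      intro y hy
      have hy' : σ₁ y.1.1 = 1 := hy
      obtain ⟨k, hk⟩ := (hc1 y.1.2).mp (by
        rw [← mem_pb.mp y.2, MonoidHom.comp_apply, hy', map_one])
      have hy2 : (s ^ k)⁻¹ * y ∈ ε.ker := mul_mem (inv_mem (hS (zpow_mem (mem_zpowers s) k))) hy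
      have : y = s ^ k * ((s ^ k)⁻¹ * y) := by group
      rw [this]
      refine mul_mem_sup (zpow_mem (mem_zpowers s) k) ⟨hy2, hW' _ (hσ₁.2.2 hy2) ?_⟩
      rw [map_mul, map_inv, map_zpow, inv_mul_eq_one]
      apply Multiplicative.toAdd.injective
      show k • (q : ℤ) = y.1.2.toAdd
      rw [hk, smul_eq_mul, mul_comm])
    set σ₂ := QuotientGroup.lift (zpowers s) ε hS
    obtain ⟨π, hπ, hπ'⟩ := exists_surjective_ker_inf_commutator ε hε σ₁ hσ₁.2.1 p₁ rfl
    have hπi : Injective π := by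
      rw [injective_iff_map_eq_one]
      intro a ha
      have h3 : p₁ a = 1 := by rw [← hπ', ha]; rfl
      exact Subtype.ext (Subtype.ext (Prod.ext h3 (hW _ a.2.2)))
    have hk₂ : σ₂.ker ≃* A := e₂.trans ((MulEquiv.ofBijective π ⟨hπi, hπ⟩).trans
      ((MulEquiv.subgroupCongr (inf_eq_left.mpr hσ₁.2.2)).trans e₁))
    have : Finite σ₂.ker := Finite.of_equiv _ (e₁.trans hk₂.symm).toEquiv
    have := finite_of_finite_ker σ₂
    obtain ⟨e, he⟩ := h Γ₁ _ σ₁ σ₂ hσ₁ h1 ⟨e₁⟩ ⟨hk₂⟩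
    have he' : ∀ g, σ₂ (e g) = σ₁ g := fun g => DFunLike.congr_fun he g
    let φ := QuotientGroup.mk' (zpowers s)
    have hφ : ∀ w ∈ commutator (pb (χ.comp σ₁) c), e (p₁ w) = φ w := fun w hw =>
      eq_on_commutator σ₂ h1.2.1 (e.toMonoidHom.comp p₁) φ (MonoidHom.ext fun y => he' _) hw
    obtain ⟨x', hx'⟩ := QuotientGroup.mk'_surjective (commutator Q) x
    obtain ⟨w, rfl⟩ := hε x'
    have hxw : Abelianization.of (σ₁ (p₁ w)) = x := hx'
    have hcw : c (p₂ w) = f x i := by rw [← hxw]; exact (mem_pb.mp w.2).symm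
    obtain ⟨j', hj'⟩ := (hc1 (p₂ w ^ p)).mp (by
      rw [map_pow, hcw, ← Pi.pow_apply, ← map_pow, ← hx, pow_orderOf_eq_one, map_one]; rfl)
    have hj : ¬ (p : ℤ) ∣ j' := by
      rintro ⟨l, rfl⟩
      apply hi
      rw [← hcw, hc1]
      refine ⟨l, mul_left_cancel₀ (a := (p : ℤ)) (by exact_mod_cast hp.ne_zero) ?_⟩
      rw [toAdd_pow, nsmul_eq_mul] at hj'
      rw [hj']; ring
    let t : pb (χ.comp σ₁) c := ⟨_, hmem 1 (one_mem _) q dvd_rfl⟩
    let u : pb (χ.comp σ₁) c := ⟨_, hmem _ a₀.2 0 (dvd_zero _)⟩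
    have hu : u ∈ commutator _ := hW' u (hσ₁.2.2 a₀.2) rfl
    have ht : φ t = e a₀ := by
      have : t = s * u := Subtype.ext (Prod.ext (by simp [s, t, u]) (by simp [s, t, u]))
      rw [this, map_mul, show φ s = 1 from (QuotientGroup.eq_one_iff _).mpr (mem_zpowers s),
        one_mul, ← hφ u hu]
      rfl
    have hp₁t : p₁ t = 1 := rfl
    have hw' : w ^ p * (t ^ j')⁻¹ ∈ commutator _ := hW' _ (by
      rw [map_mul, map_inv, map_zpow, hp₁t, one_zpow, inv_one, mul_one]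
      obtain ⟨y, hy, z, hz, h2⟩ := mem_commutator_of_map_mem σ₁ hσ₁.1 (x := p₁ (w ^ p)) (by
        rw [← Abelianization.ker_of, MonoidHom.mem_ker, map_pow, map_pow, map_pow, hxw, ← hx,
          pow_orderOf_eq_one])
      rw [h2]; exact mul_mem hy (hσ₁.2.2 hz)) (by
      rw [map_mul, map_inv, map_zpow, map_pow, mul_inv_eq_one]
      apply Multiplicative.toAdd.injective
      rw [hj']
      show _ = j' • (q : ℤ)
      rw [smul_eq_mul, mul_comm])
    have h2 := hφ _ hw'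
    rw [map_mul, map_inv, map_zpow, hp₁t, one_zpow, inv_one, mul_one, map_mul, map_inv, map_zpow,
      ht, map_pow, map_pow, map_pow] at h2
    obtain ⟨k, hk⟩ := e.surjective ((e (p₁ w))⁻¹ * φ w)
    have hk1 : k ∈ σ₁.ker := by
      rw [MonoidHom.mem_ker, ← he', hk, map_mul, map_inv, he', inv_mul_eq_one]
      rfl
    have h3 : φ w = e (p₁ w * k) := by rw [map_mul, hk]; group
    have h4 : Commute (p₁ w) k := Subgroup.mem_center_iff.mp (hσ₁.2.1 hk1) _
    rw [h3, ← map_pow e, ← map_pow e, ← map_zpow, ← map_inv, ← map_mul, e.injective.eq_iff,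
      h4.mul_pow, mul_assoc, left_eq_mul, mul_inv_eq_one] at h2
    have h5 : (⟨k, hk1⟩ : σ₁.ker) ^ p = a₀ ^ j' := Subtype.ext h2
    obtain ⟨a, b, hab⟩ : IsCoprime (p : ℤ) j' :=
      (Nat.prime_iff_prime_int.mp hp).coprime_iff_not_dvd.mpr hj
    apply ha₀ (a₀ ^ a * ⟨k, hk1⟩ ^ b)
    rw [mul_pow, ← zpow_natCast, ← zpow_natCast, ← zpow_mul, ← zpow_mul, mul_comm b, zpow_mul _ (p : ℤ),
      zpow_natCast, h5, ← zpow_mul, ← zpow_add, mul_comm j', hab, zpow_one]
  · have hc := pb_ker_le_center σ₁ σ₂ hσ₁.2.1 hσ₂.2.1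
    have ha : ∀ z ∈ (σ₁.comp (pbFst σ₁ σ₂)).ker, z ^ Nat.card A = 1 := fun z hz => by
      have h1 : σ₁ z.1.1 = 1 := hz
      have h2 : σ₂ z.1.2 = 1 := by rw [← mem_pb.mp z.2, h1]
      have h3 := pow_card_eq_one' (x := (⟨_, h1⟩ : σ₁.ker))
      have h4 := pow_card_eq_one' (x := (⟨_, h2⟩ : σ₂.ker))
      rw [Nat.card_congr hk₁.some.toEquiv] at h3
      rw [Nat.card_congr hk₂.some.toEquiv] at h4
      exact Subtype.ext (Prod.ext (congrArg Subtype.val h3) (congrArg Subtype.val h4))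
    have h1 := bijective_restrict hA σ₁ hσ₁ hk₁ _ (pbFst_surjective σ₁ σ₂ hσ₂.1) hc ha hcop
    rw [← pb_comm] at hc ha
    have h2 := bijective_restrict hA σ₂ hσ₂ hk₂ _ (pbSnd_surjective σ₁ σ₂ hσ₁.1) hc ha hcop
    refine ⟨(MulEquiv.ofBijective _ h1).symm.trans (MulEquiv.ofBijective _ h2), ?_⟩
    ext g
    obtain ⟨y, rfl⟩ := (MulEquiv.ofBijective _ h1).surjective g
    show σ₂ ((MulEquiv.ofBijective _ h2) ((MulEquiv.ofBijective _ h1).symm _)) = _
    rw [MulEquiv.symm_apply_apply]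
    exact (mem_pb.mp y.1.2).symm

end Cfsg.Agent.S3974
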