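import Cfsg.Statements.S3977
import Cfsg.Agent.Lib.PGrp.Count
import Cfsg.Agent.Lib.PGrp.RankOne

set_option autoImplicit false
open Cfsg

namespace Cfsg.Agent.S3977

/-- Let `p` be a prime and `G` a group of order `p ^ m` which has exactly one subgroup of order `p ^ s`, where `1 ≤ s < m`, and where `s ≥ 2` if `p = 2`. Then `G` is cyclic. (For `p = 2` and `s = 1` the generalized quaternion groups also occur; that case is the classical criterion for a unique involution.) -/
theorem result {G : Type*} [Group G] [Finite G] (p m s : ℕ) (hp : p.Prime) (hG : Nat.card G = p ^ m) (hs : 1 ≤ s) (hsm : s < m) (h2 : p ≠ 2 ∨ 2 ≤ s) (huniq : ∀ H K : Subgroup G, Nat.card H = p ^ s → Nat.card K = p ^ s → H = K) : IsCyclic G := by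
  have := Fact.mk hp
  have hP : IsPGroup p G := IsPGroup.of_card hG
  have htop : Nat.card (⊤ : Subgroup G) = p ^ m := by rw [Subgroup.card_top, hG]
  obtain ⟨K, -, hK⟩ := PGrp.exists_normal_card hP (k := s + 1)
    (hG ▸ Nat.pow_le_pow_right hp.pos hsm)
  obtain ⟨H, -, hH⟩ := PGrp.exists_normal_card hP (k := s)
    (hG ▸ Nat.pow_le_pow_right hp.pos hsm.le)
  have hKc : IsCyclic K := by
    have hKP := hP.to_subgroup K
    rw [PGrp.isCyclic_iff_index_frattini_le hKP, ← PGrp.card_index_eq_prime hKP]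
    have h1 : Nat.card {M : Subgroup K // M.index = p} ≤ 1 := by
      rw [Finite.card_le_one_iff_subsingleton]
      refine ⟨fun M N => Subtype.ext (Subgroup.map_injective K.subtype_injective (huniq _ _ ?_ ?_))⟩
      · rw [Subgroup.card_subtype]
        exact (PGrp.card_eq_iff_index_eq (hK.trans (pow_succ p s)) (pow_pos hp.pos s) hp.pos).mpr M.2
      · rw [Subgroup.card_subtype]
        exact (PGrp.card_eq_iff_index_eq (hK.trans (pow_succ p s)) (pow_pos hp.pos s) hp.pos).mpr N.2
    have := Nat.mul_le_mul_left (p - 1) h1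
    have := hp.pos
    omega
  have hle : ∀ L : Subgroup G, Nat.card L ≤ p ^ s → L ≤ H := fun L hL => by
    obtain ⟨L', h1, -, h3⟩ := PGrp.exists_card_between (hP.to_subgroup ⊤) (le_top (a := L)) hL
      (htop ▸ Nat.pow_le_pow_right hp.pos hsm.le)
    exact h1.trans (huniq _ _ h3 hH).le
  have hge : ∀ L : Subgroup G, p ^ s ≤ Nat.card L → H ≤ L := fun L hL => by
    obtain ⟨L', -, h2, h3⟩ := PGrp.exists_card_between (hP.to_subgroup L) (bot_le (a := L))
      (k := s) (by rw [Subgroup.card_bot]; exact Nat.one_le_pow _ _ hp.pos) hL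
    exact (huniq _ _ hH h3).le.trans h2
  have hHK : H ≤ K := hge K (hK ▸ Nat.pow_le_pow_right hp.pos (Nat.le_succ s))
  have hr : PRankLE p 1 G := by
    refine PGrp.rank_le_one_of_abelian_cyclic fun A hA he => ?_
    by_contra hc
    have h1 := PGrp.sq_le_card_omegaOne (hP.to_subgroup A) hA hc
    have h3 : omegaOne p A ≤ K := by
      rw [PGrp.omegaOne_le_iff]
      intro x _ hx
      refine (hle (Subgroup.zpowers x) ?_).trans hHK (Subgroup.mem_zpowers x)
      rw [Nat.card_zpowers]
      exact (Nat.le_of_dvd hp.pos (orderOf_dvd_of_pow_eq_one hx)).trans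
        (Nat.le_self_pow (by omega) p)
    refine PGrp.not_isCyclic_of_elemAb (p := p) (PGrp.isElementaryAbelian_omegaOne hA).2
      (lt_of_lt_of_le ?_ h1) (Subgroup.isCyclic_of_le h3)
    have := hp.one_lt
    nlinarith
  rcases PGrp.isCyclic_or_quaternion_gens_of_rank_le_one hP hr with
    h | ⟨rfl, n, x, y, hn, hc, hx, hy, hyx, hy2⟩
  · exact h
  exfalso
  have hs2 : 2 ≤ s := by tauto
  have hnm : m = n + 1 := Nat.pow_right_injective le_rfl (hG.symm.trans hc)
  refine hy (hge _ ?_ (hle (Subgroup.zpowers y) ?_ (Subgroup.mem_zpowers y)))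
  · rw [Nat.card_zpowers, hx]
    exact Nat.pow_le_pow_right two_pos (by omega)
  · rw [Nat.card_zpowers]
    have h4 : y ^ 2 ^ 2 = 1 := by
      rw [show 2 ^ 2 = 2 * 2 from rfl, pow_mul, hy2, ← pow_mul, ← pow_succ,
        Nat.sub_add_cancel (by omega), ← hx, pow_orderOf_eq_one]
    exact (Nat.le_of_dvd (by norm_num) (orderOf_dvd_of_pow_eq_one h4)).trans
      (Nat.pow_le_pow_right two_pos hs2)

end Cfsg.Agent.S3977
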