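import Cfsg.Statements.S3978
import Mathlib
import Cfsg.Agent.Lib.Schur.Rep

set_option autoImplicit false
open Cfsg

namespace Cfsg.Agent.S3978

/-- A finite group `Q` has trivial Schur multiplier if and only if, for every `n`, every homomorphism from `Q` to the projective general linear group (the quotient of `GL n ℂ` by its centre) lifts to a homomorphism into `GL n ℂ`. -/
theorem result {Q : Type*} [Group Q] [Finite Q] : Cfsg.HasCyclicSchurMultiplier Q 1 ↔ ∀ (n : ℕ) (γ : Q →* (GL (Fin n) ℂ ⧸ Subgroup.center (GL (Fin n) ℂ))), ∃ ρ : Q →* GL (Fin n) ℂ, (QuotientGroup.mk' (Subgroup.center (GL (Fin n) ℂ))).comp ρ = γ := by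
  constructor
  · intro h n γ
    have : Unique (MonoidHom.id Q).ker := by rw [MonoidHom.ker_id]; infer_instance
    have : Unique (Multiplicative (ZMod 1)) := uniqueOfSubsingleton 1
    exact Schur.exists_lift_of_divisible h (MonoidHom.id Q) Schur.isStemExtension_id
      ⟨MulEquiv.ofUnique⟩ (Schur.center_GL_divisible n) γ
  · intro h
    apply Schur.hasSchurMultiplier_of_subsingleton
    intro Δ _ _ τ hτ
    obtain ⟨π, hπ⟩ := Schur.exists_surjective_ker_of_pb (MonoidHom.id Q) τ
      Schur.isStemExtension_id hτ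
      (Schur.pbFst_ker_inf_commutator_of_lift (MonoidHom.id Q) h τ hτ.1 hτ.2.1)
    have : Unique (MonoidHom.id Q).ker := by rw [MonoidHom.ker_id]; infer_instance
    rw [eq_bot_iff]
    intro x hx
    obtain ⟨a, ha⟩ := hπ ⟨x, hx⟩
    rw [Subsingleton.elim a 1, map_one] at ha
    exact (congrArg Subtype.val ha).symm

end Cfsg.Agent.S3978
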