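import Cfsg.Statements.S3980
import Mathlib
import Cfsg.Agent.Lib.Schur.Product

set_option autoImplicit false
universe u v w
open Cfsg

namespace Cfsg.Agent.S3980

/-- Let `Q₁` and `Q₂` be finite groups whose commutator quotients have coprime orders, with Schur multipliers `A` and `B`. Then the Schur multiplier of `Q₁ × Q₂` is isomorphic to `A × B`. -/
theorem result {Q₁ : Type u} {Q₂ : Type v} [Group Q₁] [Group Q₂] [Finite Q₁] [Finite Q₂] {A B : Type w} [CommGroup A] [CommGroup B] (hA : Cfsg.HasSchurMultiplier Q₁ A) (hB : Cfsg.HasSchurMultiplier Q₂ B) (hcop : Nat.Coprime (Nat.card (Abelianization Q₁)) (Nat.card (Abelianization Q₂))) : Cfsg.HasSchurMultiplier (Q₁ × Q₂) (A × B) := by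
  have h : ∀ t : Schur.AbTensor Q₁ Q₂, t ∈ (⊥ : Subgroup _) := Schur.abTensor_induction (by
    intro a b
    have h1 : Schur.abTmul Q₁ Q₂ a b ^ Nat.card (Abelianization Q₁) = 1 := by
      have := pow_card_eq_one' (x := Abelianization.of a)
      rw [← MonoidHom.pow_apply, ← map_pow]
      rw [← map_pow] at this
      simp only [Schur.abTmul, MonoidHom.coe_mk, OneHom.coe_mk, this]
      simp
    have h2 : Schur.abTmul Q₁ Q₂ a b ^ Nat.card (Abelianization Q₂) = 1 := by
      have := pow_card_eq_one' (x := Abelianization.of b)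
      rw [← map_pow]
      rw [← map_pow] at this
      simp only [Schur.abTmul, MonoidHom.coe_mk, OneHom.coe_mk, this]
      simp
    have := pow_gcd_eq_one.mpr ⟨h1, h2⟩
    rwa [hcop, pow_one] at this)
  have : Unique (Schur.AbTensor Q₁ Q₂) := ⟨⟨1⟩, fun t => h t⟩
  exact Schur.mult_congr (Schur.hasSchurMultiplier_prod hA hB) (MulEquiv.refl _)
    (MulEquiv.prodCongr (MulEquiv.refl A) MulEquiv.prodUnique)

end Cfsg.Agent.S3980
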