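import Cfsg.Statements.S3994
import Mathlib
import Cfsg.Agent.Lib.Reg.FrobCount

set_option autoImplicit false
open Cfsg

namespace Cfsg.Agent.S3994

/-- Let G be a finite group and n a positive integer. The number of elements of G whose order is divisible by n is either 0 or divisible by the largest divisor of the order of G that is coprime to n. -/
theorem result {G : Type*} [Group G] [Finite G] (n : ℕ) (hn : 0 < n) :
    Nat.card {g : G // n ∣ orderOf g} = 0 ∨
      (Nat.card G / Nat.gcd (Nat.card G) (n ^ Nat.card G)) ∣ Nat.card {g : G // n ∣ orderOf g} := by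
  right
  set g := Nat.card G with hg
  have hg0 : g ≠ 0 := Nat.card_pos.ne'
  set r := g / Nat.gcd g (n ^ g) with hr
  have hrg : r ∣ g := Nat.div_dvd_of_dvd (Nat.gcd_dvd_left _ _)
  have hcop : n.Coprime r := by
    refine Nat.coprime_of_dvd' fun q hq hqn hqr => ?_
    exfalso
    have h1 : q * Nat.gcd g (n ^ g) ∣ g :=
      (Nat.dvd_div_iff_mul_dvd (Nat.gcd_dvd_left _ _)).1 hqr |> (mul_comm q _ ▸ ·)
    have h2 : q ^ g.factorization q ∣ Nat.gcd g (n ^ g) :=
      Nat.dvd_gcd (Nat.ordProj_dvd g q) ((pow_dvd_pow q (Nat.factorization_lt q hg0).le).trans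
        (pow_dvd_pow_of_dvd hqn g))
    exact Nat.pow_succ_factorization_not_dvd hg0 hq
      (pow_succ' q _ ▸ (Nat.mul_dvd_mul_left q h2).trans h1)
  have := Reg.gcd_dvd_card_pow_mem (G := G) r (Y := fun y => n ∣ orderOf y) fun h y hy => by
    rwa [show h * y * h⁻¹ = MulAut.conj h y from rfl, MulEquiv.orderOf_eq]
  rw [Nat.gcd_eq_left hrg] at this
  refine this.trans (Nat.card_congr (Equiv.subtypeEquivRight fun x => ?_)).dvd
  refine ⟨fun h => h.trans (orderOf_pow_dvd r), fun h => ?_⟩
  refine hcop.dvd_of_dvd_mul_right (h.trans ?_)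
  rw [orderOf_dvd_iff_pow_eq_one, mul_comm, pow_mul, pow_orderOf_eq_one]

end Cfsg.Agent.S3994
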