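import Cfsg.Statements.S3995
import Cfsg.Agent.Lib.PGrp.SameOrder2
import Cfsg.Agent.Lib.PGrp.RankOne

set_option autoImplicit false
open Cfsg

namespace Cfsg.Agent.S3995

open Subgroup PGrp

theorem isPGroup_of_forall {G : Type*} [Group G] [Finite G] {p : ℕ} (hp : p.Prime)
    (h : ∀ r : ℕ, r.Prime → r ∣ Nat.card G → r = p) : IsPGroup p G := by
  haveI := Fact.mk hp
  exact IsPGroup.iff_card.mpr ⟨_, Nat.eq_prime_pow_of_unique_prime_dvd Nat.card_pos.ne'
    fun {r} hr hd => h r hr hd⟩

theorem exponent_eq {G : Type*} [Group G] [Finite G] {p : ℕ} (hp : p.Prime) {P : Subgroup G}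
    (hP : IsPGroup p P) (h1 : P ≠ ⊥) (h2 : sN G (p ^ 2) = 0) : Monoid.exponent P = p := by
  haveI := Fact.mk hp
  haveI := (Subgroup.nontrivial_iff_ne_bot P).mpr h1
  rw [Monoid.exponent_eq_prime_iff hp]
  intro g hg
  obtain ⟨k, hk⟩ := IsPGroup.iff_orderOf.mp hP g
  rcases k with _ | _ | k
  · exact absurd (orderOf_eq_one_iff.mp (by simpa using hk)) hg
  · simpa using hk
  · exfalso
    refine sN_eq_zero_iff.mp (sN_eq_zero_of_dvd (pow_dvd_pow p (by omega : 2 ≤ k + 1 + 1)) h2) g ?_
    rw [Subgroup.orderOf_coe, hk]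

theorem exponent_eq' {G : Type*} [Group G] [Finite G] [Nontrivial G] {p : ℕ} (hp : p.Prime)
    (hP : IsPGroup p G) (h2 : sN G (p ^ 2) = 0) : Monoid.exponent G = p := by
  rw [← Subgroup.exponent_top]
  exact exponent_eq hp (hP.to_subgroup ⊤) top_ne_bot h2

/-- Let G be a finite group such that the numbers of elements of each order that occurs in G (the numbers #{g : o(g) = m}, m ranging over the element orders of G) take exactly two values, 1 and some n ≠ 1. Then either G is a p-group of exponent p and order at least 3 for some prime p, or G is the quaternion group of order 8, or G is cyclic of order 4, or G ≅ Z₂ × P for a p-group P of exponent p with p an odd prime. -/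
theorem result {G : Type*} [Group G] [Finite G] (n : ℕ) (hn : n ≠ 1) (h : ((fun m : ℕ => Nat.card {g : G // orderOf g = m}) '' Set.range (orderOf : G → ℕ)) = {1, n}) :
    (∃ p : ℕ, p.Prime ∧ IsPGroup p G ∧ 3 ≤ Nat.card G ∧ Monoid.exponent G = p) ∨
      Nonempty (G ≃* QuaternionGroup 2) ∨ (IsCyclic G ∧ Nat.card G = 4) ∨
      (∃ (p : ℕ) (P : Type) (_ : Group P) (_ : Finite P), p.Prime ∧ p ≠ 2 ∧ IsPGroup p P ∧ Monoid.exponent P = p ∧
        Nonempty (G ≃* Multiplicative (ZMod 2) × P)) := by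
  have hv : ∀ m, sN G m = 0 ∨ sN G m = 1 ∨ sN G m = n ∨ sN G m = n := fun m => by
    by_cases h0 : sN G m = 0
    · exact Or.inl h0
    · have := mem_image_sN h0
      rw [h] at this
      rcases this with e | e
      · exact Or.inr (Or.inl e)
      · exact Or.inr (Or.inr (Or.inl e))
  have hT := twoVal_of_vals hv
  obtain ⟨m0, hm0, hm0n⟩ : ∃ m, sN G m ≠ 0 ∧ sN G m = n := by
    have : n ∈ ((fun m : ℕ => Nat.card {g : G // orderOf g = m}) ''
        Set.range (orderOf : G → ℕ)) := by rw [h]; simp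
    obtain ⟨m, hm, e⟩ := this
    exact ⟨m, sN_ne_zero_iff.mpr hm, e⟩
  have hn0 : n ≠ 0 := hm0n ▸ hm0
  have hm01 : m0 ≠ 1 := by
    rintro rfl
    exact hn (hm0n.symm.trans sN_one)
  have hcard : 1 + n ≤ Nat.card G := by
    have := sum_sN_le (G := G) {1, m0}
    rwa [Finset.sum_pair hm01.symm, sN_one, hm0n] at this
  have h3 : 3 ≤ Nat.card G := by omega
  haveI : Nontrivial G := Finite.one_lt_card_iff_nontrivial.mp (by omega)
  have huniq : ∀ p q : ℕ, p.Prime → q.Prime → p ≠ 2 → q ≠ 2 → p ∣ Nat.card G → q ∣ Nat.card G →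
      p = q := fun p q h1 h2 h3 h4 h5 h6 => by
    by_contra h7
    exact hT.not_self h1 h2 h3 h4 h7 h5 h6
  have hsq : ∀ p : ℕ, p.Prime → p ≠ 2 → p ∣ Nat.card G → sN G p = n ∧ sN G (p ^ 2) = 0 := by
    intro p hp hp2 hpd
    have e := (hT.prime hp hp2 hpd).elim id id
    refine ⟨e, ?_⟩
    have h5 := dvd_sN_of_sq_dvd (G := G) hp dvd_rfl
    have h6 := not_dvd_sN hp hpd
    rcases hT (p ^ 2) (le_trans (three_le_of_prime hp hp2) (Nat.le_self_pow two_ne_zero p))
      with e' | e' | e'
    · exact e'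
    · exact absurd (e ▸ e' ▸ h5) h6
    · exact absurd (e ▸ e' ▸ h5) h6
  haveI : Fact (Nat.Prime 2) := ⟨Nat.prime_two⟩
  by_cases h2 : 2 ∣ Nat.card G
  swap
  · obtain ⟨p, hp, hpd⟩ := Nat.exists_prime_and_dvd (n := Nat.card G) (by omega)
    have hp2 : p ≠ 2 := by rintro rfl; exact h2 hpd
    have hP : IsPGroup p G := isPGroup_of_forall hp fun r hr hrd =>
      huniq r p hr hp (by rintro rfl; exact h2 hrd) hp2 hrd hpd
    exact Or.inl ⟨p, hp, hP, h3, exponent_eq' hp hP (hsq p hp hp2 hpd).2⟩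
  have ho := odd_sN_two h2
  by_cases h21 : sN G 2 = 1
  swap
  · have e : sN G 2 = n := by
      rcases hv 2 with e | e | e | e
      · rw [e] at ho; exact absurd ho (by decide)
      · exact absurd e h21
      · exact e
      · exact e
    have hz : ∀ m, 3 ≤ m → sN G m = 0 := fun m hm => by
      have h1 := even_sN (G := G) hm
      rcases hT m hm with e' | e' | e'
      · exact e'
      · exact absurd (e ▸ e' ▸ h1) (Nat.not_even_iff_odd.mpr ho)
      · exact absurd (e ▸ e' ▸ h1) (Nat.not_even_iff_odd.mpr ho)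
    have hP : IsPGroup 2 G := isPGroup_of_forall Nat.prime_two fun r hr hrd => by
      by_contra hr2
      exact sN_prime_ne_zero hr hrd (hz r (three_le_of_prime hr hr2))
    exact Or.inl ⟨2, Nat.prime_two, hP, h3, exponent_eq' Nat.prime_two hP (hz _ (by norm_num))⟩
  obtain ⟨z, hz, hzc, hzu⟩ := exists_central_involution h21
  by_cases h4 : 4 ∣ Nat.card G
  · have h5 := four_dvd_sN h4
    rw [h21] at h5
    have hs4 : sN G 4 = n := ((hT 4 (by norm_num)).resolve_left (by omega)).elim id id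
    have hP : IsPGroup 2 G := isPGroup_of_forall Nat.prime_two fun r hr hrd => by
      by_contra hr2
      have e := (hsq r hr hr2 hrd).1
      have := two_mul_le_sN hr (G := G) (m := 4) (hs4 ▸ e ▸ not_dvd_sN hr hrd)
        (fun e => prime_not_dvd_two hr hr2 (hr.dvd_of_dvd_pow (n := 2) e)) (by norm_num)
      rcases hT (4 * r) (by have := hr.pos; omega) with e' | e' | e' <;> omega
    have hs8 : sN G 8 = 0 := by
      have := totient_dvd_sN (G := G) 8
      rw [show Nat.totient 8 = 4 by decide] at this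
      rcases hT 8 (by norm_num) with e' | e' | e' <;> omega
    have hr : PRankLE 2 1 G := rank_le_one_of_unique fun x y hx hy => by
      rw [hzu x hx, hzu y hy]; exact mem_zpowers z
    rcases isCyclic_or_quaternion_of_rank_le_one hP hr with hc | ⟨-, k, hk, ⟨e⟩⟩
    · refine Or.inr (Or.inr (Or.inl ⟨hc, ?_⟩))
      obtain ⟨g, hg⟩ := IsCyclic.exists_ofOrder_eq_natCard (α := G)
      obtain ⟨k, hk⟩ := IsPGroup.iff_card.mp hP
      have h8 : ¬ 8 ∣ Nat.card G := fun h8 =>
        sN_eq_zero_iff.mp (sN_eq_zero_of_dvd h8 hs8) g hg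
      rw [hk] at h8 h4 ⊢
      rcases k with _ | _ | _ | k
      · simp at h4
      · simp at h4
      · rfl
      · exact absurd (pow_dvd_pow 2 (by omega : 3 ≤ k + 1 + 1 + 1)) h8
    · refine Or.inr (Or.inl ?_)
      obtain rfl : k = 1 := by
        by_contra hk1
        have h8 : 8 ∣ 2 * 2 ^ k := by
          rw [← pow_succ']
          exact pow_dvd_pow 2 (by omega : 3 ≤ k + 1)
        refine sN_eq_zero_iff.mp (sN_eq_zero_of_dvd h8 hs8) (e.symm (QuaternionGroup.a 1)) ?_
        rw [MulEquiv.orderOf_eq, QuaternionGroup.orderOf_a_one]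
      exact ⟨e⟩
  · obtain ⟨d, hd⟩ := h2
    have hd2 : ¬ 2 ∣ d := fun e => h4 (hd ▸ Nat.mul_dvd_mul_left 2 e)
    obtain ⟨p, hp, hpd⟩ := Nat.exists_prime_and_dvd (n := d) (by omega)
    have hp2 : p ≠ 2 := by rintro rfl; exact hd2 hpd
    have hpG : p ∣ Nat.card G := hd ▸ hpd.mul_left 2
    haveI := Fact.mk hp
    obtain ⟨k, hk⟩ : ∃ k, d = p ^ k := ⟨_, Nat.eq_prime_pow_of_unique_prime_dvd (by omega)
      fun {r} hr hrd => huniq r p hr hp (by rintro rfl; exact hd2 hrd) hp2 (hd ▸ hrd.mul_left 2) hpG⟩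
    obtain ⟨P, hP⟩ := Sylow.exists_subgroup_card_pow_prime (G := G) p (n := k)
      (by rw [hd, hk]; exact dvd_mul_left _ _)
    have hPp : IsPGroup p P := IsPGroup.of_card hP
    have hPi : P.index = 2 := by
      have := P.card_mul_index
      rw [hP, hd, hk, mul_comm] at this
      exact Nat.eq_of_mul_eq_mul_right (pow_pos hp.pos k) this
    haveI : P.Normal := Subgroup.normal_of_index_eq_two hPi
    have hP1 : P ≠ ⊥ := by
      rintro rfl
      rw [Subgroup.index_bot] at hPi
      omega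
    have hZ : Nat.card (zpowers z) = 2 := by rw [Nat.card_zpowers, hz]
    have hdisj : Disjoint (zpowers z) P := by
      refine disjoint_iff.mpr (Core.inf_eq_bot_of_coprime_card ?_)
      rw [hZ, hP, ← hk]
      exact (Nat.Prime.coprime_iff_not_dvd Nat.prime_two).mpr hd2
    have hcomp : (zpowers z).IsComplement' P :=
      Subgroup.isComplement'_of_card_mul_and_disjoint (by rw [hZ, hP, hd, hk]) hdisj
    have hcomm : ∀ (a : zpowers z) (b : P), Commute ((zpowers z).subtype a) (P.subtype b) :=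
      fun a b => (Subgroup.mem_center_iff.mp (zpowers_le.mpr hzc a.2) b).symm
    let f : zpowers z × P →* G := MonoidHom.noncommCoprod _ _ hcomm
    have hf : Function.Bijective f := hcomp
    have e1 : zpowers z ≃* Multiplicative (ZMod 2) :=
      mulEquivOfPrimeCardEq hZ (by simp)
    let e2 : Shrink.{0} P ≃* P := Shrink.mulEquiv
    refine Or.inr (Or.inr (Or.inr ⟨p, Shrink.{0} P, inferInstance,
      Finite.of_equiv _ e2.symm.toEquiv, hp, hp2, hPp.of_equiv e2.symm, ?_,
      ⟨(MulEquiv.ofBijective f hf).symm.trans (e1.prodCongr e2.symm)⟩⟩))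
    rw [Monoid.exponent_eq_of_mulEquiv e2]
    exact exponent_eq hp hPp hP1 (hsq p hp hp2 hpG).2

end Cfsg.Agent.S3995
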