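import Cfsg.Statements.S3997
import Cfsg.Agent.Lib.Cls.Supersolvable

set_option autoImplicit false
open Cfsg

namespace Cfsg.Agent.S3997

/-- Let G and H be finite groups with the same order type: for every m they have the same number of elements of order m. If G is nilpotent then so is H. -/
theorem result {G H : Type*} [Group G] [Finite G] [Group H] [Finite H] (hT : (∀ m : ℕ, Nat.card {g : G // orderOf g = m} = Nat.card {h : H // orderOf h = m})) (hG : Group.IsNilpotent G) :
    Group.IsNilpotent H := by
  have hcard := Cls.card_eq_of_orderType hT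
  rw [Core.isNilpotent_iff_sylow_normal] at hG ⊢
  intro p hp P
  obtain ⟨Q⟩ : Nonempty (Sylow p G) := inferInstance
  have := hG p hp Q
  have h0 : ∀ {K : Type _} [Group K] [Finite K] (R : Sylow p K), ∀ q, q.Prime →
      q ∣ Nat.card (R : Subgroup K) → q ∈ ({p} : Set ℕ) := by
    intro K _ _ R q hq hd
    rw [R.card_eq_multiplicity] at hd
    exact (Nat.prime_dvd_prime_iff_eq hq hp.out).1 (hq.dvd_of_dvd_pow hd)
  refine Cls.normal_of_card_pi_elements_le (π := {p}) (fun q hq hd => ?_) (le_of_eq ?_)
  · rw [P.card_eq_multiplicity] at hd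
    exact (Nat.prime_dvd_prime_iff_eq hq hp.out).1 (hq.dvd_of_dvd_pow hd)
  have h3 := Cls.card_pi_elements_of_normal_hall (π := {p}) (h0 Q)
    (fun q hq hd h => Q.not_dvd_index (h ▸ hd))
  rw [← Cls.card_orderOf_mem_eq hT (fun n => ∀ q, q.Prime → q ∣ n → q ∈ ({p} : Set ℕ)), h3,
    P.card_eq_multiplicity, Q.card_eq_multiplicity, hcard]

end Cfsg.Agent.S3997
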