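import Cfsg.Statements.S3998
import Cfsg.Agent.Lib.Cls.Supersolvable

set_option autoImplicit false
open Cfsg

namespace Cfsg.Agent.S3998

/-- Let G and H be finite groups with the same order type (for every m the same number of elements of order m). If G is supersolvable then H is solvable. -/
theorem result {G H : Type*} [Group G] [Finite G] [Group H] [Finite H] (hT : (∀ m : ℕ, Nat.card {g : G // orderOf g = m} = Nat.card {h : H // orderOf h = m})) (hG : Cfsg.IsSupersolvable G) :
    Group.IsSolvable H := by
  have hcard := Cls.card_eq_of_orderType hT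
  -- a Hall subgroup for the primes `≥ t` is normal
  have hnorm : ∀ (t : ℕ) (M : Subgroup H), (∀ q, q.Prime → q ∣ Nat.card M → t ≤ q) →
      (∀ q, q.Prime → q ∣ M.index → q < t) → M.Normal := by
    intro t M h1 h2
    obtain ⟨K, hK, hK1, hK2⟩ := Cls.exists_normal_hall_ge_of_isSupersolvable hG t
    refine Cls.normal_of_card_pi_elements_le (π := {q | t ≤ q}) h1 (le_of_eq ?_)
    have h3 := Cls.card_pi_elements_of_normal_hall (π := {q | t ≤ q}) hK1
      (fun q hq hd => by simpa using hK2 q hq hd)
    rw [← Cls.card_orderOf_mem_eq hT (fun n => ∀ q, q.Prime → q ∣ n → q ∈ {q | t ≤ q}), h3]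
    refine Cls.pi_part_unique (π := {q | t ≤ q}) (b := K.index) (d := M.index) ?_ hK1
      (fun q hq hd => by simpa using hK2 q hq hd) h1 (fun q hq hd => by simpa using h2 q hq hd)
    rw [K.card_mul_index, M.card_mul_index, hcard]
  have key : ∀ t ≤ Nat.card H + 1, ∃ M : Subgroup H, Group.IsSolvable M ∧
      (∀ q, q.Prime → q ∣ Nat.card M → t ≤ q) ∧ (∀ q, q.Prime → q ∣ M.index → q < t) := by
    intro t ht
    induction ht using Nat.decreasingInduction with
    | self =>
      refine ⟨⊥, inferInstance, fun q hq hd => ?_, fun q hq hd => ?_⟩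
      · rw [Subgroup.card_bot] at hd; exact absurd hd hq.not_dvd_one
      · rw [Subgroup.index_bot] at hd
        exact Nat.lt_succ_of_le (Nat.le_of_dvd Nat.card_pos hd)
    | of_succ t _ ih =>
      obtain ⟨M, hM, h1, h2⟩ := ih
      have := hnorm _ M h1 h2
      by_cases hp : t.Prime
      · have : Fact t.Prime := ⟨hp⟩
        obtain ⟨P⟩ : Nonempty (Sylow t H) := inferInstance
        have hPs : Group.IsSolvable (P : Subgroup H) := by
          have := P.2.isNilpotent; infer_instance
        refine ⟨(P : Subgroup H) ⊔ M, Core.isSolvable_sup_of_le_normalizer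
          Subgroup.le_normalizer_of_normal hPs hM, fun q hq hd => ?_, fun q hq hd => ?_⟩
        · rcases hq.dvd_mul.1 (hd.trans (Core.card_sup_dvd _ _)) with h | h
          · obtain ⟨k, hk⟩ := P.2.exists_card_eq
            rw [hk] at h
            exact ((Nat.prime_dvd_prime_iff_eq hq hp).1 (hq.dvd_of_dvd_pow h)).ge
          · exact Nat.le_of_succ_le (h1 q hq h)
        · have h3 := h2 q hq (hd.trans (Subgroup.index_dvd_of_le le_sup_right))
          have h4 : q ≠ t := by
            rintro rfl
            exact Cls.not_dvd_index_of_sylow_le le_sup_left hd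
          omega
      · refine ⟨M, hM, fun q hq hd => Nat.le_of_succ_le (h1 q hq hd), fun q hq hd => ?_⟩
        have h3 := h2 q hq hd
        have h4 : q ≠ t := by rintro rfl; exact hp hq
        omega
  obtain ⟨M, hM, -, h2⟩ := key 0 (Nat.zero_le _)
  have : M = ⊤ := Core.eq_top_of_forall_prime_not_dvd_index fun q hq hd => absurd (h2 q hq hd) (by omega)
  rw [this] at hM
  exact Core.isSolvable_top_iff.1 hM

end Cfsg.Agent.S3998
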