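import Cfsg.Statements.S3999
import Cfsg.Agent.Lib.Frob.SolvCompl
import Cfsg.Agent.Lib.Cls.Supersolvable
import Cfsg.Agent.Lib.Transfer.Fpf

set_option autoImplicit false
open Cfsg

namespace Cfsg.Agent.S3999

open Subgroup Cfsg.Agent.Frob

theorem unique_iff {G : Type*} [Group G] [Finite G] {p : ℕ} (hp : p.Prime) :
    (∀ x y : G, orderOf x = p → orderOf y = p → y ∈ zpowers x) ↔
      Nat.card {g : G // orderOf g = p} ≤ p - 1 := by
  have key : ∀ x : G, orderOf x = p → ((zpowers x : Set G) \ {1}).ncard = p - 1 := fun x hx => by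
    rw [Set.ncard_sdiff_singleton_of_mem (zpowers x).one_mem, ← hx, ← Nat.card_zpowers]
    rfl
  have hsub : ∀ x : G, orderOf x = p → (zpowers x : Set G) \ {1} ⊆ {g | orderOf g = p} :=
    fun x hx y hy => by
      have := zpowers_eq_of_prime_orderOf (hx ▸ hp) hy.1 hy.2
      change orderOf y = p
      rw [← Nat.card_zpowers, this, Nat.card_zpowers, hx]
  change _ ↔ {g : G | orderOf g = p}.ncard ≤ p - 1
  constructor
  · intro h
    rcases Set.eq_empty_or_nonempty {g : G | orderOf g = p} with h0 | ⟨x, hx⟩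
    · simp [h0]
    · rw [← key x hx]
      refine Set.ncard_le_ncard fun y hy => ⟨h x y hx hy, ?_⟩
      rintro rfl
      exact hp.one_lt.ne (by simpa using hy)
  · intro h x y hx hy
    have := Set.eq_of_subset_of_ncard_le (hsub x hx) (h.trans (key x hx).ge)
    exact (this.ge hy).1

theorem card_orderOf {G : Type*} [Group G] [Finite G] {K H : Subgroup G} (hF : IsFrobPair K H)
    (h : K ⊔ H = ⊤) {p : ℕ} (hp : p.Prime) (hd : ¬ p ∣ Nat.card K) :
    Nat.card {g : G // orderOf g = p} = Nat.card K * Nat.card {g : H // orderOf g = p} := by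
  rw [← Nat.card_prod]
  symm
  refine Nat.card_congr (Equiv.ofBijective (fun z => ⟨z.1 * z.2.1 * (z.1 : G)⁻¹, by
    refine Eq.trans ?_ z.2.2
    rw [← Subgroup.orderOf_coe]; exact (MulAut.conj (z.1 : G)).orderOf_eq _⟩) ⟨?_, ?_⟩)
  · rintro ⟨⟨k, hk⟩, ⟨⟨a, ha⟩, ha'⟩⟩ ⟨⟨l, hl⟩, ⟨⟨b, hb⟩, hb'⟩⟩ e
    have e' : k * a * k⁻¹ = l * b * l⁻¹ := congrArg Subtype.val e
    have a1 : a ≠ 1 := by
      rintro rfl
      exact hp.one_lt.ne (by rw [← ha', ← Subgroup.orderOf_coe]; simp)
    have h1 : k⁻¹ * l ∈ H := hF.mem_right_of_conj_mem (h ▸ mem_top _) ha a1 (by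
      have : (k⁻¹ * l)⁻¹ * a * (k⁻¹ * l) = b := by
        calc (k⁻¹ * l)⁻¹ * a * (k⁻¹ * l) = l⁻¹ * (k * a * k⁻¹) * l := by group
          _ = b := by rw [e']; group
      rw [this]; exact hb)
    have h2 := hF.eq_one_of_mem (K.mul_mem (K.inv_mem hk) hl) h1
    obtain rfl : k = l := inv_mul_eq_one.1 h2
    obtain rfl : a = b := by simpa using e'
    rfl
  · rintro ⟨g, hg⟩
    have hgK : g ∉ K := fun hgK => hd (hg ▸ K.orderOf_dvd_natCard hgK)
    obtain ⟨y, hy, hyg⟩ := hF.exists_conj_mem (h ▸ mem_top g) hgK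
    refine ⟨⟨⟨y, hy⟩, ⟨⟨_, hyg⟩, ?_⟩⟩, Subtype.ext (by simp [mul_assoc])⟩
    rw [← Subgroup.orderOf_coe, ← hg]
    simpa using (MulAut.conj y⁻¹).orderOf_eq g

theorem isSolvable_iff {G : Type*} [Group G] [Finite G] {K H : Subgroup G} (hF : IsFrobPair K H)
    (h : K ⊔ H = ⊤) : Group.IsSolvable G ↔ ∀ p : ℕ, p.Prime → 5 ≤ p → ¬ p ∣ Nat.card K →
      Nat.card {g : G // orderOf g = p} ≤ Nat.card K * (p - 1) := by
  have h1 : Group.IsSolvable G ↔ Group.IsSolvable H := by
    refine ⟨fun _ => inferInstance, fun hH => ?_⟩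
    have := Transfer.isNilpotent_of_isFrobPair hF
    rw [← Core.isSolvable_top_iff, ← h, sup_comm]
    exact Core.isSolvable_sup_of_le_normalizer hF.le_normalizer hH inferInstance
  rw [h1, hF.isFC.isSolvable_iff]
  refine forall_congr' fun p => forall_congr' fun hp => forall_congr' fun h5 => ?_
  by_cases hd : p ∣ Nat.card K
  · simp only [hd, not_true_eq_false, false_implies, iff_true]
    intro x _ hx
    exact absurd (Nat.eq_one_of_dvd_coprimes hF.coprime hd (hx ▸ orderOf_dvd_natCard x)) hp.one_lt.ne'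
  · simp only [hd, not_false_eq_true, true_implies]
    rw [unique_iff hp, card_orderOf hF h hp hd, Nat.mul_le_mul_left_iff Nat.card_pos]

theorem mem_of_dvd_card_sylow {X : Type*} [Group X] [Finite X] {p : ℕ} [hp : Fact p.Prime]
    (S : Sylow p X) (q : ℕ) (hq : q.Prime) (h : q ∣ Nat.card S) : q ∈ ({p} : Set ℕ) := by
  obtain ⟨k, hk⟩ := S.2.exists_card_eq
  exact (Nat.prime_dvd_prime_iff_eq hq hp.out).1 (hq.dvd_of_dvd_pow (hk ▸ h))


/-- Let F be a finite Frobenius group (it has a Frobenius complement) and G a finite group with the same order type as F (for every m the same number of elements of order m). Then G is a Frobenius group; moreover G is solvable if and only if F is. -/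
theorem result {F G : Type*} [Group F] [Finite F] [Group G] [Finite G] (hF : (∃ C : Subgroup F, Cfsg.IsFrobeniusComplement C)) (hT : (∀ m : ℕ, Nat.card {g : F // orderOf g = m} = Nat.card {h : G // orderOf h = m})) :
    (∃ C : Subgroup G, Cfsg.IsFrobeniusComplement C) ∧ (Group.IsSolvable G ↔ Group.IsSolvable F) := by
  obtain ⟨H, hH⟩ := hF
  obtain ⟨K, hKn, -, hKH, hsup⟩ := exists_isFrobPair hH
  have hnil := Transfer.isNilpotent_of_isFrobPair hKH
  have hcard := Cls.card_eq_of_orderType hT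
  have hcop := hKH.coprime
  have hKi := hKH.index_left hsup
  have hFc : Nat.card K * Nat.card H = Nat.card F := by rw [← hKi, K.card_mul_index]
  have hnd : ∀ p : ℕ, p.Prime → p ∣ Nat.card K → ¬ p ∣ Nat.card H := fun p hp h1 h2 =>
    hp.one_lt.ne' (Nat.eq_one_of_dvd_coprimes hcop h1 h2)
  set π : Set ℕ := {q | q ∣ Nat.card K}
  set N := Cfsg.piCore π G
  have hNi : ∀ p, p.Prime → p ∣ N.index → p ∉ π := fun p hp h1 h2 => by
    have := Fact.mk hp
    obtain ⟨P⟩ : Nonempty (Sylow p F) := inferInstance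
    obtain ⟨Q⟩ : Nonempty (Sylow p G) := inferInstance
    have hPK : (P : Subgroup F) ≤ K := fun x hx =>
      Cls.mem_of_pi_of_normal (π := π) (fun q hq h3 h4 => hnd q hq h4 (hKi ▸ h3)) fun q hq h3 => by
        obtain ⟨k, hk⟩ := P.2.exists_card_eq
        have h4 := h3.trans (hk ▸ (P : Subgroup F).orderOf_dvd_natCard hx)
        rw [(Nat.prime_dvd_prime_iff_eq hq hp).1 (hq.dvd_of_dvd_pow h4)]
        exact h2
    have hPn : (P : Subgroup F).Normal := by
      have h3 := Core.le_pCore_of_le_nilpotent_normal hnil P.2 hPK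
      rw [le_antisymm h3 (Core.pCore_le_sylow P)]
      infer_instance
    have h3 := Cls.card_pi_elements_of_normal_hall (π := {p}) (mem_of_dvd_card_sylow P)
      (fun q _ h3 h4 => P.not_dvd_index (by rwa [show q = p from h4] at h3))
    have h4 := Cls.card_orderOf_mem_eq hT (fun m => ∀ q, q.Prime → q ∣ m → q ∈ ({p} : Set ℕ))
    have hQn : (Q : Subgroup G).Normal :=
      Cls.normal_of_card_pi_elements_le (π := {p}) (mem_of_dvd_card_sylow Q) (by
        rw [← h4, h3, P.card_eq_multiplicity, Q.card_eq_multiplicity, hcard])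
    have h5 : (Q : Subgroup G) ≤ N := Core.le_piCore fun q hq h5 => by
      rw [show q = p from mem_of_dvd_card_sylow Q q hq h5]
      exact h2
    exact Q.not_dvd_index (h1.trans (index_dvd_of_le h5))
  have hNc := Core.mem_of_dvd_card_piCore (G := G) π
  have hNK : Nat.card N = Nat.card K :=
    Cls.pi_part_unique (π := π) (N.card_mul_index.trans (hcard.symm.trans hFc.symm)) hNc hNi
      (fun q _ h => h) fun q hq h1 h2 => hnd q hq h2 h1
  have hNH : N.index = Nat.card H := by
    have := N.card_mul_index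
    rw [← hcard, ← hFc, hNK] at this
    exact Nat.eq_of_mul_eq_mul_left Nat.card_pos this
  have hcent : ∀ x ∈ N, x ≠ 1 → centralizer ({x} : Set G) ≤ N := fun x hx x1 => by
    refine centralizer_le_of_noEdge (fun p q hp hq h1 h2 => ?_) hx x1
    rw [hNK] at h1
    rw [hNH] at h2
    have hpq : p ≠ q := by rintro rfl; exact hnd p hp h1 h2
    refine ⟨hpq, fun ⟨g, hg⟩ => ?_⟩
    have h3 : Nat.card {g : F // orderOf g = p * q} ≠ 0 := by
      rw [hT]
      have : Nonempty {g : G // orderOf g = p * q} := ⟨⟨g, hg⟩⟩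
      exact Nat.card_pos.ne'
    obtain ⟨⟨f, hf⟩⟩ := (Nat.card_ne_zero.1 h3).1
    have h4 : orderOf (f ^ q) = p := by
      rw [orderOf_pow' _ hq.ne_zero, hf, Nat.gcd_mul_left_left, Nat.mul_div_cancel _ hq.pos]
    have h5 : orderOf (f ^ p) = q := by
      rw [orderOf_pow' _ hp.ne_zero, hf, Nat.gcd_mul_right_left, Nat.mul_div_cancel_left _ hp.pos]
    have h6 : f ^ q ∈ K :=
      Cls.mem_of_pi_of_normal (π := π) (fun q hq h3 h4 => hnd q hq h4 (hKi ▸ h3)) fun r hr h3 => by
        rw [h4] at h3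
        exact h3.trans h1
    have h7 : f ^ p ∈ K := hKH.mem_left_of_commute (hsup ▸ mem_top _) h6
      (fun h => hp.one_lt.ne' (by rw [← h4, h, orderOf_one])) ((Commute.refl f).pow_pow p q).eq
    exact hnd q hq (h5 ▸ K.orderOf_dvd_natCard h7) h2
  obtain ⟨L, hNL, hsup'⟩ := exists_isFrobPair_of_centralizer_le (N := N)
    (fun h => hKH.left_ne_bot (eq_bot_of_card_eq _ (by rw [← hNK, h, card_bot])))
    (fun h => hKH.right_ne_bot (eq_bot_of_card_eq _ (by rw [← hNH, h, index_top]))) hcent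
  refine ⟨⟨L, hNL.isFrobeniusComplement hsup'⟩, ?_⟩
  rw [isSolvable_iff hNL hsup', isSolvable_iff hKH hsup, hNK]
  simp only [hT]

end Cfsg.Agent.S3999
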