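import Cfsg.Statements.S4001
import Cfsg.Agent.Lib.Frob.TwoFrob
import Cfsg.Agent.Lib.Cls.Solv

set_option autoImplicit false
open Cfsg

namespace Cfsg.Agent.S4001

/-- Let G be a 2-Frobenius group: it has normal subgroups H < K with K a Frobenius group with kernel H and G/H a Frobenius group with kernel K/H. Then G is solvable; K/H has odd order coprime to the order of H and to the order of G/K (it is the image of an odd-order Hall subgroup); G/K is cyclic; and the prime graph of G has exactly two connected components, both complete: for distinct primes p, q dividing the order of G, G has an element of order pq exactly when p and q either both divide the order of K/H or both do not. -/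
theorem result {G : Type*} [Group G] [Finite G] (H K : Subgroup G) [H.Normal] [K.Normal] (hlt : H < K)
    (hK : ∃ C : Subgroup ↥K, Cfsg.IsFrobeniusComplement C ∧ Cfsg.frobeniusKernel C = (H.subgroupOf K : Set ↥K))
    (hGH : ∃ C : Subgroup (G ⧸ H), Cfsg.IsFrobeniusComplement C ∧ Cfsg.frobeniusKernel C = (K.map (QuotientGroup.mk' H) : Set (G ⧸ H))) :
    Group.IsSolvable G ∧ Odd (Nat.card (↥K ⧸ H.subgroupOf K)) ∧
      Nat.Coprime (Nat.card (↥K ⧸ H.subgroupOf K)) (Nat.card ↥H * Nat.card (G ⧸ K)) ∧ IsCyclic (G ⧸ K) ∧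
      ∀ p q : ℕ, p.Prime → q.Prime → p ≠ q → p ∣ Nat.card G → q ∣ Nat.card G →
        ((∃ g : G, orderOf g = p * q) ↔ (p ∣ Nat.card (↥K ⧸ H.subgroupOf K) ↔ q ∣ Nat.card (↥K ⧸ H.subgroupOf K))) := by
  obtain ⟨C, hC1, hC2⟩ := hK
  obtain ⟨D, hD1, hD2⟩ := hGH
  obtain ⟨hC, hCt⟩ := Frob.isFrobPair_of_kernel_eq hC1 hC2
  obtain ⟨hD, hDt⟩ := Frob.isFrobPair_of_kernel_eq hD1 hD2
  set π := QuotientGroup.mk' H with hπ
  set B := K.map π with hB
  obtain ⟨e1⟩ := hC.nonempty_mulEquiv_quotient hCt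
  obtain ⟨e3⟩ := hD.nonempty_mulEquiv_quotient hDt
  have e4 : G ⧸ K ≃* D := (QuotientGroup.quotientQuotientEquivQuotient H K hlt.le).symm.trans e3
  have e2 : K ⧸ H.subgroupOf K ≃* B := by
    refine (QuotientGroup.quotientMulEquivOfEq ?_).trans
      (QuotientGroup.quotientKerEquivOfSurjective _ (π.subgroupMap_surjective K))
    ext x
    rw [MonoidHom.mem_ker, Subtype.ext_iff]
    exact (QuotientGroup.eq_one_iff (x : G)).symm
  have hBFC : Frob.IsFC B := hC.isFC.of_mulEquiv (e2.symm.trans e1)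
  obtain ⟨hodd, hcyc⟩ := hD.odd_and_isCyclic hBFC
  have hDc := hD.isCyclic_right hcyc
  have hGK : IsCyclic (G ⧸ K) := isCyclic_of_injective e4.toMonoidHom e4.injective
  have hHn : Group.IsNilpotent H :=
    have := Transfer.isNilpotent_of_isFrobPair hC
    Group.nilpotent_of_mulEquiv (Subgroup.subgroupOfEquivOfLe hlt.le)
  rw [Nat.card_congr e2.toEquiv]
  have hc1 : (Nat.card B).Coprime (Nat.card H) := by
    have := hC.coprime.symm
    rwa [Core.card_subgroupOf_of_le hlt.le, ← Nat.card_congr (e2.symm.trans e1).toEquiv] at this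
  have hc2 : (Nat.card B).Coprime (Nat.card (G ⧸ K)) := by
    rw [Nat.card_congr e4.toEquiv]; exact hD.coprime
  have hcard : Nat.card G = Nat.card H * Nat.card B * Nat.card (G ⧸ K) := by
    rw [hB, hπ, Core.card_map_mk_eq_relIndex, Core.card_mul_relIndex_of_le hlt.le,
      ← Subgroup.index_eq_card, K.card_mul_index]
  have hmemB : ∀ x, π x ∈ B ↔ x ∈ K := fun x => by
    rw [← Subgroup.mem_comap, hB, Subgroup.comap_map_eq_self (by
      rw [hπ, QuotientGroup.ker_mk']; exact hlt.le)]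
  have hKH : ∀ x ∈ K, ∀ n ∈ H, n ≠ 1 → x * n = n * x → x ∈ H := fun x hx n hn n1 hc =>
    hC.mem_left_of_commute (x := ⟨x, hx⟩) (k := ⟨n, hlt.le hn⟩) (hCt ▸ Subgroup.mem_top _) hn
      (fun e => n1 (congrArg Subtype.val e)) (Subtype.ext hc)
  -- no edges between the two components
  have hno : ∀ p q : ℕ, p.Prime → q.Prime → p ≠ q → p ∣ Nat.card B → ¬ q ∣ Nat.card B →
      ¬ ∃ g : G, orderOf g = p * q := by
    rintro p q hp hq hpq hpB hqB ⟨g, hg⟩
    obtain ⟨x, hxg, hx⟩ := Frob.exists_orderOf_eq_of_dvd (hg ▸ dvd_mul_right p q)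
    obtain ⟨y, hyg, hy⟩ := Frob.exists_orderOf_eq_of_dvd (hg ▸ dvd_mul_left q p)
    have hc : x * y = y * x := (Cls.commute_of_mem_zpowers hxg hyg).eq
    have hxK : x ∈ K := Subgroup.zpowers_le.1 (Core.le_of_coprime_card_index (by
      rw [Nat.card_zpowers, hx]; exact hc2.coprime_dvd_left hpB))
    have hxH : x ∉ H := fun h => hp.one_lt.ne' (Nat.eq_one_of_dvd_coprimes hc1 hpB
      (hx ▸ H.orderOf_dvd_natCard h))
    have hyK : y ∈ K := (hmemB y).1 (hD.mem_left_of_commute (k := π x) (hDt ▸ Subgroup.mem_top _)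
      ((hmemB x).2 hxK) (mt (QuotientGroup.eq_one_iff x).1 hxH)
      (by rw [← map_mul, ← map_mul, hc]))
    have hyH : y ∈ H := by
      rw [← QuotientGroup.eq_one_iff, ← orderOf_eq_one_iff]
      exact Nat.eq_one_of_dvd_coprimes (hq.coprime_iff_not_dvd.2 hqB) (hy ▸ orderOf_map_dvd π y)
        (B.orderOf_dvd_natCard ((hmemB y).2 hyK))
    exact hxH (hKH x hxK y hyH (by rintro rfl; exact hq.one_lt.ne (by simpa using hy)) hc)
  have hmix : ∀ p q : ℕ, p.Prime → q.Prime → p ∣ Nat.card H → ¬ q ∣ Nat.card H →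
      q ∣ Nat.card (G ⧸ K) → ∃ g : G, orderOf g = p * q := by
    intro p q hp hq hpH hqH hqD
    have hpq : p ≠ q := by rintro rfl; exact hqH hpH
    by_contra hcon
    have := Fact.mk hp
    have := Fact.mk hq
    rw [Nat.card_congr e4.toEquiv] at hqD
    obtain ⟨d, hdD, hd⟩ := Core.exists_mem_orderOf_eq_of_dvd_card hqD
    have hd1 : Subgroup.zpowers d ≠ ⊥ := by
      rw [Ne, Subgroup.zpowers_eq_bot]; rintro rfl; exact hq.one_lt.ne (by simpa using hd)
    have hF : Frob.IsFrobPair B (Subgroup.zpowers d) := hD.mono le_rfl (Subgroup.zpowers_le.2 hdD)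
      Subgroup.le_normalizer_of_normal hD.left_ne_bot hd1
    have hFC : Frob.IsFC ↥(B ⊔ Subgroup.zpowers d) := by
      refine Frob.isFC_quotient_of_lift hHn hpH fun a ha a1 => ?_
      obtain ⟨x, rfl⟩ := QuotientGroup.mk'_surjective H a
      refine ⟨x, rfl, fun n hn ⟨k, hk⟩ hc => ?_⟩
      by_contra n1
      by_cases hx : x ∈ K
      · exact a1 ((QuotientGroup.eq_one_iff x).2 (hKH x hx n hn n1 hc))
      obtain ⟨y, -, hy⟩ := hF.exists_conj_mem ha (mt (hmemB x).1 hx)
      have h1 : orderOf (π x) = q := by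
        have h2 : orderOf (y⁻¹ * π x * y) = orderOf (π x) := by
          simpa using (MulAut.conj y⁻¹).orderOf_eq (π x)
        have h3 := (Subgroup.zpowers d).orderOf_dvd_natCard hy
        rw [Nat.card_zpowers, hd] at h3
        rw [← h2]
        refine ((Nat.dvd_prime hq).1 h3).resolve_left fun e => a1 ?_
        rwa [h2, orderOf_eq_one_iff] at e
      refine hcon (Frob.exists_orderOf_eq_mul_of_commute hc.symm
        ((Nat.coprime_primes hp hq).2 hpq) ?_ (h1 ▸ orderOf_map_dvd π x))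
      rw [hk]
      refine dvd_pow_self p ?_
      rintro rfl
      exact n1 (orderOf_eq_one_iff.1 hk)
    exact hFC.not_isFrobPair (hF.subgroupOf le_sup_left le_sup_right)
  refine ⟨?_, Nat.not_even_iff_odd.1 (mt even_iff_two_dvd.1 hodd), Nat.Coprime.mul_right hc1 hc2,
    hGK, fun p q hp hq hpq hpG hqG => ⟨fun h => ?_, fun h => ?_⟩⟩
  · have h1 : Group.IsSolvable (G ⧸ H) := Cls.isSolvable_of_normal_of_quotient B
      (Cls.isSolvable_of_isMulCommutative inferInstance)
      (Cls.isSolvable_of_isMulCommutative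
        (have := isCyclic_of_injective e3.toMonoidHom e3.injective; inferInstance))
    exact Cls.isSolvable_of_normal_of_quotient H inferInstance h1
  · refine ⟨fun h1 => ?_, fun h1 => ?_⟩
    · by_contra h2; exact hno p q hp hq hpq h1 h2 h
    · by_contra h2; exact hno q p hq hp hpq.symm h1 h2 (mul_comm p q ▸ h)
  · have hcop := (Nat.coprime_primes hp hq).2 hpq
    by_cases hpB : p ∣ Nat.card B
    · obtain ⟨g, hg⟩ := Frob.exists_orderOf_eq_of_isCyclic (hcop.mul_dvd_of_dvd_of_dvd hpB (h.1 hpB))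
      exact Frob.exists_orderOf_eq_of_surjective (QuotientGroup.mk'_surjective H)
        ⟨g, by rw [Subgroup.orderOf_coe, hg]⟩
    have hqB : ¬ q ∣ Nat.card B := mt h.2 hpB
    have hor : ∀ r : ℕ, r.Prime → r ∣ Nat.card G → ¬ r ∣ Nat.card B → ¬ r ∣ Nat.card H →
        r ∣ Nat.card (G ⧸ K) := fun r hr h1 h2 h3 => by
      rw [hcard] at h1
      exact (hr.dvd_mul.1 h1).resolve_left fun h4 => (hr.dvd_mul.1 h4).elim h3 h2
    by_cases hpH : p ∣ Nat.card H
    · by_cases hqH : q ∣ Nat.card H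
      · obtain ⟨g, hg⟩ := Frob.exists_orderOf_eq_mul_of_isNilpotent hp hq hpq hpH hqH
        exact ⟨g, by rw [Subgroup.orderOf_coe, hg]⟩
      · exact hmix p q hp hq hpH hqH (hor q hq hqG hqB hqH)
    · by_cases hqH : q ∣ Nat.card H
      · rw [mul_comm]
        exact hmix q p hq hp hqH hpH (hor p hp hpG hpB hpH)
      · exact Frob.exists_orderOf_eq_of_surjective (QuotientGroup.mk'_surjective K)
          (Frob.exists_orderOf_eq_of_isCyclic
            (hcop.mul_dvd_of_dvd_of_dvd (hor p hp hpG hpB hpH) (hor q hq hqG hqB hqH)))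

end Cfsg.Agent.S4001
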