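import Cfsg.Statements.S4002
import Cfsg.Agent.Lib.Coprime.Lucido

set_option autoImplicit false
open Cfsg

namespace Cfsg.Agent.S4002

/-- If the set of element orders of a finite group G is {1, 2, …, n} with n ≥ 7, then G is not solvable. -/
theorem result {G : Type*} [Group G] [Finite G] (n : ℕ) (hn : 7 ≤ n) (h : Set.range (orderOf : G → ℕ) = {k : ℕ | 1 ≤ k ∧ k ≤ n}) : ¬ Group.IsSolvable G := by
  intro hs
  have key : ∀ p q r : ℕ, p.Prime → q.Prime → r.Prime → p < q → q < r → r ≤ n → n < p * q →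
      False := by
    intro p q r hp hq hr h1 h2 h3 h4
    have hd : ∀ t : ℕ, t.Prime → t ≤ n → t ∣ Nat.card G := fun t ht htn => by
      obtain ⟨g, hg⟩ : t ∈ Set.range (orderOf : G → ℕ) := h ▸ ⟨ht.one_le, htn⟩
      exact hg ▸ orderOf_dvd_natCard g
    have hle : ∀ m : ℕ, (∃ g : G, orderOf g = m) → m ≤ n := fun m hm =>
      (show m ∈ {k : ℕ | 1 ≤ k ∧ k ≤ n} from h ▸ hm).2
    rcases Coprime.lucido hs hp hq hr h1.ne (h1.trans h2).ne h2.ne (hd p hp (by omega))
      (hd q hq (by omega)) (hd r hr h3) with h5 | h5 | h5 <;> have := hle _ h5 <;> nlinarith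
  by_cases h1 : n ≤ 14
  · exact key 3 5 7 (by norm_num) (by norm_num) (by norm_num) (by norm_num) (by norm_num) hn
      (by omega)
  by_cases h2 : n ≤ 34
  · exact key 5 7 11 (by norm_num) (by norm_num) (by norm_num) (by norm_num) (by norm_num)
      (by omega) (by omega)
  obtain ⟨p, hp, h3, h4⟩ := Nat.exists_prime_lt_and_le_two_mul (n / 8) (by omega)
  obtain ⟨q, hq, h5, h6⟩ := Nat.exists_prime_lt_and_le_two_mul (2 * (n / 8)) (by omega)
  obtain ⟨r, hr, h7, h8⟩ := Nat.exists_prime_lt_and_le_two_mul (4 * (n / 8)) (by omega)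
  refine key p q r hp hq hr (by omega) (by omega) (by omega) ?_
  have h9 : n < p * 8 := by omega
  exact h9.trans_le (Nat.mul_le_mul_left p (by omega))

end Cfsg.Agent.S4002
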