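import Cfsg.Statements.S4003
import Mathlib
import Cfsg.Agent.Lib.Reg.FrobCount

set_option autoImplicit false
open Cfsg

namespace Cfsg.Agent.S4003

/-- Let G be a finite group, p an odd prime dividing the order of G whose Sylow p-subgroups are not cyclic, and n = p^s·m with s > 1 and m coprime to p. Then the number of elements of G of order n is a multiple of p^s. -/
theorem result {G : Type*} [Group G] [Finite G] (p : ℕ) [Fact p.Prime] (hodd : p ≠ 2) (hpG : p ∣ Nat.card G)
    (P : Sylow p G) (hP : ¬ IsCyclic ↥(P : Subgroup G)) (s m : ℕ) (hs : 1 < s) (hm : Nat.Coprime p m) :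
    p ^ s ∣ Nat.card {g : G // orderOf g = p ^ s * m} := by
  have hp : p.Prime := Fact.out
  rcases eq_or_ne m 0 with rfl | hm0
  · exact absurd (Nat.coprime_zero_right p |>.1 hm) hp.one_lt.ne'
  open Pointwise in
  let Ω : SubMulAction (MulAut G) (G × Subgroup G) :=
    { carrier := {q | orderOf q.1 = m ∧ IsCyclic q.2 ∧ Nat.card q.2 = p ^ s ∧
        q.2 ≤ Subgroup.centralizer {q.1}}
      smul_mem' := by
        rintro φ ⟨z, H⟩ ⟨h1, h2, h3, h4⟩
        let e := H.equivMapOfInjective φ.toMonoidHom φ.injective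
        refine ⟨(φ.orderOf_eq z).trans h1, isCyclic_of_surjective e e.surjective,
          (Nat.card_congr e.toEquiv).symm.trans h3, ?_⟩
        rintro _ ⟨h, hh, rfl⟩
        rw [Subgroup.mem_centralizer_singleton_iff]
        have := congrArg φ (Subgroup.mem_centralizer_singleton_iff.1 (h4 hh))
        simpa using this }
  have := Fintype.ofFinite G
  have h1 : Nat.card {g : G // orderOf g = p ^ s * m} = (p ^ s).totient * Nat.card Ω := by
    rw [Reg.card_orderOf_eq_mul (hm.pow_left s) (pow_ne_zero _ hp.ne_zero) hm0,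
      PGrp.card_eq_sum_card_fiber (fun q : Ω => q.1.1), Finset.mul_sum,
      PGrp.card_eq_sum_card_fiber (fun q : {q : G × G // orderOf q.1 = m ∧ orderOf q.2 = p ^ s ∧
        Commute q.2 q.1} => q.1.1)]
    refine Finset.sum_congr rfl fun z _ => ?_
    have := PGrp.card_orderOf_eq_totient_mul' (G := G) (p ^ s)
      (fun H => orderOf z = m ∧ H ≤ Subgroup.centralizer {z})
    convert this using 1
    · exact Nat.card_congr
        { toFun := fun q => ⟨q.1.1.2, q.1.2.2.1, (congrArg orderOf q.2).symm.trans q.1.2.1,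
            Subgroup.zpowers_le.2 (Subgroup.mem_centralizer_singleton_iff.2
              (by simpa only [q.2] using q.1.2.2.2.eq))⟩
          invFun := fun y => ⟨⟨(z, y.1), y.2.2.1, y.2.1, Subgroup.mem_centralizer_singleton_iff.1
            (Subgroup.zpowers_le.1 y.2.2.2)⟩, rfl⟩
          left_inv := by rintro ⟨⟨⟨a, b⟩, h⟩, rfl⟩; rfl
          right_inv := fun _ => rfl }
    · congr 1
      exact Nat.card_congr
        { toFun := fun q => ⟨q.1.1.2, q.1.2.2.1, q.1.2.2.2.1, (congrArg orderOf q.2).symm.trans q.1.2.1,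
            by simpa only [q.2] using q.1.2.2.2.2⟩
          invFun := fun y => ⟨⟨(z, y.1), y.2.2.2.1, y.2.1, y.2.2.1, y.2.2.2.2⟩, rfl⟩
          left_inv := by rintro ⟨⟨⟨a, b⟩, h⟩, rfl⟩; rfl
          right_inv := fun _ => rfl }
  obtain ⟨s, rfl⟩ : ∃ t, s = t + 1 := ⟨s - 1, by omega⟩
  have htot : (p ^ (s + 1)).totient = p ^ s * (p - 1) := Nat.totient_prime_pow_succ hp s
  -- the cyclic subgroups normalized by `P`
  have h2 : p ∣ Nat.card {H : Subgroup G // (IsCyclic H ∧ Nat.card H = p ^ (s + 1) ∧ H ≤ P) ∧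
      (P : Subgroup G) ≤ Subgroup.normalizer (H : Set G)} := by
    have h3 := PGrp.card_modEq_card_normalized P.2
      (fun H => IsCyclic H ∧ Nat.card H = p ^ (s + 1) ∧ H ≤ P) (by
        rintro g hg H ⟨h1, h2, h3⟩
        let e := H.equivMapOfInjective (MulAut.conj g).toMonoidHom (MulAut.conj g).injective
        refine ⟨isCyclic_of_surjective e e.surjective, by rw [PGrp.card_map_conj, h2], ?_⟩
        rintro _ ⟨h, hh, rfl⟩
        exact mul_mem (mul_mem hg (h3 hh)) (inv_mem hg))
    rw [← h3.dvd_iff dvd_rfl]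
    have h4 := Reg.pow_dvd_card_orderOf_eq hodd P.2 hP hs
    have h5 := PGrp.card_orderOf_eq_totient_mul' (G := G) (p ^ (s + 1)) (fun H => H ≤ P)
    rw [Nat.card_congr (β := {x : G // orderOf x = p ^ (s + 1) ∧ Subgroup.zpowers x ≤ P})
      { toFun := fun x => ⟨x.1.1, (Subgroup.orderOf_coe x.1).trans x.2, Subgroup.zpowers_le.2 x.1.2⟩
        invFun := fun x => ⟨⟨x.1, Subgroup.zpowers_le.1 x.2.2⟩,
          (Subgroup.orderOf_coe _).symm.trans x.2.1⟩
        left_inv := fun _ => rfl
        right_inv := fun _ => rfl }, h5, htot, pow_succ, mul_assoc,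
      Nat.mul_dvd_mul_iff_left (pow_pos hp.pos s)] at h4
    exact (Nat.Coprime.dvd_mul_left ((Nat.coprime_self_sub_right hp.pos).2
      (Nat.coprime_one_right p))).1 h4
  have h3 : p ∣ Nat.card Ω := by
    let Q := (P : Subgroup G).map (MulAut.conj (G := G))
    rw [((P.2.map MulAut.conj).card_modEq_card_fixedPoints Ω).dvd_iff dvd_rfl]
    have key : ∀ q : Ω, q ∈ MulAction.fixedPoints Q Ω ↔ q.1.1 ∈ Subgroup.centralizer (P : Set G) ∧
        (P : Subgroup G) ≤ Subgroup.normalizer (q.1.2 : Set G) := by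
      rintro ⟨⟨z, H⟩, hq⟩
      constructor
      · intro h
        refine ⟨fun g hg => ?_, fun g hg => ?_⟩
        · have := congrArg (fun q : Ω => q.1.1) (h ⟨_, g, hg, rfl⟩)
          exact mul_inv_eq_iff_eq_mul.1 this
        · have := congrArg (fun q : Ω => q.1.2) (h ⟨_, g, hg, rfl⟩)
          exact Subgroup.conjAct_pointwise_smul_iff.1 this
      · rintro ⟨h1, h2⟩ ⟨_, g, hg, rfl⟩
        exact Subtype.ext (Prod.ext (mul_inv_eq_iff_eq_mul.2 (h1 g hg))
          (Subgroup.conjAct_pointwise_smul_iff.2 (h2 hg)))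
    have hle : ∀ H : Subgroup G, Nat.card H = p ^ (s + 1) →
        (P : Subgroup G) ≤ Subgroup.normalizer (H : Set G) → H ≤ P := fun H h1 h2 =>
      sup_eq_right.1 (P.is_maximal' ((IsPGroup.of_card h1).to_sup_of_normal_left' P.2 h2)
        le_sup_right)
    rw [Nat.card_congr (β := {z : G // orderOf z = m ∧ z ∈ Subgroup.centralizer (P : Set G)} ×
      {H : Subgroup G // (IsCyclic H ∧ Nat.card H = p ^ (s + 1) ∧ H ≤ P) ∧
        (P : Subgroup G) ≤ Subgroup.normalizer (H : Set G)})
      { toFun := fun q => (⟨q.1.1.1, q.1.2.1, ((key _).1 q.2).1⟩,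
          ⟨q.1.1.2, ⟨q.1.2.2.1, q.1.2.2.2.1, hle _ q.1.2.2.2.1 ((key _).1 q.2).2⟩,
            ((key _).1 q.2).2⟩)
        invFun := fun q => ⟨⟨(q.1.1, q.2.1), q.1.2.1, q.2.2.1.1, q.2.2.1.2.1, fun h hh =>
          Subgroup.mem_centralizer_singleton_iff.2 (q.1.2.2 h (q.2.2.1.2.2 hh))⟩,
          (key _).2 ⟨q.1.2.2, q.2.2.2⟩⟩
        left_inv := fun _ => rfl
        right_inv := fun _ => rfl }, Nat.card_prod]
    exact h2.mul_left _
  rw [h1, htot, pow_succ, mul_assoc]
  exact Nat.mul_dvd_mul_left _ (h3.mul_left _)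

end Cfsg.Agent.S4003
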