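import Cfsg.Statements.S4004
import Cfsg.Agent.Lib.PGrp.SameOrder2
import Cfsg.Agent.Lib.Frob.Complement

set_option autoImplicit false
open Cfsg

namespace Cfsg.Agent.S4004

open Subgroup PGrp
open scoped Pointwise

theorem card_eq_zero_of_norms {G R : Type*} [Group G] [Ring R] (ρ : G →* R) (Q : Subgroup G)
    [Fintype Q] {x : G} {n : ℕ} (hxQ : x ∈ normalizer (Q : Set G))
    (hf : ∀ i, 0 < i → i < n + 1 → ∀ c ∈ Q, x ^ i * c = c * x ^ i → c = 1)
    (hx : ∑ i ∈ Finset.range (n + 1), ρ (x ^ i) = 0) (hQ : ∑ c : Q, ρ c = 0) :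
    (Fintype.card Q : R) = 0 := by
  have h1 : ∑ c : Q, ∑ i ∈ Finset.range (n + 1), ρ (c * x ^ i * (c : G)⁻¹) = 0 := by
    refine Finset.sum_eq_zero fun c _ => ?_
    simp only [map_mul]
    rw [← Finset.sum_mul, ← Finset.mul_sum, hx, mul_zero, zero_mul]
  rw [Finset.sum_comm, Finset.sum_range_succ', Finset.sum_eq_zero, zero_add] at h1
  · simpa using h1
  · intro i hi
    have hi' := Finset.mem_range.mp hi
    let φ : Q → Q := fun c => ⟨c * (x ^ (i + 1) * (c : G)⁻¹ * (x ^ (i + 1))⁻¹), Q.mul_mem c.2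
      (Frob.conj_mem_of_mem_normalizer (pow_mem hxQ _) (Q.inv_mem c.2))⟩
    have hφ : Function.Injective φ := by
      intro c d e
      have e1 : (c : G) * (x ^ (i + 1) * (c : G)⁻¹ * (x ^ (i + 1))⁻¹) =
        d * (x ^ (i + 1) * (d : G)⁻¹ * (x ^ (i + 1))⁻¹) := congrArg Subtype.val e
      have := hf (i + 1) (by omega) (by omega) ((d : G)⁻¹ * c) (Q.mul_mem (Q.inv_mem d.2) c.2) (by
        have e2 : (c : G) * x ^ (i + 1) * (c : G)⁻¹ = d * x ^ (i + 1) * (d : G)⁻¹ := by
          simpa only [← mul_assoc, mul_left_inj] using e1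
        calc x ^ (i + 1) * ((d : G)⁻¹ * c)
            = (d : G)⁻¹ * (d * x ^ (i + 1) * (d : G)⁻¹) * c := by group
          _ = (d : G)⁻¹ * c * x ^ (i + 1) := by rw [← e2]; group)
      exact Subtype.ext (inv_mul_eq_one.mp this).symm
    have h2 : ∑ c : Q, ρ (φ c) = 0 := by
      rw [← hQ]
      exact Fintype.sum_bijective φ (Finite.injective_iff_bijective.mp hφ) _ _ fun _ => rfl
    calc ∑ c : Q, ρ (c * x ^ (i + 1) * (c : G)⁻¹) = ∑ c : Q, ρ (φ c) * ρ (x ^ (i + 1)) := by
          refine Finset.sum_congr rfl fun c _ => ?_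
          rw [← map_mul]
          congr 1
          simp only [φ]
          group
      _ = 0 := by rw [← Finset.sum_mul, h2, zero_mul]

theorem pow_card_eq_one_of_norms {G : Type*} [Group G] [Finite G] {V Q : Subgroup G} [V.Normal]
    (hV : IsMulCommutative V) {x : G} {n : ℕ} (hxQ : x ∈ normalizer (Q : Set G))
    (hf : ∀ i, 0 < i → i < n + 1 → ∀ c ∈ Q, x ^ i * c = c * x ^ i → c = 1)
    (hx1 : x ^ (n + 1) = 1) (hx : ∀ v ∈ V, (v * x) ^ (n + 1) = 1)
    (hQ : ∀ v ∈ V, (∀ c ∈ Q, c * v = v * c) → v = 1) {v : G} (hv : v ∈ V) :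
    v ^ Nat.card Q = 1 := by
  letI : CommGroup V := { (inferInstance : Group V) with mul_comm := hV.is_comm.comm }
  letI : MulDistribMulAction G V := MulDistribMulAction.compHom V (MulAut.conjNormal (H := V))
  haveI := Fintype.ofFinite Q
  let ρ := Representation.ofMulDistribMulAction G V
  have hρ : ∀ (g : G) (w : Additive V), ((ρ g w).toMul : G) = g * w.toMul * g⁻¹ := fun _ _ => rfl
  have h1 : ∀ (w : Additive V) (k : ℕ), ((w.toMul : G) * x) ^ k =
      ((∑ i ∈ Finset.range k, ρ (x ^ i)) w).toMul * x ^ k := by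
    intro w k
    induction k with
    | zero => simp
    | succ k ih =>
      rw [pow_succ, ih, Finset.sum_range_succ, LinearMap.add_apply, toMul_add, Subgroup.coe_mul, hρ]
      group
  have := card_eq_zero_of_norms ρ Q hxQ hf (LinearMap.ext fun w => by
    have := h1 w (n + 1)
    rw [hx _ w.toMul.2, hx1, mul_one] at this
    exact Additive.toMul.injective (Subtype.ext this.symm)) (LinearMap.ext fun w => by
    refine Additive.toMul.injective (Subtype.ext (hQ _ (Subtype.prop _) fun c hc => ?_))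
    have e : ρ c * ∑ d : Q, ρ d = ∑ d : Q, ρ d := by
      rw [Finset.mul_sum]
      exact Fintype.sum_bijective (fun d => (⟨c, hc⟩ : Q) * d) (Group.mulLeft_bijective _) _ _
        fun d => by simp
    have e2 := hρ c ((∑ d : Q, ρ d) w)
    rw [← Module.End.mul_apply, e] at e2
    exact (mul_inv_eq_iff_eq_mul.mp e2.symm))
  have h3 := congrArg (fun f => ((f (Additive.ofMul ⟨v, hv⟩)).toMul : G)) this
  simpa [Nat.card_eq_fintype_card] using h3

theorem core {G : Type*} [Group G] [Finite G] {p q : ℕ} (hp : p.Prime) (hq : q.Prime)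
    (hp2 : p ≠ 2) (hq2 : q ≠ 2) (hpq : p ≠ q) (hpd : p ∣ Nat.card G) (hqd : q ∣ Nat.card G)
    (hall : ∀ r : ℕ, r.Prime → r ∣ Nat.card G → r = p ∨ r = q)
    (hv : ∀ m, m ≠ 1 → sN G m = 0 ∨ sN G m = sN G p ∨ sN G m = sN G q)
    {V : Subgroup G} [V.Normal] (hV : IsElementaryAbelian p V) (hV1 : V ≠ ⊥) :
    sN G (p ^ 2) = 0 ∧ sN G (q ^ 2) = 0 ∧
      ∃ C : Subgroup G, Cfsg.IsFrobeniusComplement C ∧ (Nat.card ↥C).Prime := by
  classical
  haveI := Fact.mk hp
  haveI := Fact.mk hq
  have hT : TwoVal G (sN G p) (sN G q) := fun m hm => hv m (by omega)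
  obtain ⟨h0, hpb, hqa⟩ := hT.diff hp hq hp2 hq2 hpq hpd hqd rfl rfl
  have hpa := not_dvd_sN hp hpd
  have hqb := not_dvd_sN hq hqd
  have hcop : Nat.Coprime q p := (Nat.coprime_primes hq hp).mpr hpq.symm
  -- nontrivial `p`- and `q`-elements never commute
  have nc : ∀ x y : G, ∀ i j : ℕ, x ^ p ^ i = 1 → y ^ q ^ j = 1 → x ≠ 1 → y * x = x * y →
      y = 1 := by
    intro x y i j hx hy hx1 hc
    by_contra hy1
    obtain ⟨i', -, hi⟩ := (Nat.dvd_prime_pow hp).mp (orderOf_dvd_of_pow_eq_one hx)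
    obtain ⟨j', -, hj⟩ := (Nat.dvd_prime_pow hq).mp (orderOf_dvd_of_pow_eq_one hy)
    have hi0 : i' ≠ 0 := by rintro rfl; exact hx1 (orderOf_eq_one_iff.mp (by simpa using hi))
    have hj0 : j' ≠ 0 := by rintro rfl; exact hy1 (orderOf_eq_one_iff.mp (by simpa using hj))
    refine sN_eq_zero_iff.mp (sN_eq_zero_of_dvd (m := q ^ j' * p ^ i')
      (mul_dvd_mul (dvd_pow_self q hj0) (dvd_pow_self p hi0)) h0) (y * x) ?_
    rw [Commute.orderOf_mul_eq_mul_orderOf_of_coprime hc (by rw [hi, hj]; exact hcop.pow _ _),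
      hi, hj]
  have hq2z : sN G (q ^ 2) = 0 := by
    have h5 := dvd_sN_of_sq_dvd (G := G) hq dvd_rfl
    rcases hT (q ^ 2) (le_trans (three_le_of_prime hq hq2) (Nat.le_self_pow two_ne_zero q))
      with e | e | e
    · exact e
    · have h6 := two_mul_le_sN hp (G := G) (m := q ^ 2) (e ▸ hpa)
        (fun h => hpq ((Nat.prime_dvd_prime_iff_eq hp hq).mp (hp.dvd_of_dvd_pow h)))
        (le_trans (three_le_of_prime hq hq2) (Nat.le_self_pow two_ne_zero q))
      rw [sN_eq_zero_of_dvd (mul_dvd_mul_right (dvd_pow_self q two_ne_zero) p) h0] at h6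
      have := sN_prime_ne_zero hp hpd
      omega
    · exact absurd (e ▸ h5) hqb
  obtain ⟨Q⟩ : Nonempty (Sylow q G) := inferInstance
  have hQe : ∀ y ∈ (Q : Subgroup G), ∃ j, y ^ q ^ j = 1 := fun y hy => by
    obtain ⟨j, hj⟩ := Q.isPGroup' ⟨y, hy⟩
    exact ⟨j, congrArg Subtype.val hj⟩
  have hVe : ∀ v ∈ V, v ^ p ^ 1 = 1 := fun v hv => by rw [pow_one]; exact hV.2 v hv
  have hFC : Frob.IsFC (Q : Subgroup G) :=
    Frob.isFC_of_fpf (K := V) le_normalizer_of_normal hV1 fun y hy hy1 v hv hc => by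
      by_contra hv1
      obtain ⟨j, hj⟩ := hQe y hy
      exact hy1 (nc v y 1 j (hVe v hv) hj hv1 hc)
  have hcyc : IsCyclic (Q : Subgroup G) := by
    have := hFC.isCyclic_of_odd hq2 (P := ⊤) (Q.isPGroup'.to_subgroup ⊤)
    exact isCyclic_of_surjective _ (Subgroup.topEquiv (G := (Q : Subgroup G))).surjective
  have hQc : Nat.card (Q : Subgroup G) = q := by
    obtain ⟨g, hg⟩ := IsCyclic.exists_ofOrder_eq_natCard (α := (Q : Subgroup G))
    obtain ⟨k, hk⟩ := IsPGroup.iff_card.mp Q.isPGroup'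
    have h1 := Q.dvd_card_of_dvd_card hqd
    rcases k with _ | _ | k
    · rw [hk] at h1; exact absurd h1 (by simpa using hq.one_lt.ne')
    · simpa using hk
    · exfalso
      refine sN_eq_zero_iff.mp (sN_eq_zero_of_dvd (pow_dvd_pow q (by omega : 2 ≤ k + 1 + 1)) hq2z)
        g ?_
      rw [Subgroup.orderOf_coe, hg, hk]
  have hQ1 : (Q : Subgroup G) ≠ ⊥ := fun e => by
    rw [e, card_bot] at hQc; exact hq.one_lt.ne hQc
  -- centralizer of `Q`
  have hCQ : centralizer ((Q : Subgroup G) : Set G) ≤ Q := by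
    have hCq : IsPGroup q (centralizer ((Q : Subgroup G) : Set G)) := by
      refine IsPGroup.iff_card.mpr ⟨_, Nat.eq_prime_pow_of_unique_prime_dvd Nat.card_pos.ne'
        fun {r} hr hd => ?_⟩
      refine (hall r hr (hd.trans (card_subgroup_dvd_card _))).resolve_left ?_
      rintro rfl
      obtain ⟨x, hx, hxo⟩ := Core.exists_mem_orderOf_eq_of_dvd_card hd
      obtain ⟨⟨y, hy⟩, hy1⟩ := (Subgroup.ne_bot_iff_exists_ne_one).mp hQ1
      obtain ⟨j, hj⟩ := hQe y hy
      refine hy1 (Subtype.ext (nc x y 1 j (by rw [pow_one, ← hxo, pow_orderOf_eq_one]) hj ?_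
        (hx y hy)))
      rintro rfl
      exact hr.one_lt.ne (by simpa using hxo)
    exact (Q.is_maximal' hCq (le_centralizer_iff_isMulCommutative.mpr
      hcyc.isMulCommutative)).le
  have hNle : Nat.card (normalizer ((Q : Subgroup G) : Set G)) ≤ q * (q - 1) := by
    have h1 := (Q : Subgroup G).normalizerMonoidHom.ker.card_mul_index
    have h2 : (Q : Subgroup G).normalizerMonoidHom.ker.index ≤ q - 1 := by
      rw [Subgroup.index_ker]
      refine (Nat.le_of_dvd Nat.card_pos (card_subgroup_dvd_card _)).trans ?_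
      rw [hcyc.card_mulAut, hQc, Nat.totient_prime hq]
    have h3 : Nat.card (Q : Subgroup G).normalizerMonoidHom.ker ≤ q := by
      rw [Subgroup.normalizerMonoidHom_ker, Core.card_subgroupOf]
      exact (Subgroup.card_le_of_le (inf_le_left.trans hCQ)).trans hQc.le
    rw [← h1]
    exact Nat.mul_le_mul h3 h2
  have hb : sN G q = (q - 1) * (normalizer ((Q : Subgroup G) : Set G)).index := by
    rw [sN, card_orderOf_eq_totient_mul, Nat.totient_prime hq]
    congr 1
    refine Eq.trans ?_ Q.card_eq_index_normalizer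
    have hf : q ^ (Nat.card G).factorization q = q := by rw [← Q.card_eq_multiplicity, hQc]
    refine (Nat.card_congr (Equiv.ofBijective (fun R : Sylow q G =>
      (⟨R, isCyclic_of_prime_card (p := q) (by rw [R.card_eq_multiplicity, hf]),
        by rw [R.card_eq_multiplicity, hf]⟩ :
        {H : Subgroup G // IsCyclic H ∧ Nat.card H = q})) ⟨?_, ?_⟩)).symm
    · intro R S e
      exact Sylow.ext (congrArg Subtype.val e)
    · rintro ⟨H, h1, h2⟩
      exact ⟨Sylow.ofCard H (by rw [h2, hf]), rfl⟩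
  have hGle : Nat.card G ≤ q * sN G q := by
    rw [hb, ← (normalizer ((Q : Subgroup G) : Set G)).card_mul_index, ← mul_assoc]
    exact Nat.mul_le_mul_right _ hNle
  have hp2z : sN G (p ^ 2) = 0 := by
    by_contra hne
    have ee : sN G (p ^ 2) = sN G q := by
      have h5 := dvd_sN_of_sq_dvd (G := G) hp dvd_rfl
      rcases hT (p ^ 2) (le_trans (three_le_of_prime hp hp2) (Nat.le_self_pow two_ne_zero p))
        with e | e | e
      · exact absurd e hne
      · exact absurd (e ▸ h5) hpa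
      · exact e
    have h1 := sum_sN_card (G := G)
    have hm1 : 1 ∈ (Nat.card G).divisors := Nat.one_mem_divisors.mpr Nat.card_pos.ne'
    rw [← Finset.add_sum_erase _ _ hm1, sN_one,
      ← Finset.sum_filter_add_sum_filter_not _ (fun m => sN G m = sN G q),
      Finset.sum_congr rfl (fun m hm => (Finset.mem_filter.mp hm).2), Finset.sum_const,
      smul_eq_mul] at h1
    obtain ⟨e, he⟩ : ∃ e, e =
      (((Nat.card G).divisors.erase 1).filter (fun m => sN G m = sN G q)).card := ⟨_, rfl⟩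
    rw [← he] at h1
    have h2 : q ∣ ∑ m ∈ ((Nat.card G).divisors.erase 1).filter (fun m => ¬ sN G m = sN G q),
        sN G m := Finset.dvd_sum fun m hm => by
      obtain ⟨h3, h4⟩ := Finset.mem_filter.mp hm
      rcases hv m (Finset.ne_of_mem_erase h3) with e | e | e
      · rw [e]; exact dvd_zero _
      · rw [e]; exact hqa
      · exact absurd e h4
    have h3 : 2 ≤ e := by
      have hne' : q ≠ p ^ 2 := fun e' => hpq ((Nat.prime_dvd_prime_iff_eq hp hq).mp
        (e' ▸ dvd_pow_self p two_ne_zero))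
      rw [he, ← Finset.card_pair hne']
      refine Finset.card_le_card fun m hm => ?_
      simp only [Finset.mem_insert, Finset.mem_singleton] at hm
      rcases hm with rfl | rfl
      · exact Finset.mem_filter.mpr ⟨Finset.mem_erase.mpr ⟨hq.one_lt.ne',
          Nat.mem_divisors.mpr ⟨hqd, Nat.card_pos.ne'⟩⟩, rfl⟩
      · exact Finset.mem_filter.mpr ⟨Finset.mem_erase.mpr ⟨(Nat.one_lt_pow two_ne_zero
          hp.one_lt).ne', Nat.mem_divisors.mpr ⟨dvd_card_of_sN_ne_zero hne, Nat.card_pos.ne'⟩⟩, ee⟩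
    have h4 : e < q := by
      by_contra h5
      have := Nat.mul_le_mul_right (sN G q) (not_lt.mp h5)
      omega
    have h5 : q ∣ 1 + e * sN G q := by
      rw [← add_assoc] at h1
      exact (Nat.dvd_add_left h2).mp (hqd.trans h1.symm.dvd)
    obtain ⟨e', he'⟩ : ∃ e', e = e' + 1 := ⟨e - 1, by omega⟩
    rw [he', add_mul, one_mul, add_comm (e' * _), ← add_assoc] at h5
    rcases (Nat.Prime.dvd_mul hq).mp ((Nat.dvd_add_right (dvd_one_add_sN hq hqd)).mp h5) with
      h6 | h6
    · have := Nat.le_of_dvd (by omega) h6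
      omega
    · exact hqb h6
  refine ⟨hp2z, hq2z, Q, ⟨hQ1, ?_, fun g hg => ?_⟩, by rw [hQc]; exact hq⟩
  · intro e
    rw [e, card_top] at hQc
    exact hpq ((Nat.prime_dvd_prime_iff_eq hp hq).mp (hQc ▸ hpd))
  by_contra hne
  have hgN : g ∈ normalizer ((Q : Subgroup G) : Set G) := by
    have hle : (Q : Subgroup G) ≤ MulAut.conj g • (Q : Subgroup G) := by
      have h1 : Nat.card ↥((Q : Subgroup G) ⊓ MulAut.conj g • (Q : Subgroup G)) ∣ q :=
        (card_dvd_of_le inf_le_left).trans hQc.dvd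
      rcases (Nat.dvd_prime hq).mp h1 with h2 | h2
      · exact absurd (Subgroup.eq_bot_of_card_eq _ h2) hne
      · exact inf_eq_left.mp (eq_of_le_of_card_eq inf_le_left (h2.trans hQc.symm))
    exact Sylow.smul_eq_iff_mem_normalizer.mp (Sylow.ext (Q.is_maximal' (g • Q).isPGroup' hle))
  -- an element of order `p` normalizing `Q`
  have hpN : p ∣ Nat.card (normalizer ((Q : Subgroup G) : Set G)) := by
    by_contra h1
    have hNq : IsPGroup q (normalizer ((Q : Subgroup G) : Set G)) :=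
      IsPGroup.iff_card.mpr ⟨_, Nat.eq_prime_pow_of_unique_prime_dvd Nat.card_pos.ne'
        fun {r} hr hd => (hall r hr (hd.trans (card_subgroup_dvd_card _))).resolve_left
          (by rintro rfl; exact h1 hd)⟩
    exact hg ((Q.is_maximal' hNq le_normalizer).le hgN)
  obtain ⟨x, hx, hxo⟩ := Core.exists_mem_orderOf_eq_of_dvd_card hpN
  obtain ⟨n, hn⟩ : ∃ n, p = n + 1 := ⟨p - 1, by have := hp.pos; omega⟩
  have hxp : x ^ p = 1 := by rw [← hxo, pow_orderOf_eq_one]
  obtain ⟨⟨v, hv'⟩, hv1⟩ := (Subgroup.ne_bot_iff_exists_ne_one).mp hV1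
  have key := pow_card_eq_one_of_norms hV.1 (n := n) hx (fun i hi0 hi c hc hcomm => by
    obtain ⟨j, hj⟩ := hQe c hc
    exact nc (x ^ i) c 1 j (by rw [pow_one, ← pow_mul, mul_comm, pow_mul, hxp, one_pow]) hj
      (pow_ne_one_of_lt_orderOf hi0.ne' (by omega)) hcomm.symm) (hn ▸ hxp) (fun w hw => by
    rw [← hn]
    have h1 : (w * x) ^ p ∈ V := by
      rw [← QuotientGroup.eq_one_iff, QuotientGroup.mk_pow, QuotientGroup.mk_mul,
        (QuotientGroup.eq_one_iff w).mpr hw, one_mul, ← QuotientGroup.mk_pow, hxp,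
        QuotientGroup.mk_one]
    have h2 : orderOf (w * x) ∣ p ^ 2 := by
      rw [orderOf_dvd_iff_pow_eq_one, pow_two, pow_mul]
      exact hV.2 _ h1
    obtain ⟨i, hi, hi'⟩ := (Nat.dvd_prime_pow hp).mp h2
    have hi2 : i ≠ 2 := by
      rintro rfl
      exact sN_eq_zero_iff.mp hp2z _ hi'
    rw [← orderOf_dvd_iff_pow_eq_one, hi']
    exact (pow_dvd_pow p (by omega : i ≤ 1)).trans (pow_one p).dvd) (fun w hw hc => by
    by_contra hw1
    obtain ⟨⟨y, hy⟩, hy1⟩ := (Subgroup.ne_bot_iff_exists_ne_one).mp hQ1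
    obtain ⟨j, hj⟩ := hQe y hy
    exact hy1 (Subtype.ext (nc w y 1 j (hVe w hw) hj hw1 (hc y hy)))) hv'
  rw [hQc] at key
  exact hv1 (Subtype.ext (nc v v 1 1 (hVe v hv') (by rwa [pow_one])
    (fun e => hv1 (Subtype.ext e)) rfl))

theorem exponent_eq {G : Type*} [Group G] [Finite G] {p : ℕ} (hp : p.Prime) {P : Subgroup G}
    (hP : IsPGroup p P) (h1 : P ≠ ⊥) (h2 : sN G (p ^ 2) = 0) : Monoid.exponent P = p := by
  haveI := Fact.mk hp
  haveI := (Subgroup.nontrivial_iff_ne_bot P).mpr h1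
  rw [Monoid.exponent_eq_prime_iff hp]
  intro g hg
  obtain ⟨k, hk⟩ := IsPGroup.iff_orderOf.mp hP g
  rcases k with _ | _ | k
  · exact absurd (orderOf_eq_one_iff.mp (by simpa using hk)) hg
  · simpa using hk
  · exfalso
    refine sN_eq_zero_iff.mp (sN_eq_zero_of_dvd (pow_dvd_pow p (by omega : 2 ≤ k + 1 + 1)) h2) g ?_
    rw [Subgroup.orderOf_coe, hk]

/-- Let G be a finite group of odd order in which the numbers of elements of each order that occurs (the numbers #{g : o(g) = m}, m ranging over the element orders of G) take exactly three different values. Then the order of G has at most two prime divisors; and if it has exactly two, then every Sylow subgroup of G for a prime dividing its order has prime exponent, G is a Frobenius group, and some Frobenius complement of G has prime order. -/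
theorem result {G : Type*} [Group G] [Finite G] (hodd : Odd (Nat.card G)) (h : (((fun m : ℕ => Nat.card {g : G // orderOf g = m}) '' Set.range (orderOf : G → ℕ))).ncard = 3) :
    (Nat.card G).primeFactors.card ≤ 2 ∧
      ((Nat.card G).primeFactors.card = 2 →
        (∀ (p : ℕ) [Fact p.Prime] (P : Sylow p G), p ∣ Nat.card G → Monoid.exponent ↥(P : Subgroup G) = p) ∧
        ∃ C : Subgroup G, Cfsg.IsFrobeniusComplement C ∧ (Nat.card ↥C).Prime) := by
  obtain ⟨a, b, hab⟩ := exists_vals_of_ncard_eq_three h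
  have hT := twoVal_of_vals hab
  have h2 : ¬ 2 ∣ Nat.card G := fun e => Nat.not_even_iff_odd.mpr hodd (even_iff_two_dvd.mpr e)
  have h4 : ¬ 4 ∣ Nat.card G := fun e => h2 (Dvd.dvd.trans (by norm_num) e)
  have hne2 : ∀ {r : ℕ}, r ∣ Nat.card G → r ≠ 2 := by rintro r hr rfl; exact h2 hr
  refine ⟨?_, fun hc => ?_⟩
  · by_contra hc
    obtain ⟨p, hp, q, hq, r, hr, hpq, hpr, hqr⟩ := Finset.two_lt_card.mp (not_le.mp hc)
    obtain ⟨hp, hpd, -⟩ := Nat.mem_primeFactors.mp hp
    obtain ⟨hq, hqd, -⟩ := Nat.mem_primeFactors.mp hq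
    obtain ⟨hr, hrd, -⟩ := Nat.mem_primeFactors.mp hr
    rcases hT.eq_or_eq h4 hp hq (hne2 hpd) (hne2 hqd) hpq hpd hqd hr (hne2 hrd) hrd with e | e
    · exact hpr e.symm
    · exact hqr e.symm
  obtain ⟨p, q, hpq, hpf⟩ := Finset.card_eq_two.mp hc
  have hall : ∀ r : ℕ, r.Prime → r ∣ Nat.card G → r = p ∨ r = q := fun r hr hrd => by
    have : r ∈ (Nat.card G).primeFactors := Nat.mem_primeFactors.mpr ⟨hr, hrd, Nat.card_pos.ne'⟩
    rw [hpf] at this
    simpa using this
  obtain ⟨hp, hpd, -⟩ := Nat.mem_primeFactors.mp (hpf ▸ Finset.mem_insert_self p {q})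
  obtain ⟨hq, hqd, -⟩ := Nat.mem_primeFactors.mp
    (hpf ▸ Finset.mem_insert_of_mem (Finset.mem_singleton_self q))
  have hp2 := hne2 hpd
  have hq2 := hne2 hqd
  have hv : ∀ m, m ≠ 1 → sN G m = 0 ∨ sN G m = sN G p ∨ sN G m = sN G q := by
    intro m hm
    by_cases h0 : sN G m = 0
    · exact Or.inl h0
    have hmd := dvd_card_of_sN_ne_zero h0
    have hm3 : 3 ≤ m := by
      have := hne2 hmd
      have : m ≠ 0 := ne_zero_of_dvd_ne_zero Nat.card_pos.ne' hmd
      omega
    have := hT m hm3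
    rcases hT.prime hp hp2 hpd with e1 | e1 <;> rcases hT.prime hq hq2 hqd with e2 | e2
    · exact (hT.not_same h4 hp hq hp2 hq2 hpq hpd e1 e2).elim
    · rwa [e1, e2]
    · rw [e1, e2]; tauto
    · exact (hT.symm.not_same h4 hp hq hp2 hq2 hpq hpd e1 e2).elim
  haveI : Group.IsSolvable G := Char.solvable_of_two_primes hp hq hall
  haveI : Nontrivial G := Finite.one_lt_card_iff_nontrivial.mp
    (lt_of_lt_of_le hp.one_lt (Nat.le_of_dvd Nat.card_pos hpd))
  obtain ⟨V, hV⟩ := Core.exists_isMinNormal (G := G)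
  haveI := hV.normal
  obtain ⟨r, hr, hVr⟩ := hV.exists_isElementaryAbelian inferInstance
  have key : sN G (p ^ 2) = 0 ∧ sN G (q ^ 2) = 0 ∧
      ∃ C : Subgroup G, Cfsg.IsFrobeniusComplement C ∧ (Nat.card ↥C).Prime := by
    haveI := Fact.mk hr
    have hrd : r ∣ Nat.card G := by
      obtain ⟨x, -, hx⟩ := exists_orderOf_eq_prime_of_ne_bot
        (Core.isPGroup_of_isElementaryAbelian hVr) hV.ne_bot
      exact hx ▸ orderOf_dvd_natCard x
    rcases hall r hr hrd with rfl | rfl
    · exact core hp hq hp2 hq2 hpq hpd hqd hall hv hVr hV.ne_bot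
    · obtain ⟨h1, h2, h3⟩ := core hq hp hq2 hp2 hpq.symm hqd hpd
        (fun s hs hsd => (hall s hs hsd).symm) (fun m hm => by have := hv m hm; tauto) hVr hV.ne_bot
      exact ⟨h2, h1, h3⟩
  refine ⟨fun r hr P hrd => exponent_eq hr.out P.isPGroup' (P.ne_bot_of_dvd_card hrd) ?_, key.2.2⟩
  rcases hall r hr.out hrd with rfl | rfl
  · exact key.1
  · exact key.2.1

end Cfsg.Agent.S4004
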