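import Cfsg.Statements.S4006
import Mathlib
import Cfsg.Agent.Lib.Cls.Basic
import Cfsg.Agent.Lib.Char.Burnside
import Cfsg.Agent.Lib.Frob.Complement
import Cfsg.Agent.Lib.Core.Fitting
import Cfsg.Agent.S3779

set_option autoImplicit false
open Cfsg

namespace Cfsg.Agent.S4006

open Subgroup
open scoped IsMulCommutative

section

variable {G : Type*} [Group G] (h : ∀ g : G, g ^ 3 = 1 ∨ g ^ 4 = 1)

theorem eq_one_of_three_four {a : G} (h3 : a ^ 3 = 1) (h4 : a ^ 4 = 1) : a = 1 := by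
  rwa [pow_succ, h3, one_mul] at h4

theorem conj_eq_inv_of {v a b : G} (hab : a * b = b * a) (h1 : (v * a) ^ 2 = 1)
    (h2 : (v * b) ^ 2 = 1) (h3 : (v * (a * b)⁻¹) ^ 2 = 1) (h4 : a ^ 4 = 1) :
    a ^ 2 * v * (a ^ 2)⁻¹ = v⁻¹ := by
  have h5 : (a ^ 2)⁻¹ = a ^ 2 := by rw [inv_eq_iff_mul_eq_one, ← pow_add, h4]
  have h6 : v⁻¹ = a * v * a := by rw [inv_eq_iff_mul_eq_one, ← h1, sq]; group
  have h7 : b * v * b = v⁻¹ := by rw [eq_comm, inv_eq_iff_mul_eq_one, ← h2, sq]; group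
  have h8 : v = a * b * v⁻¹ * (a * b) := by
    rw [← inv_inj, inv_eq_iff_mul_eq_one, ← h3, sq]; group
  have h9 : v = a ^ 2 * v⁻¹ * a ^ 2 := by
    calc v = a * (b * a) * v * (a * (a * b)) := by nth_rw 1 [h8, h6]; group
      _ = a * (a * b) * v * (b * a * a) := by rw [← hab, mul_assoc a b a, ← hab]
      _ = a ^ 2 * (b * v * b) * a ^ 2 := by simp only [sq, mul_assoc]
      _ = _ := by rw [h7]
  calc a ^ 2 * v * (a ^ 2)⁻¹ = a ^ 2 * (a ^ 2 * v⁻¹ * a ^ 2) * (a ^ 2)⁻¹ := by rw [← h9]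
    _ = a ^ 4 * v⁻¹ := by group
    _ = _ := by rw [h4, one_mul]

theorem sq_eq_one_of {v a b : G} (hab : a * b = b * a) (h1 : (v * a) ^ 2 = 1)
    (h2 : (v * b) ^ 2 = 1) (h3 : (v * (a * b)⁻¹) ^ 2 = 1) (ha : a ^ 4 = 1) (hb : b ^ 4 = 1) :
    v ^ 2 = 1 := by
  have hc : Commute a b := hab
  have h4 := conj_eq_inv_of hab h1 h2 h3 ha
  have h5 := conj_eq_inv_of hab.symm h2 h1 (hab ▸ h3) hb
  have h6 := conj_eq_inv_of (a := (a * b)⁻¹) (b := a) ((Commute.refl a).mul_left hc.symm).inv_left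
    h3 h1 (by rwa [mul_inv_rev, inv_inv, inv_mul_cancel_left])
    (by rw [inv_pow, hc.mul_pow, ha, hb, mul_one, inv_one])
  rw [inv_pow, inv_inv, hc.mul_pow] at h6
  rw [sq, ← eq_inv_iff_mul_eq_one]
  calc v = a ^ 2 * (b ^ 2 * ((a ^ 2 * b ^ 2)⁻¹ * v * (a ^ 2 * b ^ 2)) * (b ^ 2)⁻¹) * (a ^ 2)⁻¹ := by
        group
    _ = (a ^ 2 * (b ^ 2 * v * (b ^ 2)⁻¹) * (a ^ 2)⁻¹)⁻¹ := by rw [h6]; group
    _ = a ^ 2 * v * (a ^ 2)⁻¹ := by rw [h5]; group
    _ = _ := h4

include h

theorem eq_one_or {a b : G} (ha : a ^ 3 = 1) (hb : b ^ 4 = 1) (hc : a * b = b * a) :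
    a = 1 ∨ b = 1 := by
  rcases h (a * b) with h1 | h1 <;> rw [Commute.mul_pow hc] at h1
  · exact Or.inr (eq_one_of_three_four (by rwa [ha, one_mul] at h1) hb)
  · exact Or.inl (eq_one_of_three_four ha (by rwa [hb, mul_one] at h1))

variable [Finite G]

theorem primes (r : ℕ) (hr : r.Prime) (hd : r ∣ Nat.card G) : r = 2 ∨ r = 3 := by
  have := Fact.mk hr
  obtain ⟨x, rfl⟩ := exists_prime_orderOf_dvd_card' r hd
  rcases h x with h1 | h1
  · exact Or.inr ((Nat.prime_dvd_prime_iff_eq hr Nat.prime_three).1 (orderOf_dvd_of_pow_eq_one h1))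
  · exact Or.inl ((Nat.prime_dvd_prime_iff_eq hr Nat.prime_two).1
      (hr.dvd_of_dvd_pow (n := 2) (orderOf_dvd_of_pow_eq_one h1)))

theorem pow_three {K : Subgroup G} (hK : IsPGroup 3 K) {a : G} (ha : a ∈ K) : a ^ 3 = 1 := by
  refine (h a).elim id fun h1 => ?_
  obtain ⟨k, hk⟩ := Core.exists_orderOf_eq_pow_of_mem hK ha
  rw [orderOf_eq_one_iff.1 (Nat.eq_one_of_dvd_coprimes (Nat.Coprime.pow_left k (by norm_num))
    hk.dvd (orderOf_dvd_of_pow_eq_one h1)), one_pow]

theorem pow_four {K : Subgroup G} (hK : IsPGroup 2 K) {a : G} (ha : a ∈ K) : a ^ 4 = 1 := by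
  refine (h a).elim (fun h1 => ?_) id
  obtain ⟨k, hk⟩ := Core.exists_orderOf_eq_pow_of_mem hK ha
  rw [orderOf_eq_one_iff.1 (Nat.eq_one_of_dvd_coprimes (Nat.Coprime.pow_left k (by norm_num))
    hk.dvd (orderOf_dvd_of_pow_eq_one h1)), one_pow]

theorem isPGroup_of_not_dvd {K : Subgroup G} :
    (¬ 2 ∣ Nat.card K → IsPGroup 3 K) ∧ (¬ 3 ∣ Nat.card K → IsPGroup 2 K) := by
  constructor <;> intro h1 <;> refine Core.isPGroup_iff_forall_prime_dvd.2 fun q hq hd => ?_ <;>
  rcases primes h q hq (hd.trans (card_subgroup_dvd_card K)) with rfl | rfl <;>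
  first | rfl | contradiction

theorem caseA (hV : pCore 3 G ≠ ⊥) {t : G} (ht : orderOf t = 2) :
    IsElementaryAbelian 3 (pCore 3 G) ∧ Frob.IsFC (G ⧸ pCore 3 G) ∧
      IsPGroup 2 (G ⧸ pCore 3 G) := by
  have := Char.solvable_of_two_primes Nat.prime_two Nat.prime_three (primes h)
  have hV3 := fun a => pow_three h (Core.isPGroup_pCore (G := G) 3) (a := a)
  obtain ⟨v, hv, hv1⟩ : ∃ v ∈ pCore 3 G, v ≠ 1 := by
    by_contra h1
    push Not at h1
    exact hV ((eq_bot_iff_forall _).2 h1)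
  have hC : centralizer (pCore 3 G : Set G) ≤ pCore 3 G := by
    refine Core.centralizer_pCore_le ((eq_bot_iff_forall _).2 fun a ha => ?_)
    exact (eq_one_or h (hV3 v hv) (pow_four h ((isPGroup_of_not_dvd h).2
      Core.not_dvd_card_pPrimeCore) ha) (Core.le_centralizer_of_inf_eq_bot
        (inf_comm (pCore 3 G) _ ▸ Core.pCore_inf_pPrimeCore) ha v hv)).resolve_left hv1
  have hinv : ∀ t : G, orderOf t = 2 → ∀ v ∈ pCore 3 G, t * v * t⁻¹ = v⁻¹ := fun t ht v hv => by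
    have ht2 : t ^ 2 = 1 := ht ▸ pow_orderOf_eq_one t
    have h1 : MonoidHom.FixedPointFree (MulAut.conjNormal (H := pCore 3 G) t) := fun r hr => by
      refine Subtype.ext ((eq_one_or h (hV3 r r.2) (b := t) (by rw [show 4 = 2 * 2 from rfl,
        pow_mul, ht2, one_pow]) ?_).resolve_right ?_)
      · exact (mul_inv_eq_iff_eq_mul.1 (congrArg Subtype.val hr)).symm
      · rintro rfl
        simp at ht
    have h2 := h1.coe_eq_inv_of_involutive fun r => by
      rw [← MulAut.mul_apply, ← map_mul, ← sq, ht2, map_one, MulAut.one_apply]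
    exact congrArg Subtype.val (congrFun h2 ⟨v, hv⟩)
  have hab : IsMulCommutative (pCore 3 G) := le_centralizer_iff_isMulCommutative.1 fun a ha b hb => by
    have h1 := hinv t ht _ (mul_mem ha hb)
    rw [← conj_mul, hinv t ht a ha, hinv t ht b hb, ← mul_inv_rev] at h1
    exact inv_injective h1
  have h' : ∀ g : G ⧸ pCore 3 G, g ^ 3 = 1 ∨ g ^ 4 = 1 := fun g => by
    obtain ⟨g, rfl⟩ := QuotientGroup.mk_surjective g
    rcases h g with h1 | h1
    · left; rw [← QuotientGroup.mk_pow, h1, QuotientGroup.mk_one]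
    · right; rw [← QuotientGroup.mk_pow, h1, QuotientGroup.mk_one]
  have ht2 : t ^ 2 = 1 := ht ▸ pow_orderOf_eq_one t
  have h4 : ∀ g : G ⧸ pCore 3 G, g ^ 4 = 1 := fun g => by
    refine (h' g).elim (fun h1 => ?_) id
    obtain ⟨g, rfl⟩ := QuotientGroup.mk_surjective g
    rcases eq_one_or h' h1 (b := (t : G ⧸ pCore 3 G)) (by
      rw [← QuotientGroup.mk_pow, show 4 = 2 * 2 from rfl, pow_mul, ht2]; simp) (by
      rw [← QuotientGroup.mk_mul, ← QuotientGroup.mk_mul, QuotientGroup.eq]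
      refine hC fun a ha => ?_
      have h2 := hinv t ht a ha
      have h3 := hinv t ht _ (Normal.conj_mem inferInstance a ha g)
      calc a * ((g * t)⁻¹ * (t * g)) = t⁻¹ * g⁻¹ * (g * (t * a * t⁻¹) * g⁻¹) * t * g := by group
        _ = t⁻¹ * g⁻¹ * (g * a * g⁻¹)⁻¹ * t * g := by rw [h2]; group
        _ = _ := by rw [← h3]; group) with h2 | h2
    · rw [h2, one_pow]
    · rw [eq_one_of_three_four (hV3 t ((QuotientGroup.eq_one_iff t).1 h2)) (by
        rw [show 4 = 2 * 2 from rfl, pow_mul, ht2, one_pow])] at ht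
      simp at ht
  have := (nontrivial_iff_ne_bot _).2 hV
  refine ⟨⟨hab, hV3⟩, Frob.isFC_of_action (QuotientGroup.lift (pCore 3 G)
    (MulAut.conjNormal (H := pCore 3 G)) fun a ha => MulEquiv.ext fun b => Subtype.ext ?_)
    fun g hg k hk => ?_, fun g => ⟨2, h4 g⟩⟩
  · exact mul_inv_eq_iff_eq_mul.2 (congrArg Subtype.val (mul_comm (⟨a, ha⟩ : pCore 3 G) b))
  · obtain ⟨g, rfl⟩ := QuotientGroup.mk_surjective g
    rcases h g with h1 | h1
    · exact absurd (eq_one_of_three_four (by rw [← QuotientGroup.mk_pow, h1, QuotientGroup.mk_one])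
        (h4 _)) hg
    · refine Subtype.ext ((eq_one_or h (hV3 k k.2) h1 ?_).resolve_right ?_)
      · exact (mul_inv_eq_iff_eq_mul.1 (congrArg Subtype.val hk)).symm
      · rintro rfl
        exact hg rfl

theorem caseB (hV : pCore 2 G ≠ ⊥) {y : G} (hy : orderOf y = 3) :
    (pCore 2 G).index = 3 ∨ (IsElementaryAbelian 2 (pCore 2 G) ∧
      Nonempty (G ⧸ pCore 2 G ≃* Equiv.Perm (Fin 3)) ∧ ¬ ∀ g : G, g ^ 4 = 1 → g ^ 2 = 1) := by
  have hV4 := fun a => pow_four h (Core.isPGroup_pCore (G := G) 2) (a := a)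
  obtain ⟨P⟩ : Nonempty (Sylow 3 G) := inferInstance
  have hP3 := fun a => pow_three h P.isPGroup' (a := a)
  have hP : Nat.card (P : Subgroup G) = 3 := by
    have h1 := (Frob.isFC_of_fpf (A := P) le_normalizer_of_normal hV fun a ha ha1 k hk hc =>
      (eq_one_or h (hP3 a ha) (hV4 k hk) hc).resolve_left ha1).isCyclic_of_odd (p := 3)
      (by norm_num) (P.isPGroup'.to_subgroup ⊤)
    have h2 : IsCyclic (P : Subgroup G) := isCyclic_of_surjective _ topEquiv.surjective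
    refine Nat.dvd_antisymm ?_ (P.dvd_card_of_dvd_card (hy ▸ orderOf_dvd_natCard y))
    rw [← IsCyclic.exponent_eq_card]
    exact Monoid.exponent_dvd_of_forall_pow_eq_one fun a => Subtype.ext (hP3 a a.2)
  by_cases hN : normalizer ((P : Subgroup G) : Set G) ≤ centralizer ((P : Subgroup G) : Set G)
  · left
    have h1 := MonoidHom.ker_transferSylow_isComplement' P hN
    have h2 := Core.le_pCore ((isPGroup_of_not_dvd h).2 (MonoidHom.not_dvd_card_ker_transferSylow P hN))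
    have h3 := index_dvd_of_le h2
    rw [h1.symm.index_eq_card, hP] at h3
    refine ((Nat.dvd_prime Nat.prime_three).1 h3).resolve_left fun h4 => ?_
    rw [eq_one_of_three_four (hy ▸ pow_orderOf_eq_one y) (hV4 y (index_eq_one.1 h4 ▸ mem_top y))]
      at hy
    simp at hy
  right
  obtain ⟨s, hs, hsC⟩ := SetLike.not_le_iff_exists.1 hN
  obtain ⟨x, hx, hsx⟩ : ∃ x ∈ (P : Subgroup G), x * s ≠ s * x := by
    by_contra h1
    push Not at h1
    exact hsC h1
  have hx3 := hP3 x hx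
  have hx1 : x ≠ 1 := by rintro rfl; simp at hsx
  have hmem : ∀ a ∈ (P : Subgroup G), a = 1 ∨ a = x ∨ a = x⁻¹ := fun a ha => by
    have h1 : (⟨a, ha⟩ : (P : Subgroup G)) ∈ zpowers ⟨x, hx⟩ := by
      rw [zpowers_eq_top_of_prime_card hP (by simpa using hx1)]; trivial
    obtain ⟨k, hk⟩ := mem_powers_iff_mem_zpowers.2 h1
    obtain rfl : x ^ k = a := congrArg Subtype.val hk
    rw [pow_eq_pow_mod k hx3]
    have : k % 3 = 0 ∨ k % 3 = 1 ∨ k % 3 = 2 := by omega
    rcases this with h | h | h <;> rw [h]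
    · simp
    · simp
    · exact Or.inr (Or.inr (by rw [eq_inv_iff_mul_eq_one, ← pow_succ, hx3]))
  have hsx' : s * x * s⁻¹ = x⁻¹ := by
    rcases hmem _ ((mem_normalizer_iff.1 hs x).1 hx) with h1 | h1 | h1
    · exact absurd (by simpa using h1) hx1
    · exact absurd (mul_inv_eq_iff_eq_mul.1 h1).symm hsx
    · exact h1
  have hs2 : s ^ 2 = 1 := by
    have h1 : x * s ^ 2 = s ^ 2 * x := by
      calc x * s ^ 2 = (s * x * s⁻¹)⁻¹ * s ^ 2 := by rw [hsx', inv_inv]
        _ = s * (s * x * s⁻¹) * s := by rw [hsx', sq]; nth_rw 1 [← hsx']; group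
        _ = _ := by rw [sq]; group
    rcases h s with h2 | h2
    · refine absurd ?_ hsx
      calc x * s = x * s ^ 2 * s ^ 2 := by
            rw [mul_assoc, ← pow_add, show 2 + 2 = 3 + 1 from rfl, pow_succ, h2, one_mul]
        _ = s ^ 2 * s ^ 2 * x := by rw [h1, mul_assoc, h1, mul_assoc]
        _ = _ := by rw [← pow_add, show 2 + 2 = 3 + 1 from rfl, pow_succ, h2, one_mul]
    · exact (eq_one_or h hx3 (by rw [← pow_mul, show 2 * 2 * 2 = 4 * 2 from rfl, pow_mul, h2,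
        one_pow]) h1).resolve_left hx1
  have hxV : x ∉ pCore 2 G := fun h1 => hx1 (eq_one_of_three_four hx3 (hV4 x h1))
  have h4 : ∀ s : G, s ^ 2 = 1 → s * x * s⁻¹ = x⁻¹ → s ∉ pCore 2 G ∧
      ∀ v ∈ pCore 2 G, (v * s) ^ 4 = 1 := fun s hs2 hsx' => by
    have h1 : s ∉ pCore 2 G := fun h1 => hxV (by
      have h2 := mul_mem h1 (Normal.conj_mem inferInstance _ (inv_mem h1) x)
      rwa [← mul_assoc, ← mul_assoc, hsx', show x⁻¹ * x⁻¹ = x by
        rw [← mul_inv_rev, inv_eq_iff_mul_eq_one, ← hx3, pow_succ, sq]] at h2)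
    refine ⟨h1, fun v hv => (h _).resolve_left fun h2 => h1 ?_⟩
    rw [← QuotientGroup.eq_one_iff] at hv ⊢
    have h3 := congrArg (QuotientGroup.mk' (pCore 2 G)) h2
    have h5 := congrArg (QuotientGroup.mk' (pCore 2 G)) hs2
    simp only [map_pow, map_mul, QuotientGroup.mk'_apply, hv, one_mul, map_one] at h3 h5
    rwa [pow_succ, h5, one_mul] at h3
  have h5 : ∀ s : G, s ^ 2 = 1 → s * x * s⁻¹ = x⁻¹ →
      (x * s) ^ 2 = 1 ∧ x * s * x * (x * s)⁻¹ = x⁻¹ := fun s hs2 hsx' =>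
    ⟨by calc (x * s) ^ 2 = x * (s * x * s⁻¹) * s ^ 2 := by simp only [sq]; group
          _ = 1 := by rw [hsx', hs2]; group,
      by calc x * s * x * (x * s)⁻¹ = x * (s * x * s⁻¹) * x⁻¹ := by group
          _ = _ := by rw [hsx']; group⟩
  have h6 : ∀ s v : G, s ^ 2 = 1 → (v * s) ^ 2 = v * (s * v * s⁻¹) := fun s v hs => by
    rw [show s⁻¹ = s by rw [inv_eq_iff_mul_eq_one, ← sq, hs], sq]; group
  have h7 : ∀ x : G, x ^ 3 = 1 → x ≠ 1 → ∀ u ∈ pCore 2 G,
      u * (x * u * x⁻¹) * (x * x * u * (x * x)⁻¹) = 1 := fun x hx3 hx1 u hu => by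
    have h1 : MonoidHom.FixedPointFree (MulAut.conjNormal (H := pCore 2 G) x) := fun r hr =>
      Subtype.ext ((eq_one_or h hx3 (hV4 r r.2)
        (mul_inv_eq_iff_eq_mul.1 (congrArg Subtype.val hr))).resolve_left hx1)
    have h2 := h1.prod_pow_eq_one (n := 3) (by
      ext r
      have : (x * (x * x)) = 1 := by rw [← hx3, pow_succ', sq]
      simp only [Function.iterate_succ_apply', Function.iterate_zero, id, ← MulAut.mul_apply,
        ← map_mul, this, map_one, MulAut.one_apply]) ⟨u, hu⟩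
    simpa [List.range_succ, mul_assoc] using congrArg Subtype.val h2
  have hxx : x * x = x⁻¹ := by rw [eq_inv_iff_mul_eq_one, ← hx3, pow_succ, sq]
  have h8 : ∀ v ∈ pCore 2 G, v ^ 2 = 1 := fun v hv => by
    have hu := Normal.conj_mem inferInstance v hv s
    have hu' := Normal.conj_mem inferInstance _ hu x
    have h9 := h7 x hx3 hx1 _ hu
    have h10 := h7 x⁻¹ (by rw [inv_pow, hx3, inv_one]) (by simpa using hx1) _ hu
    rw [hxx] at h9
    rw [← mul_inv_rev, hxx, inv_inv] at h10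
    refine sq_eq_one_of (a := s * v * s⁻¹) (b := x * (s * v * s⁻¹) * x⁻¹) ?_ ?_ ?_ ?_ (hV4 _ hu)
      (hV4 _ hu')
    · rw [← inv_inj, inv_eq_of_mul_eq_one_right h9, eq_inv_iff_mul_eq_one, ← mul_assoc,
        mul_eq_one_comm, ← h10]
      group
    · rw [← h6 s v hs2, ← pow_mul, (h4 s hs2 hsx').2 v hv]
    · have h11 := h5 s hs2 hsx'
      have h12 := (h4 _ h11.1 h11.2).2 v hv
      rw [show 4 = 2 * 2 from rfl, pow_mul, h6 _ v h11.1] at h12
      rw [← h12]; group
    · have h11 := h5 s hs2 hsx'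
      have h11 := h5 _ h11.1 h11.2
      have h12 := (h4 _ h11.1 h11.2).2 v hv
      rw [show 4 = 2 * 2 from rfl, pow_mul, h6 _ v h11.1, ← mul_assoc x, hxx] at h12
      rw [inv_eq_of_mul_eq_one_right h9, ← h12]; group
  have hinv : ∀ v ∈ pCore 2 G, v⁻¹ = v := fun v hv => by
    rw [inv_eq_iff_mul_eq_one, ← sq, h8 v hv]
  refine ⟨⟨le_centralizer_iff_isMulCommutative.1 fun a ha b hb => ?_, h8⟩, ?_, fun h9 => ?_⟩
  · rw [← hinv _ (mul_mem hb ha), mul_inv_rev, hinv a ha, hinv b hb]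
  · obtain ⟨S⟩ : Nonempty (Sylow 2 G) := inferInstance
    have h9 : (S : Subgroup G).index = 3 := by
      have h10 : (S : Subgroup G).index ∣ 3 := by
        obtain ⟨k, hk⟩ : ∃ k, (S : Subgroup G).index = 3 ^ k :=
          Cls.eq_pow_of_forall_prime_eq FiniteIndex.index_ne_zero fun q hq hd =>
            (primes h q hq (hd.trans (index_dvd_card _))).resolve_left
              (by rintro rfl; exact S.not_dvd_index hd)
        rw [← hP, hk]
        exact P.pow_dvd_card_of_pow_dvd_card (hk ▸ index_dvd_card _)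
      refine ((Nat.dvd_prime Nat.prime_three).1 h10).resolve_left fun h11 => hx1 ?_
      exact eq_one_of_three_four hx3 (pow_four h S.isPGroup' (index_eq_one.1 h11 ▸ mem_top x))
    have e : G ⧸ (S : Subgroup G) ≃ Fin 3 := Finite.equivFinOfCardEq h9
    let f := e.permCongrHom.toMonoidHom.comp (MulAction.toPermHom G (G ⧸ (S : Subgroup G)))
    have hf : f.ker = pCore 2 G := by
      rw [Core.pCore_eq_normalCore S, normalCore_eq_ker, ← MonoidHom.comap_ker,
        (MonoidHom.ker_eq_bot_iff _).2 e.permCongrHom.injective, MonoidHom.comap_bot]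
    refine ⟨(QuotientGroup.quotientMulEquivOfEq hf.symm).trans
      (QuotientGroup.quotientKerEquivOfSurjective f (MonoidHom.range_eq_top.1 ?_))⟩
    have h10 : orderOf (f x) = 3 := orderOf_eq_prime (by rw [← map_pow, hx3, map_one])
      fun h11 => hxV (hf ▸ h11)
    have h11 : orderOf (f s) = 2 := orderOf_eq_prime (by rw [← map_pow, hs2, map_one])
      fun h11 => (h4 s hs2 hsx').1 (hf ▸ h11)
    refine eq_top_of_card_eq _ (Nat.dvd_antisymm (card_subgroup_dvd_card _) ?_)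
    rw [Nat.card_perm, Nat.card_fin]
    exact Nat.Coprime.mul_dvd_of_dvd_of_dvd (m := 3) (n := 2) (by norm_num)
      (h10.symm.dvd.trans (f.range.orderOf_dvd_natCard ⟨x, rfl⟩))
      (h11.symm.dvd.trans (f.range.orderOf_dvd_natCard ⟨s, rfl⟩))
  · refine hV ((eq_bot_iff_forall _).2 fun v hv => ?_)
    have h10 : ∀ s : G, s ^ 2 = 1 → s * x * s⁻¹ = x⁻¹ → s * v * s⁻¹ = v := fun s hs2 hsx' => by
      have h11 := h9 _ ((h4 s hs2 hsx').2 v hv)
      rw [h6 s v hs2] at h11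
      rw [← inv_eq_of_mul_eq_one_right h11, hinv v hv]
    have h11 := h10 _ (h5 s hs2 hsx').1 (h5 s hs2 hsx').2
    rw [mul_inv_rev, mul_assoc x, mul_assoc x, ← mul_assoc (s * v), h10 s hs2 hsx', ← mul_assoc,
      mul_inv_eq_iff_eq_mul] at h11
    exact (eq_one_or h hx3 (hV4 v hv) h11).resolve_left hx1

theorem cases (hG : Nontrivial G) : pCore 3 G ≠ ⊥ ∨ pCore 2 G ≠ ⊥ := by
  have := Char.solvable_of_two_primes Nat.prime_two Nat.prime_three (primes h)
  obtain ⟨N, hN, -⟩ := Core.exists_isMinNormal_le (N := (⊤ : Subgroup G)) top_ne_bot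
  obtain ⟨r, hr, hN'⟩ := hN.exists_isPGroup inferInstance
  have := hN.normal
  have := Fact.mk hr
  have := (nontrivial_iff_ne_bot _).2 hN.ne_bot
  obtain ⟨k, hk, hk'⟩ := hN'.nontrivial_iff_card.1 this
  rcases primes h r hr ((dvd_pow_self r hk.ne').trans (hk' ▸ card_subgroup_dvd_card N)) with
    rfl | rfl
  · exact Or.inr fun h1 => hN.ne_bot (le_bot_iff.1 (h1 ▸ Core.le_pCore hN'))
  · exact Or.inl fun h1 => hN.ne_bot (le_bot_iff.1 (h1 ▸ Core.le_pCore hN'))

end


/-- A finite group whose set of element orders is exactly {1, 2, 3, 4} has a normal subgroup N such that either N is a 2-group of exponent 4 and nilpotency class at most 2 with G/N of order 3, or N is an elementary abelian 2-group with G/N isomorphic to the symmetric group of degree 3, or N is an elementary abelian 3-group with G/N cyclic of order 4 or quaternion of order 8. -/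
theorem result {G : Type*} [Group G] [Finite G] (h : Set.range (orderOf : G → ℕ) = {k : ℕ | 1 ≤ k ∧ k ≤ 4}) :
    ∃ (N : Subgroup G) (_ : N.Normal),
      (IsPGroup 2 ↥N ∧ Monoid.exponent ↥N = 4 ∧ Group.nilpotencyClass ↥N ≤ 2 ∧ N.index = 3) ∨
      (Cfsg.IsElementaryAbelian 2 N ∧ Nonempty (G ⧸ N ≃* Equiv.Perm (Fin 3))) ∨
      (Cfsg.IsElementaryAbelian 3 N ∧ ((IsCyclic (G ⧸ N) ∧ N.index = 4) ∨ Nonempty (G ⧸ N ≃* QuaternionGroup 2))) := by
  have hex : ∀ k, 1 ≤ k → k ≤ 4 → ∃ g : G, orderOf g = k := fun k h1 h2 =>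
    (h ▸ (⟨h1, h2⟩ : k ∈ {k : ℕ | 1 ≤ k ∧ k ≤ 4}) : k ∈ Set.range (orderOf : G → ℕ))
  have h' : ∀ g : G, g ^ 3 = 1 ∨ g ^ 4 = 1 := fun g => by
    obtain ⟨h1, h2⟩ : orderOf g ∈ {k : ℕ | 1 ≤ k ∧ k ≤ 4} := h ▸ ⟨g, rfl⟩
    simp only [← orderOf_dvd_iff_pow_eq_one]
    interval_cases orderOf g <;> simp
  obtain ⟨t, ht⟩ := hex 2 (by norm_num) (by norm_num)
  obtain ⟨x, hx⟩ := hex 3 (by norm_num) (by norm_num)
  obtain ⟨y, hy⟩ := hex 4 (by norm_num) (by norm_num)
  have hx3 : x ^ 3 = 1 := hx ▸ pow_orderOf_eq_one x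
  have hx1 : x ≠ 1 := by rintro rfl; simp at hx
  rcases cases h' ⟨x, 1, hx1⟩ with hV | hV
  · obtain ⟨h1, h2, h3⟩ := caseA h' hV ht
    refine ⟨_, inferInstance, Or.inr (Or.inr ⟨h1, ?_⟩)⟩
    have h4 : Monoid.exponent (G ⧸ pCore 3 G) = 4 := by
      refine Nat.dvd_antisymm (Monoid.exponent_dvd_of_forall_pow_eq_one fun g => ?_) ?_
      · refine pow_four (fun g => ?_) (h3.to_subgroup ⊤) (mem_top g)
        obtain ⟨g, rfl⟩ := QuotientGroup.mk_surjective g
        rcases h' g with h1 | h1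
        · left; rw [← QuotientGroup.mk_pow, h1, QuotientGroup.mk_one]
        · right; rw [← QuotientGroup.mk_pow, h1, QuotientGroup.mk_one]
      · refine dvd_trans (Eq.dvd ?_) (Monoid.order_dvd_exponent (y : G ⧸ pCore 3 G))
        refine (orderOf_eq_prime_pow (p := 2) (n := 1) (fun h4 => ?_) ?_).symm
        · rw [← QuotientGroup.mk_pow, QuotientGroup.eq_one_iff] at h4
          have h5 := h1.2 _ h4
          rw [← pow_mul, ← orderOf_dvd_iff_pow_eq_one, hy] at h5
          norm_num at h5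
        · rw [← QuotientGroup.mk_pow, show 2 ^ (1 + 1) = orderOf y from hy.symm,
            pow_orderOf_eq_one, QuotientGroup.mk_one]
    rcases h2.isCyclic_or_quaternion (h3.to_subgroup ⊤) with h5 | ⟨-, k, hk, ⟨e⟩⟩
    · have h6 : IsCyclic (G ⧸ pCore 3 G) := isCyclic_of_surjective _ topEquiv.surjective
      exact Or.inl ⟨h6, by rw [index, ← IsCyclic.exponent_eq_card, h4]⟩
    · have h5 := Monoid.order_dvd_exponent (QuaternionGroup.a 1 : QuaternionGroup (2 ^ k))
      rw [QuaternionGroup.orderOf_a_one, ← Monoid.exponent_eq_of_mulEquiv (topEquiv.symm.trans e),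
        h4] at h5
      obtain rfl : k = 1 := by
        have h6 := Nat.le_of_dvd (by norm_num) h5
        have h7 : 2 ^ k ≤ 2 ^ 1 := by omega
        exact le_antisymm ((Nat.pow_le_pow_iff_right (by norm_num)).1 h7) hk
      exact Or.inr ⟨topEquiv.symm.trans e⟩
  · refine ⟨_, inferInstance, (caseB h' hV hx).elim (fun h1 => Or.inl ⟨Core.isPGroup_pCore 2, ?_, ?_,
      h1⟩) fun h1 => Or.inr (Or.inl ⟨h1.1, h1.2.1⟩)⟩
    · refine Nat.dvd_antisymm (Monoid.exponent_dvd_of_forall_pow_eq_one fun g =>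
        Subtype.ext (pow_four h' (Core.isPGroup_pCore 2) g.2)) ?_
      have h2 : y ∈ pCore 2 G := by
        have h3 := (pCore 2 G).pow_index_mem y
        rw [h1] at h3
        rwa [← inv_mem_iff, inv_eq_of_mul_eq_one_left (by
          rw [← pow_succ', show 3 + 1 = orderOf y from hy.symm, pow_orderOf_eq_one] :
            y * y ^ 3 = 1)] at h3
      have h3 := Monoid.order_dvd_exponent (⟨y, h2⟩ : pCore 2 G)
      rwa [orderOf_mk, hy] at h3
    · have := (Core.isPGroup_pCore (G := G) 2).isNilpotent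
      have h2 : ∀ r : pCore 2 G, MulAut.conjNormal x r = r → r = 1 := fun r hr =>
        Subtype.ext ((eq_one_or h' hx3 (pow_four h' (Core.isPGroup_pCore 2) r.2)
          (mul_inv_eq_iff_eq_mul.1 (congrArg Subtype.val hr))).resolve_left hx1)
      refine Subgroup.lowerCentralSeries_eq_bot_iff_nilpotencyClass_le.1
        ((S3779.result Nat.prime_three (MulAut.conjNormal x) (orderOf_eq_prime ?_ fun h3 => ?_)
          h2).2.1 rfl)
      · rw [← map_pow, hx3, map_one]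
      · exact hV ((eq_bot_iff_forall _).2 fun v hv => congrArg Subtype.val
          (h2 ⟨v, hv⟩ (by rw [h3]; rfl)))

end Cfsg.Agent.S4006
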