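import Cfsg.Statements.S4005
import Mathlib
import Cfsg.Agent.S4006

set_option autoImplicit false
open Cfsg

namespace Cfsg.Agent.S4005

/-- A finite group whose set of element orders is exactly {1, 2, 3} has either a normal elementary abelian 3-subgroup of index 2 or a normal elementary abelian 2-subgroup of index 3. -/
theorem result {G : Type*} [Group G] [Finite G] (h : Set.range (orderOf : G → ℕ) = {k : ℕ | 1 ≤ k ∧ k ≤ 3}) :
    (∃ N : Subgroup G, N.Normal ∧ Cfsg.IsElementaryAbelian 3 N ∧ N.index = 2) ∨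
      (∃ N : Subgroup G, N.Normal ∧ Cfsg.IsElementaryAbelian 2 N ∧ N.index = 3) := by
  have hex : ∀ k, 1 ≤ k → k ≤ 3 → ∃ g : G, orderOf g = k := fun k h1 h2 =>
    (h ▸ (⟨h1, h2⟩ : k ∈ {k : ℕ | 1 ≤ k ∧ k ≤ 3}) : k ∈ Set.range (orderOf : G → ℕ))
  have h0 : ∀ g : G, g ^ 3 = 1 ∨ g ^ 2 = 1 := fun g => by
    obtain ⟨h1, h2⟩ : orderOf g ∈ {k : ℕ | 1 ≤ k ∧ k ≤ 3} := h ▸ ⟨g, rfl⟩
    simp only [← orderOf_dvd_iff_pow_eq_one]
    interval_cases orderOf g <;> simp
  have h' : ∀ g : G, g ^ 3 = 1 ∨ g ^ 4 = 1 := fun g => (h0 g).imp_right fun h1 => by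
    rw [show 4 = 2 * 2 from rfl, pow_mul, h1, one_pow]
  have h2 : ∀ g : G, g ^ 4 = 1 → g ^ 2 = 1 := fun g hg => (h0 g).elim
    (fun h1 => by rw [S4006.eq_one_of_three_four h1 hg, one_pow]) id
  obtain ⟨t, ht⟩ := hex 2 (by norm_num) (by norm_num)
  obtain ⟨x, hx⟩ := hex 3 (by norm_num) (by norm_num)
  have hx1 : x ≠ 1 := by rintro rfl; simp at hx
  rcases S4006.cases h' ⟨x, 1, hx1⟩ with hV | hV
  · obtain ⟨h1, h3, h4⟩ := S4006.caseA h' hV ht
    refine Or.inl ⟨_, inferInstance, h1, ?_⟩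
    have h5 : ∀ g : G ⧸ pCore 3 G, g ^ 2 = 1 := fun g => by
      obtain ⟨g, rfl⟩ := QuotientGroup.mk_surjective g
      rcases h0 g with h5 | h5
      · obtain ⟨k, hk⟩ := IsPGroup.iff_orderOf.1 h4 g
        rw [orderOf_eq_one_iff.1 (Nat.eq_one_of_dvd_coprimes (Nat.Coprime.pow_left k (by norm_num))
          hk.dvd (orderOf_dvd_of_pow_eq_one (n := 3) (by
            rw [← QuotientGroup.mk_pow, h5, QuotientGroup.mk_one]))), one_pow]
      · rw [← QuotientGroup.mk_pow, h5, QuotientGroup.mk_one]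
    have h6 := h3.isCyclic_of_pow_eq_one Nat.prime_two (A := ⊤) fun a _ => h5 a
    have h7 : IsCyclic (G ⧸ pCore 3 G) := isCyclic_of_surjective _ Subgroup.topEquiv.surjective
    have h8 := Monoid.exponent_dvd_of_forall_pow_eq_one h5
    rw [IsCyclic.exponent_eq_card] at h8
    refine ((Nat.dvd_prime Nat.prime_two).1 h8).resolve_left fun h9 => ?_
    have h10 := h1.2 t (Subgroup.index_eq_one.1 h9 ▸ Subgroup.mem_top t)
    rw [← orderOf_dvd_iff_pow_eq_one, ht] at h10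
    norm_num at h10
  · have h3 : ∀ v ∈ pCore 2 G, v ^ 2 = 1 := fun v hv =>
      h2 v (S4006.pow_four h' (Core.isPGroup_pCore 2) hv)
    have hinv : ∀ v ∈ pCore 2 G, v⁻¹ = v := fun v hv => by
      rw [inv_eq_iff_mul_eq_one, ← sq, h3 v hv]
    refine Or.inr ⟨_, inferInstance, ⟨Subgroup.le_centralizer_iff_isMulCommutative.1
      fun a ha b hb => ?_, h3⟩, (S4006.caseB h' hV hx).resolve_right fun h1 => h1.2.2 h2⟩
    rw [← hinv _ (mul_mem hb ha), mul_inv_rev, hinv a ha, hinv b hb]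

end Cfsg.Agent.S4005
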