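import Cfsg.Statements.S4198
import Mathlib

set_option autoImplicit false
open Cfsg

namespace Cfsg.Agent.S4198

open Equiv Equiv.Perm

theorem types_bound (n : ℕ) : {m : Multiset ℕ | m.sum ≤ n ∧ ∀ a ∈ m, 2 ≤ a}.Finite ∧
    {m : Multiset ℕ | m.sum ≤ n ∧ ∀ a ∈ m, 2 ≤ a}.ncard ≤ Nat.fib (n + 1) := by
  have h0 : ∀ n ≤ 1, {m : Multiset ℕ | m.sum ≤ n ∧ ∀ a ∈ m, 2 ≤ a} ⊆ {0} := fun n hn m hm =>
    Multiset.eq_zero_of_forall_notMem fun a ha => by
      have := hm.2 a ha
      have := (Multiset.le_sum_of_mem ha).trans hm.1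
      omega
  induction n using Nat.twoStepInduction with
  | zero => exact ⟨(Set.finite_singleton _).subset (h0 _ (by simp)),
      (Set.ncard_le_ncard (h0 _ (by simp))).trans (by simp)⟩
  | one => exact ⟨(Set.finite_singleton _).subset (h0 _ (by simp)),
      (Set.ncard_le_ncard (h0 _ (by simp))).trans (by simp)⟩
  | more n h1 h2 =>
    have h3 : {m : Multiset ℕ | m.sum ≤ n + 2 ∧ ∀ a ∈ m, 2 ≤ a} ⊆
        (fun m => (n + 2 - m.sum) ::ₘ m) '' {m : Multiset ℕ | m.sum ≤ n ∧ ∀ a ∈ m, 2 ≤ a} ∪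
        {m : Multiset ℕ | m.sum ≤ n + 1 ∧ ∀ a ∈ m, 2 ≤ a} := by
      rintro m ⟨hm, hm'⟩
      rcases hm.lt_or_eq with hm | hm
      · exact Or.inr ⟨by omega, hm'⟩
      · left
        obtain ⟨a, ha⟩ := Multiset.exists_mem_of_ne_zero (s := m) (by rintro rfl; simp at hm)
        obtain ⟨m, rfl⟩ := Multiset.exists_cons_of_mem ha
        have := hm' a ha
        rw [Multiset.sum_cons] at hm
        refine ⟨m, ⟨by omega, fun b hb => hm' b (Multiset.mem_cons_of_mem hb)⟩, ?_⟩
        simp only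
        congr 1
        omega
    have h4 := (h1.1.image fun m => (n + 2 - m.sum) ::ₘ m).union h2.1
    refine ⟨h4.subset h3, (Set.ncard_le_ncard h3 h4).trans ((Set.ncard_union_le _ _).trans ?_)⟩
    rw [Nat.fib_add_two]
    exact add_le_add ((Set.ncard_image_le h1.1).trans h1.2) h2.2

theorem fib_le (n : ℕ) : Nat.fib (n + 6) ≤ 2 ^ (n + 3) := by
  induction n with
  | zero => decide
  | succ n ih =>
    have := Nat.fib_le_fib_succ (n := n + 5)
    rw [show n + 1 + 6 = n + 5 + 2 by ring, Nat.fib_add_two, show n + 1 + 3 = n + 3 + 1 by ring,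
      pow_succ]
    rw [show n + 5 + 1 = n + 6 by ring] at this ⊢
    omega

variable {α : Type*} [Fintype α] [DecidableEq α]

theorem isConj_of_sign {σ τ : alternatingGroup α} {π : Perm α} (h : sign π = 1)
    (hπ : π * σ * π⁻¹ = τ) : IsConj σ τ :=
  isConj_iff.2 ⟨⟨π, mem_alternatingGroup.2 h⟩, Subtype.ext hπ⟩

theorem exists_odd {σ τ : alternatingGroup α} (hc : IsConj (σ : Perm α) τ) (hn : ¬ IsConj σ τ) :
    ∃ π : Perm α, sign π = -1 ∧ π * σ * π⁻¹ = τ := by
  obtain ⟨π, hπ⟩ := isConj_iff.1 hc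
  exact ⟨π, (Int.units_eq_one_or _).resolve_left fun h => hn (isConj_of_sign h hπ), hπ⟩

theorem split (h5 : 5 ≤ Fintype.card α) {σ τ : alternatingGroup α} (hc : IsConj (σ : Perm α) τ)
    (hn : ¬ IsConj σ τ) : ∃ ρ : Perm α, sign ρ = -1 ∧ ρ.cycleType ≠ {2} ∧ ∃ a m,
      (σ : Perm α).cycleType = (a + 1) ::ₘ m ∧ ρ.cycleType = a ::ₘ m ∧ Even a ∧ ∀ b ∈ m, Odd b := by
  have h1 : Fintype.card α < (σ : Perm α).cycleType.sum + 2 := by
    rw [sum_cycleType]
    exact not_le.1 fun h => hn (alternatingGroup.isConj_of hc h)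
  have h2 : ∀ b ∈ (σ : Perm α).cycleType, Odd b := fun b hb => by
    obtain ⟨c, d, h3, h4, h5, rfl⟩ := mem_cycleType_iff.1 hb
    by_contra h6
    obtain ⟨π, hπ, hπ'⟩ := exists_odd hc hn
    refine hn (isConj_of_sign (π := π * c) ?_ ?_)
    · rw [map_mul, hπ, h5.sign, (Nat.not_odd_iff_even.1 h6).neg_one_pow]; simp
    · have h7 : Commute c σ := h3 ▸ (Commute.refl c).mul_right h4.commute
      rw [← hπ', mul_assoc π, h7.eq]; group
  obtain ⟨a, ha⟩ := Multiset.exists_mem_of_ne_zero (s := (σ : Perm α).cycleType)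
    (fun h => by rw [h] at h1; simp at h1; omega)
  obtain ⟨m, hm⟩ := Multiset.exists_cons_of_mem ha
  obtain ⟨k, rfl⟩ := h2 a ha
  have h3 := two_le_of_mem_cycleType ha
  have h4 := sum_cycleType_le (σ : Perm α)
  have h6 := sign_of_cycleType (σ : Perm α)
  rw [hm, Multiset.sum_cons] at h1 h4 h6
  obtain ⟨ρ, hρ⟩ := (exists_with_cycleType_iff α (m := (2 * k) ::ₘ m)).2 ⟨by
    rw [Multiset.sum_cons]; omega, fun b hb => by
      rcases Multiset.mem_cons.1 hb with rfl | hb
      · omega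
      · exact two_le_of_mem_cycleType (hm ▸ Multiset.mem_cons_of_mem hb)⟩
  refine ⟨ρ, ?_, fun h => ?_, 2 * k, m, hm, hρ, by simp,
    fun b hb => h2 b (hm ▸ Multiset.mem_cons_of_mem hb)⟩
  · rw [mem_alternatingGroup.1 σ.2, Multiset.card_cons] at h6
    rw [sign_of_cycleType, hρ, Multiset.sum_cons, Multiset.card_cons]
    rw [show 2 * k + 1 + m.sum + (m.card + 1) = 2 * k + m.sum + (m.card + 1) + 1 by ring,
      pow_succ, mul_neg_one] at h6
    exact neg_eq_iff_eq_neg.1 h6.symm
  · have h7 := congrArg Multiset.sum (hρ.symm.trans h)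
    rw [Multiset.sum_cons, Multiset.sum_singleton] at h7
    omega

theorem card_lt (h5 : 5 ≤ Fintype.card α) :
    Nat.card (ConjClasses (alternatingGroup α)) < Nat.card (ConjClasses (Perm α)) := by
  classical
  let π := ConjClasses.map (alternatingGroup α).subtype
  let r := Function.invFun π
  have hπ : ∀ c, π c = ConjClasses.mk ((Quotient.out c : alternatingGroup α) : Perm α) := fun c => by
    conv_lhs => rw [← Quotient.out_eq c]
    rfl
  have h0 : ∀ c d : ConjClasses (alternatingGroup α), IsConj (Quotient.out c) (Quotient.out d) →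
      c = d := fun c d h => by
    rw [← Quotient.out_eq c, ← Quotient.out_eq d]; exact Quotient.sound h
  have h1 : ∀ c d, π c = π d → IsConj ((Quotient.out c : alternatingGroup α) : Perm α)
      (Quotient.out d : alternatingGroup α) := fun c d h => by
    rwa [hπ, hπ, ConjClasses.mk_eq_mk_iff_isConj] at h
  have h2 : ∀ c, π c = π (r (π c)) := fun c => (Function.invFun_eq ⟨c, rfl⟩).symm
  have h3 := fun c (h : c ≠ r (π c)) => split h5 (h1 _ _ (h2 c)) fun h' => h (h0 _ _ h')
  choose! ρ hρ hρ2 a m hm hm' ha hm'' using h3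
  have hs : ∀ {x y : Perm α}, ConjClasses.mk x = ConjClasses.mk y → sign x = sign y := fun h =>
    isConj_iff_eq.1 (sign.map_isConj (ConjClasses.mk_eq_mk_iff_isConj.1 h))
  have hs' : ∀ c (x : Perm α), sign x = -1 → π c ≠ ConjClasses.mk x := fun c x hx h => by
    rw [hπ] at h
    have := hs h
    rw [hx, mem_alternatingGroup.1 (Subtype.property _)] at this
    exact absurd this (by decide)
  have : Nontrivial α := Fintype.one_lt_card_iff_nontrivial.1 (by omega)
  obtain ⟨x, y, hxy⟩ := exists_pair_ne α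
  have := Fintype.ofFinite (ConjClasses (alternatingGroup α))
  have := Fintype.ofFinite (ConjClasses (Perm α))
  rw [Nat.card_eq_fintype_card, Nat.card_eq_fintype_card]
  refine Fintype.card_lt_of_injective_of_notMem
    (fun c => if c = r (π c) then π c else ConjClasses.mk (ρ c)) (fun c d h => ?_)
    (b := ConjClasses.mk (swap x y)) ?_
  · simp only at h
    split_ifs at h with hc hd hd
    · rw [hc, h, ← hd]
    · exact absurd h (hs' _ _ (hρ d hd))
    · exact absurd h.symm (hs' _ _ (hρ c hc))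
    · have h4 := isConj_iff_cycleType_eq.1 (ConjClasses.mk_eq_mk_iff_isConj.1 h)
      rw [hm' c hc, hm' d hd] at h4
      have h6 : a c = a d := by
        rcases Multiset.mem_cons.1 (h4 ▸ Multiset.mem_cons_self (a c) (m c)) with h | h
        · exact h
        · exact absurd (hm'' d hd _ h) (Nat.not_odd_iff_even.2 (ha c hc))
      rw [h6, Multiset.cons_inj_right] at h4
      have h7 : π c = π d := by
        rw [hπ, hπ, ConjClasses.mk_eq_mk_iff_isConj, isConj_iff_cycleType_eq, hm c hc, hm d hd,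
          h6, h4]
      obtain ⟨u, hu, hu'⟩ := exists_odd (h1 _ _ (h2 c)) fun h' => hc (h0 _ _ h')
      obtain ⟨v, hv, hv'⟩ := exists_odd (h1 _ _ (h2 d)) fun h' => hd (h0 _ _ h')
      refine h0 _ _ (isConj_of_sign (π := v⁻¹ * u) (by simp [hu, hv]) ?_)
      rw [h7, ← hv'] at hu'
      rw [mul_inv_rev, inv_inv, mul_assoc v⁻¹, mul_assoc v⁻¹, ← mul_assoc (u * _), hu']
      group
  · rintro ⟨c, h⟩
    simp only at h
    split_ifs at h with hc
    · exact hs' _ _ (sign_swap hxy) h
    · have h4 := isConj_iff_cycleType_eq.1 (ConjClasses.mk_eq_mk_iff_isConj.1 h)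
      rw [(isSwap_iff_cycleType.1 ⟨x, y, hxy, rfl⟩)] at h4
      exact hρ2 c hc h4


/-- For n ≥ 5 the alternating group of degree n has strictly fewer conjugacy classes than the symmetric group of degree n, and the symmetric group of degree n (whose classes correspond to the partitions of n) has at most 2^(n−2) conjugacy classes. -/
theorem result (n : ℕ) (hn : 5 ≤ n) : Nat.card (ConjClasses (alternatingGroup (Fin n))) < Nat.card (ConjClasses (Equiv.Perm (Fin n))) ∧ Nat.card (ConjClasses (Equiv.Perm (Fin n))) ≤ 2 ^ (n - 2) := by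
  refine ⟨card_lt (by simpa using hn), ?_⟩
  obtain ⟨k, rfl⟩ := Nat.exists_eq_add_of_le' hn
  refine le_trans ?_ ((types_bound (k + 5)).2.trans (fib_le k))
  have := (types_bound (k + 5)).1.to_subtype
  refine Nat.card_le_card_of_injective (β := {m : Multiset ℕ | m.sum ≤ k + 5 ∧ ∀ a ∈ m, 2 ≤ a})
    (fun c => ⟨(Quotient.out c : Perm (Fin (k + 5))).cycleType, (sum_cycleType_le _).trans (by simp),
      fun a ha => two_le_of_mem_cycleType ha⟩) fun c d h => ?_
  rw [← Quotient.out_eq c, ← Quotient.out_eq d]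
  exact Quotient.sound (isConj_iff_cycleType_eq.2 (Subtype.mk.inj h))

end Cfsg.Agent.S4198
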