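import Cfsg.Statements.S4200
import Cfsg.Agent.Lib.Cls.Basic

set_option autoImplicit false
open Cfsg

namespace Cfsg.Agent.S4200

open Subgroup

section

variable {X : Type*} [Group X] [Finite X]

theorem card_comm [Fintype X] : Nat.card (ConjClasses X) * Nat.card X =
    ∑ x : X, Nat.card (centralizer ({x} : Set X)) := by
  rw [← card_comm_eq_card_conjClasses_mul_card, ← Nat.card_sigma]
  exact Nat.card_congr
    { toFun := fun p => ⟨p.1.2, p.1.1, mem_centralizer_singleton_iff.2 p.2⟩
      invFun := fun p => ⟨(p.2, p.1), mem_centralizer_singleton_iff.1 p.2.2⟩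
      left_inv := fun _ => rfl
      right_inv := fun _ => rfl }

theorem card_swap [Fintype X] (Y : Subgroup X) [Fintype Y] :
    ∑ x : X, Nat.card ↥(Y ⊓ centralizer ({x} : Set X)) =
      ∑ y : Y, Nat.card (centralizer ({(y : X)} : Set X)) := by
  rw [← Nat.card_sigma, ← Nat.card_sigma]
  exact Nat.card_congr
    { toFun := fun p => ⟨⟨p.2, p.2.2.1⟩, p.1, mem_centralizer_singleton_iff.2
        (mem_centralizer_singleton_iff.1 p.2.2.2).symm⟩
      invFun := fun p => ⟨p.2, p.1, p.1.2, mem_centralizer_singleton_iff.2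
        (mem_centralizer_singleton_iff.1 p.2.2).symm⟩
      left_inv := fun _ => rfl
      right_inv := fun _ => rfl }

theorem card_le (Y C : Subgroup X) : Nat.card C ≤ Y.index * Nat.card ↥(Y ⊓ C) := by
  rw [← Core.card_inf_mul_relIndex Y C, mul_comm, ← relIndex_top_right]
  exact Nat.mul_le_mul_right _ (relIndex_le_of_le_right le_top (by
    rw [relIndex_top_right]; exact index_ne_zero_of_finite))

theorem card_lt (Y C : Subgroup X) {g : X} (hg : ∀ c ∈ C, c⁻¹ * g ∉ Y) :
    Nat.card C < Y.index * Nat.card ↥(Y ⊓ C) := by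
  rw [← Core.card_inf_mul_relIndex Y C, mul_comm]
  refine Nat.mul_lt_mul_of_pos_right ?_ Nat.card_pos
  let f : C ⧸ Y.subgroupOf C → X ⧸ Y := Quotient.map' Subtype.val fun a b h => by
    rw [QuotientGroup.leftRel_apply] at h ⊢
    exact h
  have hf : Function.Injective f := fun a b h => by
    obtain ⟨a, rfl⟩ := QuotientGroup.mk_surjective a
    obtain ⟨b, rfl⟩ := QuotientGroup.mk_surjective b
    exact QuotientGroup.eq.2 ((QuotientGroup.eq (s := Y) (a := a) (b := b)).1 h)
  have := Fintype.ofFinite (X ⧸ Y)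
  have := Fintype.ofFinite (C ⧸ Y.subgroupOf C)
  rw [relIndex, index, index, Nat.card_eq_fintype_card, Nat.card_eq_fintype_card]
  refine Fintype.card_lt_of_injective_of_notMem f hf (b := (g : X ⧸ Y)) ?_
  rintro ⟨a, ha⟩
  induction a using QuotientGroup.induction_on with
  | H c => exact hg c c.2 (QuotientGroup.eq.1 ha)

omit [Finite X] in
theorem card_centralizer_sub (Y : Subgroup X) (y : Y) : Nat.card (centralizer ({y} : Set Y)) =
    Nat.card ↥(Y ⊓ centralizer ({(y : X)} : Set X)) := by
  rw [← Cls.centralizer_single_subgroupOf, Core.card_subgroupOf, inf_comm]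

end


/-- Let Y be a subgroup of the finite group X, of index m. Then the numbers of conjugacy classes satisfy k(Y) ≤ m·k(X) and k(X) ≤ m·k(Y), and the second inequality is strict unless Y is normal in X. -/
theorem result {X : Type*} [Group X] [Finite X] (Y : Subgroup X) : Nat.card (ConjClasses Y) ≤ Y.index * Nat.card (ConjClasses X) ∧ Nat.card (ConjClasses X) ≤ Y.index * Nat.card (ConjClasses Y) ∧ (¬ Y.Normal → Nat.card (ConjClasses X) < Y.index * Nat.card (ConjClasses Y)) := by
  have := Fintype.ofFinite X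
  have := Fintype.ofFinite Y
  have hX := card_comm (X := X)
  have hY := card_comm (X := Y)
  have hc := Y.index_mul_card
  have hpos : 0 < Nat.card X := Nat.card_pos
  have hm : 0 < Y.index := Nat.pos_of_ne_zero index_ne_zero_of_finite
  have h1 : Nat.card (ConjClasses X) * Nat.card X ≤
      Y.index * ∑ y : Y, Nat.card (centralizer ({(y : X)} : Set X)) := by
    rw [hX, ← card_swap, Finset.mul_sum]
    exact Finset.sum_le_sum fun x _ => card_le _ _
  have h2 : Y.index * ∑ y : Y, Y.index * Nat.card (centralizer ({y} : Set Y)) =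
      Y.index * Nat.card (ConjClasses Y) * Nat.card X := by
    rw [← Finset.mul_sum, ← hY, ← hc]; ring
  have h3 : ∀ y : Y, Nat.card (centralizer ({(y : X)} : Set X)) ≤
      Y.index * Nat.card (centralizer ({y} : Set Y)) := fun y => by
    rw [card_centralizer_sub]; exact card_le _ _
  refine ⟨?_, ?_, fun hn => ?_⟩
  · refine Nat.le_of_mul_le_mul_right ?_ (Nat.card_pos (α := Y))
    calc _ = ∑ y : Y, Nat.card ↥(Y ⊓ centralizer ({(y : X)} : Set X)) := by
          rw [hY]; simp only [card_centralizer_sub]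
      _ ≤ ∑ y : Y, Nat.card (centralizer ({(y : X)} : Set X)) :=
          Finset.sum_le_sum fun y _ => card_le_of_le inf_le_right
      _ = ∑ x : X, Nat.card ↥(Y ⊓ centralizer ({x} : Set X)) := (card_swap Y).symm
      _ ≤ ∑ x : X, Nat.card (centralizer ({x} : Set X)) :=
          Finset.sum_le_sum fun y _ => card_le_of_le inf_le_right
      _ = _ := by rw [← hX, ← hc]; ring
  · refine Nat.le_of_mul_le_mul_right (h1.trans ?_) hpos
    rw [← h2]
    exact Nat.mul_le_mul_left _ (Finset.sum_le_sum fun y _ => h3 y)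
  · refine Nat.lt_of_mul_lt_mul_right (a := Nat.card X) (h1.trans_lt ?_)
    rw [← h2]
    obtain ⟨y, hy, g, hg⟩ : ∃ y ∈ Y, ∃ g, g * y * g⁻¹ ∉ Y := by
      by_contra hcon
      push Not at hcon
      exact hn ⟨hcon⟩
    refine Nat.mul_lt_mul_of_pos_left (Finset.sum_lt_sum (fun y _ => h3 y)
      ⟨⟨y, hy⟩, Finset.mem_univ _, ?_⟩) hm
    rw [card_centralizer_sub]
    refine card_lt _ _ (g := g⁻¹) fun c hc hcg => hg ?_
    have h4 := Y.mul_mem (Y.mul_mem (Y.inv_mem hcg) hy) hcg
    have h5 : c * y = y * c := mem_centralizer_singleton_iff.1 hc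
    convert h4 using 1
    calc g * y * g⁻¹ = g * (y * c) * c⁻¹ * g⁻¹ := by group
      _ = _ := by rw [← h5]; group

end Cfsg.Agent.S4200
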