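import Cfsg.Statements.S4203
import Cfsg.Agent.Lib.Coprime.TIHall
import Cfsg.Agent.Lib.PGrp.Aut
import Cfsg.Agent.Lib.Char.Burnside
import Cfsg.Agent.Lib.Cls.Solv

set_option autoImplicit false
open Cfsg

namespace Cfsg.Agent.S4203

/-- A finite group in which every maximal subgroup has index a prime or the square of a prime is solvable. -/
theorem result {G : Type*} [Group G] [Finite G] (h : ∀ M : Subgroup G, IsCoatom M → ∃ p : ℕ, p.Prime ∧ (M.index = p ∨ M.index = p ^ 2)) : Group.IsSolvable G := by
  revert h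
  refine Core.induction_on_card (P := fun G _ _ => (∀ M : Subgroup G, IsCoatom M →
    ∃ p : ℕ, p.Prime ∧ (M.index = p ∨ M.index = p ^ 2)) → Group.IsSolvable G) ?_ G
  intro G _ _ ih h
  rcases subsingleton_or_nontrivial G with _ | _
  · infer_instance
  obtain ⟨N, hN⟩ := Core.exists_isMinNormal (G := G)
  have := hN.normal
  refine Cls.isSolvable_of_normal_of_quotient N ?_ (ih _ (Core.card_quotient_lt hN.ne_bot)
    fun M hM => ?_)
  · have h1 : (Nat.card N).primeFactors.Nonempty := by
      obtain ⟨p, hp, hd⟩ := Core.exists_prime_dvd_card_of_ne_bot hN.ne_bot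
      exact ⟨p, Nat.mem_primeFactors.mpr ⟨hp, hd, Nat.card_pos.ne'⟩⟩
    obtain ⟨p, hp, hmax⟩ := Finset.exists_max_image _ id h1
    obtain ⟨hp, hd, -⟩ := Nat.mem_primeFactors.mp hp
    have hmax' : ∀ q, q.Prime → q ∣ Nat.card N → q ≤ p := fun q hq hq' =>
      hmax q (Nat.mem_primeFactors.mpr ⟨hq, hq', Nat.card_pos.ne'⟩)
    have := Fact.mk hp
    obtain ⟨P, hP⟩ := Coprime.exists_isSylowIn p N
    by_cases h2 : Subgroup.normalizer (P : Set G) = ⊤
    · have := Subgroup.normalizer_eq_top_iff.mp h2
      rw [← hN.eq_of_le hP.1 fun e => hP.2.2 (by rwa [e, Subgroup.relIndex_bot_left])]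
      exact Coprime.isSolvable_of_isPGroup hP.2.1
    obtain ⟨M, hM, hPM⟩ := Core.exists_coatom_ge h2
    have h3 : M ⊔ N = ⊤ := by
      rw [eq_top_iff, ← hP.frattini_argument le_top Subgroup.le_normalizer_of_normal, sup_comm]
      exact sup_le_sup_right (inf_le_right.trans hPM) _
    have h4 : M.index = M.relIndex N := by
      rw [← Subgroup.relIndex_top_right, ← h3,
        Coprime.relIndex_sup_of_le le_rfl Subgroup.le_normalizer_of_normal]
    have h5 : M.index ≡ 1 [MOD p] := by
      have e1 := card_sylow_modEq_one p N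
      have e2 := card_sylow_modEq_one p ↥(N ⊓ M)
      rw [hP.card_sylow] at e1
      rw [(hP.mono (le_inf hP.1 (Subgroup.le_normalizer.trans hPM)) inf_le_left).card_sylow] at e2
      rw [← inf_eq_left.mpr hPM, ← Subgroup.relIndex_inf_mul_relIndex, inf_comm, ← h4] at e1
      have := (e2.mul_right M.index).symm.trans e1
      rwa [one_mul] at this
    obtain ⟨q, hq, h6⟩ := h M hM
    have h7 : q ≤ p := hmax' q hq ((show q ∣ M.index from h6.elim (fun e => e ▸ dvd_rfl)
      fun e => e ▸ dvd_pow_self q two_ne_zero).trans (h4 ▸ Subgroup.relIndex_dvd_card _ _))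
    have h8 : p ∣ q ^ 2 - 1 := by
      refine (Nat.modEq_iff_dvd' (Nat.one_le_pow _ _ hq.pos)).mp ?_
      rcases h6 with e | e <;> rw [e] at h5
      · simpa using (h5.pow 2).symm
      · exact h5.symm
    rw [show q ^ 2 - 1 = (q + 1) * (q - 1) by simpa using Nat.sq_sub_sq q 1] at h8
    have hq2 := hq.two_le
    have h9 : p = q + 1 := by
      rcases (Nat.Prime.dvd_mul hp).mp h8 with h9 | h9
      · rcases h7.lt_or_eq with h10 | rfl
        · exact le_antisymm (Nat.le_of_dvd q.succ_pos h9) h10
        · exact absurd (Nat.dvd_one.mp ((Nat.dvd_add_right dvd_rfl).mp h9)) hp.one_lt.ne'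
      · have := Nat.le_of_dvd (by omega) h9
        omega
    have h10 : q = 2 := by
      by_contra h10
      have := hq.odd_of_ne_two h10
      have := hp.odd_of_ne_two (by omega)
      rw [Nat.odd_iff] at *
      omega
    refine Char.solvable_of_two_primes Nat.prime_two Nat.prime_three fun r hr hr' => ?_
    have := hmax' r hr hr'
    have := hr.two_le
    omega
  · obtain ⟨p, hp, h1⟩ := h (M.comap (QuotientGroup.mk' N))
      (Subgroup.isCoatom_comap_of_surjective (QuotientGroup.mk'_surjective N) hM)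
    rw [Subgroup.index_comap_of_surjective _ (QuotientGroup.mk'_surjective N)] at h1
    exact ⟨p, hp, h1⟩

end Cfsg.Agent.S4203
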