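import Cfsg.Statements.S4204
import Mathlib
import Cfsg.Agent.Lib.Reg.Commutator

set_option autoImplicit false
open Cfsg

namespace Cfsg.Agent.S4204

open scoped commutatorElement in
theorem commutator_iSup_le {G : Type*} [Group G] {ι : Sort*} (A : ι → Subgroup G) (B N : Subgroup G)
    [N.Normal] (h : ∀ i, ⁅A i, B⁆ ≤ N) : ⁅⨆ i, A i, B⁆ ≤ N := by
  rw [Subgroup.iSup_eq_closure]
  refine Reg.commutator_closure_left_le (fun _ _ => by simp [Subgroup.normalizer_eq_top]) ?_
  intro s hs t ht
  obtain ⟨i, hi⟩ := Set.mem_iUnion.mp hs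
  exact h i (Subgroup.commutator_mem_commutator hi ht)

/-- lower central series with an extra top term. -/
def gam {G : Type*} [Group G] (H : Subgroup G) : ℕ → Subgroup G
  | 0 => ⊤
  | n + 1 => H.lowerCentralSeries n

theorem gam_normal {G : Type*} [Group G] (H : Subgroup G) [H.Normal] (n : ℕ) : (gam H n).Normal := by
  rcases n with _ | n
  · exact Subgroup.normal_top
  · exact Subgroup.lowerCentralSeries_normal H n

theorem gam_comm {G : Type*} [Group G] (H : Subgroup G) [H.Normal] (n : ℕ) :
    ⁅gam H n, H⁆ ≤ gam H (n + 1) := by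
  rcases n with _ | n
  · exact Subgroup.commutator_le_right _ _
  · exact le_rfl

/-- If `H` and `K` are normal subgroups of a finite group with `H` nilpotent of class at most `c` and `K` nilpotent of class at most `d` (the terms with index `c`, respectively `d`, of their lower central series are trivial, indices starting at `0`), then `HK` is nilpotent of class at most `c + d`. -/
theorem result {G : Type*} [Group G] [Finite G] (H K : Subgroup G) [H.Normal] [K.Normal] (c d : ℕ) (hH : H.lowerCentralSeries c = ⊥) (hK : K.lowerCentralSeries d = ⊥) : (H ⊔ K).lowerCentralSeries (c + d) = ⊥ := by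
  have key : ∀ n, (H ⊔ K).lowerCentralSeries n ≤
      ⨆ ij : {ij : ℕ × ℕ // ij.1 + ij.2 = n + 1}, gam H ij.1.1 ⊓ gam K ij.1.2 := by
    intro n
    induction n with
    | zero =>
      refine sup_le ?_ ?_
      · exact le_iSup_of_le ⟨(1, 0), rfl⟩ (le_inf le_rfl le_top)
      · exact le_iSup_of_le ⟨(0, 1), rfl⟩ (le_inf le_top le_rfl)
    | succ n ih =>
      rw [Subgroup.lowerCentralSeries_succ]
      have hn : ∀ m, (⨆ ij : {ij : ℕ × ℕ // ij.1 + ij.2 = m}, gam H ij.1.1 ⊓ gam K ij.1.2).Normal := by
        intro m
        have := fun i => gam_normal H i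
        have := fun i => gam_normal K i
        exact Subgroup.iSup_normal _
      have := hn (n + 1 + 1)
      refine (Subgroup.commutator_mono ih le_rfl).trans (commutator_iSup_le _ _ _ ?_)
      rintro ⟨⟨i, j⟩, hij⟩
      have := gam_normal H i
      have := gam_normal K j
      refine Reg.commutator_sup_right_le (by simp [Subgroup.normalizer_eq_top])
        (by simp [Subgroup.normalizer_eq_top]) ?_ ?_
      · refine le_iSup_of_le ⟨(i + 1, j), by simp at hij ⊢; omega⟩ (le_inf ?_ ?_)
        · exact (Subgroup.commutator_mono inf_le_left le_rfl).trans (gam_comm H i)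
        · exact (Subgroup.commutator_mono inf_le_right le_rfl).trans
            (Subgroup.commutator_le_left _ _)
      · refine le_iSup_of_le ⟨(i, j + 1), by simp at hij ⊢; omega⟩ (le_inf ?_ ?_)
        · exact (Subgroup.commutator_mono inf_le_left le_rfl).trans
            (Subgroup.commutator_le_left _ _)
        · exact (Subgroup.commutator_mono inf_le_right le_rfl).trans (gam_comm K j)
  rw [eq_bot_iff]
  refine (key _).trans (iSup_le ?_)
  rintro ⟨⟨i, j⟩, hij⟩
  simp only at hij ⊢
  by_cases hi : c + 1 ≤ i
  · obtain ⟨k, rfl⟩ : ∃ k, i = k + 1 := ⟨i - 1, by omega⟩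
    exact inf_le_left.trans ((H.lowerCentralSeries_antitone (by omega : c ≤ k)).trans hH.le)
  · obtain ⟨k, rfl⟩ : ∃ k, j = k + 1 := ⟨j - 1, by omega⟩
    exact inf_le_right.trans ((K.lowerCentralSeries_antitone (by omega : d ≤ k)).trans hK.le)

end Cfsg.Agent.S4204
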