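import Cfsg.Statements.S4205

set_option autoImplicit false
open Cfsg

namespace Cfsg.Agent.S4205

theorem aux {G : Type*} [Group G] (H : Subgroup G) (c : ℕ) :
    H ⊔ Subgroup.upperCentralSeries G c ≤
      (fun K : Subgroup G => Subgroup.normalizer (K : Set G))^[c] H := by
  induction c with
  | zero => simp
  | succ n ih =>
    rw [Function.iterate_succ_apply']
    set K := (fun K : Subgroup G => Subgroup.normalizer (K : Set G))^[n] H
    refine sup_le ((le_sup_left.trans ih).trans Subgroup.le_normalizer) ?_
    rw [Subgroup.le_normalizer_iff]
    intro x hx k hk
    rw [Subgroup.mem_upperCentralSeries_succ_iff] at hx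
    have := K.mul_mem (ih (Subgroup.mem_sup_right (hx k))) hk
    simpa [commutatorElement_def] using this

/-- In a finite group whose upper central series reaches the whole group at step `c` (nilpotent of class at most `c`), starting from any subgroup and taking normalizers `c` times reaches the whole group. -/
theorem result {G : Type*} [Group G] [Finite G] (c : ℕ) (hG : Subgroup.upperCentralSeries G c = ⊤) (H : Subgroup G) : (fun K : Subgroup G => Subgroup.normalizer (K : Set G))^[c] H = ⊤ := by
  rw [eq_top_iff, ← hG]
  exact le_sup_right.trans (aux H c)

end Cfsg.Agent.S4205
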