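import Cfsg.Statements.S4210
import Mathlib
import Cfsg.Agent.Lib.Reg.Regular

set_option autoImplicit false
open Cfsg

namespace Cfsg.Agent.S4210

/-- In a regular `p`-group, for all elements `a`, `b` and every power `q = p^k`: `a^q = b^q` if and only if `(ab⁻¹)^q = 1`. -/
theorem result {G : Type*} [Group G] [Finite G] {p : ℕ} [Fact p.Prime] (hG : Cfsg.IsRegularPGroup p G) (a b : G) (k : ℕ) : a ^ p ^ k = b ^ p ^ k ↔ (a * b⁻¹) ^ p ^ k = 1 := by
  obtain ⟨h1, h2⟩ := Reg.isRegularPGroup_iff.mp hG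
  have := h1.isNilpotent
  exact (h2 k).pow_eq_pow_iff trivial trivial

end Cfsg.Agent.S4210
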