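import Cfsg.Statements.S4211
import Cfsg.Agent.Lib.PGrp.Dedekind
import Cfsg.Agent.Lib.Coprime.SZ

set_option autoImplicit false
open Cfsg

namespace Cfsg.Agent.S4211

open scoped commutatorElement in

/-- A finite non-abelian group in which every subgroup is normal is the internal direct product of a subgroup isomorphic to the quaternion group of order `8`, an elementary abelian `2`-subgroup and an abelian subgroup of odd order. -/
theorem result {G : Type*} [Group G] [Finite G] (hna : ¬ IsMulCommutative G) (hn : ∀ H : Subgroup G, H.Normal) : ∃ Q E A : Subgroup G, Nonempty (Q ≃* QuaternionGroup 2) ∧ Cfsg.IsElementaryAbelian 2 E ∧ IsMulCommutative A ∧ Odd (Nat.card A) ∧ E ⊓ A = ⊥ ∧ Q ⊓ (E ⊔ A) = ⊥ ∧ Q ⊔ (E ⊔ A) = ⊤ := by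
  have hN : ∀ H K : Subgroup G, H ≤ Subgroup.normalizer (K : Set G) := fun H K =>
    have := hn K; Subgroup.le_normalizer_of_normal
  obtain ⟨x, y, hx, hy, hxy, hyx⟩ := PGrp.exists_quaternion_pair (fun x => hn _) hna
  have hx2 : x ^ 2 ≠ 1 := pow_ne_one_of_lt_orderOf two_ne_zero (by rw [hx]; norm_num)
  have hx4 : x ^ 4 = 1 := hx ▸ pow_orderOf_eq_one x
  have hnc : x * y ≠ y * x := fun h => hx2 (hxy ▸ commutatorElement_eq_one_iff_mul_comm.mpr h)
  have hz : orderOf (x ^ 2) = 2 := orderOf_eq_prime (by rw [← pow_mul, hx4]) hx2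
  have hZ : Nat.card (Subgroup.zpowers (x ^ 2)) = 2 := by rw [Nat.card_zpowers, hz]
  have hZc : Subgroup.zpowers (x ^ 2) ≤ Subgroup.center G := fun u hu =>
    Subgroup.mem_center_iff.mpr fun g => mul_inv_eq_iff_eq_mul.mp
      (PGrp.eq_of_mem_of_card_two hZ ((hn _).conj_mem u hu g) hu (conj_eq_one_iff))
  have h1 := PGrp.commutatorElement_mem_of_orderOf_four (hn := hn _) hx
  have h2 := hyx ▸ PGrp.commutatorElement_mem_of_orderOf_four (hn := hn _) hy
  obtain ⟨h3, h4⟩ := PGrp.pair_decomposition hZ hZc h1 h2 hnc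
  set Q := Subgroup.closure ({x, y} : Set G)
  set C := Subgroup.centralizer ({x, y} : Set G) with hC
  have hxQ : x ∈ Q := Subgroup.subset_closure (by simp)
  have hyQ : y ∈ Q := Subgroup.subset_closure (by simp)
  have hyx' : y * x * y⁻¹ = x⁻¹ := by
    have : y * x * y⁻¹ = ⁅x, y⁆⁻¹ * x := by rw [commutatorElement_inv, commutatorElement_def]; group
    rw [this, hxy]; group
  have hy' : y ∉ Subgroup.zpowers x := fun h =>
    hnc (Cls.commute_of_mem_zpowers (Subgroup.mem_zpowers x) h)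
  have hQ : Nat.card Q = 8 := by
    have : Q = Subgroup.zpowers x ⊔ Subgroup.zpowers y := by
      rw [Subgroup.zpowers_eq_closure, Subgroup.zpowers_eq_closure, ← Subgroup.closure_union]; rfl
    rw [this, PGrp.card_sup_zpowers (p := 2) (hN ⊤ _ (Subgroup.mem_top y))
      hy' (hyx ▸ pow_mem (Subgroup.mem_zpowers x) 2), Nat.card_zpowers, hx]
  have hZC : Subgroup.zpowers (x ^ 2) ≤ C := hZc.trans (Subgroup.center_le_centralizer _)
  have hQC : Q ⊓ C = Subgroup.zpowers (x ^ 2) := by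
    have := hn C
    refine (PGrp.eq_of_le_of_card_eq (le_inf (Subgroup.zpowers_le.mpr (pow_mem hxQ 2)) hZC) ?_).symm
    have h5 := PGrp.card_inf_mul_relIndex C Q
    rw [← Subgroup.relIndex_sup_right, h4, Subgroup.relIndex_top_right, h3, hQ, inf_comm] at h5
    omega
  have key : ∀ g ∈ C, g ^ 4 = 1 → g ^ 2 = 1 := fun g hg h => by
    have hgx : Commute x g := hg x (by simp)
    have hgy : Commute y g := hg y (by simp)
    have h5 : ⁅x * g, y⁆ = x ^ 2 := by
      rw [← hxy, commutatorElement_def, commutatorElement_def, mul_assoc x g, ← hgy.eq]; group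
    have h6 : x ^ 2 ∈ Subgroup.zpowers (x * g) :=
      h5 ▸ PGrp.commutatorElement_mem_left (hN := hn _) (Subgroup.mem_zpowers _) y
    by_cases h7 : (x * g) ^ 2 = 1
    · have h8 : Subgroup.zpowers (x ^ 2) = Subgroup.zpowers (x * g) :=
        Subgroup.eq_of_le_of_card_ge (Subgroup.zpowers_le.mpr h6) (by
          rw [hZ, Nat.card_zpowers]; exact Nat.le_of_dvd two_pos (orderOf_dvd_of_pow_eq_one h7))
      have h9 := Subgroup.mem_center_iff.mp (hZc (h8.ge (Subgroup.mem_zpowers _))) y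
      rw [commutatorElement_eq_one_iff_mul_comm.mpr h9.symm] at h5
      exact absurd h5.symm hx2
    have h8 : orderOf (x * g) = 2 ^ (1 + 1) := orderOf_eq_prime_pow h7 (by
      rw [hgx.mul_pow]; exact (congrArg₂ _ hx4 h).trans (mul_one 1))
    have h9 := PGrp.eq_of_mem_of_card_two hZ (Subgroup.mem_zpowers _)
      ((PGrp.zpowers_eq_of_orderOf_eq_prime h8 h6 hz).ge (Subgroup.mem_zpowers _))
      (iff_of_false hx2 h7)
    rw [pow_one, hgx.mul_pow] at h9
    exact left_eq_mul.mp h9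
  obtain ⟨P⟩ : Nonempty (Sylow 2 G) := inferInstance
  have he : ∀ g ∈ (P : Subgroup G) ⊓ C, g ^ 2 = 1 := fun g hg => by
    obtain ⟨k, hk⟩ := P.2 ⟨g, hg.1⟩
    replace hk : g ^ 2 ^ k = 1 := congrArg Subtype.val hk
    induction k with
    | zero => rw [pow_zero, pow_one] at hk; rw [hk, one_pow]
    | succ k ih =>
      rcases k with _ | k
      · exact hk
      refine ih ?_
      rw [pow_succ, pow_mul]
      exact key _ (pow_mem hg.2 _) (by rw [← pow_mul, ← hk]; congr 1; ring)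
  have hE : IsElementaryAbelian 2 ((P : Subgroup G) ⊓ C) :=
    ⟨PGrp.commutator_eq_bot_iff_comm.mp (le_bot_iff.mp (PGrp.commutator_le_of_sq_mem
      fun g => Subtype.ext (he g g.2))), he⟩
  have hodd : ¬ 2 ∣ ((P : Subgroup G) ⊓ C).relIndex C := fun h => P.not_dvd_index (by
    have := hn P
    rw [Subgroup.inf_relIndex_right] at h
    exact h.trans (Subgroup.relIndex_dvd_index_of_normal _ _))
  obtain ⟨A, hA1, hA2, hA3, hA4⟩ := Coprime.sz_exists (N := (P : Subgroup G) ⊓ C) inf_le_right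
    (hN _ _) (by
      obtain ⟨k, hk⟩ := IsPGroup.iff_card.mp (PGrp.IsElementaryAbelian.isPGroup hE)
      rw [hk]
      exact ((Nat.prime_two.coprime_iff_not_dvd).mpr hodd).pow_left k)
  have hZP : Subgroup.zpowers (x ^ 2) ≤ (P : Subgroup G) ⊓ C :=
    le_inf (Subgroup.zpowers_le.mpr (Cls.mem_sylow_of_mem_normalizer P ⟨1, hz⟩
      (hN ⊤ _ (Subgroup.mem_top _)))) hZC
  obtain ⟨E, hE1, hE2, hE3⟩ := PGrp.exists_compl_of_le hE hZP
  have hAo : Odd (Nat.card A) := by
    rw [hA4, ← Nat.not_even_iff_odd, even_iff_two_dvd]; exact hodd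
  refine ⟨Q, E, A, PGrp.nonempty_mulEquiv_quaternion (x := ⟨x, hxQ⟩) (y := ⟨y, hyQ⟩)
    (by rw [Subgroup.orderOf_mk, hx]) hQ ?_ (Subtype.ext hyx) (Subtype.ext hyx'),
    PGrp.isElementaryAbelian_of_le hE hE1, PGrp.isMulCommutative_of_dedekind_of_odd
      (PGrp.zpowers_normal_subgroup (fun _ => hn _) A) hAo, hAo,
    le_bot_iff.mp ((inf_le_inf_right A hE1).trans hA3.le), le_bot_iff.mp fun g hg => ?_, ?_⟩
  · rintro ⟨k, hk⟩
    exact hy' ⟨k, congrArg Subtype.val hk⟩
  · have h5 := hQC.le ⟨hg.1, sup_le (hE1.trans inf_le_right) hA1 hg.2⟩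
    have := hn A
    obtain ⟨e, he, a, ha, rfl⟩ := Subgroup.mem_sup_of_normal_right.mp hg.2
    have h6 : a = 1 := Subgroup.mem_bot.mp (hA3.le ⟨
      (inv_mul_cancel_left e a) ▸ Subgroup.mul_mem _ (Subgroup.inv_mem _ (hE1 he)) (hZP h5), ha⟩)
    rw [h6, mul_one] at h5 ⊢
    exact hE2.le ⟨h5, he⟩
  · rw [eq_top_iff, ← h4, ← hA2, ← hE3]
    exact sup_le le_sup_left (sup_le (sup_le ((hQC.ge.trans inf_le_left).trans le_sup_left)
      (le_sup_left.trans le_sup_right)) (le_sup_right.trans le_sup_right))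

end Cfsg.Agent.S4211
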