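import Cfsg.Statements.S4212
import Mathlib
import Cfsg.Agent.Lib.Reg.FrobCount

set_option autoImplicit false
open Cfsg

namespace Cfsg.Agent.S4212

/-- Let `G` be a finite group of order `g`, `c` an element whose conjugacy class has `h` elements, and `n` a natural number. Then the number of elements `x` of `G` with `x^n` conjugate to `c` is a multiple of `gcd(hn, g)`. -/
theorem result {G : Type*} [Group G] [Finite G] (c : G) (n : ℕ) : Nat.gcd (Nat.card {y : G // IsConj c y} * n) (Nat.card G) ∣ Nat.card {x : G // IsConj c (x ^ n)} := by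
  have h1 : ∀ y : G, Nat.gcd n (Nat.card (Subgroup.centralizer ({y} : Set G))) ∣
      Nat.card {x : G // x ^ n = y} := by
    intro y
    have := Reg.gcd_dvd_card_pow_mem (G := Subgroup.centralizer ({y} : Set G)) n
      (Y := fun z => (z : G) = y) fun h z hz => by
        push_cast
        rw [hz, Subgroup.mem_centralizer_singleton_iff.1 h.2, mul_inv_cancel_right]
    refine this.trans (Nat.card_congr
      { toFun := fun x => ⟨x.1.1, x.2⟩
        invFun := fun x => ⟨⟨x.1, Subgroup.mem_centralizer_singleton_iff.2 (by
          simpa only [x.2] using ((Commute.refl x.1).pow_right n).eq)⟩, x.2⟩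
        left_inv := fun _ => rfl
        right_inv := fun _ => rfl }).dvd
  have h2 : ∀ y : G, IsConj c y → Nat.card {x : G // x ^ n = y} = Nat.card {x : G // x ^ n = c} := by
    intro y hy
    obtain ⟨g, rfl⟩ := isConj_iff.1 hy
    exact (Nat.card_congr (Equiv.subtypeEquiv (MulAut.conj g).toEquiv fun x => by simp)).symm
  have := Fintype.ofFinite {y : G // IsConj c y}
  have h3 : Nat.card {x : G // IsConj c (x ^ n)} =
      Nat.card {y : G // IsConj c y} * Nat.card {x : G // x ^ n = c} := by
    rw [PGrp.card_eq_sum_card_fiber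
      (fun x : {x : G // IsConj c (x ^ n)} => (⟨x.1 ^ n, x.2⟩ : {y : G // IsConj c y})),
      Nat.card_eq_fintype_card (α := {y : G // IsConj c y}), ← smul_eq_mul, ← Finset.card_univ,
      ← Finset.sum_const]
    refine Finset.sum_congr rfl fun y _ => ?_
    rw [← h2 y y.2]
    exact Nat.card_congr
      { toFun := fun x => ⟨x.1.1, congrArg Subtype.val x.2⟩
        invFun := fun x => ⟨⟨x.1, by simpa only [x.2] using y.2⟩, Subtype.ext x.2⟩
        left_inv := fun _ => rfl
        right_inv := fun _ => rfl }
  have h4 : Nat.card G =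
      Nat.card {y : G // IsConj c y} * Nat.card (Subgroup.centralizer ({c} : Set G)) := by
    rw [Subgroup.nat_card_centralizer_nat_card_stabilizer,
      Nat.card_congr (ConjAct.toConjAct (G := G)).toEquiv,
      ← Nat.card_congr (MulAction.orbitProdStabilizerEquivGroup (ConjAct G) c), Nat.card_prod]
    congr 1
    exact Nat.card_congr (Equiv.subtypeEquivRight fun y => by
      rw [ConjAct.mem_orbit_conjAct, isConj_comm])
  rw [h3, h4, Nat.gcd_mul_left]
  exact Nat.mul_dvd_mul_left _ (h1 c)

end Cfsg.Agent.S4212
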