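import Cfsg.Statements.S4213
import Cfsg.Agent.Lib.Coprime.PiClosed

set_option autoImplicit false
open Cfsg

namespace Cfsg.Agent.S4213

/-- If `G` is a finite solvable group and `n` divides the order of `G` and exactly `n` elements `x` of `G` satisfy `x^n = 1`, then these elements form a normal subgroup. -/
theorem result {G : Type*} [Group G] [Finite G] [Group.IsSolvable G] (n : ℕ) (hn : n ∣ Nat.card G) (hcount : Nat.card {x : G // x ^ n = 1} = n) : ∃ H : Subgroup G, H.Normal ∧ (H : Set G) = {x : G | x ^ n = 1} := by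
  classical
  have key : Group.IsSolvable G → ∀ n : ℕ, n ∣ Nat.card G →
      n ≤ Nat.card {x : G // x ^ n = 1} ∧ (Nat.card {x : G // x ^ n = 1} = n →
        ∃ H : Subgroup G, (H : Set G) = {x : G | x ^ n = 1}) := by
    refine Core.induction_on_card (P := fun G _ _ => Group.IsSolvable G → ∀ n : ℕ, n ∣ Nat.card G →
      n ≤ Nat.card {x : G // x ^ n = 1} ∧ (Nat.card {x : G // x ^ n = 1} = n →
        ∃ H : Subgroup G, (H : Set G) = {x : G | x ^ n = 1})) ?_ G
    intro G _ _ ih hG n hn
    have : Nonempty {x : G // x ^ n = 1} := ⟨⟨1, one_pow n⟩⟩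
    rcases subsingleton_or_nontrivial G with _ | _
    · rw [Nat.card_unique, Nat.dvd_one] at hn
      subst hn
      exact ⟨Nat.card_pos, fun _ => ⟨⊥, by ext x; simp⟩⟩
    obtain ⟨K, hK⟩ := Core.exists_isMinNormal (G := G)
    have := hK.normal
    obtain ⟨p, hp, hKp⟩ := hK.exists_isElementaryAbelian inferInstance
    have := Fact.mk hp
    have hKp' := Core.isPGroup_of_isElementaryAbelian hKp
    have hcard := K.card_mul_index
    have hsub : ∀ H : Subgroup G, (∀ x ∈ H, x ^ n = 1) →
        Nat.card {x : G // x ^ n = 1} ≤ Nat.card H → (H : Set G) = {x : G | x ^ n = 1} :=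
      fun H h1 h2 => Set.eq_of_subset_of_ncard_le h1 h2
    by_cases hpn : p ∣ n
    · obtain ⟨r, rfl⟩ := hpn
      obtain ⟨h1, h2⟩ := ih (G ⧸ K) (Core.card_quotient_lt hK.ne_bot) inferInstance
        (Nat.gcd r K.index) (Nat.gcd_dvd_right _ _)
      have h3 : p * r ≤ Nat.card K * Nat.gcd r K.index := by
        refine Nat.le_of_dvd (Nat.mul_pos Nat.card_pos
          (Nat.gcd_pos_of_pos_right _ Nat.card_pos)) ?_
        rw [← Nat.gcd_mul_left, hcard]
        refine Nat.dvd_gcd (Nat.mul_dvd_mul_right ?_ _) hn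
        obtain ⟨q, hq, hd⟩ := Core.exists_prime_dvd_card_of_ne_bot hK.ne_bot
        rwa [← Core.isPGroup_iff_forall_prime_dvd.mp hKp' q hq hd]
      have h4 : ∀ x : G, (x : G ⧸ K) ^ Nat.gcd r K.index = 1 → x ^ (p * r) = 1 := by
        intro x hx
        obtain ⟨s, hs⟩ := Nat.gcd_dvd_left r K.index
        rw [← QuotientGroup.mk_pow, QuotientGroup.eq_one_iff] at hx
        rw [hs, ← mul_assoc, mul_comm p, pow_mul, pow_mul, hKp.2 _ hx, one_pow]
      have h5 : Nat.card K * Nat.card {y : G ⧸ K // y ^ Nat.gcd r K.index = 1} ≤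
          Nat.card {x : G // x ^ (p * r) = 1} := by
        have := QuotientGroup.card_preimage_mk K {y : G ⧸ K | y ^ Nat.gcd r K.index = 1}
        refine this.ge.trans (Nat.card_le_card_of_injective (fun x => ⟨x.1, h4 x.1 x.2⟩) ?_)
        exact fun a b e => Subtype.ext (congrArg Subtype.val e :)
      refine ⟨h3.trans ((Nat.mul_le_mul_left _ h1).trans h5), fun h => ?_⟩
      have h6 := le_antisymm (Nat.le_of_mul_le_mul_left (h5.trans (h.le.trans h3)) Nat.card_pos) h1
      obtain ⟨H, hH⟩ := h2 h6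
      refine ⟨H.comap (QuotientGroup.mk' K), hsub _ (fun x hx => h4 x (hH.le hx)) ?_⟩
      rw [Core.card_comap_mk, h]
      exact h3.trans (Nat.mul_le_mul_left _ (h6.ge.trans (le_of_eq (by
        rw [← SetLike.coe_sort_coe, hH]; rfl))))
    · obtain ⟨k, hk⟩ := hKp'.exists_card_eq
      have hcop : (Nat.card K).Coprime n := hk ▸ ((hp.coprime_iff_not_dvd.mpr hpn).pow_left k)
      obtain ⟨h1, h2⟩ := ih (G ⧸ K) (Core.card_quotient_lt hK.ne_bot) inferInstance n
        (hcop.symm.dvd_of_dvd_mul_left (hcard ▸ hn))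
      have h3 : Nat.card {y : G ⧸ K // y ^ n = 1} ≤ Nat.card {x : G // x ^ n = 1} := by
        refine Nat.card_le_card_of_surjective
          (fun x => ⟨x.1, by rw [← QuotientGroup.mk_pow, x.2, QuotientGroup.mk_one]⟩) ?_
        rintro ⟨y, hy⟩
        obtain ⟨x, rfl⟩ := QuotientGroup.mk'_surjective K y
        obtain ⟨u, -, e, hu⟩ := Cls.exists_coprime_lift (n := Nat.card K) _ x
          (hcop.symm.coprime_dvd_left (orderOf_dvd_of_pow_eq_one hy))
        refine ⟨⟨u, ?_⟩, Subtype.ext e⟩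
        rw [← e, ← map_pow, QuotientGroup.mk'_apply, QuotientGroup.eq_one_iff] at hy
        rw [← orderOf_eq_one_iff]
        exact Nat.eq_one_of_dvd_coprimes hu (orderOf_pow_dvd n) (K.orderOf_dvd_natCard hy)
      refine ⟨h1.trans h3, fun h => ?_⟩
      have h6 := le_antisymm (h3.trans h.le) h1
      obtain ⟨H, hH⟩ := h2 h6
      have h7 : K.relIndex (H.comap (QuotientGroup.mk' K)) = n := by
        rw [← Core.card_map_mk_eq_relIndex,
          Subgroup.map_comap_eq_self_of_surjective (QuotientGroup.mk'_surjective K),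
          ← SetLike.coe_sort_coe, hH]
        exact h6
      obtain ⟨L, -, -, -, hL⟩ := Coprime.sz_exists (Core.le_comap_mk K H)
        Subgroup.le_normalizer_of_normal (h7 ▸ hcop)
      rw [h7] at hL
      exact ⟨L, hsub L (fun x hx => orderOf_dvd_iff_pow_eq_one.mp (hL ▸ L.orderOf_dvd_natCard hx))
        (h.trans hL.symm).le⟩
  obtain ⟨H, hH⟩ := (key inferInstance n hn).2 hcount
  refine ⟨H, ⟨fun x hx g => ?_⟩, hH⟩
  have : x ^ n = 1 := hH.le hx
  refine hH.ge ?_
  rw [Set.mem_setOf_eq, conj_pow, this, mul_one, mul_inv_cancel]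

end Cfsg.Agent.S4213
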