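import Cfsg.Statements.S4214
import Cfsg.Agent.Lib.Coprime.PiClosed

set_option autoImplicit false
open Cfsg

namespace Cfsg.Agent.S4214

/-- Let `G` be a finite solvable group of order `mn` with `gcd(m, n) = 1`. Then the number of subgroups of order `m` is a product of natural numbers each of which is a power of a prime, divides the order of some chief factor of `G` (a quotient `L/K` of normal subgroups `K < L` of `G` with no normal subgroup of `G` strictly between them), and is congruent to `1` modulo some prime divisor of `m`. -/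
theorem result {G : Type*} [Group G] [Finite G] [Group.IsSolvable G] (m n : ℕ) (hG : Nat.card G = m * n) (hmn : Nat.Coprime m n) : ∃ (k : ℕ) (f : Fin k → ℕ), Nat.card {H : Subgroup G // Nat.card H = m} = ∏ i, f i ∧ ∀ i, (∃ q e : ℕ, q.Prime ∧ f i = q ^ e) ∧ (∃ K L : Subgroup G, K.Normal ∧ L.Normal ∧ K < L ∧ (∀ M : Subgroup G, M.Normal → K ≤ M → M ≤ L → M = K ∨ M = L) ∧ f i ∣ K.relIndex L) ∧ (∃ q : ℕ, q.Prime ∧ q ∣ m ∧ f i ≡ 1 [MOD q]) := by
  classical
  let T : (ℕ → Prop) → ℕ → Prop := fun Q n => ∃ l : List ℕ, l.prod = n ∧ ∀ x ∈ l, Q x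
  have T1 : ∀ Q, T Q 1 := fun Q => ⟨[], rfl, by simp⟩
  have Tmul : ∀ Q a b, T Q a → T Q b → T Q (a * b) := by
    rintro Q _ _ ⟨l, rfl, hl⟩ ⟨l', rfl, hl'⟩
    exact ⟨l ++ l', List.prod_append, fun m hm => (List.mem_append.mp hm).elim (hl m) (hl' m)⟩
  have Tmono : ∀ Q Q' a, (∀ x, Q x → Q' x) → T Q a → T Q' a :=
    fun Q Q' a h ⟨l, h1, h2⟩ => ⟨l, h1, fun x hx => h x (h2 x hx)⟩
  have key : Group.IsSolvable G → ∀ H : Subgroup G, (Nat.card H).Coprime H.index →
      T (fun x => (∃ q e : ℕ, q.Prime ∧ x = q ^ e) ∧ (∃ K L : Subgroup G, K.Normal ∧ L.Normal ∧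
        K < L ∧ (∀ M : Subgroup G, M.Normal → K ≤ M → M ≤ L → M = K ∨ M = L) ∧ x ∣ K.relIndex L) ∧
        (∃ q : ℕ, q.Prime ∧ q ∣ Nat.card H ∧ x ≡ 1 [MOD q]))
        (Subgroup.normalizer (H : Set G)).index := by
    refine Core.induction_on_card (P := fun G _ _ => Group.IsSolvable G → ∀ H : Subgroup G,
      (Nat.card H).Coprime H.index →
      T (fun x => (∃ q e : ℕ, q.Prime ∧ x = q ^ e) ∧ (∃ K L : Subgroup G, K.Normal ∧ L.Normal ∧
        K < L ∧ (∀ M : Subgroup G, M.Normal → K ≤ M → M ≤ L → M = K ∨ M = L) ∧ x ∣ K.relIndex L) ∧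
        (∃ q : ℕ, q.Prime ∧ q ∣ Nat.card H ∧ x ≡ 1 [MOD q]))
        (Subgroup.normalizer (H : Set G)).index) ?_ G
    intro G _ _ ih hG H hH
    rcases subsingleton_or_nontrivial G with _ | _
    · rw [Subsingleton.elim (Subgroup.normalizer _) ⊤, Subgroup.index_top]
      exact T1 _
    obtain ⟨K, hK⟩ := Core.exists_isMinNormal (G := G)
    have := hK.normal
    obtain ⟨p, hp, hKp⟩ := hK.exists_isPGroup inferInstance
    have := Fact.mk hp
    have hs := QuotientGroup.mk'_surjective K
    have h1 := ih (G ⧸ K) (Core.card_quotient_lt hK.ne_bot) inferInstance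
      (H.map (QuotientGroup.mk' K)) ((hH.coprime_dvd_left (Subgroup.card_map_dvd _ _)).coprime_dvd_right
        (Subgroup.index_map_dvd _ hs))
    replace h1 := Tmono _ (fun x => (∃ q e : ℕ, q.Prime ∧ x = q ^ e) ∧
        (∃ K L : Subgroup G, K.Normal ∧ L.Normal ∧
        K < L ∧ (∀ M : Subgroup G, M.Normal → K ≤ M → M ≤ L → M = K ∨ M = L) ∧ x ∣ K.relIndex L) ∧
        (∃ q : ℕ, q.Prime ∧ q ∣ Nat.card H ∧ x ≡ 1 [MOD q])) _ (by
      rintro x ⟨a1, ⟨A, B, a2, a3, a4, a5, a6⟩, q, a7, a8, a9⟩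
      refine ⟨a1, ⟨A.comap (QuotientGroup.mk' K), B.comap (QuotientGroup.mk' K), inferInstance,
        inferInstance, (Subgroup.comap_lt_comap_of_surjective hs).mpr a4, fun M hM b1 b2 => ?_,
        by rwa [Subgroup.relIndex_comap, Subgroup.map_comap_eq_self_of_surjective hs]⟩, q, a7,
        a8.trans (Subgroup.card_map_dvd _ _), a9⟩
      have e : (M.map (QuotientGroup.mk' K)).comap (QuotientGroup.mk' K) = M := by
        rw [Core.comap_map_mk, sup_eq_left.mpr ((Core.le_comap_mk K A).trans b1)]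
      refine (a5 (M.map (QuotientGroup.mk' K)) (hM.map _ hs) ?_
        (Subgroup.map_le_iff_le_comap.mpr b2)).imp (fun h => by rw [← h, e]) fun h => by rw [← h, e]
      rw [← Subgroup.map_comap_eq_self_of_surjective hs A]
      exact Subgroup.map_mono b1) h1
    by_cases hpH : p ∣ Nat.card H
    · have h2 : K ≤ H := Coprime.le_of_isPiHall_of_normal (Coprime.isPiHall_of_coprime hH)
        fun q hq hd => by rwa [Core.isPGroup_iff_forall_prime_dvd.mp hKp q hq hd]
      rwa [← Subgroup.index_comap_of_surjective _ hs, Subgroup.comap_normalizer_eq_of_surjective _ hs,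
        Core.comap_map_mk, sup_eq_left.mpr h2] at h1
    have hcop := Coprime.coprime_card_of_isPGroup (hp.coprime_iff_not_dvd.mpr hpH).symm hKp
    rw [← Coprime.map_normalizer_eq _ hs (by rwa [QuotientGroup.ker_mk']) (Or.inl inferInstance),
      Subgroup.index_map, QuotientGroup.ker_mk', MonoidHom.range_eq_top.mpr hs, Subgroup.index_top,
      mul_one] at h1
    rw [← Subgroup.relIndex_mul_index (le_sup_left : _ ≤ Subgroup.normalizer (H : Set G) ⊔ K),
      Coprime.relIndex_sup_of_le le_rfl Subgroup.le_normalizer_of_normal,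
      ← Subgroup.inf_relIndex_left, Coprime.inf_normalizer_eq_of_inf_eq_bot
        Subgroup.le_normalizer_of_normal (Coprime.inf_eq_bot_of_coprime' hcop),
      Subgroup.inf_relIndex_left]
    refine Tmul _ _ _ ?_ h1
    have h3 : ∀ L ≤ H, T (fun x => x ∣ Nat.card K ∧ ∃ q : ℕ, q.Prime ∧ q ∣ Nat.card H ∧
        x ≡ 1 [MOD q]) ((Subgroup.centralizer (L : Set G)).relIndex K) := by
      intro L
      induction L using Core.subgroup_induction_lt with
      | h L ihL =>
      intro hL
      by_cases hL0 : L = ⊥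
      · rw [hL0, Subgroup.relIndex_eq_one.mpr (Subgroup.le_centralizer_iff.mp bot_le)]
        exact T1 _
      obtain ⟨M, hM, hML, hmax⟩ := Core.exists_maximal_ge (P := fun M => M < L)
        (Group.IsSolvable.commutator_lt_of_ne_bot hL0)
      obtain ⟨r, hr, hrd⟩ := Nat.exists_prime_and_dvd
        fun e => hML.not_ge (Subgroup.relIndex_eq_one.mp e)
      have := Fact.mk hr
      obtain ⟨R, hR⟩ := Coprime.exists_isSylowIn r L
      have h4 : M ⊔ R = L := by
        by_contra h4
        have := hmax _ (lt_of_le_of_ne (sup_le hML.le hR.1) h4) le_sup_left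
        exact hR.2.2 (hrd.trans (Subgroup.relIndex_dvd_of_le_left _ (le_sup_right.trans this.le)))
      have hrH : r ∣ Nat.card H :=
        hrd.trans ((Subgroup.relIndex_dvd_card _ _).trans (Subgroup.card_dvd_of_le hL))
      have h5 := Coprime.relIndex_centralizer_modEq_one (Q := Subgroup.centralizer (M : Set G) ⊓ K)
        hR.2.1 (Core.le_normalizer_inf (Core.le_normalizer_centralizer (hR.1.trans
          (Coprime.le_normalizer_of_commutator_le hML.le hM))) Subgroup.le_normalizer_of_normal)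
        fun h => hr.one_lt.ne' (Nat.eq_one_of_dvd_coprimes hcop hrH
          (h.trans (Subgroup.card_dvd_of_le inf_le_right)))
      have h6 : Subgroup.centralizer (L : Set G) =
          Subgroup.centralizer (R : Set G) ⊓ Subgroup.centralizer (M : Set G) := by
        refine le_antisymm (le_inf (Subgroup.centralizer_le hR.1) (Subgroup.centralizer_le hML.le))
          (Subgroup.le_centralizer_iff.mp ?_)
        rw [← h4]
        exact sup_le (Subgroup.le_centralizer_iff.mp inf_le_right)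
          (Subgroup.le_centralizer_iff.mp inf_le_left)
      rw [h6, ← Subgroup.relIndex_inf_mul_relIndex]
      refine Tmul _ _ _ ⟨[_], List.prod_singleton, fun x hx => ?_⟩ (ihL M hML (hML.le.trans hL))
      rw [List.mem_singleton.mp hx]
      exact ⟨(Subgroup.relIndex_dvd_card _ _).trans (Subgroup.card_dvd_of_le inf_le_right),
        r, hr, hrH, h5⟩
    refine Tmono _ _ _ (fun x hx => ⟨?_, ⟨⊥, K, inferInstance, inferInstance,
      bot_lt_iff_ne_bot.mpr hK.ne_bot, fun M hM _ h => hK.eq_bot_or_eq M hM h,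
      by rw [Subgroup.relIndex_bot_left]; exact hx.1⟩, hx.2⟩) (h3 H le_rfl)
    obtain ⟨k, hk⟩ := hKp.exists_card_eq
    obtain ⟨e, -, he⟩ := (Nat.dvd_prime_pow hp).mp (hk ▸ hx.1)
    exact ⟨p, e, hp, he⟩
  obtain ⟨H, rfl⟩ := Coprime.hall_exists_card inferInstance hG hmn
  have hi : ∀ L : Subgroup G, Nat.card L = Nat.card H → L.index = n := fun L hL =>
    Nat.eq_of_mul_eq_mul_left (Nat.card_pos (α := H)) (by rw [← hG, ← hL, L.card_mul_index])
  have hH := Coprime.isPiHall_of_coprime (hi H rfl ▸ hmn)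
  obtain ⟨l, h1, h2⟩ := key inferInstance H (hi H rfl ▸ hmn)
  refine ⟨l.length, l.get, ?_, fun i => h2 _ (List.get_mem l i)⟩
  rw [← List.prod_ofFn, List.ofFn_get, h1]
  symm
  refine Nat.card_eq_of_bijective (fun q => ⟨H.map (MulAut.conj q.out).toMonoidHom,
    Coprime.card_map_conj _ _⟩) ⟨fun a b e => ?_, fun ⟨L, hL⟩ => ?_⟩
  · rw [← a.out_eq, ← b.out_eq]
    refine QuotientGroup.eq.mpr (Subgroup.mem_normalizer_iff_map_conj_eq.mpr ?_)
    have e2 := congrArg (Subgroup.map (MulAut.conj a.out⁻¹).toMonoidHom) (congrArg Subtype.val e)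
    rw [Coprime.map_conj_map_conj, Coprime.map_conj_map_conj, inv_mul_cancel,
      Coprime.map_conj_one] at e2
    exact e2.symm
  · obtain ⟨g, rfl⟩ := Coprime.hall_conj inferInstance hH (U := L)
      ⟨hL ▸ hH.1, by rw [hi L hL, ← hi H rfl]; exact hH.2⟩
    obtain ⟨x, hx⟩ := QuotientGroup.mk_out_eq_mul (Subgroup.normalizer (H : Set G)) g
    refine ⟨g, Subtype.ext ?_⟩
    simp only [hx]
    rw [← Coprime.map_conj_map_conj, Coprime.map_conj_eq_of_mem_normalizer x.2]

end Cfsg.Agent.S4214
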