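import Cfsg.Statements.S4217
import Cfsg.Agent.Lib.Coprime.Gaschuetz

set_option autoImplicit false
open Cfsg

namespace Cfsg.Agent.S4217

/-- Let `A` be an abelian normal subgroup of the finite group `G`. Then `A` has a complement in `G` if and only if, for every prime `p` dividing the index of `A`, there are a Sylow `p`-subgroup `S` of `G/A` and a subgroup `K` of `G` with `K ∩ A = 1` and `KA` equal to the preimage of `S` (that is, `A` has a complement in the preimage of a Sylow `p`-subgroup of `G/A`). -/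
theorem result {G : Type*} [Group G] [Finite G] (A : Subgroup G) [A.Normal] (hA : IsMulCommutative A) : (∃ K : Subgroup G, K.IsComplement' A) ↔ ∀ p : ℕ, p.Prime → p ∣ A.index → ∃ (S : Sylow p (G ⧸ A)) (K : Subgroup G), K ⊓ A = ⊥ ∧ K ⊔ A = (S : Subgroup (G ⧸ A)).comap (QuotientGroup.mk' A) := by
  constructor
  · rintro ⟨K, hK⟩ p hp _
    obtain ⟨S⟩ : Nonempty (Sylow p (G ⧸ A)) := inferInstance
    refine ⟨S, K ⊓ (S : Subgroup (G ⧸ A)).comap (QuotientGroup.mk' A), ?_, ?_⟩
    · rw [inf_right_comm, hK.disjoint.eq_bot, bot_inf_eq]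
    · refine le_antisymm (sup_le inf_le_right (Core.le_comap_mk _ _)) fun g hg => ?_
      obtain ⟨k, hk, a, ha, rfl⟩ := (Core.mem_sup_of_le_normalizer
        Subgroup.le_normalizer_of_normal).mp (hK.sup_eq_top ▸ Subgroup.mem_top g)
      exact Subgroup.mul_mem_sup
        ⟨hk, (Subgroup.mul_mem_cancel_right _ (Core.le_comap_mk _ _ ha)).mp hg⟩ ha
  · intro h
    refine Coprime.exists_isComplement'_of_one_mem ?_
    obtain ⟨d, hd⟩ := Int.subgroup_cyclic (Coprime.splitDegrees A)
    have h1 : ∀ n : ℕ, (n : ℤ) ∈ Coprime.splitDegrees A → d.natAbs ∣ n := fun n hn => by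
      rw [hd, AddSubgroup.mem_closure_singleton] at hn
      obtain ⟨k, hk⟩ := hn
      exact Int.natAbs_dvd_natAbs.mpr (Dvd.intro_left k hk)
    have h2 : d.natAbs = 1 := by
      rw [Nat.eq_one_iff_not_exists_prime_dvd]
      intro p hp hpd
      have := Fact.mk hp
      obtain ⟨S, K, h3, h4⟩ := h p hp (hpd.trans (h1 _
        (Coprime.index_mem_splitDegrees (K := ⊥) (bot_inf_eq _) (bot_sup_eq _))))
      have h5 := h1 _ (Coprime.index_mem_splitDegrees h3 h4)
      rw [Subgroup.index_comap_of_surjective _ (QuotientGroup.mk'_surjective A)] at h5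
      exact S.not_dvd_index (hpd.trans h5)
    rw [hd, AddSubgroup.mem_closure_singleton]
    exact ⟨d, by rw [smul_eq_mul, ← Int.natAbs_mul_self', h2]; rfl⟩

end Cfsg.Agent.S4217
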