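import Cfsg.Statements.S4218
import Cfsg.Agent.Lib.Coprime.TIHall
import Cfsg.Agent.Lib.PGrp.Aut

set_option autoImplicit false
open Cfsg

namespace Cfsg.Agent.S4218

/-- Let `G` be a finite `p`-solvable group, `N₀ = O_{p'}(G)`, `P₁ = O_{p',p}(G)`, and let `F ≤ P₁` be the preimage of the Frattini subgroup of `P₁/N₀`. Then an element `g` of `G` induces the identity on `P₁/F` by conjugation (that is, `g x g⁻¹ x⁻¹ ∈ F` for all `x ∈ P₁`) if and only if `g ∈ P₁`: the group `G/P₁` acts faithfully on `P₁/F`. -/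
theorem result {G : Type*} [Group G] [Finite G] {p : ℕ} [Fact p.Prime] (hG : Cfsg.IsPSolvable p G) (g : G) : (∀ x ∈ Cfsg.pPrimePCore p G, g * x * g⁻¹ * x⁻¹ ∈ ((frattini (↥(Cfsg.pPrimePCore p G) ⧸ (Cfsg.pPrimeCore p G).subgroupOf (Cfsg.pPrimePCore p G))).comap (QuotientGroup.mk' ((Cfsg.pPrimeCore p G).subgroupOf (Cfsg.pPrimePCore p G)))).map (Cfsg.pPrimePCore p G).subtype) ↔ g ∈ Cfsg.pPrimePCore p G := by
  have hQ : IsPGroup p (pCore p (G ⧸ pPrimeCore p G)) := Core.isPGroup_pCore p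
  let ψ : pPrimePCore p G →* pCore p (G ⧸ pPrimeCore p G) :=
    (QuotientGroup.mk' (pPrimeCore p G)).subgroupComap _
  have hψ : Function.Surjective ψ :=
    MonoidHom.subgroupComap_surjective_of_surjective _ _ (QuotientGroup.mk'_surjective _)
  have hker : (pPrimeCore p G).subgroupOf (pPrimePCore p G) = ψ.ker := by
    ext x
    rw [MonoidHom.mem_ker, Subtype.ext_iff, Subgroup.mem_subgroupOf, ← QuotientGroup.eq_one_iff]
    rfl
  let e := (QuotientGroup.quotientMulEquivOfEq hker).trans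
    (QuotientGroup.quotientKerEquivOfSurjective ψ hψ)
  have he : ∀ x, e (QuotientGroup.mk x) = ψ x := fun x => rfl
  have hpq := hQ.of_equiv e.symm
  constructor
  · intro h
    have h1 : IsPGroup p ((PGrp.quotientAutHom (frattini (pCore p (G ⧸ pPrimeCore p G)))).comp
        (MulAut.conjNormal (H := pCore p (G ⧸ pPrimeCore p G)))).ker := by
      rw [← MonoidHom.comap_ker]
      refine (PGrp.isPGroup_ker_quotientAutHom_frattini hQ).comap_of_ker_isPGroup _ (hQ.to_le ?_)
      refine le_trans ?_ (Coprime.centralizer_pCore_le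
        (Coprime.isPSolvable_quotient hG _) Core.pPrimeCore_quotient_pPrimeCore)
      intro x hx a ha
      have := congrArg (fun σ : MulAut _ => ((σ ⟨a, ha⟩ : pCore p (G ⧸ pPrimeCore p G)) :
        G ⧸ pPrimeCore p G)) (MonoidHom.mem_ker.mp hx)
      simp only [MulAut.conjNormal_apply, MulAut.one_apply] at this
      exact (mul_inv_eq_iff_eq_mul.mp this).symm
    refine Core.le_pCore h1 ?_
    rw [← MonoidHom.comap_ker, Subgroup.mem_comap, PGrp.mem_ker_quotientAutHom]
    intro x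
    obtain ⟨x, rfl⟩ := hψ x
    obtain ⟨y, hy, e1⟩ := h x x.2
    have := PGrp.map_frattini_le hQ e.toMonoidHom ⟨_, hy, rfl⟩
    convert this using 1
    apply Subtype.ext
    change _ = QuotientGroup.mk' _ (y : G)
    rw [show (y : G) = _ from e1]
    simp only [map_mul, map_inv]
    rfl
  · intro hg x hx
    exact ⟨⟨g, hg⟩ * ⟨x, hx⟩ * ⟨g, hg⟩⁻¹ * ⟨x, hx⟩⁻¹, PGrp.commutatorElement_mem_frattini hpq
        (QuotientGroup.mk ⟨g, hg⟩) (QuotientGroup.mk ⟨x, hx⟩), rfl⟩

end Cfsg.Agent.S4218
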