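import Cfsg.Statements.S4219
import Mathlib
import Cfsg.Agent.S3760

set_option autoImplicit false
open Cfsg

namespace Cfsg.Agent.S4219

/-- Let a finite group `G` act `t`-fold transitively on a finite set, let `H` be the stabilizer of `t` distinct points and `P` a Sylow `p`-subgroup of `H`. Then the normalizer of `P` in `G` is `t`-fold transitive on the fixed points of `P`: any `t` distinct fixed points of `P` can be carried to any other `t` distinct fixed points of `P` by an element normalizing `P`. -/
theorem result {G : Type*} [Group G] [Finite G] {α : Type*} [Fintype α] [MulAction G α] {t : ℕ} (hG : MulAction.IsMultiplyPretransitive G α t) (x : Fin t ↪ α) {p : ℕ} [Fact p.Prime] (P : Sylow p (MulAction.stabilizer G x)) (a b : Fin t ↪ α) (ha : ∀ i, a i ∈ MulAction.fixedPoints ((P : Subgroup (MulAction.stabilizer G x)).map (MulAction.stabilizer G x).subtype) α) (hb : ∀ i, b i ∈ MulAction.fixedPoints ((P : Subgroup (MulAction.stabilizer G x)).map (MulAction.stabilizer G x).subtype) α) : ∃ g ∈ Subgroup.normalizer ((((P : Subgroup (MulAction.stabilizer G x)).map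 (MulAction.stabilizer G x).subtype) : Subgroup G) : Set G), g • a = b := by
  let H := MulAction.stabilizer G x
  let K : Subgroup G := (P : Subgroup H).map H.subtype
  have hKH : K ≤ H := Subgroup.map_subtype_le _
  refine (Cfsg.Agent.S3760.result (X := Fin t ↪ α) (fun a b => hG.exists_smul_eq a b) x K hKH).2
    ?_ a b ?_ ?_
  · intro g hg
    have hKp : IsPGroup p K := P.isPGroup'.map _
    have h1 : IsPGroup p ((K.map (MulAut.conj g).toMonoidHom).subgroupOf H) :=
      (hKp.map _).comap_subtype
    obtain ⟨Q, hQ⟩ := h1.exists_le_sylow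
    obtain ⟨h, rfl⟩ := MulAction.exists_smul_eq H P Q
    refine ⟨h, h.2, ?_⟩
    apply Subgroup.eq_of_le_of_card_ge
    · intro z hz
      have h2 := hQ (show (⟨z, hg hz⟩ : H) ∈ (K.map (MulAut.conj g).toMonoidHom).subgroupOf H from hz)
      rw [Sylow.coe_subgroup_smul, Subgroup.mem_pointwise_smul_iff_inv_smul_mem] at h2
      refine ⟨_, ⟨_, h2, rfl⟩, ?_⟩
      simp [mul_assoc]
    · exact ((Subgroup.card_map_of_injective (K := K) (f := (MulAut.conj (h : G)).toMonoidHom)
        (MulAut.conj (h : G)).injective).trans (Subgroup.card_map_of_injective (K := K)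
        (f := (MulAut.conj g).toMonoidHom) (MulAut.conj g).injective).symm).le
  · intro k hk
    ext i
    exact ha i ⟨k, hk⟩
  · intro k hk
    ext i
    exact hb i ⟨k, hk⟩

end Cfsg.Agent.S4219
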