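import Cfsg.Statements.S4220
import Mathlib
import Cfsg.Agent.Lib.Perm.Jordan

set_option autoImplicit false
open Cfsg

namespace Cfsg.Agent.S4220

open Equiv Equiv.Perm Subgroup MulAction

theorem nine {α : Type*} [Fintype α] [DecidableEq α] {G : Subgroup (Equiv.Perm α)}
    (hn : Fintype.card α = 9) (hG : IsMultiplyPretransitive G α 4) : alternatingGroup α ≤ G := by
  by_contra hA
  have hn' : Nat.card α = 9 := Nat.card_eq_fintype_card.trans hn
  have hprim := isPreprimitive_of_is_two_pretransitive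
    (isMultiplyPretransitive_of_le (G := G) (α := α) (n := 4) (m := 2) (by omega) (by omega))
  obtain ⟨F, -, hF⟩ := Finset.exists_subset_card_eq (s := (Finset.univ : Finset α)) (n := 4)
    (by rw [Finset.card_univ]; omega)
  have h1 : fixingSubgroup G (F : Set α) = ⊥ := by
    by_contra h
    obtain ⟨q, hq, hq'⟩ := Nat.exists_prime_and_dvd (card_eq_one.not.2 h)
    have := Fact.mk hq
    obtain ⟨⟨⟨x, hx⟩, hxF⟩, hxq⟩ := exists_prime_orderOf_dvd_card' q hq'
    simp only [orderOf_mk] at hxq
    have h2 : x.support.card ≤ 5 := (Finset.card_le_card (t := Fᶜ) fun a ha => Finset.mem_compl.2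
      fun h => mem_support.1 ha (hxF ⟨a, h⟩)).trans (by rw [Finset.card_compl]; omega)
    rcases h2.lt_or_eq with h2 | h2
    · obtain ⟨E, h3, -, h4⟩ := Finset.exists_subsuperset_card_eq x.support.subset_univ
        (Nat.le_of_lt_succ h2) (by rw [Finset.card_univ]; omega)
      exact hA (Perm.alternatingGroup_le_of_fix_compl (F := E) (h4 ▸ hG) (by omega) hx
        (fun h => hq.ne_one (by rw [← hxq, h, orderOf_one])) fun a ha =>
          notMem_support.1 fun h => ha (h3 h))
    obtain ⟨m, hm⟩ := cycleType_prime_order (hxq ▸ hq)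
    obtain rfl : q = 5 := (Nat.prime_dvd_prime_iff_eq hq Nat.prime_five).1 (by
      rw [← h2, ← sum_cycleType, hm, hxq]; simp)
    exact hA (Perm.alternatingGroup_le_of_isCycle hprim hq (by omega)
      (isCycle_of_prime_order (hxq ▸ hq) (by omega)) h2 hx)
  have h2 := hG.index_of_fixingSubgroup_mul (s := (F : Set α)) (by simpa)
  rw [h1, index_bot, hn'] at h2
  have h3 : Nat.card G = 3024 := by
    rw [show Nat.factorial (9 - 4) = 120 from rfl, show Nat.factorial 9 = 362880 from rfl] at h2
    omega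
  have h7 : Nat.Prime 7 := by norm_num
  have := Fact.mk h7
  obtain ⟨⟨x, hx⟩, hx7⟩ := exists_prime_orderOf_dvd_card' (G := G) 7 (by rw [h3]; norm_num)
  rw [orderOf_mk] at hx7
  have hxc := isCycle_of_prime_order' (hx7 ▸ h7) (by omega)
  have hxs := hxc.orderOf.symm.trans hx7
  have h4 := Perm.relIndex_normalizer_modEq_one (Perm.isSylowIn_zpowers h7 (by omega) hx7 hx)
  have h5 := Perm.card_normalizer_zpowers_dvd h7 hxc hxs
  obtain ⟨τ, hτ, hτ'⟩ := Perm.exists_isSwap_mem_normalizer (x := x) (by omega)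
  have h6 : G.relIndex (normalizer (zpowers x : Set (Perm α))) ≠ 1 := fun h => hA
    (subgroup_eq_top_of_isPreprimitive_of_isSwap_mem hprim τ hτ' (relIndex_eq_one.1 h hτ) ▸ le_top)
  have h8 := PGrp.card_inf_mul_relIndex (normalizer (zpowers x : Set (Perm α))) G
  rw [← PGrp.card_inf_mul_relIndex G, hn, show Nat.factorial (9 - 7) * 7 * (7 - 1) = 84 from rfl,
    inf_comm] at h5
  rw [h3] at h8
  generalize Nat.card ↥(normalizer (zpowers x : Set (Perm α)) ⊓ G) = c at *
  have h9 := Nat.le_of_dvd (by norm_num) h5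
  have h10 := Nat.le_of_dvd (by norm_num) (dvd_of_mul_right_dvd h5)
  have h11 := Nat.pos_of_dvd_of_pos h5 (by norm_num)
  have h12 := dvd_of_mul_right_dvd h5
  unfold Nat.ModEq at h4
  interval_cases c <;> omega


/-- Let `n = kp + r` with `p` prime, `1 ≤ k < p` and `r > k`, excluding the case `k = 1, r = 2`. Then a permutation group of degree `n` that is `(r + 1)`-fold transitive contains the alternating group. -/
theorem result {α : Type*} [Fintype α] [DecidableEq α] (G : Subgroup (Equiv.Perm α)) {k p r : ℕ} (hp : p.Prime) (hn : Fintype.card α = k * p + r) (hk : 1 ≤ k) (hpk : k < p) (hrk : k < r) (hex : ¬ (k = 1 ∧ r = 2)) (hG : MulAction.IsMultiplyPretransitive G α (r + 1)) : alternatingGroup α ≤ G := by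
  have := Fact.mk hp
  have hr : 3 ≤ r := by omega
  have hkp := Nat.mul_le_mul hk hp.two_le
  by_cases hp2 : p = 2
  · refine le_top.trans (eq_top_of_isMultiplyPretransitive ?_).ge
    obtain rfl : k = 1 := by omega
    rwa [Nat.card_eq_fintype_card, hn, hp2, show 1 * 2 + r - 1 = r + 1 by omega]
  by_cases h3 : p = 3 ∧ r = 3
  · obtain ⟨rfl, rfl⟩ := h3
    obtain rfl | rfl : k = 1 ∨ k = 2 := by omega
    · exact IsMultiplyPretransitive.alternatingGroup_le α G (by rwa [Nat.card_eq_fintype_card, hn])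
    · exact nine hn hG
  obtain ⟨F, -, rfl⟩ := Finset.exists_subset_card_eq (s := (Finset.univ : Finset α)) (n := r)
    (by rw [Finset.card_univ]; omega)
  obtain ⟨P, hP⟩ := Transfer.exists_isSylowIn (p := p) (G ⊓ fixingSubgroup (Perm α) (F : Set α))
  have hn' : F.card + 1 ≤ Nat.card α := by rw [Nat.card_eq_fintype_card]; omega
  by_cases hc : ∀ x ∈ P, x.support.card ≠ p
  · exact Perm.alternatingGroup_le_of_sylow hp (isMultiplyPretransitive_of_le le_self_add hn') hP
      (Perm.mem_of_sylow_fix hG (by rw [Finset.card_compl, hn]; simp) hP) hn hk hpk hrk hr hp2 h3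
      (Or.inr hc)
  push Not at hc
  obtain ⟨x, hx, hxp⟩ := hc
  obtain ⟨y, hy, hy1, hy2⟩ := Perm.exists_isCycle_mem_zpowers hp (x := x) (by
    simpa using hP.isPGroup.dvd_orderOf (g := ⟨x, hx⟩) fun h => hp.ne_zero (by
      simpa [show x = 1 from congrArg Subtype.val h] using hxp.symm)) (by omega)
  exact Perm.alternatingGroup_le_of_isCycle (isPreprimitive_of_is_two_pretransitive
    (isMultiplyPretransitive_of_le (n := F.card + 1) (by omega) hn')) hp
    (by nlinarith) hy1 hy2 (zpowers_le.2 (hP.le hx).1 hy)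

end Cfsg.Agent.S4220
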