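import Cfsg.Statements.S4221
import Cfsg.Agent.Lib.Perm.Hall4B
import Cfsg.Agent.Lib.Perm.Jordan

set_option autoImplicit false
set_option linter.unusedSectionVars false
open Cfsg

namespace Cfsg.Agent.S4221

open Equiv Subgroup Cfsg.Agent.OO Finset Cfsg.Agent.Hall4
open scoped Pointwise Classical

section

variable {α : Type*} [Fintype α] [DecidableEq α]
variable {y : Fin 4 ↪ α} {g a b x x' s : Perm α} {G X P : Subgroup (Perm α)} {i z : α} {r : ℕ}

theorem ind_mem {σ : Perm (Fin 4)} (h : Ind y g σ) : g z ∈ univ.map y ↔ z ∈ univ.map y := by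
  simp only [Finset.mem_map, mem_univ, true_and]
  constructor
  · rintro ⟨j, hj⟩
    exact ⟨σ⁻¹ j, by rw [← h.inv j, hj]; simp⟩
  · rintro ⟨j, rfl⟩
    exact ⟨σ j, (h j).symm⟩

theorem disj_NF (C : Cf X y x x' b s) : Disjoint (univ.map y) (NF (x * x') b) := by
  rw [Finset.disjoint_left]
  intro z hz
  obtain ⟨j, -, rfl⟩ := Finset.mem_map.1 hz
  simp only [NF, mem_union, mem_Fx, (C.ix.mul C.ix') j, C.ib j, ((C.ix.mul C.ix').mul C.ib) j,
    y.injective.eq_iff]
  clear hz
  revert j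
  decide

theorem map_subset_FP (h : P ≤ St G y) : univ.map y ⊆ FP P := by
  intro z hz
  obtain ⟨j, -, rfl⟩ := Finset.mem_map.1 hz
  exact mem_FP.2 fun g hg => (h hg).2 j

theorem FP_cases (H : Two G r) {p : ℕ} [Fact p.Prime] (hP : Syl p P (St G y))
    (C : Cf (G ⊓ 𝐍(P)) y x x' b s) : (∃ z ∈ FP P, z ∉ univ.map y ∧ z ∉ NF (x * x') b) ∨
      NF (x * x') b ⊆ FP P ∨ #(FP P) = r + 2 := by
  by_contra hn
  push Not at hn
  obtain ⟨h1, h2, h3⟩ := hn
  have e : FP P = univ.map y ∪ (Fx (x * x') ∩ Fx b) := by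
    refine subset_antisymm (fun z hz => ?_)
      (union_subset (map_subset_FP hP.le) (H.inf_subset_FP hP C))
    by_contra hz'
    rw [mem_union, not_or] at hz'
    exact h2 (H.NF_subset_FP hP C hz (h1 z hz hz'.1) hz'.2)
  rw [e, card_union_of_disjoint ((disj_NF C).mono_right (inter_subset_left.trans
    (subset_union_left.trans subset_union_left))), card_map, ← H.card_inf (C.rt.mono inf_le_left)]
    at h3
  simp at h3
  omega

theorem FP_card (H : Two G r) {p : ℕ} [Fact p.Prime] (hP : Syl p P (St G y)) :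
    8 ≤ #(FP P) ∨ #(FP P) = r + 2 := by
  obtain ⟨x, x', b, s, C⟩ := H.exists_cf inf_le_left (H.full_norm hP)
  have hY := map_subset_FP hP.le
  rcases FP_cases H hP C with ⟨z, h1, h2, h3⟩ | h | h
  · left
    have rt := C.rt.of_not_mem h3
    have ia := C.ix.mul C.ix'
    have hd : Disjoint (univ.map y) (univ.map (e4 rt.nodup)) := by
      rw [Finset.disjoint_right]
      intro w hw
      obtain ⟨j, -, rfl⟩ := Finset.mem_map.1 hw
      fin_cases j
      · exact h2
      · exact (ind_mem ia).not.2 h2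
      · exact (ind_mem C.ib).not.2 h2
      · exact (ind_mem ia).not.2 ((ind_mem C.ib).not.2 h2)
    have hs : univ.map (e4 rt.nodup) ⊆ FP P := by
      intro w hw
      obtain ⟨j, -, rfl⟩ := Finset.mem_map.1 hw
      fin_cases j
      exacts [h1, FP_norm rt.ma.2 h1, FP_norm rt.mb.2 h1, FP_norm rt.ma.2 (FP_norm rt.mb.2 h1)]
    have := card_le_card (union_subset hY hs)
    rw [card_union_of_disjoint hd] at this
    simpa using this
  · left
    have := card_le_card (union_subset hY h)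
    rw [card_union_of_disjoint (disj_NF C), H.card_NF (C.rt.mono inf_le_left)] at this
    simp at this
    omega
  · exact Or.inr h

theorem relIndex_stab (H : Two G r) (h : RT G a b i) :
    (MulAction.stabilizer (Perm α) i).relIndex (G ⊓ 𝐂[a] ⊓ 𝐂[b]) = #(NF a b)ᶜ := by
  rw [relIndex, show (MulAction.stabilizer (Perm α) i).subgroupOf (G ⊓ 𝐂[a] ⊓ 𝐂[b]) =
    MulAction.stabilizer (G ⊓ 𝐂[a] ⊓ 𝐂[b] : Subgroup (Perm α)) i from rfl,
    MulAction.index_stabilizer, ← Set.ncard_coe_finset]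
  congr 1
  ext z
  rw [MulAction.mem_orbit_iff, Finset.mem_coe, mem_compl]
  constructor
  · rintro ⟨⟨g, hg⟩, rfl⟩
    have ea : g * a * g⁻¹ = a := mem_cent1_iff_conj.1 hg.1.2
    have eb : g * b * g⁻¹ = b := mem_cent1_iff_conj.1 hg.2
    have := h.not_mem
    simp only [NF, mem_union] at this ⊢
    change ¬ ((g i ∈ _ ∨ g i ∈ _) ∨ g i ∈ _)
    rwa [← mem_Fx_conj (g := g), ← mem_Fx_conj (g := g) (u := b),
      ← mem_Fx_conj (g := g) (u := a * b), ← conj_mul, ea, eb] at this
  · intro hz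
    obtain ⟨g, hg, h1, h2, h3⟩ := H.conj_RT le_rfl h (h.of_not_mem hz) (H.tr _ _)
    exact ⟨⟨g, ⟨hg, mem_cent1_iff_conj.2 h1⟩, mem_cent1_iff_conj.2 h2⟩, h3⟩

theorem card_eq (H : Two G r) (y : Fin 4 ↪ α) : Fintype.card α = r + 8 := by
  obtain ⟨x, x', b, s, C⟩ := H.exists_cf le_rfl (H.full y)
  have rt := C.rt
  set a := x * x' with ha
  have hNF := H.card_NF rt
  have h4 : 4 ≤ #(NF a b)ᶜ := by
    have := card_le_card (Finset.subset_compl_iff_disjoint_right.2 (disj_NF C))
    simpa using this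
  have hc := card_add_card_compl (NF a b)
  have hr3 := H.r3
  have hr2 := H.r2
  rcases Nat.eq_two_pow_or_exists_odd_prime_and_dvd #(NF a b)ᶜ with ⟨k, hk⟩ | ⟨p, hp, hd, ho⟩
  · obtain ⟨T, hT⟩ := exists_syl 2 (G ⊓ 𝐂[a] ⊓ 𝐂[b])
    have h1 : 2 ^ k ∣ ♯T := by
      have h2 := relIndex_dvd_card (MulAction.stabilizer (Perm α) (y 0)) (G ⊓ 𝐂[a] ⊓ 𝐂[b])
      rw [relIndex_stab H rt, hk, ← card_mul_relIndex hT.le] at h2
      exact (((Nat.Prime.coprime_iff_not_dvd Nat.prime_two).2 hT.not_dvd).pow_left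
        k).dvd_of_dvd_mul_right h2
    obtain ⟨z, hz, hz'⟩ := H.mv a b _ rt
    obtain ⟨w, hw, hw'⟩ := H.mv b a _ rt.symm
    have key : ∀ {u v z : _} {t : Perm α}, RT G u v (y 0) → u z = z → v z ≠ z → t * u = u * t →
        t * v = v * t → t z ∈ ({z, v z} : Finset α) := by
      intro u v z t h h1 h2 h3 h4
      have h5 : t z ∈ Fx u := mem_Fx.2 (by rw [← Perm.mul_apply, ← h3, Perm.mul_apply, h1])
      rw [← H.Fx_eq h h1 h2, mem_insert, mem_insert] at h5
      rw [mem_insert, mem_singleton]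
      refine h5.imp_right fun h5 => h5.resolve_right fun h5 => h2 (t.injective ?_)
      rw [← Perm.mul_apply, h4, Perm.mul_apply, mem_Fx.1 (mem_inter.1 h5).2]
    have hnd : [z, b z, w, a w].Nodup := by
      have e1 : z ≠ w := fun e => hz' (e ▸ hw)
      have e2 : z ≠ a w := fun e => hw' (by rw [← e, ← hz, e, rt.aa])
      have e3 : b z ≠ w := fun e => hz' (by rw [e, ← hw, ← e, rt.bb])
      have e4 : b z ≠ a w := fun e => hw' (by rw [← e, ← rt.aa w, ← e, ← rt.ba, hz])
      simp [hz'.symm, hw'.symm, e1, e2, e3, e4]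
    let f : T → ({z, b z} : Finset α) × ({w, a w} : Finset α) := fun t =>
      (⟨(t : Perm α) z, key rt hz hz' (mem_cent1.1 (hT.le t.2).1.2) (mem_cent1.1 (hT.le t.2).2)⟩,
        ⟨(t : Perm α) w, key rt.symm hw hw' (mem_cent1.1 (hT.le t.2).2)
          (mem_cent1.1 (hT.le t.2).1.2)⟩)
    have hf : Function.Injective f := by
      intro t t' e
      simp only [f, Prod.mk.injEq, Subtype.mk.injEq] at e
      obtain ⟨k, hk⟩ := hT.isPGroup (t⁻¹ * t')
      have hm := hT.le (t⁻¹ * t').2
      have e1 : ((t⁻¹ * t' : T) : Perm α) z = z := by simp [← e.1]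
      have e2 : ((t⁻¹ * t' : T) : Perm α) w = w := by simp [← e.2]
      refine inv_mul_eq_one.1 (Subtype.ext (H.eq_one (y := e4 hnd) hm.1.1
        (congrArg Subtype.val hk) fun j => ?_))
      fin_cases j
      · exact e1
      · change _ = b z
        change ((t⁻¹ * t' : T) : Perm α) (b z) = b z
        rw [← Perm.mul_apply, mem_cent1.1 hm.2, Perm.mul_apply, e1]
      · exact e2
      · change ((t⁻¹ * t' : T) : Perm α) (a w) = a w
        rw [← Perm.mul_apply, mem_cent1.1 hm.1.2, Perm.mul_apply, e2]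
    have h2 := Nat.card_le_card_of_injective f hf
    rw [Nat.card_prod, Nat.card_eq_finsetCard, Nat.card_eq_finsetCard, card_pair hz'.symm,
      card_pair hw'.symm] at h2
    have h3 := Nat.le_of_dvd (card_pos' T) h1
    omega
  · exfalso
    have := Fact.mk hp
    obtain ⟨Q, hQ⟩ := exists_syl p (G ⊓ 𝐂[a] ⊓ 𝐂[b])
    have hodd : ∀ g ∈ Q, Odd (orderOf g) := fun g hg => by
      obtain ⟨k, hk⟩ := IsPGroup.iff_card.1 hQ.isPGroup
      exact (hk ▸ ho.pow : Odd ♯Q).of_dvd_nat (OO.orderOf_dvd_card hg)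
    have e : FP Q = NF a b := by
      refine subset_antisymm (fun z hz => ?_) fun z hz => mem_FP.2 fun g hg => ?_
      · by_contra hz'
        refine hQ.not_dvd ((relIndex_stab H (rt.of_not_mem hz') ▸ hd).trans ?_)
        exact relIndex_dvd_of_le_left _ fun g hg => mem_FP.1 hz g hg
      · have ga : g * a = a * g := mem_cent1.1 (hQ.le hg).1.2
        have gb : g * b = b * g := mem_cent1.1 (hQ.le hg).2
        have h0 : ∀ z ∈ Fx a ∩ Fx b, g z = z := fun z hz => H.eq_of_inf rt (mem_inter.2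
          ⟨mem_Fx.2 (by rw [← Perm.mul_apply, ← ga, Perm.mul_apply, mem_Fx.1 (mem_inter.1 hz).1]),
          mem_Fx.2 (by rw [← Perm.mul_apply, ← gb, Perm.mul_apply, mem_Fx.1 (mem_inter.1 hz).2])⟩)
          hz
        simp only [NF, mem_union] at hz
        rcases hz with (hz | hz) | hz
        · exact H.fix_Fx rt (hodd g hg) ga h0 hz
        · exact H.fix_Fx rt.symm (hodd g hg) gb (inter_comm (Fx a) (Fx b) ▸ h0) hz
        · exact H.fix_Fx rt.mul (hodd g hg) (by rw [← mul_assoc g a, ga, mul_assoc a g, gb, mul_assoc a b])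
            (rt.inf_mul ▸ h0) hz
    obtain ⟨y', hy'⟩ := exists_emb (S := FP Q) (by rw [e]; omega)
    obtain ⟨P, hP, hQP⟩ := exists_syl_ge (M := St G y') (fun g hg =>
      ⟨(hQ.le hg).1.1, fun j => mem_FP.1 (hy' j) g hg⟩) hQ.isPGroup
    have h1 : #(FP P) ≤ #(FP Q) := card_le_card fun z hz => mem_FP.2 fun g hg =>
      mem_FP.1 hz g (hQP hg)
    have h2 := (FP_modEq hP.isPGroup).symm.trans (FP_modEq hQ.isPGroup)
    rw [e, hNF] at h1 h2
    rw [(FP_card H hP).resolve_left (by omega)] at h2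
    have h3 := (Nat.modEq_iff_dvd' (by omega)).1 h2
    rw [show r + 4 - (r + 2) = 2 by omega] at h3
    rw [(Nat.prime_dvd_prime_iff_eq hp Nat.prime_two).1 h3] at ho
    exact absurd ho (by decide)

theorem St_eq_bot (H : Two G 3) (y : Fin 4 ↪ α) : St G y = ⊥ := by
  have hn := card_eq H y
  by_contra h0
  obtain ⟨p, hp, hd⟩ := exists_prime_dvd h0
  have := Fact.mk hp
  obtain ⟨P, hP⟩ := exists_syl p (St G y)
  have hPo : Odd ♯P := (H.odd y).of_dvd_nat (card_dvd hP.le)
  have hb : ∀ {Q : Subgroup (Perm α)}, #(FP Q) = 11 → Q = ⊥ := fun {Q} h => by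
    rw [eq_bot_iff]
    intro g hg
    ext z
    exact mem_FP.1 (by rw [eq_univ_of_card (FP Q) (h.trans hn.symm)]; exact mem_univ z) g hg
  obtain ⟨x, x', b, s, C⟩ := H.exists_cf inf_le_left (H.full_norm hP)
  have rt := C.rt.mono (G := G) inf_le_left
  have hU : univ.map y ∪ NF (x * x') b = univ := eq_univ_of_card _ (by
    rw [card_union_of_disjoint (disj_NF C), H.card_NF rt, hn]; simp)
  refine hP.ne_bot hd ?_
  rcases FP_cases H hP C with ⟨z, -, h2, h3⟩ | h | h
  · exact absurd (hU ▸ mem_univ z : z ∈ univ.map y ∪ NF (x * x') b) (by simp only [mem_union]; tauto)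
  · refine hb (le_antisymm ((card_le_univ _).trans hn.le) ?_)
    have := card_le_card (union_subset (map_subset_FP hP.le) h)
    rwa [hU, card_univ, hn] at this
  have hp3 : p = 3 := by
    have h2 := (FP_modEq hP.isPGroup).symm
    rw [h, hn] at h2
    have h3 : p ∣ 2 * 3 := (Nat.modEq_iff_dvd' (by omega)).1 h2
    rcases (Nat.Prime.dvd_mul hp).1 h3 with h3 | h3
    · rw [(Nat.prime_dvd_prime_iff_eq hp Nat.prime_two).1 h3] at hd
      exact absurd (even_iff_two_dvd.2 hd) (Nat.not_even_iff_odd.2 (H.odd y))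
    · exact (Nat.prime_dvd_prime_iff_eq hp Nat.prime_three).1 h3
  subst hp3
  have key : ∀ {u v}, RT G u v (y 0) → Fx u ∩ Fx v = Fx (x * x') ∩ Fx b → Fx u ⊆ NF (x * x') b →
      P ⊓ 𝐂[u] ≤ ⊥ := by
    intro u v h e hs
    have h1 : Fx u ⊆ FP (P ⊓ 𝐂[u]) := fun z hz => mem_FP.2 fun g hg =>
      H.fix_Fx h (hPo.of_dvd_nat (OO.orderOf_dvd_card hg.1)) (mem_cent1.1 hg.2)
        (fun w hw => mem_FP.1 (H.inf_subset_FP hP C (e ▸ hw)) g hg.1) hz
    have h2 := card_le_card (union_subset (map_subset_FP (inf_le_left.trans hP.le)) h1)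
    rw [card_union_of_disjoint ((disj_NF C).mono_right hs), H.hr u h.ma h.ha h.ne_one] at h2
    have h3 := FP_modEq (hP.isPGroup.to_inf_left (K := 𝐂[u]))
    have h4 := Perm.card_filter_fixed_modEq_two (FP (P ⊓ 𝐂[u])) u (fun z hz => mem_FP.2 fun g hg =>
      by rw [← Perm.mul_apply, mem_cent1.1 hg.2, Perm.mul_apply, mem_FP.1 hz g hg])
      fun z _ => h.aa z
    rw [show (FP (P ⊓ 𝐂[u])).filter (fun z => u z = z) = Fx u by
      ext z
      rw [mem_filter, mem_Fx, and_iff_right_iff_imp]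
      exact fun hz => h1 (mem_Fx.2 hz), H.hr u h.ma h.ha h.ne_one] at h4
    have h5 := card_le_univ (FP (P ⊓ 𝐂[u]))
    refine (hb ?_).le
    simp only [card_map, card_univ, Fintype.card_fin] at h2
    unfold Nat.ModEq at h3 h4
    omega
  exact eq_bot_iff.2 (le_of_V4 rt.ha rt.hb rt.hab rt.ne_one rt.symm.ne_one
    (fun e => rt.nab (by rw [e, rt.bb])) hPo C.rt.ma.2 C.rt.mb.2
    (key rt rfl (subset_union_left.trans subset_union_left))
    (key rt.symm (inter_comm _ _) (subset_union_right.trans subset_union_left))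
    (key rt.mul rt.inf_mul subset_union_right))

theorem not_alt_le (H : Hyp G) (h : alternatingGroup α ≤ G) : Fintype.card α < 8 := by
  by_contra hn
  obtain ⟨g, hg⟩ := (Perm.exists_with_cycleType_iff α (m := {2, 2})).2 ⟨by simp; omega, by simp⟩
  have h1 : g ∈ G := h (Perm.cycleType_eq_two_two_subset_alternatingGroup hg)
  have h2 : orderOf g = 2 := by rw [← Perm.lcm_cycleType, hg]; simp
  have h3 := H.card_Fx_le h1 (by rw [← pow_two, ← h2, pow_orderOf_eq_one])
    (fun e => by simp [e] at h2)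
  have h4 := card_add_card_compl (Fx g)
  rw [show (Fx g)ᶜ = g.support by ext z; simp [mem_Fx], ← Perm.sum_cycleType, hg] at h4
  simp at h4
  omega

theorem one_case (H : Hyp G) (h6 : 6 ≤ Fintype.card α) (h : RT G a b i)
    (h1 : ∀ z, a z = z → b z = z) :
    (Fintype.card α = 6 ∨ Fintype.card α = 7) ∧ G = alternatingGroup α := by
  obtain ⟨x, x', b', s, C⟩ := H.exists_cf le_rfl (H.full (e4 h.nodup))
  set y := e4 h.nodup
  clear_value y
  have nx : x ≠ 1 := fun e => absurd (y.injective (e ▸ C.ix 2 :)) (by decide)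
  have nx' : x' ≠ 1 := fun e => absurd (y.injective (e ▸ C.ix' 0 :)) (by decide)
  have ia := C.ix.mul C.ix'
  have two : ∀ {u : Perm α} {j k : Fin 4} {z w : α}, u ∈ G → u * u = 1 → u ≠ 1 → j ≠ k →
      u (y j) = y j → u (y k) = y k → z ∉ univ.map y → w ∉ univ.map y → z ≠ w → u z = z →
      u w = w → False := by
    intro u j k z w h1 h2 h3 h4 h5 h6 h7 h8 h9 h10 h11
    simp only [Finset.mem_map, mem_univ, true_and, not_exists] at h7 h8
    exact h3 (H.fix4 h1 h2 (by simp [h4, h7, h8, h9]) h5 h6 h10 h11)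
  have hsup : (x * x').support = univ.map y := by
    refine subset_antisymm (fun z hz => ?_) fun z hz => ?_
    · by_contra hz'
      rw [Perm.mem_support] at hz
      have hz'' := (ind_mem ia).not.2 hz'
      have c1 : x * x' * x = x * (x * x') := by rw [mul_assoc, ← C.hxx]
      have rt : RT G (x * x') x z := ⟨C.rt.ma, C.mx, C.rt.ha, C.hx, c1, hz, fun e =>
        two C.mx C.hx nx (j := 0) (k := 1) (by decide) (C.ix 0) (C.ix 1) hz' hz'' hz.symm e
          (by rw [← Perm.mul_apply, ← c1, Perm.mul_apply, e]), fun e => by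
        rw [← Perm.mul_apply, c1, ← mul_assoc, C.hx, one_mul] at e
        exact two C.mx' C.hx' nx' (j := 2) (k := 3) (by decide) (C.ix' 2) (C.ix' 3) hz' hz''
          hz.symm e (by rw [← Perm.mul_apply, ← mul_assoc, ← C.hxx, Perm.mul_apply, e])⟩
      obtain ⟨g, -, e1, e2, -⟩ := H.conj_RT le_rfl h rt (H.tr _ _)
      obtain ⟨k, -, e3⟩ := H.conj_inv h6 C.mx C.hx nx C.rt.ma C.rt.ha C.rt.ne_one
      have h2 : 1 < #(Fx (x * x')) := by
        rw [← e3, card_Fx_conj]
        exact one_lt_card.2 ⟨y 0, mem_Fx.2 (C.ix 0), y 1, mem_Fx.2 (C.ix 1),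
          y.injective.ne (by decide)⟩
      obtain ⟨v, hv, w, hw, hvw⟩ := one_lt_card.1 h2
      have h3 : ∀ v ∈ Fx (x * x'), v ∉ univ.map y ∧ x v = v := fun v hv =>
        ⟨fun e => Finset.disjoint_left.1 (disj_NF C) e (mem_union_left _ (mem_union_left _ hv)), by
          rw [← e1] at hv
          have := h1 _ (mem_Fx.1 ((mem_Fx_conj (g := g) (z := g⁻¹ v)).1 (by simpa using hv)))
          rw [← e2, Perm.mul_apply, Perm.mul_apply, this]
          simp⟩
      exact two C.mx C.hx nx (j := 0) (k := 1) (by decide) (C.ix 0) (C.ix 1) (h3 v hv).1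
        (h3 w hw).1 hvw (h3 v hv).2 (h3 w hw).2
    · exact Perm.mem_support.2 fun e => Finset.disjoint_left.1 (disj_NF C) hz
        (mem_union_left _ (mem_union_left _ (mem_Fx.2 e)))
  have hct : (x * x').cycleType = {2, 2} := by
    have ho : orderOf (x * x') = 2 := orderOf_eq_prime (by rw [pow_two, C.rt.ha]) C.rt.ne_one
    obtain ⟨n, hn⟩ := Perm.cycleType_prime_order (σ := x * x') (ho ▸ Nat.prime_two)
    have := Perm.sum_cycleType (x * x')
    rw [hn, hsup, ho] at this
    simp only [Multiset.sum_replicate, smul_eq_mul, card_map, card_univ, Fintype.card_fin] at this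
    rw [hn, ho, show n = 1 by omega]
    rfl
  have hle : alternatingGroup α ≤ G := by
    rw [← Perm.closure_cycleType_eq_two_two_eq_alternatingGroup (by
      rw [Nat.card_eq_fintype_card]; omega), closure_le]
    intro g hg
    obtain ⟨σ, rfl⟩ := isConj_iff.1 (Perm.isConj_iff_cycleType_eq.2 (hct.trans hg.symm))
    obtain ⟨k, hk, e⟩ := H.tr y (y.trans σ.toEmbedding)
    have hd : Perm.Disjoint (σ⁻¹ * k) (x * x') := fun z => by
      by_cases hz : z ∈ (x * x').support
      · rw [hsup] at hz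
        obtain ⟨j, -, rfl⟩ := Finset.mem_map.1 hz
        exact Or.inl (by rw [Perm.mul_apply, e]; simp)
      · exact Or.inr (Perm.notMem_support.1 hz)
    have e2 : σ * (x * x') * σ⁻¹ = k * (x * x') * k⁻¹ := by
      have := hd.commute.eq
      calc σ * (x * x') * σ⁻¹ = σ * (x * x' * (σ⁻¹ * k)) * k⁻¹ := by group
        _ = k * (x * x') * k⁻¹ := by rw [← this]; group
    rw [SetLike.mem_coe, e2]
    exact G.mul_mem (G.mul_mem hk C.rt.ma) (G.inv_mem hk)
  have h8 := not_alt_le H hle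
  refine ⟨by omega, le_antisymm (fun g hg => ?_) hle⟩
  by_contra hn
  have hy : y 0 ≠ y 1 := y.injective.ne (by decide)
  have h2 : swap (y 0) (y 1) ∈ G := by
    have : swap (y 0) (y 1) * g⁻¹ ∈ alternatingGroup α := by
      rw [Perm.mem_alternatingGroup] at hn ⊢
      rw [Perm.sign_mul, Perm.sign_swap hy, Perm.sign_inv, Int.units_ne_iff_eq_neg.1 hn]
      simp
    simpa using G.mul_mem (hle this) hg
  have h3 := H.card_Fx_le h2 (swap_mul_self _ _) (by simpa using hy)
  have h4 := card_add_card_compl (Fx (swap (y 0) (y 1)))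
  rw [show (Fx (swap (y 0) (y 1)))ᶜ = (swap (y 0) (y 1)).support by
    ext z; rw [mem_compl, mem_Fx, Perm.mem_support], Perm.card_support_swap hy] at h4
  omega

theorem card_St (y : Fin 4 ↪ α) : Nat.card (MulAction.stabilizer G y) = ♯(St G y) := by
  rw [← card_map_of_injective G.subtype_injective]
  congr 2
  ext g
  constructor
  · rintro ⟨g, hg, rfl⟩
    exact ⟨g.2, fun j => congrArg (fun f : Fin 4 ↪ α => f j) hg⟩
  · rintro ⟨h1, h2⟩
    exact ⟨⟨g, h1⟩, Function.Embedding.ext h2, rfl⟩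

end

/-- Let `G` be a `4`-fold transitive permutation group on a finite set of `n` points in which the pointwise stabilizer of some four distinct points has odd order. Then `n = 4` or `n = 5` with `G` the full symmetric group, or `n = 6` or `n = 7` with `G` the alternating group, or `n = 11` and `G` has order `7920`. -/
theorem result {α : Type*} [Fintype α] [DecidableEq α] (G : Subgroup (Equiv.Perm α)) (hG : MulAction.IsMultiplyPretransitive G α 4) (x : Fin 4 ↪ α) (hodd : Odd (Nat.card (MulAction.stabilizer G x))) : ((Fintype.card α = 4 ∨ Fintype.card α = 5) ∧ G = ⊤) ∨ ((Fintype.card α = 6 ∨ Fintype.card α = 7) ∧ G = alternatingGroup α) ∨ (Fintype.card α = 11 ∧ Nat.card G = 7920) := by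
  have h4 : 4 ≤ Fintype.card α := by simpa using Fintype.card_le_of_embedding x
  have h4' : 4 ≤ Nat.card α := by rwa [Nat.card_eq_fintype_card]
  have hcard : ∀ y : Fin 4 ↪ α, (Fintype.card α).descFactorial 4 * ♯(St G y) = Nat.card G := by
    intro y
    rw [← card_St, mul_comm, ← (MulAction.stabilizer G y).card_mul_index,
      MulAction.index_stabilizer, Set.eq_univ_of_forall (s := MulAction.orbit _ _) fun y' => by
        exact MulAction.isMultiplyPretransitive_iff.1 hG y y', Set.ncard_univ,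
      Nat.card_eq_fintype_card (α := Fin 4 ↪ α), Fintype.card_embedding_eq, Fintype.card_fin]
  have H : Hyp G := ⟨fun y y' => by
      obtain ⟨g, hg⟩ := MulAction.isMultiplyPretransitive_iff.1 hG y y'
      exact ⟨g, g.2, fun j => congrArg (fun f : Fin 4 ↪ α => f j) hg⟩, fun y => by
      rw [Nat.eq_of_mul_eq_mul_left (Nat.descFactorial_pos.2 h4)
        ((hcard y).trans (hcard x).symm), ← card_St]
      exact hodd⟩
  by_cases h6 : 6 ≤ Fintype.card α
  swap
  · refine Or.inl ⟨by omega, Perm.eq_top_of_isMultiplyPretransitive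
      (MulAction.isMultiplyPretransitive_of_le (n := 4) ?_ h4')⟩
    rw [Nat.card_eq_fintype_card]
    omega
  right
  by_cases h1 : ∃ a b i, RT G a b i ∧ ∀ z, a z = z → b z = z
  · obtain ⟨a, b, i, h, h1⟩ := h1
    exact Or.inl (one_case H h6 h h1)
  right
  push Not at h1
  obtain ⟨u, u', b, s, C⟩ := H.exists_cf le_rfl (H.full x)
  have nu : u ≠ 1 := fun e => absurd (x.injective (e ▸ C.ix 2 :)) (by decide)
  have T : Two G #(Fx u) := ⟨H, one_lt_card.2 ⟨x 0, mem_Fx.2 (C.ix 0), x 1, mem_Fx.2 (C.ix 1),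
    x.injective.ne (by decide)⟩, H.card_Fx_le C.mx C.hx nu, fun v hv h2 h3 => by
      obtain ⟨g, -, rfl⟩ := H.conj_inv h6 C.mx C.hx nu hv h2 h3
      exact card_Fx_conj, h1⟩
  have hn := card_eq T x
  have h2 := T.r2
  have h3 := T.r3
  by_cases hr : #(Fx u) = 3
  · rw [hr] at T hn
    refine ⟨hn, ?_⟩
    rw [← hcard x, St_eq_bot T, hn, card_bot]
    rfl
  exfalso
  have hn' : Fintype.card α = 10 := by omega
  have := Fact.mk Nat.prime_seven
  obtain ⟨g, hg, ho⟩ := cauchy (H := G) Nat.prime_seven (by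
    rw [← hcard x, hn']
    exact Dvd.dvd.mul_right (by decide) _)
  obtain ⟨c, hc, h4, h5⟩ := Perm.exists_isCycle_mem_zpowers Nat.prime_seven (x := g) (ho ▸ dvd_rfl)
    (lt_of_le_of_lt (card_le_univ _) (by omega))
  have := not_alt_le H (Perm.alternatingGroup_le_of_isCycle
    (MulAction.isPreprimitive_of_is_two_pretransitive
      (MulAction.isMultiplyPretransitive_of_le (n := 4) (by decide) h4')) Nat.prime_seven
    (by omega) h4 h5 (zpowers_le.2 hg hc))
  omega

end Cfsg.Agent.S4221
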