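import Cfsg.Statements.S4222
import Mathlib
import Cfsg.Agent.Lib.Core.Frattini

set_option autoImplicit false
open Cfsg

namespace Cfsg.Agent.S4222

/-- If a normal subgroup `N` of a finite group is complete (its centre is trivial and every automorphism of `N` is inner), then the group is the internal direct product of `N` and the centralizer of `N`: the centralizer is a complement to `N`. -/
theorem result {T : Type*} [Group T] [Finite T] (N : Subgroup T) [N.Normal] (hz : Subgroup.center ↥N = ⊥) (ha : Function.Surjective (MulAut.conj : ↥N →* MulAut ↥N)) : (Subgroup.centralizer (N : Set T)).IsComplement' N := by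
  refine (Core.isComplement'_of_sup_eq_top_of_inf_eq_bot ?_ ?_)
  · rw [eq_top_iff]
    intro g _
    obtain ⟨n, hn⟩ := ha (MulAut.conjNormal g)
    have h1 : (n : T)⁻¹ * g ∈ Subgroup.centralizer (N : Set T) := by
      intro x hx
      have h2 := congrArg Subtype.val (DFunLike.congr_fun hn ⟨x, hx⟩)
      simp only [MulAut.conj_apply, Subgroup.coe_mul, Subgroup.coe_inv, MulAut.conjNormal_apply] at h2
      calc x * ((n : T)⁻¹ * g) = (n : T)⁻¹ * (n * x * (n : T)⁻¹) * g := by group
        _ = (n : T)⁻¹ * (g * x * g⁻¹) * g := by rw [h2]
        _ = (n : T)⁻¹ * g * x := by group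
    have := Subgroup.mul_mem _ (Subgroup.mem_sup_right (S := Subgroup.centralizer (N : Set T)) n.2)
      (Subgroup.mem_sup_left h1)
    simpa using this
  · rw [inf_comm]; exact (Core.center_eq_bot_iff_inf_centralizer N).1 hz

end Cfsg.Agent.S4222
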