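import Cfsg.Statements.S4223
import Mathlib

set_option autoImplicit false
open Cfsg

namespace Cfsg.Agent.S4223

open Subgroup

def Indec (A : Type*) [Group A] : Prop :=
  Nontrivial A ∧ ∀ H K : Subgroup A, H.Normal → K.Normal → H ⊓ K = ⊥ → H ⊔ K = ⊤ → H = ⊥ ∨ K = ⊥

def NormalEnd {A : Type*} [Group A] (φ : A → A) : Prop := ∀ g a, φ (g * a * g⁻¹) = g * φ a * g⁻¹

theorem exists_pow_idem {M : Type*} [Monoid M] [Finite M] (x : M) :
    ∃ n, 0 < n ∧ x ^ n * x ^ n = x ^ n := by
  obtain ⟨i, d, hd, h⟩ : ∃ i d : ℕ, 0 < d ∧ x ^ (i + d) = x ^ i := by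
    obtain ⟨i, j, h1, h2⟩ := Finite.exists_ne_map_eq_of_infinite fun i : ℕ => x ^ i
    rcases lt_or_gt_of_ne h1 with h | h
    · exact ⟨i, j - i, by omega, by rw [Nat.add_sub_cancel' h.le]; exact h2.symm⟩
    · exact ⟨j, i - j, by omega, by rw [Nat.add_sub_cancel' h.le]; exact h2⟩
  have h1 : ∀ k, x ^ (i + d * k) = x ^ i := fun k => by
    induction k with
    | zero => simp
    | succ k ih => rw [Nat.mul_succ, ← add_assoc, pow_add, ih, ← pow_add, h]
  obtain ⟨r, hr⟩ : ∃ r, d * (i + 1) = r + i := ⟨d * (i + 1) - i, by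
    have : i + 1 ≤ d * (i + 1) := Nat.le_mul_of_pos_left _ hd
    omega⟩
  refine ⟨d * (i + 1), by positivity, ?_⟩
  conv_lhs => rw [← pow_add]; enter [2, 1]; rw [hr]
  rw [add_assoc, pow_add, h1, ← pow_add, hr]

theorem fitting {A : Type*} [Group A] [Finite A] (hA : Indec A) (φ : A →* A) (hφ : NormalEnd φ) :
    Function.Injective φ ∨ ∀ a, φ a = a → a = 1 := by
  have : Finite (Monoid.End A) := DFunLike.finite _
  obtain ⟨n, hn, h⟩ := exists_pow_idem (M := Monoid.End A) φ
  set ψ : A →* A := (show Monoid.End A from φ) ^ n with hψ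
  have h1 : ∀ a, ψ (ψ a) = ψ a := fun a => DFunLike.congr_fun h a
  have h2 : ∀ a, ψ a = φ^[n] a := fun a => congrFun (Monoid.End.coe_pow _ _ _) a
  have h3 : NormalEnd ψ := fun g a => by
    rw [h2, h2]
    clear hψ h h1 h2 hn ψ
    induction n with
    | zero => rfl
    | succ n ih => rw [Function.iterate_succ_apply', Function.iterate_succ_apply', ih, hφ]
  refine (hA.2 ψ.ker ψ.range inferInstance ⟨?_⟩ ?_ ?_).imp (fun h4 => ?_) fun h4 a ha => ?_
  · rintro _ ⟨a, rfl⟩ g
    exact ⟨_, h3 g a⟩
  · rw [eq_bot_iff]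
    rintro _ ⟨h4, a, rfl⟩
    exact (h1 a).symm.trans h4
  · rw [eq_top_iff]
    intro a _
    rw [← mul_inv_cancel_right a (ψ a)⁻¹, inv_inv]
    exact mul_mem_sup (by simp [h1]) ⟨a, rfl⟩
  · have h5 : Function.Injective φ^[n] := by
      rw [← funext h2]; exact (MonoidHom.ker_eq_bot_iff _).mp h4
    obtain ⟨k, rfl⟩ : ∃ k, n = k + 1 := ⟨n - 1, by omega⟩
    exact h5.of_comp
  · have : ψ a ∈ ψ.range := ⟨a, rfl⟩
    rwa [h4, mem_bot, h2, Function.iterate_fixed ha] at this

theorem injective_or {A : Type*} [Group A] [Finite A] (hA : Indec A) {θ θ₁ θ₂ : A →* A}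
    (h : NormalEnd θ) (h₁ : NormalEnd θ₁) (hθ : ∀ a, θ a = θ₁ a * θ₂ a)
    (hi : Function.Injective θ) : Function.Injective θ₁ ∨ Function.Injective θ₂ := by
  let e := MulEquiv.ofBijective θ (Finite.injective_iff_bijective.mp hi)
  refine (fitting hA (θ₁.comp e.symm.toMonoidHom) fun g a => ?_).imp
    (fun h2 => ?_) fun h2 => ?_
  · obtain ⟨a, rfl⟩ := e.surjective a
    have : g * e a * g⁻¹ = e (g * a * g⁻¹) := (h g a).symm
    simp [this, h₁ g a, -map_mul]
  · exact fun a b hab => e.injective (h2 (by simpa using hab))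
  · refine (injective_iff_map_eq_one _).mpr fun a ha => ?_
    have h3 : e a = θ₁ a := by rw [← mul_one (θ₁ a), ← ha, ← hθ]; rfl
    exact e.map_eq_one_iff.mp (h2 _ (by simp [← h3]))

theorem exists_index {A X : Type*} [Group A] [Finite A] [Group X] (hA : Indec A) {κ : Type*}
    [Fintype κ] [DecidableEq κ] {B : κ → Type*} [∀ j, Group (B j)] (e : X ≃* ((j : κ) → B j))
    (ι : A →* X) (π : X →* A) (hπι : ∀ a, π (ι a) = a) :
    ∃ j, Function.Injective fun a => π (e.symm (Pi.mulSingle j (e (ι a) j))) := by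
  let ρ : Finset κ → ((j : κ) → B j) →* ((j : κ) → B j) := fun S =>
    MonoidHom.mk' (fun x j => if j ∈ S then x j else 1) fun x y => by
      funext j; by_cases h : j ∈ S <;> simp [h]
  let θ : Finset κ → A →* A := fun S =>
    π.comp (e.symm.toMonoidHom.comp ((ρ S).comp (e.toMonoidHom.comp ι)))
  have hθ : ∀ S a, θ S a = π (e.symm (ρ S (e (ι a)))) := fun _ _ => rfl
  have h1 : ∀ S, NormalEnd (θ S) := fun S g a => by
    have : ρ S (e (ι (g * a * g⁻¹))) = e (ι g) * ρ S (e (ι a)) * (e (ι g))⁻¹ := by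
      funext j; by_cases h : j ∈ S <;> simp [ρ, h]
    rw [hθ, hθ, this]
    simp [hπι]
  by_contra hh
  have h2 : ∀ S, ¬ Function.Injective (θ S) := fun S => by
    induction S using Finset.induction_on with
    | empty =>
      intro h
      have := hA.1
      obtain ⟨a, ha⟩ := exists_ne (1 : A)
      refine ha (h ?_)
      have : ρ ∅ (e (ι a)) = 1 := by funext j; simp [ρ]
      rw [hθ, this, map_one, map_one, map_one]
    | insert j S hj ih =>
      intro h
      refine (injective_or hA (h1 _) (h1 {j}) (θ₂ := θ S) (fun a => ?_) h).elim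
        (fun h => hh ⟨j, ?_⟩) ih
      · rw [hθ, hθ, hθ, ← map_mul, ← map_mul]
        congr 2
        funext i
        by_cases h : i = j
        · subst h; simp [ρ, hj]
        · simp [ρ, h]
      · convert h using 2 with a
        rw [hθ]
        congr 2
        funext i
        by_cases h : i = j
        · subst h; simp [ρ]
        · simp [ρ, h]
  refine h2 Finset.univ fun a b h => ?_
  have h3 : ∀ x, ρ Finset.univ x = x := fun x => by funext j; simp [ρ]
  simpa [hθ, h3, hπι] using h

universe u v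

theorem aux (m : ℕ) : ∀ {n : ℕ} {A : Fin m → Type u} {B : Fin n → Type v} [∀ i, Group (A i)]
    [∀ j, Group (B j)] [∀ i, Finite (A i)] [∀ j, Finite (B j)], (∀ i, Indec (A i)) →
    (∀ j, Indec (B j)) → (((i : Fin m) → A i) ≃* ((j : Fin n) → B j)) →
    ∃ σ : Fin m ≃ Fin n, ∀ i, Nonempty (A i ≃* B (σ i)) := by
  induction m with
  | zero =>
    intro n A B _ _ _ _ hA hB e
    rcases n with _ | n
    · exact ⟨Equiv.refl _, fun i => i.elim0⟩
    · have := (hB 0).1
      obtain ⟨b, hb⟩ := exists_ne (1 : B 0)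
      have := e.symm.injective.subsingleton
      exact absurd (by simpa using congrFun (Subsingleton.elim (Pi.mulSingle 0 b : ∀ j, B j) 1) 0) hb
  | succ m ih =>
    intro n A B _ _ _ _ hA hB e
    obtain ⟨j, hj⟩ := exists_index (hA 0) e (MonoidHom.mulSingle A 0) (Pi.evalMonoidHom A 0)
      (fun a => by simp)
    obtain ⟨n, rfl⟩ : ∃ k, n = k + 1 := ⟨n - 1, by have := j.pos; omega⟩
    let f : A 0 →* B j :=
      (Pi.evalMonoidHom B j).comp (e.toMonoidHom.comp (MonoidHom.mulSingle A 0))
    let g : B j →* A 0 :=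
      (Pi.evalMonoidHom A 0).comp (e.symm.toMonoidHom.comp (MonoidHom.mulSingle B j))
    have hgf : Function.Bijective (g.comp f) := Finite.injective_iff_bijective.mp hj
    have hf : Function.Injective f := Function.Injective.of_comp (f := g) hgf.1
    have hg : Function.Injective g := by
      have hn : f.range.Normal := ⟨by
        rintro _ ⟨a, rfl⟩ b
        obtain ⟨x, hx⟩ := e.surjective (Pi.mulSingle j b)
        refine ⟨x 0 * a * (x 0)⁻¹, ?_⟩
        have : (Pi.mulSingle 0 (x 0 * a * (x 0)⁻¹) : ∀ i, A i) = x * Pi.mulSingle 0 a * x⁻¹ := by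
          funext i
          by_cases h : i = 0
          · subst h; simp
          · simp [h]
        change e (Pi.mulSingle 0 _) j = b * e (Pi.mulSingle 0 a) j * b⁻¹
        rw [this, map_mul, map_mul, map_inv, hx]
        simp⟩
      refine (MonoidHom.ker_eq_bot_iff g).mp
        (((hB j).2 g.ker f.range inferInstance hn ?_ ?_).resolve_right fun h => ?_)
      · rw [eq_bot_iff]
        rintro _ ⟨h, a, rfl⟩
        have : a = 1 := (injective_iff_map_eq_one _).mp hgf.1 a h
        simp [this]
      · rw [eq_top_iff]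
        intro b _
        obtain ⟨a, ha⟩ := hgf.2 (g b)
        rw [← mul_inv_cancel_right b (f a)⁻¹, inv_inv]
        exact mul_mem_sup (by simp [← ha]) ⟨a, rfl⟩
      · have := (hA 0).1
        obtain ⟨a, ha⟩ := exists_ne (1 : A 0)
        exact ha ((injective_iff_map_eq_one _).mp hf a (mem_bot.mp (h ▸ ⟨a, rfl⟩)))
    have hfb : Function.Bijective f := ⟨hf, fun b => by
      obtain ⟨a, ha⟩ := hgf.2 (g b)
      exact ⟨a, hg ha⟩⟩
    let c : ((i : Fin m) → A i.succ) →* ((i : Fin (m + 1)) → A i) :=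
      MonoidHom.mk' (fun x => Fin.cons 1 x) fun x y => by
        funext i
        refine Fin.cases ?_ (fun i => ?_) i <;> simp
    let k : ((i : Fin m) → A i.succ) →* ((i : Fin n) → B (j.succAbove i)) :=
      MonoidHom.mk' (fun x i => e (c x) (j.succAbove i)) fun x y => by funext i; simp
    have hk : Function.Injective k := (injective_iff_map_eq_one _).mpr fun x hx => by
      have h1 : e (c x) = Pi.mulSingle j (e (c x) j) := by
        funext i
        refine Fin.succAboveCases j ?_ (fun i => ?_) i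
        · simp
        · rw [Pi.mulSingle_eq_of_ne (Fin.succAbove_ne j i)]
          exact congrFun hx i
      have h2 : e (c x) j = 1 := (injective_iff_map_eq_one _).mp hg _ (by
        change e.symm (Pi.mulSingle j _) 0 = 1
        rw [← h1, e.symm_apply_apply]
        rfl)
      rw [h2, Pi.mulSingle_one, e.map_eq_one_iff] at h1
      funext i
      exact congrFun h1 i.succ
    have hc : Nat.card ((i : Fin m) → A i.succ) = Nat.card ((i : Fin n) → B (j.succAbove i)) := by
      have h1 := Nat.card_congr e.toEquiv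
      rw [Nat.card_pi, Nat.card_pi, Fin.prod_univ_succ, Fin.prod_univ_succAbove _ j,
        Nat.card_eq_of_bijective f hfb] at h1
      rw [Nat.card_pi, Nat.card_pi]
      exact Nat.eq_of_mul_eq_mul_left Nat.card_pos h1
    obtain ⟨σ, hσ⟩ := ih (fun i => hA i.succ) (fun i => hB (j.succAbove i))
      (MulEquiv.ofBijective k ((Nat.bijective_iff_injective_and_card _).mpr ⟨hk, hc⟩))
    refine ⟨(finSuccEquiv m).trans (σ.optionCongr.trans (finSuccEquiv' j).symm), fun i => ?_⟩
    refine Fin.cases ?_ (fun i => ?_) i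
    · simpa using ⟨MulEquiv.ofBijective f hfb⟩
    · rw [Equiv.trans_apply, Equiv.trans_apply, finSuccEquiv_succ, Equiv.optionCongr_apply,
        Option.map_some, finSuccEquiv'_symm_some]
      exact hσ i

/-- If a finite group is isomorphic both to a direct product of `m` directly indecomposable nontrivial groups and to a direct product of `n` such groups (a group is directly indecomposable when it is not the internal direct product of two nontrivial normal subgroups), then `m = n` and the factors are isomorphic in pairs after a suitable matching. -/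
theorem result {m n : ℕ} {A : Fin m → Type*} {B : Fin n → Type*} [∀ i, Group (A i)] [∀ j, Group (B j)] [∀ i, Finite (A i)] [∀ j, Finite (B j)] (hA : ∀ i, Nontrivial (A i) ∧ ∀ H K : Subgroup (A i), H.Normal → K.Normal → H ⊓ K = ⊥ → H ⊔ K = ⊤ → H = ⊥ ∨ K = ⊥) (hB : ∀ j, Nontrivial (B j) ∧ ∀ H K : Subgroup (B j), H.Normal → K.Normal → H ⊓ K = ⊥ → H ⊔ K = ⊤ → H = ⊥ ∨ K = ⊥) (e : ((i : Fin m) → A i) ≃* ((j : Fin n) → B j)) : ∃ σ : Fin m ≃ Fin n, ∀ i, Nonempty (A i ≃* B (σ i)) := by
  exact aux m hA hB e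

end Cfsg.Agent.S4223
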