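import Cfsg.Statements.S4225
import Mathlib
import Cfsg.Agent.Lib.Reg.Regular

set_option autoImplicit false
open Cfsg

namespace Cfsg.Agent.S4225

/-- In a regular `p`-group, for every `k` the elements whose `p^k`-th power is `1` form a characteristic subgroup. -/
theorem result {G : Type*} [Group G] [Finite G] {p : ℕ} [Fact p.Prime] (hG : Cfsg.IsRegularPGroup p G) (k : ℕ) : ∃ H : Subgroup G, H.Characteristic ∧ (H : Set G) = {x : G | x ^ p ^ k = 1} := by
  obtain ⟨h1, h2⟩ := Reg.isRegularPGroup_iff.mp hG
  have := h1.isNilpotent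
  refine ⟨(h2 k).omega, ?_, ?_⟩
  · rw [Subgroup.characteristic_iff_le_comap]
    intro φ x hx
    rw [Subgroup.mem_comap, Reg.PowRegOn.mem_omega]
    refine ⟨trivial, ?_⟩
    have := congrArg φ hx.2
    simpa using this
  · ext x
    simp [Reg.PowRegOn.mem_omega]

end Cfsg.Agent.S4225
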