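import Cfsg.Statements.S4227
import Cfsg.Agent.Lib.Mod.PReduce
import Cfsg.Agent.Lib.Char.Burnside

set_option autoImplicit false
open Cfsg

namespace Cfsg.Agent.S4227


/-- A finite group in which every element has order dividing `6` has `2`-length at most `1` and `3`-length at most `1`. -/
theorem result {G : Type*} [Group G] [Finite G] (h : ∀ x : G, x ^ 6 = 1) : Cfsg.PLengthLE 2 1 G ∧ Cfsg.PLengthLE 3 1 G := by
  have h2 : Fact (Nat.Prime 2) := ⟨Nat.prime_two⟩
  have h3 : Fact (Nat.Prime 3) := ⟨Nat.prime_three⟩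
  have hpr : ∀ q : ℕ, q.Prime → q ∣ Nat.card G → q = 2 ∨ q = 3 := by
    intro q hq hd
    have := Fact.mk hq
    obtain ⟨x, hx⟩ := exists_prime_orderOf_dvd_card' q hd
    have h6 : q ∣ 2 * 3 := hx ▸ orderOf_dvd_of_pow_eq_one (h x)
    exact ((Nat.Prime.dvd_mul hq).1 h6).imp (Nat.prime_dvd_prime_iff_eq hq Nat.prime_two).1
      (Nat.prime_dvd_prime_iff_eq hq Nat.prime_three).1
  have hsol : Group.IsSolvable G := Char.solvable_of_two_primes Nat.prime_two Nat.prime_three hpr
  have key : ∀ p q : ℕ, p.Coprime q → p * q = 6 → Mod.PExp p 1 G := by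
    rintro p q hpq h6 x ⟨k, hk⟩
    rw [pow_one, ← orderOf_dvd_iff_pow_eq_one]
    have h1 : orderOf x ∣ p * q := h6 ▸ orderOf_dvd_of_pow_eq_one (h x)
    exact ((hpq.pow_left k).coprime_dvd_left (orderOf_dvd_of_pow_eq_one hk)).dvd_of_dvd_mul_right h1
  have e2 := key 2 3 (by decide) rfl
  have hab : ∀ S : Sylow 2 G, IsMulCommutative (S : Subgroup G) := fun S =>
    ⟨⟨fun a b => by
      have hs : ∀ x : S, x * x = 1 := fun x => by
        obtain ⟨k, hk⟩ := S.isPGroup' x
        have := e2 x ⟨k, congrArg Subtype.val hk⟩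
        exact Subtype.ext (by simpa [sq] using this)
      have h1 : ∀ x : S, x⁻¹ = x := fun x => inv_eq_of_mul_eq_one_right (hs x)
      rw [← h1 (a * b), mul_inv_rev, h1, h1]⟩⟩
  refine ⟨?_, Mod.pLengthLE_of_pExp (Coprime.isPSolvable_of_isSolvable hsol)
    (key 3 2 (by decide) rfl) (Mod.noExc_of_odd (by decide) (Or.inr hab))⟩
  exact Mod.pLengthLE_one_of_comm (Coprime.isPSolvable_of_isSolvable hsol) default (hab _)

end Cfsg.Agent.S4227
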