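import Cfsg.Statements.S4274
import Cfsg.Agent.Lib.Coprime.FixTools

set_option autoImplicit false
open Cfsg

namespace Cfsg.Agent.S4274

open Subgroup MulAction

def L0 : List ℕ := [1, 2, 3, 4, 5, 6, 7, 8, 10, 11, 12, 14, 15, 20, 21, 22, 24, 28, 30, 33, 35, 40, 42, 44, 55, 56, 60, 66, 70, 77, 84, 88, 105, 110, 120, 132, 140, 154, 165, 168, 210, 220, 231, 264, 280, 308, 330, 385, 420, 440, 462, 616, 660, 770, 840, 924, 1155, 1320, 1540, 1848, 2310, 3080, 4620, 9240]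

def L : List ℕ := L0 ++ L0.map (19 * ·)

def opts (N q : ℕ) : List (ℕ × ℕ × ℕ) :=
  if q ∣ N then ((L.filter fun c => q * c ∣ N).flatMap fun c => [2, 3, 4, 5, 6, 9, 10, 18].map fun r =>
    (N / (q * c * r), c, r)).filter fun t =>
      t.2.2 ∣ q - 1 ∧ t.1 * (q * t.2.1 * t.2.2) = N ∧ t.1 % q = 1 ∧ 1 < t.1
  else [(0, 1, 1)]

theorem mem_L0 {d : ℕ} (h : d ∣ 9240) : d ∈ L0 := by
  have h1 : d ∈ Nat.divisors 9240 := Nat.mem_divisors.mpr ⟨h, by norm_num⟩
  simp only [Nat.divisors_ofNat, Finset.mem_insert, Finset.mem_singleton] at h1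
  simpa only [L0, List.mem_cons, List.not_mem_nil, or_false] using h1

set_option synthInstance.maxSize 100000 in
set_option maxRecDepth 100000 in
theorem arith : ∀ m ∈ L0, m ≠ 9240 → ∀ a ∈ opts (19 * m) 19,
    (a.1 = 20 → a.2.1 % 2 = 1 ∧ a.2.2 % 2 = 1) → (3 ∣ a.2.1 → a.1 % 3 = 1) →
    (5 ∣ a.2.1 → a.1 % 5 = 1) → (7 ∣ a.2.1 → a.1 % 7 = 1) → (11 ∣ a.2.1 → a.1 % 11 = 1) →
    ∀ b ∈ opts (19 * m) 11, (11 ∣ a.2.1 ↔ 19 ∣ b.2.1) →
    ∀ c ∈ opts (19 * m) 7, (7 ∣ a.2.1 ↔ 19 ∣ c.2.1) → (7 ∣ b.2.1 ↔ 11 ∣ c.2.1) →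
    ∀ d ∈ opts (19 * m) 5, (5 ∣ a.2.1 ↔ 19 ∣ d.2.1) → (5 ∣ b.2.1 ↔ 11 ∣ d.2.1) →
      (5 ∣ c.2.1 ↔ 7 ∣ d.2.1) →
    ∀ e ∈ opts (19 * m) 3, (3 ∣ a.2.1 ↔ 19 ∣ e.2.1) → (3 ∣ b.2.1 ↔ 11 ∣ e.2.1) →
      (3 ∣ c.2.1 ↔ 7 ∣ e.2.1) → (3 ∣ d.2.1 ↔ 5 ∣ e.2.1) →
    (¬ 7 ∣ a.2.1 → ¬ 5 ∣ a.2.1 → ¬ 5 ∣ c.2.1 →
      a.1 * (18 * a.2.1) + c.1 * (6 * c.2.1) + d.1 * (4 * d.2.1) + b.1 * 10 + e.1 * 2 ≤ 19 * m) →
    (¬ 7 ∣ a.2.1 → ¬ 3 ∣ a.2.1 → ¬ 3 ∣ c.2.1 →
      a.1 * (18 * a.2.1) + c.1 * (6 * c.2.1) + e.1 * (2 * e.2.1) + b.1 * 10 + d.1 * 4 ≤ 19 * m) →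
    (¬ 7 ∣ a.2.1 → ¬ 11 ∣ a.2.1 → ¬ 11 ∣ c.2.1 →
      a.1 * (18 * a.2.1) + c.1 * (6 * c.2.1) + b.1 * (10 * b.2.1) + d.1 * 4 + e.1 * 2 ≤ 19 * m) →
    False := by
  decide +kernel

theorem mem_L {d : ℕ} (h : d ∣ 175560) : d ∈ L := by
  by_cases h19 : 19 ∣ d
  · obtain ⟨e, rfl⟩ := h19
    exact List.mem_append_right _ (List.mem_map.mpr ⟨e, mem_L0
      (Nat.dvd_of_mul_dvd_mul_left (by norm_num : 0 < 19) h), rfl⟩)
  · exact List.mem_append_left _ (mem_L0 (Nat.Coprime.dvd_of_dvd_mul_left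
      ((Nat.Prime.coprime_iff_not_dvd (by norm_num)).mpr h19).symm (show d ∣ 19 * 9240 from h)))

theorem card_sylow_eq {G : Type*} [Group G] [Finite G] (hd : Nat.card G ∣ 175560) {q : ℕ}
    [hq : Fact q.Prime] (h2 : ¬ q ^ 2 ∣ 175560) (h : q ∣ Nat.card G) (P : Sylow q G) :
    Nat.card P = q := by
  obtain ⟨k, hk⟩ := P.isPGroup'.exists_card_eq
  have h1 := P.dvd_card_of_dvd_card h
  have h3 := (card_subgroup_dvd_card (P : Subgroup G)).trans hd
  rw [hk] at h1 h3 ⊢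
  rcases k with _ | _ | k
  · exact absurd (Nat.dvd_one.mp h1) hq.out.one_lt.ne'
  · simp
  · exact absurd ((pow_dvd_pow q (by omega)).trans h3) h2

theorem exists_data {G : Type*} [Group G] [Finite G] [IsSimpleGroup G]
    (hc : ¬ IsMulCommutative G) (hd : Nat.card G ∣ 175560) (q : ℕ) [hq : Fact q.Prime]
    (h2 : ¬ q ^ 2 ∣ 175560) (h3 : ∀ r ≤ q - 1, r ∣ q - 1 → 1 < r → r ∈ [2, 3, 4, 5, 6, 9, 10, 18]) :
    ∃ t ∈ opts (Nat.card G) q, t.1 * (q - 1) ≤ {x : G | orderOf x = q}.ncard ∧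
      t.1 * ((q - 1) * t.2.1) ≤ {x : G | q ∣ orderOf x}.ncard ∧
      (∀ q' : ℕ, q'.Prime → q ≠ q' → (q' ∣ t.2.1 ↔ ∃ x : G, q ∣ orderOf x ∧ q' ∣ orderOf x)) ∧
      (q ∣ Nat.card G → t.1 = Nat.card (Sylow q G) ∧ ∀ P : Sylow q G,
        Nat.card (centralizer ((P : Subgroup G) : Set G)) = q * t.2.1 ∧
        Nat.card (normalizer ((P : Subgroup G) : Set G)) = q * t.2.1 * t.2.2) := by
  by_cases h : q ∣ Nat.card G
  · obtain ⟨P⟩ : Nonempty (Sylow q G) := inferInstance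
    have hP := card_sylow_eq hd h2 h P
    obtain ⟨c, r, hr, hr1, hC, hN, hG⟩ := Coprime.exists_sylow_prime_data hc P hP
    have hpos : 0 < q * c * r := hN ▸ Nat.card_pos
    have hqc : q * c ∣ Nat.card G := hC ▸ card_subgroup_dvd_card _
    refine ⟨(Nat.card (Sylow q G), c, r), ?_, Coprime.card_sylow_mul_le_ncard_orderOf_eq P hP,
      Coprime.card_sylow_mul_le_ncard_dvd_orderOf P hP hC, fun q' hq' hne => ?_,
      fun _ => ⟨rfl, fun Q => ?_⟩⟩
    · rw [opts, if_pos h, List.mem_filter, List.mem_flatMap]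
      refine ⟨⟨c, List.mem_filter.mpr ⟨mem_L (((dvd_mul_left c q).trans hqc).trans hd),
        decide_eq_true hqc⟩, List.mem_map.mpr ⟨r, h3 r (Nat.le_of_dvd
          (by have := hq.out.two_le; omega) hr) hr hr1, ?_⟩⟩, decide_eq_true ⟨hr, hG, ?_,
          Coprime.one_lt_card_sylow hc h⟩⟩
      · rw [← hG, Nat.mul_div_cancel _ hpos]
      · exact Eq.trans (card_sylow_modEq_one q G) (Nat.mod_eq_of_lt hq.out.one_lt)
    · rw [← Coprime.dvd_card_centralizer_iff P hP hq' hne, hC]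
      exact ⟨fun h => h.mul_left _, fun h => (Nat.Coprime.dvd_mul_left
        ((Nat.coprime_primes hq' hq.out).mpr hne.symm)).mp h⟩
    · refine ⟨(Coprime.card_centralizer_sylow_eq P Q).trans hC, ?_⟩
      apply Nat.eq_of_mul_eq_mul_left (Nat.card_pos (α := Sylow q G))
      rw [hG, Q.card_eq_index_normalizer]
      exact index_mul_card _
  · refine ⟨(0, 1, 1), by rw [opts, if_neg h]; simp, by simp, by simp, fun q' hq' _ => ?_,
      fun h' => absurd h' h⟩
    exact ⟨fun h' => absurd (Nat.dvd_one.mp h') hq'.one_lt.ne',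
      fun ⟨x, hx, _⟩ => absurd (hx.trans (orderOf_dvd_natCard x)) h⟩

theorem count {G : Type*} [Group G] [Finite G] {p q r s t : ℕ} (hs : s.Prime) (ht : t.Prime)
    (hp : p.Prime) (hq : q.Prime) (hr : r.Prime) (h : [p, q, r, s, t].Nodup)
    (h1 : ¬ ∃ x : G, p ∣ orderOf x ∧ q ∣ orderOf x) (h2 : ¬ ∃ x : G, p ∣ orderOf x ∧ r ∣ orderOf x)
    (h3 : ¬ ∃ x : G, q ∣ orderOf x ∧ r ∣ orderOf x) :
    {x : G | p ∣ orderOf x}.ncard + {x : G | q ∣ orderOf x}.ncard + {x : G | r ∣ orderOf x}.ncard +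
      {x : G | orderOf x = s}.ncard + {x : G | orderOf x = t}.ncard ≤ Nat.card G := by
  simp only [List.nodup_cons, List.mem_cons, List.not_mem_nil, or_false, not_or] at h
  have key : ∀ {a b : ℕ}, a.Prime → b.Prime → a ≠ b → ∀ x : G, a ∣ orderOf x → orderOf x ≠ b :=
    fun ha hb hab x hx e => hab ((Nat.prime_dvd_prime_iff_eq ha hb).mp (e ▸ hx))
  rw [← Set.ncard_union_eq, ← Set.ncard_union_eq, ← Set.ncard_union_eq, ← Set.ncard_union_eq]
  · exact Set.ncard_le_card _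
  · refine Set.disjoint_left.mpr ?_
    rintro x (((hx | hx) | hx) | hx)
    · exact key hp ht h.1.2.2.2 x hx
    · exact key hq ht h.2.1.2.2 x hx
    · exact key hr ht h.2.2.1.2 x hx
    · exact key hs ht h.2.2.2.1 x (dvd_of_eq (Eq.symm hx))
  · refine Set.disjoint_left.mpr ?_
    rintro x ((hx | hx) | hx)
    · exact key hp hs h.1.2.2.1 x hx
    · exact key hq hs h.2.1.2.1 x hx
    · exact key hr hs h.2.2.1.1 x hx
  · refine Set.disjoint_left.mpr ?_
    rintro x (hx | hx) hx'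
    · exact h2 ⟨x, hx, hx'⟩
    · exact h3 ⟨x, hx, hx'⟩
  · exact Set.disjoint_left.mpr fun x hx hx' => h1 ⟨x, hx, hx'⟩

instance fact_prime_nineteen : Fact (Nat.Prime 19) := ⟨by norm_num⟩

theorem simple_case {G : Type*} [Group G] [Finite G] [IsSimpleGroup G]
    (hc : ¬ IsMulCommutative G) (hd : Nat.card G ∣ 175560) (h19 : 19 ∣ Nat.card G)
    (ih : ∀ H : Subgroup G, H ≠ ⊤ → Nat.card (Sylow 19 H) = 1) : Nat.card G = 175560 := by
  by_contra hne
  have : Fact (Nat.Prime 3) := ⟨by norm_num⟩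
  have : Fact (Nat.Prime 5) := ⟨by norm_num⟩
  have : Fact (Nat.Prime 7) := ⟨by norm_num⟩
  have : Fact (Nat.Prime 11) := ⟨by norm_num⟩
  obtain ⟨a, ha, -, ha2, ha3, ha4⟩ := exists_data hc hd 19 (by norm_num) (by decide)
  obtain ⟨b, hb, hb1, hb2, hb3, -⟩ := exists_data hc hd 11 (by norm_num) (by decide)
  obtain ⟨c, hc', -, hc2, hc3, -⟩ := exists_data hc hd 7 (by norm_num) (by decide)
  obtain ⟨d, hd', hd1, hd2, hd3, -⟩ := exists_data hc hd 5 (by norm_num) (by decide)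
  obtain ⟨e, he, he1, he2, he3, -⟩ := exists_data hc hd 3 (by norm_num) (by decide)
  obtain ⟨hn, ha4⟩ := ha4 h19
  obtain ⟨P⟩ : Nonempty (Sylow 19 G) := inferInstance
  have hP := card_sylow_eq hd (by norm_num) h19 P
  obtain ⟨hC, hN⟩ := ha4 P
  have hF : ∀ (q : ℕ) [Fact q.Prime], ¬ q ^ 2 ∣ 175560 → q ∣ a.2.1 → a.1 % q = 1 := by
    intro q hq hq2 h
    have h1 : q ∣ Nat.card (centralizer ((P : Subgroup G) : Set G)) := hC ▸ h.mul_left _
    obtain ⟨⟨x, hx⟩, hx'⟩ := exists_prime_orderOf_dvd_card' q h1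
    rw [← orderOf_coe] at hx'
    change orderOf x = q at hx'
    have h3 : IsPGroup q (zpowers x) :=
      IsPGroup.of_card (n := 1) (by rw [Nat.card_zpowers, hx', pow_one])
    obtain ⟨Q, hQ⟩ := h3.exists_le_sylow
    have hqG := h1.trans (card_subgroup_dvd_card _)
    have h4 := Core.eq_of_le_of_card_eq hQ (by
      rw [Nat.card_zpowers, hx', card_sylow_eq hd hq2 hqG Q])
    have h5 : (P : Subgroup G) ≤ normalizer ((Q : Subgroup G) : Set G) := by
      refine le_trans ?_ (centralizer_le_normalizer _)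
      rw [le_centralizer_iff, ← h4]
      exact zpowers_le.mpr hx
    have h6 : normalizer ((Q : Subgroup G) : Set G) ≠ ⊤ := fun e' => by
      have := Coprime.one_lt_card_sylow hc hqG
      rw [Q.card_eq_index_normalizer, ← Sylow.coe_coe, e', index_top] at this
      omega
    have h7 := ih _ h6
    rw [((Coprime.isSylowIn_top P).mono h5 le_top).card_sylow, relIndex_eq_one] at h7
    have h8 := card_sylow_modEq_one q (normalizer ((P : Subgroup G) : Set G))
    rw [((Coprime.isSylowIn_top Q).mono (le_normalizer.trans h7) le_top).card_sylow] at h8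
    have h9 := card_sylow_modEq_one q G
    rw [Q.card_eq_index_normalizer, ← Sylow.coe_coe, ← relIndex_mul_index h7] at h9
    have h10 := (h8.mul_right _).symm.trans h9
    rw [one_mul, Sylow.coe_coe, ← P.card_eq_index_normalizer, ← hn] at h10
    exact Eq.trans h10 (Nat.mod_eq_of_lt hq.out.one_lt)
  have h20 : a.1 = 20 → a.2.1 % 2 = 1 ∧ a.2.2 % 2 = 1 := by
    intro h
    have h1 : ¬ 2 ∣ Nat.card (normalizer ((P : Subgroup G) : Set G)) := by
      intro h2
      obtain ⟨⟨x, hx⟩, hx'⟩ := exists_prime_orderOf_dvd_card' 2 h2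
      rw [← orderOf_coe] at hx'
      change orderOf x = 2 at hx'
      have h3 := Coprime.ncard_fixedBy_modEq_four (Ω := Sylow 19 G) hc
        (hx' ▸ pow_orderOf_eq_one x)
      rw [← hn, h] at h3
      unfold Nat.ModEq at h3
      by_cases hxC : x ∈ centralizer ((P : Subgroup G) : Set G)
      · have h4 := Coprime.ncard_fixedBy_sylow_modEq_one P hxC
        have h5 := Coprime.ncard_fixedBy_lt (Ω := Sylow 19 G)
          (Coprime.exists_smul_ne_of_one_lt (by omega)) (x := x)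
          (by rintro rfl; rw [orderOf_one] at hx'; omega)
        unfold Nat.ModEq at h4
        omega
      · have h4 := Coprime.mul_ncard_fixedBy_sylow_le P hP hx hxC
        omega
    rw [hN] at h1
    constructor
    · exact Nat.two_dvd_ne_zero.mp fun h2 => h1 ((h2.mul_left _).mul_right _)
    · exact Nat.two_dvd_ne_zero.mp fun h2 => h1 (h2.mul_left _)
  obtain ⟨m, hm⟩ := h19
  have sw : ∀ p q : ℕ, (∃ x : G, p ∣ orderOf x ∧ q ∣ orderOf x) ↔
      ∃ x : G, q ∣ orderOf x ∧ p ∣ orderOf x := fun p q => by simp only [and_comm]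
  have p3 : Nat.Prime 3 := by norm_num
  have p5 : Nat.Prime 5 := by norm_num
  have p7 : Nat.Prime 7 := by norm_num
  have p11 : Nat.Prime 11 := by norm_num
  have p19 : Nat.Prime 19 := by norm_num
  rw [hm] at ha hb hc' hd' he
  refine arith m (mem_L0 (Nat.dvd_of_mul_dvd_mul_left (by norm_num : 0 < 19) (hm ▸ hd)))
    (by omega) a ha h20 (hF 3 (by norm_num)) (hF 5 (by norm_num)) (hF 7 (by norm_num))
    (hF 11 (by norm_num))
    b hb (by rw [ha3 _ p11 (by omega), hb3 _ p19 (by omega), sw])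
    c hc' (by rw [ha3 _ p7 (by omega), hc3 _ p19 (by omega), sw])
    (by rw [hb3 _ p7 (by omega), hc3 _ p11 (by omega), sw])
    d hd' (by rw [ha3 _ p5 (by omega), hd3 _ p19 (by omega), sw])
    (by rw [hb3 _ p5 (by omega), hd3 _ p11 (by omega), sw])
    (by rw [hc3 _ p5 (by omega), hd3 _ p7 (by omega), sw])
    e he (by rw [ha3 _ p3 (by omega), he3 _ p19 (by omega), sw])
    (by rw [hb3 _ p3 (by omega), he3 _ p11 (by omega), sw])
    (by rw [hc3 _ p3 (by omega), he3 _ p7 (by omega), sw])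
    (by rw [hd3 _ p3 (by omega), he3 _ p5 (by omega), sw]) ?_ ?_ ?_
  · intro h1 h2 h3
    have := count (G := G) p11 p3 p19 p7 p5 (by decide) (by rwa [← ha3 _ p7 (by omega)])
      (by rwa [← ha3 _ p5 (by omega)]) (by rwa [← hc3 _ p5 (by omega)])
    norm_num at ha2 hb1 hc2 hd2 he1
    omega
  · intro h1 h2 h3
    have := count (G := G) p11 p5 p19 p7 p3 (by decide) (by rwa [← ha3 _ p7 (by omega)])
      (by rwa [← ha3 _ p3 (by omega)]) (by rwa [← hc3 _ p3 (by omega)])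
    norm_num at ha2 hb1 hc2 he2 hd1
    omega
  · intro h1 h2 h3
    have := count (G := G) p5 p3 p19 p7 p11 (by decide) (by rwa [← ha3 _ p7 (by omega)])
      (by rwa [← ha3 _ p11 (by omega)]) (by rwa [← hc3 _ p11 (by omega)])
    norm_num at ha2 hb2 hc2 hd1 he1
    omega

universe u

theorem main (G : Type u) [Group G] [Finite G] (hd : Nat.card G ∣ 175560) :
    (Nat.card G = 175560 ∧ IsSimpleGroup G) ∨ Nat.card (Sylow 19 G) = 1 := by
  revert hd
  refine Core.induction_on_card (P := fun G _ _ => Nat.card G ∣ 175560 →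
    (Nat.card G = 175560 ∧ IsSimpleGroup G) ∨ Nat.card (Sylow 19 G) = 1) ?_ G
  intro G _ _ ih hd
  have ih' : ∀ (H : Type u) [Group H] [Finite H], Nat.card H < Nat.card G →
      Nat.card H ∣ Nat.card G → Nat.card (Sylow 19 H) = 1 := fun H _ _ h1 h2 =>
    (ih H h1 (h2.trans hd)).resolve_left fun h => by
      have := Nat.le_of_dvd (by norm_num) hd
      omega
  obtain ⟨P⟩ : Nonempty (Sylow 19 G) := inferInstance
  by_cases hc : IsMulCommutative G
  · have : (P : Subgroup G).Normal := ⟨fun n hn g => by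
      rwa [hc.1.1 g n, mul_inv_cancel_right]⟩
    have := P.unique_of_normal this
    exact Or.inr Nat.card_unique
  by_cases h19 : 19 ∣ Nat.card G
  swap
  · have h1 : (P : Subgroup G) = ⊥ := by
      rw [← card_eq_one, P.card_eq_multiplicity, Nat.factorization_eq_zero_of_not_dvd h19, pow_zero]
    have := P.unique_of_normal (h1 ▸ inferInstance)
    exact Or.inr Nat.card_unique
  by_cases hs : IsSimpleGroup G
  · exact Or.inl ⟨simple_case hc hd h19 fun H hH =>
      ih' H (Core.card_lt_of_ne_top hH) (card_subgroup_dvd_card H), hs⟩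
  right
  have hnt : Nontrivial G := by
    by_contra h
    rw [not_nontrivial_iff_subsingleton] at h
    exact hc ⟨⟨fun a b => Subsingleton.elim _ _⟩⟩
  obtain ⟨K, hK, hb, ht⟩ : ∃ K : Subgroup G, K.Normal ∧ K ≠ ⊥ ∧ K ≠ ⊤ := by
    by_contra h
    push Not at h
    exact hs ⟨fun K hK => by
      by_cases hb : K = ⊥
      · exact Or.inl hb
      · exact Or.inr (h K hK hb)⟩
  rw [Coprime.card_sylow_eq_quotient_mul K P,
    ih' _ (Core.card_quotient_lt hb) (card_quotient_dvd_card K), one_mul]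
  have hP := card_sylow_eq hd (by norm_num) h19 P
  have h1 := (Coprime.isSylowIn_top P).inf_of_le_normalizer (N := K) le_top le_normalizer_of_normal
  have h2 := card_dvd_of_le (inf_le_left : (P : Subgroup G) ⊓ K ≤ P)
  rw [hP] at h2
  rcases (Nat.dvd_prime (by norm_num)).mp h2 with h | h
  · rw [card_eq_one] at h
    have hK' : ¬ 19 ∣ Nat.card K := by
      have := h1.2.2
      rwa [h, relIndex_bot_left] at this
    rw [← inf_relIndex_left, Coprime.inf_normalizer_eq_of_inf_eq_bot le_normalizer_of_normal h,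
      inf_relIndex_left]
    by_contra hne
    set n := (centralizer ((P : Subgroup G) : Set G)).relIndex K with hn
    have hnd : n ∣ Nat.card K := relIndex_dvd_card _ _
    have hn0 : n ≠ 0 := fun e => Nat.card_pos.ne' (Nat.eq_zero_of_zero_dvd (e ▸ hnd))
    have hq := Nat.minFac_prime hne
    have h3 := Coprime.pow_factorization_relIndex_centralizer_modEq P.isPGroup'
      le_normalizer_of_normal hK' hq
    rw [← hn] at h3
    have h4 : n.minFac ^ n.factorization n.minFac ∣ 9240 := Nat.Coprime.dvd_of_dvd_mul_left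
      ((Nat.Prime.coprime_iff_not_dvd (by norm_num)).mpr fun h' =>
        hK' (h'.trans ((Nat.ordProj_dvd _ _).trans hnd))).symm
      (show _ ∣ 19 * 9240 from ((Nat.ordProj_dvd _ _).trans hnd).trans
        ((card_subgroup_dvd_card K).trans hd))
    have h5 : 0 < n.factorization n.minFac := hq.factorization_pos_of_dvd hn0 (Nat.minFac_dvd n)
    have h6 : ∀ d ∈ L0, d % 19 = 1 → d = 1 ∨ (2 ∣ d ∧ 5 ∣ d) ∨ (7 ∣ d ∧ 11 ∣ d) := by decide
    have h7 : ∀ a b : ℕ, a.Prime → b.Prime → a ∣ n.minFac ^ n.factorization n.minFac →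
        b ∣ n.minFac ^ n.factorization n.minFac → a = b := fun a b ha hb h1 h2 =>
      ((Nat.prime_dvd_prime_iff_eq ha hq).mp (ha.dvd_of_dvd_pow h1)).trans
        ((Nat.prime_dvd_prime_iff_eq hb hq).mp (hb.dvd_of_dvd_pow h2)).symm
    rcases h6 _ (mem_L0 h4) h3 with h | h | h
    · exact (Nat.one_lt_pow h5.ne' hq.one_lt).ne' h
    · exact absurd (h7 2 5 (by norm_num) (by norm_num) h.1 h.2) (by norm_num)
    · exact absurd (h7 7 11 (by norm_num) (by norm_num) h.1 h.2) (by norm_num)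
  · rw [Core.eq_of_le_of_card_eq inf_le_left (h.trans hP.symm)] at h1
    rw [← h1.card_sylow]
    exact ih' K (Core.card_lt_of_ne_top ht) (card_subgroup_dvd_card K)

/-- A finite group of order 175560 = 2³·3·5·7·11·19 is either simple or has a normal Sylow 19-subgroup. -/
theorem result {G : Type*} [Group G] [Finite G] (hG : Nat.card G = 175560) : IsSimpleGroup G ∨ ∀ P : Sylow 19 G, (P : Subgroup G).Normal := by
  refine (main G hG.dvd).imp And.right fun h P => ?_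
  have : Subsingleton (Sylow 19 G) := (Nat.card_eq_one_iff_unique.mp h).1
  exact P.normal_of_subsingleton

end Cfsg.Agent.S4274
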