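import Cfsg.Statements.S4275
import Mathlib

set_option autoImplicit false
open Cfsg

namespace Cfsg.Agent.S4275

/-- Let G be a transitive group of permutations of a finite set Ω, let o ∈ Ω, and let α be an automorphism of G. Then α is induced by conjugation by a permutation of Ω normalizing G if and only if the image under α of the stabilizer of o fixes some point of Ω. -/
theorem result {Ω : Type*} [Fintype Ω] (G : Subgroup (Equiv.Perm Ω)) (htr : MulAction.IsPretransitive G Ω) (o : Ω) (α : G ≃* G) : (∃ σ : Equiv.Perm Ω, σ ∈ Subgroup.normalizer (G : Set (Equiv.Perm Ω)) ∧ ∀ g : G, ((α g : G) : Equiv.Perm Ω) = σ * (g : Equiv.Perm Ω) * σ⁻¹) ↔ ∃ ω : Ω, ∀ g ∈ (MulAction.stabilizer G o).map α.toMonoidHom, g • ω = ω := by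
  constructor
  · rintro ⟨σ, -, hσ⟩
    refine ⟨σ o, ?_⟩
    rintro _ ⟨g, hg, rfl⟩
    have hg' : (g : Equiv.Perm Ω) o = o := hg
    show ((α g : G) : Equiv.Perm Ω) (σ o) = σ o
    rw [hσ]
    simp [hg']
  · rintro ⟨ω, hω⟩
    have hex : ∀ x : Ω, ∃ g : G, g • o = x := fun x => htr.exists_smul_eq o x
    choose t ht using hex
    have wd : ∀ g h : G, g • o = h • o → α g • ω = α h • ω := by
      intro g h hgh
      have h1 : h⁻¹ * g ∈ MulAction.stabilizer G o := by
        rw [MulAction.mem_stabilizer_iff, mul_smul, hgh, inv_smul_smul]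
      have h2 := hω _ ⟨_, h1, rfl⟩
      simp only [MulEquiv.toMonoidHom_eq_coe, MonoidHom.coe_coe, map_mul, map_inv] at h2
      rw [mul_smul, inv_smul_eq_iff] at h2
      exact h2
    let s : Ω → Ω := fun x => α (t x) • ω
    have hs : ∀ g : G, s (g • o) = α g • ω := fun g => wd _ _ (ht _)
    have hsurj : Function.Surjective s := by
      intro y
      obtain ⟨g, hg⟩ := htr.exists_smul_eq ω y
      exact ⟨α.symm g • o, by rw [hs]; simpa using hg⟩
    let σ : Equiv.Perm Ω := Equiv.ofBijective s ⟨Finite.injective_iff_surjective.2 hsurj, hsurj⟩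
    have hσ : ∀ g : G, ((α g : G) : Equiv.Perm Ω) = σ * (g : Equiv.Perm Ω) * σ⁻¹ := by
      intro g
      rw [eq_mul_inv_iff_mul_eq]
      ext x
      show α g • s x = s (g • x)
      rw [← ht x, hs, ← mul_smul g, hs, map_mul, mul_smul]
    refine ⟨σ, ?_, hσ⟩
    rw [Subgroup.mem_normalizer_iff]
    intro h
    constructor
    · intro hh
      have := hσ ⟨h, hh⟩
      simp only at this
      rw [← this]
      exact (α ⟨h, hh⟩).2
    · intro hh
      have := hσ (α.symm ⟨_, hh⟩)
      simp only [MulEquiv.apply_symm_apply, mul_left_inj, mul_right_inj] at this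
      rw [this]
      exact (α.symm ⟨_, hh⟩).2

end Cfsg.Agent.S4275
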