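import Cfsg.Statements.S4276
import Mathlib
import Cfsg.Agent.S4275

set_option autoImplicit false
open Cfsg

namespace Cfsg.Agent.S4276

open scoped Matrix

theorem arith {n k N l c d : ℤ} {t : ℕ} (hk : 1 ≤ k) (hkn : k ≤ n) (hc : IsCoprime k n)
    (h1 : k = N + l) (hl : 0 ≤ l) (h2 : k ^ 2 = N + l * n) (h3 : k ^ (2 * t + 1) = c + d * n)
    (h4 : c ^ 2 = N ^ (2 * t + 1)) : k = 1 ∨ k = n - 1 := by
  obtain ⟨s, hs, hcs⟩ : ∃ s : ℤ, N = s ^ 2 ∧ c = s ^ (2 * t + 1) := by
    by_cases hN : N = 0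
    · refine ⟨0, by simp [hN], ?_⟩
      rw [hN, zero_pow (by omega)] at h4
      simpa using h4
    · obtain ⟨s, hs⟩ : N ^ t ∣ c := by
        rw [← Int.pow_dvd_pow_iff two_ne_zero, h4]
        exact ⟨N, by ring⟩
      have h5 : N = s ^ 2 := by
        apply mul_left_cancel₀ (pow_ne_zero (2 * t) hN)
        rw [← pow_succ, ← h4, hs]; ring
      exact ⟨s, h5, by rw [hs, h5]; ring⟩
  have h5 : n ∣ k - s := by
    have e1 : k ^ 2 ≡ s ^ 2 [ZMOD n] := (Int.modEq_iff_dvd.2 ⟨-l, by rw [h2, hs]; ring⟩)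
    have e2 : k ^ (2 * t + 1) ≡ s ^ (2 * t + 1) [ZMOD n] :=
      (Int.modEq_iff_dvd.2 ⟨-d, by rw [h3, hcs]; ring⟩)
    have e3 : (k ^ 2) ^ t * s ≡ k ^ (2 * t + 1) [ZMOD n] :=
      ((e1.pow t).mul_right s).trans (by rw [← pow_mul, ← pow_succ]; exact e2.symm)
    have e4 := e3.dvd
    rw [show k ^ (2 * t + 1) - (k ^ 2) ^ t * s = k ^ (2 * t) * (k - s) by ring] at e4
    exact (hc.symm.pow_right).dvd_of_dvd_mul_left e4
  obtain ⟨e, he⟩ := h5
  have h6 : s ^ 2 ≤ k := by omega
  have h7 : s ≤ k := by nlinarith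
  have h8 : -s ≤ k := by nlinarith
  have hn : 0 < n := by omega
  have h9 : 0 ≤ e := by
    by_contra h
    nlinarith
  have h10 : e ≤ 2 := by
    by_contra h
    nlinarith
  interval_cases e
  · left
    have : s = k := by omega
    subst this
    nlinarith
  · have h11 : s = k - n := by omega
    have h12 : l = 2 * k - n := by
      apply mul_right_cancel₀ hn.ne'
      rw [hs, h11] at h2
      linear_combination -h2
    have h13 : (n - k) * (n - k - 1) = 0 := by
      rw [hs, h11, h12] at h1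
      linear_combination -h1
    rcases mul_eq_zero.1 h13 with h | h
    · left
      have : n = k := by omega
      subst this
      have := isCoprime_self.1 hc
      rcases Int.isUnit_iff.1 this with h | h <;> omega
    · right; omega
  · left
    have : s = -k := by omega
    subst this
    nlinarith

section
variable {G Ω : Type*} [Group G] [Fintype Ω] [DecidableEq Ω] [MulAction G Ω]

/-- The all-one matrix. -/
def J (Ω : Type*) : Matrix Ω Ω ℤ := Matrix.of fun _ _ => 1

theorem inv_form (h2 : MulAction.IsMultiplyPretransitive G Ω 2) {x0 y0 : Ω} (h : x0 ≠ y0)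
    (M : Matrix Ω Ω ℤ) (hM : ∀ (g : G) x y, M (g • x) (g • y) = M x y) :
    M = (M x0 x0 - M x0 y0) • (1 : Matrix Ω Ω ℤ) + M x0 y0 • J Ω := by
  have := MulAction.isPretransitive_of_is_two_pretransitive (G := G) (α := Ω)
  ext x y
  by_cases hxy : x = y
  · subst hxy
    obtain ⟨g, rfl⟩ := MulAction.exists_smul_eq G x0 x
    simp only [J, hM, Matrix.add_apply, Matrix.smul_apply, Matrix.one_apply_eq, Matrix.of_apply,
      smul_eq_mul, mul_one, sub_add_cancel]
  · obtain ⟨g, rfl, rfl⟩ := MulAction.is_two_pretransitive_iff.1 h2 h hxy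
    simp only [J, hM, Matrix.add_apply, Matrix.smul_apply, Matrix.one_apply_ne hxy,
      Matrix.of_apply, smul_eq_mul, mul_one, mul_zero, zero_add]

theorem main (h2 : MulAction.IsMultiplyPretransitive G Ω 2) (o ω : Ω) (α : MulAut G)
    (hα : Odd (orderOf α)) (S : Finset Ω) (hS : ∀ x, x ∈ S ↔ ∃ g : G, α g • ω = x ∧ g • o = o)
    (hk : S.card.Coprime (Fintype.card Ω)) : S.card = 1 ∨ S.card = Fintype.card Ω - 1 := by
  classical
  have := MulAction.isPretransitive_of_is_two_pretransitive (G := G) (α := Ω)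
  have hk1 : 1 ≤ S.card := Finset.card_pos.2 ⟨ω, (hS ω).2 ⟨1, by simp, by simp⟩⟩
  have hkn := S.card_le_univ
  rcases subsingleton_or_nontrivial Ω with hΩ | hΩ
  · have := Fintype.card_le_one_iff_subsingleton.2 hΩ
    omega
  obtain ⟨y0, hy0⟩ := exists_ne o
  let A : Matrix Ω Ω ℤ := Matrix.of fun x y => if ∃ g : G, α g • ω = x ∧ g • o = y then 1 else 0
  have hA : ∀ (g : G) x y, A (α g • x) (g • y) = A x y := by
    intro g x y
    refine if_congr ⟨?_, ?_⟩ rfl rfl
    · rintro ⟨h, h1, h2⟩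
      exact ⟨g⁻¹ * h, by rw [map_mul, mul_smul, h1, map_inv, inv_smul_smul],
        by rw [mul_smul, h2, inv_smul_smul]⟩
    · rintro ⟨h, rfl, rfl⟩
      exact ⟨g * h, by rw [map_mul, mul_smul], mul_smul _ _ _⟩
  obtain ⟨k, hkdef⟩ : ∃ k : ℤ, k = S.card := ⟨_, rfl⟩
  obtain ⟨n, hndef⟩ : ∃ n : ℤ, n = Fintype.card Ω := ⟨_, rfl⟩
  have hAo : ∀ x, A x o = if x ∈ S then 1 else 0 := fun x => if_congr (hS x).symm rfl rfl
  have hcol : ∀ y, ∑ x, A x y = k := by
    intro y
    obtain ⟨g, rfl⟩ := MulAction.exists_smul_eq G o y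
    rw [← Equiv.sum_comp (MulAction.toPerm (α g))]
    simp [hA, hAo, hkdef]
  have hrow : ∀ x, ∑ y, A x y = k := by
    have h1 : ∀ x, ∑ y, A x y = ∑ y, A o y := by
      intro x
      obtain ⟨g, rfl⟩ := MulAction.exists_smul_eq G o x
      obtain ⟨g, rfl⟩ := α.surjective g
      rw [← Equiv.sum_comp (MulAction.toPerm g)]
      simp [hA]
    have h2 : ∑ x, ∑ y, A x y = ∑ y, ∑ x, A x y := Finset.sum_comm
    simp only [h1, hcol, Finset.sum_const, Finset.card_univ, nsmul_eq_mul] at h2
    intro x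
    rw [h1, mul_left_cancel₀ (by exact_mod_cast Fintype.card_ne_zero) h2]
  have hJA : J Ω * A = k • J Ω := by ext x y; simp [J, Matrix.mul_apply, hcol]
  have hAJ : A * J Ω = k • J Ω := by ext x y; simp [J, Matrix.mul_apply, hrow]
  have hAJ' : Aᵀ * J Ω = k • J Ω := by ext x y; simp [J, Matrix.mul_apply, hcol]
  have hJJ : J Ω * J Ω = n • J Ω := by ext x y; simp [J, Matrix.mul_apply, hndef]
  have hJT : (J Ω)ᵀ = J Ω := rfl
  have hJ : ∀ a b : ℤ, a • J Ω = b • J Ω → a = b := fun a b h => by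
    simpa [J] using congrFun (congrFun h o) o
  have hAA := inv_form h2 hy0.symm (Aᵀ * A) (fun g x y => by
    rw [Matrix.mul_apply, Matrix.mul_apply, ← Equiv.sum_comp (MulAction.toPerm (α g))]
    simp [hA])
  have hpow : ∀ (j : ℕ) (g : G) x y, (A ^ j) ((α ^ j) g • x) (g • y) = (A ^ j) x y := by
    intro j
    induction j with
    | zero => intro g x y; simp [Matrix.one_apply]
    | succ j ih =>
      intro g x y
      rw [pow_succ', pow_succ', Matrix.mul_apply, Matrix.mul_apply,
        ← Equiv.sum_comp (MulAction.toPerm ((α ^ j) g))]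
      simp [hA, ih]
  obtain ⟨t, ht⟩ := hα
  have hAm := inv_form h2 hy0.symm (A ^ (2 * t + 1)) (fun g x y => by
    have := hpow (2 * t + 1) g x y
    rwa [← ht, pow_orderOf_eq_one, MulAut.one_apply, ht] at this)
  have h1 : (Aᵀ * A) o o = k := by
    rw [Matrix.mul_apply, ← hcol o]
    refine Finset.sum_congr rfl fun x _ => ?_
    rw [Matrix.transpose_apply, hAo]
    split_ifs <;> simp
  have hl : 0 ≤ (Aᵀ * A) o y0 := by
    rw [Matrix.mul_apply]
    refine Finset.sum_nonneg fun x _ => mul_nonneg ?_ ?_ <;>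
      simp only [A, Matrix.transpose_apply, Matrix.of_apply] <;> split_ifs <;> simp
  generalize (Aᵀ * A) o y0 = l at hAA hl
  rw [h1] at hAA
  generalize (A ^ (2 * t + 1)) o o - (A ^ (2 * t + 1)) o y0 = c at hAm
  generalize (A ^ (2 * t + 1)) o y0 = d at hAm
  have h2' : k ^ 2 = (k - l) + l * n := by
    apply hJ
    have := congrArg (· * J Ω) hAA
    simp only [Matrix.mul_assoc, hAJ, Matrix.mul_smul, hAJ', Matrix.add_mul, Matrix.smul_mul,
      Matrix.one_mul, hJJ, smul_smul] at this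
    rw [sq, this, add_smul]
  have h3 : k ^ (2 * t + 1) = c + d * n := by
    apply hJ
    have h4 : ∀ j : ℕ, A ^ j * J Ω = k ^ j • J Ω := by
      intro j
      induction j with
      | zero => simp
      | succ j ih => rw [pow_succ, Matrix.mul_assoc, hAJ, Matrix.mul_smul, ih, smul_smul, pow_succ']
    rw [← h4, hAm]
    simp only [Matrix.add_mul, Matrix.smul_mul, Matrix.one_mul, hJJ, smul_smul, add_smul]
  have h4 : c ^ 2 = (k - l) ^ (2 * t + 1) := by
    have h5 : ∀ j : ℕ, ∃ e : ℤ, (A ^ j)ᵀ * A ^ j = (k - l) ^ j • (1 : Matrix Ω Ω ℤ) + e • J Ω := by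
      intro j
      induction j with
      | zero => exact ⟨0, by simp⟩
      | succ j ih =>
        obtain ⟨e, he⟩ := ih
        refine ⟨(k - l) ^ j * l + e * k * k, ?_⟩
        rw [pow_succ, Matrix.transpose_mul, Matrix.mul_assoc, ← Matrix.mul_assoc (A ^ j)ᵀ, he]
        simp only [Matrix.add_mul, Matrix.smul_mul, Matrix.one_mul, Matrix.mul_add,
          Matrix.mul_smul, hJA, hAJ', hAA, smul_smul, smul_add, add_smul, pow_succ, add_assoc,
          mul_assoc]
    obtain ⟨e, he⟩ := h5 (2 * t + 1)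
    rw [hAm] at he
    simp only [Matrix.transpose_add, Matrix.transpose_smul, Matrix.transpose_one, hJT,
      Matrix.add_mul, Matrix.smul_mul, Matrix.one_mul, Matrix.mul_add, Matrix.mul_one,
      Matrix.mul_smul, hJJ, smul_smul, smul_add] at he
    have e1 := congrFun (congrFun he o) o
    have e2 := congrFun (congrFun he o) y0
    simp only [J, Matrix.add_apply, Matrix.smul_apply, Matrix.one_apply_ne hy0.symm,
      Matrix.one_apply_eq, Matrix.of_apply, smul_eq_mul, mul_one, mul_zero, zero_add] at e1 e2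
    linear_combination e1 - e2
  have := arith (n := n) (k := k) (by omega) (by omega) (by rw [hkdef, hndef]; exact Nat.isCoprime_iff_coprime.2 hk)
    (sub_add_cancel k l).symm hl h2' h3 h4
  omega

end


/-- Let G be a doubly transitive group of permutations of a finite set Ω of size n, let o ∈ Ω, and let α be an automorphism of G of odd order. Suppose that the image under α of the stabilizer of o has an orbit on Ω whose length k is coprime to n. Then α is induced by conjugation by a permutation of Ω normalizing G, and k = 1 or k = n − 1. -/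
theorem result {Ω : Type*} [Fintype Ω] (G : Subgroup (Equiv.Perm Ω)) (h2 : MulAction.IsMultiplyPretransitive G Ω 2) (o : Ω) (α : MulAut G) (hα : Odd (orderOf α)) (ω : Ω) (hk : (Nat.card (MulAction.orbit ((MulAction.stabilizer G o).map α.toMonoidHom) ω)).Coprime (Fintype.card Ω)) : (∃ σ : Equiv.Perm Ω, σ ∈ Subgroup.normalizer (G : Set (Equiv.Perm Ω)) ∧ ∀ g : G, ((α g : G) : Equiv.Perm Ω) = σ * (g : Equiv.Perm Ω) * σ⁻¹) ∧ (Nat.card (MulAction.orbit ((MulAction.stabilizer G o).map α.toMonoidHom) ω) = 1 ∨ Nat.card (MulAction.orbit ((MulAction.stabilizer G o).map α.toMonoidHom) ω) = Fintype.card Ω - 1) := by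
  classical
  have htr := MulAction.isPretransitive_of_is_two_pretransitive (G := G) (α := Ω)
  set K := (MulAction.stabilizer G o).map α.toMonoidHom with hK
  have hc : Nat.card (MulAction.orbit K ω) = (MulAction.orbit K ω).toFinset.card := by
    rw [Nat.card_eq_card_toFinset]
  rw [hc] at hk ⊢
  have h1 := main h2 o ω α hα (MulAction.orbit K ω).toFinset (fun x => by
    rw [Set.mem_toFinset]
    constructor
    · rintro ⟨⟨_, g, hg, rfl⟩, rfl⟩
      exact ⟨g, rfl, hg⟩
    · rintro ⟨g, rfl, hg⟩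
      exact ⟨⟨_, g, hg, rfl⟩, rfl⟩) hk
  refine ⟨(S4275.result G htr o α).2 ?_, h1⟩
  rcases h1 with h1 | h1
  · refine ⟨ω, fun g hg => Finset.card_le_one.1 h1.le _ ?_ _ ?_⟩
    · exact Set.mem_toFinset.2 ⟨⟨g, hg⟩, rfl⟩
    · exact Set.mem_toFinset.2 (MulAction.mem_orbit_self ω)
  · have h3 : (MulAction.orbit K ω).toFinsetᶜ.card = 1 := by
      have : Nonempty Ω := ⟨o⟩
      have := Fintype.card_pos (α := Ω)
      rw [Finset.card_compl, h1]; omega
    obtain ⟨x, hx⟩ := Finset.card_eq_one.1 h3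
    have h4 : ∀ y, y = x ↔ y ∉ MulAction.orbit K ω := fun y => by
      rw [← Finset.mem_singleton, ← hx, Finset.mem_compl, Set.mem_toFinset]
    refine ⟨x, fun g hg => (h4 _).2 fun h => (h4 x).1 rfl ?_⟩
    have := MulAction.mem_orbit_of_mem_orbit (⟨g, hg⟩⁻¹ : K) h
    rwa [show g • x = (⟨g, hg⟩ : K) • x from rfl, inv_smul_smul] at this

end Cfsg.Agent.S4276
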