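import Cfsg.Statements.S4277
import Mathlib

set_option autoImplicit false
open Cfsg

namespace Cfsg.Agent.S4277

open MulAction Subgroup
open scoped commutatorElement IsMulCommutative

theorem exists_matrix {G Ω : Type*} [Group G] [Fintype Ω] [MulAction G Ω] (ω : Ω)
    (hω : ∀ a : Ω, ∃ g : G, g • ω = a) (φ : MulAut G) :
    ∃ T : Matrix Ω Ω ℕ, (∀ (g : G) a b, T (g • a) (φ g • b) = T a b) ∧
      ∃ d, d ∣ Nat.card (stabilizer G ω) ∧ ∀ a, ∑ b, T a b = d := by
  classical
  have hT : ∀ (g : G) a b, (∃ h : G, h • ω = g • a ∧ φ h • ω = φ g • b) ↔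
      ∃ h : G, h • ω = a ∧ φ h • ω = b := fun g a b =>
    ⟨fun ⟨h, h1, h2⟩ => ⟨g⁻¹ * h, by rw [mul_smul, h1, inv_smul_smul],
      by rw [map_mul, map_inv, mul_smul, h2, inv_smul_smul]⟩,
    fun ⟨h, h1, h2⟩ => ⟨g * h, by rw [mul_smul, h1], by rw [map_mul, mul_smul, h2]⟩⟩
  refine ⟨fun a b => if ∃ h : G, h • ω = a ∧ φ h • ω = b then 1 else 0, fun g a b => by
    simp only [hT], (orbit ((stabilizer G ω).map φ.toMonoidHom) ω).ncard, ?_, fun a => ?_⟩
  · rw [← index_stabilizer, ← card_map_of_injective (f := φ.toMonoidHom) φ.injective]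
    exact index_dvd_card _
  · obtain ⟨g, rfl⟩ := hω a
    rw [← Equiv.sum_comp (toPerm (φ g))]
    simp only [toPerm_apply, hT]
    rw [Finset.sum_boole, Nat.cast_id, ← Set.ncard_coe_finset]
    congr 1
    ext b
    simp only [Finset.coe_filter, Finset.mem_univ, true_and, Set.mem_ofPred_eq, mem_orbit_iff]
    exact ⟨fun ⟨h, h1, h2⟩ => ⟨⟨φ h, h, h1, rfl⟩, h2⟩, fun ⟨⟨_, h, h1, rfl⟩, h2⟩ => ⟨h, h1, h2⟩⟩

theorem mul_comm_of_circulant {P Ω : Type*} [CommGroup P] [Finite P] [Fintype Ω] [MulAction P Ω]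
    (ω : Ω) (hω : Function.Bijective fun x : P => x • ω) {T U : Matrix Ω Ω ℕ}
    (hT : ∀ (x : P) a b, T (x • a) (x • b) = T a b)
    (hU : ∀ (x : P) a b, U (x • a) (x • b) = U a b) : T * U = U * T := by
  have := Fintype.ofFinite P
  ext a c
  obtain ⟨x, rfl⟩ := hω.2 a
  obtain ⟨z, rfl⟩ := hω.2 c
  simp only [Matrix.mul_apply]
  rw [← hω.sum_comp, ← hω.sum_comp, ← (Equiv.divLeft (x * z)).sum_comp]
  refine Finset.sum_congr rfl fun y _ => ?_
  rw [mul_comm, ← hU (z / y) (x • ω), ← hT (x / y) (y • ω)]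
  simp only [smul_smul, div_mul_cancel, Equiv.divLeft_apply]
  rw [mul_comm (z / y), mul_div_assoc, div_mul_eq_mul_div, mul_div_assoc]

theorem mul_comm_of_fix {G Ω : Type*} [Group G] [Finite G] [Fintype Ω] [MulAction G Ω]
    [FaithfulSMul G Ω] {p : ℕ} (hp : p.Prime) (hΩ : Fintype.card Ω = p) (ω : Ω) {σ : G}
    (hσ : orderOf σ = p) (hω : ¬ p ∣ Nat.card (stabilizer G ω)) {φ ψ : MulAut G} (hφ : φ σ = σ)
    (hψ : ψ σ = σ) : φ * ψ = ψ * φ := by
  have hcard : Nat.card (zpowers σ) = p := by rw [Nat.card_zpowers, hσ]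
  have := Fact.mk hp
  have hbij : Function.Bijective fun x : zpowers σ => x • ω := by
    refine (Nat.bijective_iff_injective_and_card _).2 ⟨fun x y h => ?_, by simp [hcard, hΩ]⟩
    by_contra hxy
    have h1 : orderOf (y⁻¹ * x) = p := by
      refine orderOf_eq_prime (hcard ▸ pow_card_eq_one') fun h => hxy ?_
      exact (inv_mul_eq_one.1 h).symm
    have h2 : ((y⁻¹ * x : zpowers σ) : G) ∈ stabilizer G ω := by
      show (y⁻¹ * x) • ω = ω
      rw [mul_smul, inv_smul_eq_iff]; exact h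
    have h3 := orderOf_dvd_natCard (⟨_, h2⟩ : stabilizer G ω)
    rw [orderOf_mk, orderOf_coe, h1] at h3
    exact hω h3
  have hfix : ∀ θ : MulAut G, θ σ = σ → ∀ x : zpowers σ, θ x = x := by
    rintro θ h ⟨_, k, rfl⟩
    simp [h]
  have htr : ∀ a : Ω, ∃ g : G, g • ω = a := fun a => ⟨(hbij.2 a).choose, (hbij.2 a).choose_spec⟩
  obtain ⟨T, hT, d, hd, hTd⟩ := exists_matrix ω htr φ
  obtain ⟨U, hU, e, he, hUe⟩ := exists_matrix ω htr ψ
  have hT' : ∀ (x : zpowers σ) a b, T (x • a) (x • b) = T a b := fun x a b => by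
    have := hT x a b; rwa [hfix φ hφ] at this
  have hU' : ∀ (x : zpowers σ) a b, U (x • a) (x • b) = U a b := fun x a b => by
    have := hU x a b; rwa [hfix ψ hψ] at this
  have hc := mul_comm_of_circulant ω hbij hT' hU'
  have key : ∀ {T U : Matrix Ω Ω ℕ} {φ ψ : MulAut G},
      (∀ (g : G) a b, T (g • a) (φ g • b) = T a b) → (∀ (g : G) a b, U (g • a) (ψ g • b) = U a b) →
      ∀ (g : G) a b, (T * U) (g • a) (ψ (φ g) • b) = (T * U) a b := by
    intro T U φ ψ hT hU g a b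
    simp only [Matrix.mul_apply]
    rw [← Equiv.sum_comp (toPerm (φ g))]
    simp only [toPerm_apply, hT, hU]
  have h1 := key hT hU
  have h2 := key hU hT
  rw [← hc] at h2
  have h3 : ∀ (x : zpowers σ) a b, (T * U) (x • a) (x • b) = (T * U) a b := fun x a b => by
    have := h1 x a b; rwa [hfix φ hφ, hfix ψ hψ] at this
  ext g
  refine eq_of_smul_eq_smul (α := Ω) fun b => ?_
  by_contra hb
  obtain ⟨x, hx⟩ := hbij.2 (φ (ψ g) • b)
  obtain ⟨y, hy⟩ := hbij.2 (ψ (φ g) • b)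
  simp only at hx hy
  have h4 : ∀ a, (T * U) a (x • ω) = (T * U) a (y • ω) := fun a => by
    rw [hx, hy, ← smul_inv_smul g a, h1, h2]
  have h5 : ∀ a c, (T * U) a ((x / y) • c) = (T * U) a c := fun a c => by
    obtain ⟨z, rfl⟩ := hbij.2 c
    have := h4 ((y / z) • a)
    rw [← h3 (z / y), ← h3 (z / y) _ (y • ω)] at this
    simp only [smul_smul, div_mul_div_cancel, div_self', one_smul, div_mul_cancel] at this ⊢
    rwa [div_mul_eq_mul_div, mul_comm, ← div_mul_eq_mul_div]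
  have h6 : zpowers (x / y) = ⊤ := by
    refine zpowers_eq_top_of_prime_card hcard fun h => hb ?_
    rw [div_eq_one.1 h, hy] at hx
    exact hx.symm
  have h7 : ∀ c, (T * U) ω c = (T * U) ω ω := fun c => by
    obtain ⟨z, rfl⟩ := hbij.2 c
    obtain ⟨k, rfl⟩ := (mem_powers_iff_mem_zpowers.2 (h6 ▸ mem_top z) : z ∈ Submonoid.powers (x / y))
    induction k with
    | zero => simp
    | succ k ih => simp only [pow_succ', mul_smul, h5] at ih ⊢; exact ih
  have h8 : ∑ c, (T * U) ω c = d * e := by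
    simp only [Matrix.mul_apply]
    rw [Finset.sum_comm]
    simp only [← Finset.mul_sum, hUe, ← Finset.sum_mul, hTd]
  simp only [h7, Finset.sum_const, Finset.card_univ, hΩ, smul_eq_mul] at h8
  rcases (Nat.Prime.dvd_mul hp).1 (Dvd.intro _ h8) with h | h
  exacts [hω (h.trans hd), hω (h.trans he)]


/-- A case of the Schreier conjecture: if a finite simple group G has a subgroup of prime index, then the outer automorphism group of G is solvable. -/
theorem result {G : Type*} [Group G] [Finite G] [IsSimpleGroup G] (H : Subgroup G) (hH : H.index.Prime) : Group.IsSolvable (Cfsg.Out G) := by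
  classical
  have := Fintype.ofFinite (G ⧸ H)
  have := Fact.mk hH
  have hker : H.normalCore = ⊥ := by
    refine (H.normalCore_normal.eq_bot_or_eq_top).resolve_right fun h => hH.ne_one ?_
    exact index_eq_one.2 (top_le_iff.1 (h ▸ H.normalCore_le))
  have hinj : Function.Injective (toPermHom G (G ⧸ H)) := by
    rw [← MonoidHom.ker_eq_bot_iff, ← normalCore_eq_ker, hker]
  have : FaithfulSMul G (G ⧸ H) := ⟨fun h => hinj (Equiv.ext h)⟩
  have hΩ : Fintype.card (G ⧸ H) = H.index := by rw [index_eq_card, Nat.card_eq_fintype_card]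
  have hH' : ¬ H.index ∣ Nat.card H := fun h => by
    have h1 := card_dvd_of_injective _ hinj
    rw [Nat.card_perm, ← index_eq_card, ← H.index_mul_card] at h1
    have h2 := (Nat.mul_dvd_mul_left H.index h).trans h1
    obtain ⟨k, hk⟩ := Nat.exists_eq_succ_of_ne_zero hH.ne_zero
    rw [hk, Nat.factorial_succ] at h2
    have h3 := (hk ▸ hH).dvd_factorial.1 (Nat.dvd_of_mul_dvd_mul_left k.succ_pos h2)
    omega
  obtain ⟨σ, hσ⟩ := exists_prime_orderOf_dvd_card' (G := G) H.index H.index_dvd_card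
  have hcard : Nat.card (zpowers σ) = H.index := by rw [Nat.card_zpowers, hσ]
  have hidx : ¬ H.index ∣ (zpowers σ).index := by
    have h1 := (zpowers σ).card_mul_index
    rw [hcard, ← H.index_mul_card] at h1
    rwa [Nat.eq_of_mul_eq_mul_left hH.pos h1]
  let P : Sylow H.index G := (IsPGroup.of_card (n := 1) (by rw [hcard, pow_one])).toSylow hidx
  let N : Subgroup (MulAut G) := stabilizer (MulAut G) P
  have hN : ∀ φ ∈ N, ∃ k : ℤ, φ σ = σ ^ k := fun φ hφ => by
    have h1 : φ σ ∈ φ • P := mem_map_of_mem _ (mem_zpowers σ)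
    rw [hφ] at h1
    exact ⟨h1.choose, h1.choose_spec.symm⟩
  have hsol : Group.IsSolvable N := by
    refine ⟨2, ?_⟩
    have h1 : derivedSeries N 1 ≤ (stabilizer (MulAut G) σ).subgroupOf N := by
      refine commutator_le.2 fun φ _ ψ _ => ?_
      obtain ⟨k, hk⟩ := hN φ φ.2
      obtain ⟨l, hl⟩ := hN ψ ψ.2
      have h2 : (φ * ψ : MulAut G) σ = (ψ * φ : MulAut G) σ := by
        simp only [MulAut.mul_apply, hk, hl, map_zpow, ← zpow_mul, mul_comm]
      show ((φ : MulAut G) * ψ * (φ : MulAut G)⁻¹ * (ψ : MulAut G)⁻¹) σ = σ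
      obtain ⟨a, ha⟩ := hN _ (N.inv_mem (N.mul_mem ψ.2 φ.2))
      rw [mul_assoc, ← mul_inv_rev, MulAut.mul_apply, ha, map_zpow, h2, ← map_zpow, ← ha,
        ← MulAut.mul_apply, mul_inv_cancel, MulAut.one_apply]
    refine eq_bot_iff.2 (commutator_le.2 fun φ hφ ψ hψ => commutatorElement_eq_one_iff_mul_comm.2
      (Subtype.ext (mul_comm_of_fix hH hΩ ((1 : G) : G ⧸ H) hσ ?_ (h1 hφ) (h1 hψ))))
    rwa [stabilizer_quotient]
  refine Group.isSolvable_of_surjective (f := (QuotientGroup.mk' (Inn G)).comp N.subtype) fun x => ?_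
  obtain ⟨φ, rfl⟩ := QuotientGroup.mk_surjective x
  obtain ⟨g, hg⟩ := exists_smul_eq G (φ • P) P
  refine ⟨⟨MulAut.conj g * φ, ?_⟩, ?_⟩
  · rw [mem_stabilizer_iff, mul_smul]; exact hg
  · exact (QuotientGroup.eq.2 (by
      simpa [mul_assoc] using (innNormal G).conj_mem _ ⟨g, rfl⟩ φ⁻¹)).symm

end Cfsg.Agent.S4277
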