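import Cfsg.Statements.S4278
import Cfsg.Agent.Lib.Chev.G2

set_option autoImplicit false
open Cfsg

namespace Cfsg.Agent.S4278

/-- In the Chevalley group of type G₂ over a finite field of odd order, any two involutions are conjugate. -/
theorem result {F : Type*} [Field F] [Fintype F] (hF : Odd (Fintype.card F)) (s t : ↥(Cfsg.Lie.chevG2.group F)) (hs : orderOf s = 2) (ht : orderOf t = 2) : IsConj s t := by
  have hJ := Chev.Tab.hj_of_chk Chev.g2_ok.hR Chev.g2_J
  have hC := Chev.Tab.cover_of_chk Chev.g2_ok.hR Chev.g2_cov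
  have h1 := (Chev.g2_sys F).inv_classes hF hJ hC hs
  have h2 := (Chev.g2_sys F).inv_classes hF hJ hC ht
  rw [or_self] at h1 h2
  exact h1.trans h2.symm

end Cfsg.Agent.S4278
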