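import Cfsg.Statements.S4279
import Cfsg.Agent.Lib.Chev.G2
import Cfsg.Agent.Lib.Chev.Final
import Cfsg.Agent.Lib.Chev.SL2
import Cfsg.Agent.Lib.Lin.SL2

set_option autoImplicit false
open Cfsg

namespace Cfsg.Agent.S4279

open scoped MatrixGroups in
theorem abstract {G F : Type*} [Group G] [Finite G] [Field F] [Fintype F] (t : G) (ht : orderOf t = 2)
    (f₁ f₂ : SL(2, F) →* G) (i₁ : Function.Injective f₁) (i₂ : Function.Injective f₂)
    (hc : ∀ a b, f₁ a * f₂ b = f₂ b * f₁ a) (t₁ : f₁ (-1) = t) (t₂ : f₂ (-1) = t)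
    (hcard : Nat.card (Subgroup.centralizer ({t} : Set G)) =
      Fintype.card F ^ 2 * (Fintype.card F ^ 2 - 1) ^ 2) :
    ∃ L₁ L₂ : Subgroup G, Nonempty (L₁ ≃* SL(2, F)) ∧ Nonempty (L₂ ≃* SL(2, F)) ∧
      (∀ x ∈ L₁, ∀ y ∈ L₂, x * y = y * x) ∧ L₁ ⊓ L₂ = Subgroup.zpowers t ∧
      L₁ ⊔ L₂ ≤ Subgroup.centralizer ({t} : Set G) ∧
      (L₁ ⊔ L₂).relIndex (Subgroup.centralizer ({t} : Set G)) = 2 := by
  have hinf : f₁.range ⊓ f₂.range = Subgroup.zpowers t := by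
    apply le_antisymm
    · rintro _ ⟨⟨a, rfl⟩, b, hb⟩
      have h1 : a ∈ Subgroup.center SL(2, F) := by
        rw [Subgroup.mem_center_iff]
        intro g
        apply i₁
        rw [map_mul, map_mul, ← hb, hc]
      obtain ⟨r, hr, e⟩ := Matrix.SpecialLinearGroup.mem_center_iff.1 h1
      rw [Fintype.card_fin, sq_eq_one_iff] at hr
      rcases hr with rfl | rfl
      · have : a = 1 := Subtype.ext (by rw [← e]; simp)
        rw [this, map_one]; exact one_mem _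
      · have : a = -1 := Subtype.ext (by
          rw [← e]; ext i j; fin_cases i <;> fin_cases j <;> simp)
        rw [this, t₁]; exact Subgroup.mem_zpowers t
    · rw [Subgroup.zpowers_le]
      exact ⟨⟨_, t₁⟩, ⟨_, t₂⟩⟩
  have hle : f₁.range ⊔ f₂.range ≤ Subgroup.centralizer ({t} : Set G) := by
    refine sup_le ?_ ?_
    · rintro _ ⟨a, rfl⟩
      rw [Subgroup.mem_centralizer_singleton_iff, ← t₂, hc]
    · rintro _ ⟨a, rfl⟩
      rw [Subgroup.mem_centralizer_singleton_iff, ← t₁, hc]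
  refine ⟨f₁.range, f₂.range, ⟨(MonoidHom.ofInjective i₁).symm⟩, ⟨(MonoidHom.ofInjective i₂).symm⟩,
    ?_, hinf, hle, ?_⟩
  · rintro _ ⟨a, rfl⟩ _ ⟨b, rfl⟩; exact hc a b
  let ψ := f₁.noncommCoprod f₂ hc
  have h1 : ψ.range = f₁.range ⊔ f₂.range := MonoidHom.noncommCoprod_range f₁ f₂ hc
  have h2 : Nat.card ψ.ker = 2 := by
    refine Eq.trans ?_ ht
    rw [← Nat.card_zpowers, ← hinf]
    refine Nat.card_eq_of_bijective (fun p => ⟨f₁ p.1.1, ⟨_, rfl⟩, p.1.2⁻¹, ?_⟩) ⟨?_, ?_⟩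
    · have : f₁ p.1.1 * f₂ p.1.2 = 1 := p.2
      rw [map_inv, inv_eq_iff_eq_inv, eq_inv_iff_mul_eq_one, ← hc, this]
    · rintro ⟨⟨a, b⟩, hp⟩ ⟨⟨a', b'⟩, hp'⟩ h
      have e : a = a' := i₁ (congrArg Subtype.val h)
      subst e
      have e1 : f₁ a * f₂ b = 1 := hp
      have e2 : f₁ a * f₂ b' = 1 := hp'
      obtain rfl : b = b' := i₂ (mul_left_cancel (e1.trans e2.symm))
      rfl
    · rintro ⟨_, ⟨a, rfl⟩, b, hb⟩
      exact ⟨⟨(a, b⁻¹), by change f₁ a * f₂ b⁻¹ = 1; rw [map_inv, hb, mul_inv_cancel]⟩, rfl⟩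
  have h3 := ψ.ker.card_mul_index
  rw [Subgroup.index_ker, h1, h2, Nat.card_prod, Lin.card_SL2] at h3
  have h4 := ((f₁.range ⊔ f₂.range).subgroupOf (Subgroup.centralizer ({t} : Set G))).card_mul_index
  rw [hcard, Nat.card_congr (Subgroup.subgroupOfEquivOfLe hle).toEquiv] at h4
  have h5 : Fintype.card F ^ 2 - 1 = (Fintype.card F - 1) * (Fintype.card F + 1) := by
    rw [mul_comm, ← Nat.sq_sub_sq]
  rw [h5] at h4
  have h6 : 0 < Nat.card ↥(f₁.range ⊔ f₂.range) := Nat.card_pos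
  refine Nat.eq_of_mul_eq_mul_left h6 ?_
  rw [Subgroup.relIndex, h4, mul_comm _ 2, h3]; ring

theorem poly (q : ℕ) (hq : 1 ≤ q) : q ^ 2 * ((q - 1) ^ 2 *
    (Chev.g2_chs.map fun c => (c.2.2.2.2.map (q ^ ·)).sum).prod) = q ^ 2 * (q ^ 2 - 1) ^ 2 := by
  have p2 : 1 ≤ q ^ 2 := Nat.one_le_pow _ _ hq
  simp only [Chev.g2_chs, List.map_cons, List.map_nil, List.sum_cons, List.sum_nil, List.prod_cons,
    List.prod_nil]
  zify [hq, p2]
  ring

theorem chk1 : ∀ a ∈ [6, 5], ∀ b ∈ [9, 2], Chev.tG2.fpr Lie.chevG2 a b = 0 ∧ ∀ g < 12,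
    ¬ (0 < Chev.tG2.fpr Lie.chevG2 a g ∧ Chev.tG2.fpr Lie.chevG2 a g % 2 = 0 ∧
      0 < Chev.tG2.fpr Lie.chevG2 b g) := by decide +kernel

theorem chk2 : ∀ a ∈ [6, 9], ∀ j < 2,
    (Chev.tG2.fA Lie.chevG2 a j - Chev.Tab.bitI 1 j) % 2 = 0 := by decide +kernel

theorem chk3 : Chev.tG2.fpr Lie.chevG2 6 7 % 2 = 1 ∧ Chev.tG2.fpr Lie.chevG2 9 7 % 2 = 1 ∧
    Chev.tG2.fneg 6 = 5 ∧ Chev.tG2.fneg 9 = 2 := by decide +kernel

/-- In the Chevalley group G of type G₂ over a finite field F of odd order q, the centralizer of an involution t has order q²(q² − 1)² and contains two elementwise commuting subgroups, each isomorphic to SL(2, F), which meet exactly in the subgroup generated by t and whose join has index 2 in the centralizer. -/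
theorem result {F : Type*} [Field F] [Fintype F] (hF : Odd (Fintype.card F)) (t : ↥(Cfsg.Lie.chevG2.group F)) (ht : orderOf t = 2) : Nat.card (Subgroup.centralizer ({t} : Set ↥(Cfsg.Lie.chevG2.group F))) = Fintype.card F ^ 2 * (Fintype.card F ^ 2 - 1) ^ 2 ∧ ∃ L₁ L₂ : Subgroup ↥(Cfsg.Lie.chevG2.group F), Nonempty (L₁ ≃* Matrix.SpecialLinearGroup (Fin 2) F) ∧ Nonempty (L₂ ≃* Matrix.SpecialLinearGroup (Fin 2) F) ∧ (∀ x ∈ L₁, ∀ y ∈ L₂, x * y = y * x) ∧ L₁ ⊓ L₂ = Subgroup.zpowers t ∧ L₁ ⊔ L₂ ≤ Subgroup.centralizer ({t} : Set ↥(Cfsg.Lie.chevG2.group F)) ∧ (L₁ ⊔ L₂).relIndex (Subgroup.centralizer ({t} : Set ↥(Cfsg.Lie.chevG2.group F))) = 2 := by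
  have hJ := Chev.Tab.hj_of_chk Chev.g2_ok.hR Chev.g2_J
  have hC := Chev.Tab.cover_of_chk Chev.g2_ok.hR Chev.g2_cov
  have h1 := (Chev.g2_sys F).inv_classes hF hJ hC ht
  rw [or_self] at h1
  have hq0 : 1 ≤ Fintype.card F := Fintype.card_pos
  have c1 := (Chev.g2_sys F).card_cent_sgn hF (Chev.bits _ 1)
  have e1 := Chev.Tab.poin_of_chain Chev.g2_ok.hR (Fintype.card F) 1 _ (by simp) Chev.g2_chs_ok
  rw [Chev.Tab.npos_eq, Chev.g2_ns] at c1
  erw [e1] at c1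
  replace c1 := (Chev.card_cent_of_isConj h1).trans (c1.trans (poly _ hq0))
  refine ⟨c1, ?_⟩
  haveI := (Chev.g2_sys F).finite
  let r1 : Fin Lie.chevG2.nroots := ⟨6, by decide⟩
  let r2 : Fin Lie.chevG2.nroots := ⟨9, by decide⟩
  obtain ⟨f₁, i₁, g₁, t₁⟩ := (Chev.g2_sys F).exists_phi r1
    ⟨⟨7, by decide⟩, by rw [Chev.Tab.rd_pair, Int.odd_iff]; exact chk3.1⟩
  obtain ⟨f₂, i₂, g₂, t₂⟩ := (Chev.g2_sys F).exists_phi r2
    ⟨⟨7, by decide⟩, by rw [Chev.Tab.rd_pair, Int.odd_iff]; exact chk3.2.1⟩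
  have hco : ∀ r : Fin Lie.chevG2.nroots, (r : ℕ) ∈ [6, 9] →
      (Chev.Tab.rd Chev.g2_ok.hR).coch r (-1 : Fˣ) = Chev.sgn F (Chev.bits _ 1) := by
    intro r hr
    funext j
    refine Chev.neg_one_zpow_congr ?_
    rw [Int.even_iff, ← Chev.Tab.bitI_eq]
    exact chk2 r hr j j.2
  rw [hco r1 (by simp [r1])] at t₁
  rw [hco r2 (by simp [r2])] at t₂
  have hc : ∀ a b, f₁ a * f₂ b = f₂ b * f₁ a := by
    intro a b
    refine (Chev.g2_sys F).X_comm (fun x hx y hy t u => ?_) (g₁.le ⟨a, rfl⟩) (g₂.le ⟨b, rfl⟩)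
    have hx' : (x : ℕ) ∈ [6, 5] := by
      simp only [Finset.mem_insert, Finset.mem_singleton] at hx
      rcases hx with rfl | rfl
      · simp [r1]
      · exact List.mem_cons_of_mem _ (List.mem_singleton.2 chk3.2.2.1)
    have hy' : (y : ℕ) ∈ [9, 2] := by
      simp only [Finset.mem_insert, Finset.mem_singleton] at hy
      rcases hy with rfl | rfl
      · simp [r2]
      · exact List.mem_cons_of_mem _ (List.mem_singleton.2 chk3.2.2.2)
    refine (Chev.g2_sys F).x_comm ?_ (fun g => ?_) t u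
    · rw [Chev.Tab.rd_pair]; exact (chk1 x hx' y hy').1
    · rw [Chev.Tab.rd_pair, Chev.Tab.rd_pair, Int.even_iff]
      exact (chk1 x hx' y hy').2 g g.2
  obtain ⟨g, hg⟩ := isConj_iff.1 h1.symm
  exact abstract t ht ((MulAut.conj g).toMonoidHom.comp f₁) ((MulAut.conj g).toMonoidHom.comp f₂)
    ((MulAut.conj g).injective.comp i₁) ((MulAut.conj g).injective.comp i₂)
    (fun a b => by simp only [MonoidHom.comp_apply, ← map_mul, hc])
    (by rw [MonoidHom.comp_apply, t₁]; exact hg) (by rw [MonoidHom.comp_apply, t₂]; exact hg) c1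

end Cfsg.Agent.S4279
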