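import Cfsg.Statements.S4280
import Cfsg.Agent.Lib.Chev.F4
import Cfsg.Agent.Lib.Chev.Final

set_option autoImplicit false
open Cfsg

namespace Cfsg.Agent.S4280

theorem poly1 (q : ℕ) (hq : 1 ≤ q) : q ^ 16 * ((q - 1) ^ 4 *
    (Chev.f4_chs.map fun c => (c.2.2.2.2.map (q ^ ·)).sum).prod) =
    q ^ 16 * (q ^ 2 - 1) * (q ^ 4 - 1) * (q ^ 6 - 1) * (q ^ 8 - 1) := by
  have p2 : 1 ≤ q ^ 2 := Nat.one_le_pow _ _ hq
  have p4 : 1 ≤ q ^ 4 := Nat.one_le_pow _ _ hq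
  have p6 : 1 ≤ q ^ 6 := Nat.one_le_pow _ _ hq
  have p8 : 1 ≤ q ^ 8 := Nat.one_le_pow _ _ hq
  simp only [Chev.f4_chs, List.map_cons, List.map_nil, List.sum_cons, List.sum_nil, List.prod_cons,
    List.prod_nil]
  zify [hq, p2, p4, p6, p8]
  ring

theorem poly2 (q : ℕ) (hq : 1 ≤ q) : q ^ 10 * ((q - 1) ^ 4 *
    (Chev.f4_cht.map fun c => (c.2.2.2.2.map (q ^ ·)).sum).prod) =
    q ^ 10 * (q ^ 2 - 1) ^ 2 * (q ^ 4 - 1) * (q ^ 6 - 1) := by
  have p2 : 1 ≤ q ^ 2 := Nat.one_le_pow _ _ hq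
  have p4 : 1 ≤ q ^ 4 := Nat.one_le_pow _ _ hq
  have p6 : 1 ≤ q ^ 6 := Nat.one_le_pow _ _ hq
  simp only [Chev.f4_cht, List.map_cons, List.map_nil, List.sum_cons, List.sum_nil, List.prod_cons,
    List.prod_nil]
  zify [hq, p2, p4, p6]
  ring


/-- In the Chevalley group of type F₄ over a finite field of odd order q there are exactly two conjugacy classes of involutions; the centralizer of an involution in one class has order q¹⁶(q² − 1)(q⁴ − 1)(q⁶ − 1)(q⁸ − 1), and in the other class q¹⁰(q² − 1)²(q⁴ − 1)(q⁶ − 1). -/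
theorem result {F : Type*} [Field F] [Fintype F] (hF : Odd (Fintype.card F)) : ∃ s t : ↥(Cfsg.Lie.chevF4.group F), orderOf s = 2 ∧ orderOf t = 2 ∧ ¬ IsConj s t ∧ (∀ u : ↥(Cfsg.Lie.chevF4.group F), orderOf u = 2 → IsConj u s ∨ IsConj u t) ∧ Nat.card (Subgroup.centralizer ({s} : Set ↥(Cfsg.Lie.chevF4.group F))) = Fintype.card F ^ 16 * (Fintype.card F ^ 2 - 1) * (Fintype.card F ^ 4 - 1) * (Fintype.card F ^ 6 - 1) * (Fintype.card F ^ 8 - 1) ∧ Nat.card (Subgroup.centralizer ({t} : Set ↥(Cfsg.Lie.chevF4.group F))) = Fintype.card F ^ 10 * (Fintype.card F ^ 2 - 1) ^ 2 * (Fintype.card F ^ 4 - 1) * (Fintype.card F ^ 6 - 1) := by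
  have h2 := Chev.Sys.two_ne_zero_of_odd hF
  have hq : 1 < Fintype.card F := Fintype.one_lt_card
  have hq0 : 1 ≤ Fintype.card F := hq.le

  have hJ := Chev.Tab.hj_of_chk Chev.f4_ok.hR Chev.f4_J
  have hC := Chev.Tab.cover_of_chk Chev.f4_ok.hR Chev.f4_cov
  have c1 := (Chev.f4_sys F).card_cent_sgn hF (Chev.bits _ 1)
  have c2 := (Chev.f4_sys F).card_cent_sgn hF (Chev.bits _ 4)
  have e1 := Chev.Tab.poin_of_chain Chev.f4_ok.hR (Fintype.card F) 1 _ (by simp) Chev.f4_chs_ok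
  have e2 := Chev.Tab.poin_of_chain Chev.f4_ok.hR (Fintype.card F) 4 _ (by simp) Chev.f4_cht_ok
  rw [Chev.Tab.npos_eq, Chev.f4_ns] at c1
  rw [Chev.Tab.npos_eq, Chev.f4_nt] at c2
  erw [e1] at c1
  erw [e2] at c2
  replace c1 := c1.trans (poly1 _ hq0)
  replace c2 := c2.trans (poly2 _ hq0)
  refine ⟨_, _, (Chev.f4_sys F).orderOf_h_sgn h2 (e := Chev.bits _ 1) (j := ⟨0, by decide⟩) (by decide),
    (Chev.f4_sys F).orderOf_h_sgn h2 (e := Chev.bits _ 4) (j := ⟨2, by decide⟩) (by decide), fun h => ?_,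
    fun u hu => (Chev.f4_sys F).inv_classes hF hJ hC hu, c1, c2⟩
  have h3 := Chev.card_cent_of_isConj h
  rw [c1, c2] at h3
  simp only [mul_assoc] at h3
  have hc := fun k hk => Chev.coprime_pow_sub_one (Fintype.card F) k hq0 hk
  exact Chev.ne_of_pow hq (by norm_num) (((hc 2 (by norm_num)).pow_right 2).mul_right
    ((hc 4 (by norm_num)).mul_right (hc 6 (by norm_num)))) h3

end Cfsg.Agent.S4280
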