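import Cfsg.Statements.S4281
import Cfsg.Agent.Lib.Chev.E8
import Cfsg.Agent.Lib.Chev.Final

set_option autoImplicit false
open scoped BigOperators
open Cfsg

namespace Cfsg.Agent.S4281

theorem poly1 (q : ℕ) (hq : 1 ≤ q) : q ^ 56 * ((q - 1) ^ 8 *
    (Chev.e8_chs.map fun c => (c.2.2.2.2.map (q ^ ·)).sum).prod) =
    q ^ 56 * (q ^ 8 - 1) * ∏ i ∈ Finset.Icc 1 7, (q ^ (2 * i) - 1) := by
  have p2 : 1 ≤ q ^ 2 := Nat.one_le_pow _ _ hq
  have p4 : 1 ≤ q ^ 4 := Nat.one_le_pow _ _ hq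
  have p6 : 1 ≤ q ^ 6 := Nat.one_le_pow _ _ hq
  have p8 : 1 ≤ q ^ 8 := Nat.one_le_pow _ _ hq
  have p10 : 1 ≤ q ^ 10 := Nat.one_le_pow _ _ hq
  have p12 : 1 ≤ q ^ 12 := Nat.one_le_pow _ _ hq
  have p14 : 1 ≤ q ^ 14 := Nat.one_le_pow _ _ hq
  simp only [Chev.e8_chs, List.map_cons, List.map_nil, List.sum_cons, List.sum_nil, List.prod_cons,
    List.prod_nil]
  rw [show Finset.Icc 1 7 = {1, 2, 3, 4, 5, 6, 7} by decide]
  simp only [Finset.mem_insert, Finset.mem_singleton, Nat.reduceEqDiff, or_self, not_false_eq_true,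
    Finset.prod_insert, Finset.prod_singleton, Nat.reduceMul]
  zify [hq, p2, p4, p6, p8, p10, p12, p14]
  ring

theorem poly2 (q : ℕ) (hq : 1 ≤ q) : q ^ 64 * ((q - 1) ^ 8 *
    (Chev.e8_cht.map fun c => (c.2.2.2.2.map (q ^ ·)).sum).prod) =
    q ^ 64 * (q ^ 2 - 1) ^ 2 * (q ^ 6 - 1) * (q ^ 8 - 1) * (q ^ 10 - 1) * (q ^ 12 - 1) * (q ^ 14 - 1) * (q ^ 18 - 1) := by
  have p2 : 1 ≤ q ^ 2 := Nat.one_le_pow _ _ hq
  have p6 : 1 ≤ q ^ 6 := Nat.one_le_pow _ _ hq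
  have p8 : 1 ≤ q ^ 8 := Nat.one_le_pow _ _ hq
  have p10 : 1 ≤ q ^ 10 := Nat.one_le_pow _ _ hq
  have p12 : 1 ≤ q ^ 12 := Nat.one_le_pow _ _ hq
  have p14 : 1 ≤ q ^ 14 := Nat.one_le_pow _ _ hq
  have p18 : 1 ≤ q ^ 18 := Nat.one_le_pow _ _ hq
  simp only [Chev.e8_cht, List.map_cons, List.map_nil, List.sum_cons, List.sum_nil, List.prod_cons,
    List.prod_nil]
  zify [hq, p2, p6, p8, p10, p12, p14, p18]
  ring


/-- In the Chevalley group of type E₈ over a finite field of odd order q there are exactly two conjugacy classes of involutions; the centralizer of an involution in one class has order q⁵⁶(q⁸ − 1)·∏_{i=1}^{7}(q^{2i} − 1), and in the other class q⁶⁴(q² − 1)²(q⁶ − 1)(q⁸ − 1)(q¹⁰ − 1)(q¹² − 1)(q¹⁴ − 1)(q¹⁸ − 1). -/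
theorem result {F : Type*} [Field F] [Fintype F] (hF : Odd (Fintype.card F)) : ∃ s t : ↥(Cfsg.Lie.chevE8.group F), orderOf s = 2 ∧ orderOf t = 2 ∧ ¬ IsConj s t ∧ (∀ u : ↥(Cfsg.Lie.chevE8.group F), orderOf u = 2 → IsConj u s ∨ IsConj u t) ∧ Nat.card (Subgroup.centralizer ({s} : Set ↥(Cfsg.Lie.chevE8.group F))) = Fintype.card F ^ 56 * (Fintype.card F ^ 8 - 1) * ∏ i ∈ Finset.Icc 1 7, (Fintype.card F ^ (2 * i) - 1) ∧ Nat.card (Subgroup.centralizer ({t} : Set ↥(Cfsg.Lie.chevE8.group F))) = Fintype.card F ^ 64 * (Fintype.card F ^ 2 - 1) ^ 2 * (Fintype.card F ^ 6 - 1) * (Fintype.card F ^ 8 - 1) * (Fintype.card F ^ 10 - 1) * (Fintype.card F ^ 12 - 1) * (Fintype.card F ^ 14 - 1) * (Fintype.card F ^ 18 - 1) := by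
  have h2 := Chev.Sys.two_ne_zero_of_odd hF
  have hq : 1 < Fintype.card F := Fintype.one_lt_card
  have hq0 : 1 ≤ Fintype.card F := hq.le

  have hJ := Chev.Tab.hj_of_chk Chev.e8_ok.hR Chev.e8_J
  have hC := Chev.Tab.cover_of_chk Chev.e8_ok.hR Chev.e8_cov
  have c1 := (Chev.e8_sys F).card_cent_sgn hF (Chev.bits _ 1)
  have c2 := (Chev.e8_sys F).card_cent_sgn hF (Chev.bits _ 3)
  have e1 := Chev.Tab.poin_of_chain Chev.e8_ok.hR (Fintype.card F) 1 _ (by simp) Chev.e8_chs_ok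
  have e2 := Chev.Tab.poin_of_chain Chev.e8_ok.hR (Fintype.card F) 3 _ (by simp) Chev.e8_cht_ok
  rw [Chev.Tab.npos_eq, Chev.e8_ns] at c1
  rw [Chev.Tab.npos_eq, Chev.e8_nt] at c2
  erw [e1] at c1
  erw [e2] at c2
  replace c1 := c1.trans (poly1 _ hq0)
  replace c2 := c2.trans (poly2 _ hq0)
  refine ⟨_, _, (Chev.e8_sys F).orderOf_h_sgn h2 (e := Chev.bits _ 1) (j := ⟨0, by decide⟩) (by decide),
    (Chev.e8_sys F).orderOf_h_sgn h2 (e := Chev.bits _ 3) (j := ⟨0, by decide⟩) (by decide), fun h => ?_,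
    fun u hu => (Chev.e8_sys F).inv_classes hF hJ hC hu, c1, c2⟩
  have h3 := Chev.card_cent_of_isConj h
  rw [c1, c2] at h3
  simp only [mul_assoc] at h3
  have hc := fun k hk => Chev.coprime_pow_sub_one (Fintype.card F) k hq0 hk
  exact Chev.ne_of_pow hq (by norm_num) ((hc 8 (by norm_num)).mul_right
    (Nat.Coprime.prod_right fun i hi => hc _ (by have := (Finset.mem_Icc.1 hi).1; omega))) h3.symm

end Cfsg.Agent.S4281
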