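import Cfsg.Statements.S4282
import Cfsg.Agent.Lib.Mod.GroupForm

set_option autoImplicit false
open Cfsg

namespace Cfsg.Agent.S4282


/-- A critical case behind the Hall–Higman theorem. Let p ≠ q be primes and G a finite group generated by a normal q-subgroup Q and a cyclic p-subgroup generated by x, such that the centralizer of every non-identity element of that cyclic subgroup is its product with the centre of G. Let K be an algebraically closed field of characteristic p and ρ a faithful representation of G on a nonzero finite-dimensional K-space whose restriction to Q is irreducible. If s is the least exponent with (ρ(x) − 1)^s = 0, then |⟨x⟩| − 1 ≤ s ≤ |⟨x⟩|; and if s = |⟨x⟩| − 1 then |⟨x⟩| − 1 is a power of q and Q is non-abelian. -/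
theorem result {G : Type*} [Group G] [Finite G] (p q : ℕ) [Fact p.Prime] [Fact q.Prime] (hpq : p ≠ q) (Q : Subgroup G) [Q.Normal] (hQ : IsPGroup q Q) (x : G) (hx : IsPGroup p (Subgroup.zpowers x)) (hgen : Q ⊔ Subgroup.zpowers x = ⊤) (hC : ∀ y ∈ Subgroup.zpowers x, y ≠ 1 → Subgroup.centralizer ({y} : Set G) = Subgroup.zpowers x ⊔ Subgroup.center G) {K : Type*} [Field K] [IsAlgClosed K] [CharP K p] {V : Type*} [AddCommGroup V] [Module K V] [FiniteDimensional K V] [Nontrivial V] (ρ : Representation K G V) (hfaith : Function.Injective ρ) (hirr : ∀ W : Submodule K V, (∀ g ∈ Q, Submodule.map (ρ g) W ≤ W) → W = ⊥ ∨ W = ⊤) (s : ℕ) (hs : (ρ x - 1) ^ s = 0) (hmin : ∀ k < s, (ρ x - 1) ^ k ≠ 0) : Nat.card (Subgroup.zpowers x) - 1 ≤ s ∧ s ≤ Nat.card (Subgroup.zpowers x) ∧ (s = Nat.card (Subgroup.zpowers x) - 1 → (∃ b : ℕ, Nat.card (Subgroup.zpowers x) - 1 = q ^ b) ∧ ¬ IsMulCommutative Q) := by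
  open Polynomial in
  have hq : q.Prime := Fact.out
  have hp : p.Prime := Fact.out
  obtain ⟨n, hn⟩ := IsPGroup.iff_card.1 hx
  obtain ⟨m, hm⟩ := IsPGroup.iff_card.1 hQ
  rw [Nat.card_zpowers] at hn ⊢
  have hI : Mod.IsIrr ρ Q ⊤ := ⟨Mod.isInv_top _, top_ne_bot,
    fun U _ hU => hirr U (Mod.isInv_iff_map_le.1 hU)⟩
  have hQk : (Nat.card Q : K) ≠ 0 := Mod.natCast_ne_zero_of_not_dvd K (by
    rw [hm]
    exact fun h => hpq ((Nat.prime_dvd_prime_iff_eq hp hq).1 (hp.dvd_of_dvd_pow h)))
  have hs0 : s ≠ 0 := by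
    rintro rfl
    exact one_ne_zero hs
  have hle : s ≤ orderOf x := by
    by_contra h
    apply hmin _ (not_le.1 h)
    rw [hn, Mod.sub_one_pow_char_pow, ← hn, pow_orderOf_eq_one, map_one, sub_self]
  have hZ : Subgroup.center G ≤ Mod.scal ρ ⊤ := fun z hz =>
    hI.mem_scal_of_commute (Mod.isInv_iff_le_stab.1 (Mod.isInv_top ⊤) trivial)
      (Subgroup.center_le_centralizer _ hz)
  have key : s < orderOf x → Module.finrank K V ≠ 1 ∧ Module.finrank K V + 1 = orderOf x ∧
      s + 1 = orderOf x := by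
    intro hlt
    have hne : Module.finrank K V ≠ 1 := by
      intro h1
      obtain ⟨t, ht⟩ := Mod.mem_scal_of_finrank_eq_one (ρ := ρ) (U := ⊤) (by rwa [finrank_top])
        (g := x) fun _ _ => trivial
      have h2 : ρ x - 1 = algebraMap K _ (t - 1) := by
        ext v
        simp [ht v trivial, sub_smul]
      rw [h2, ← map_pow, map_eq_zero_iff _ (algebraMap K _).injective, pow_eq_zero_iff hs0] at hs
      rw [hs, map_zero, sub_eq_zero, ← map_one ρ] at h2
      rw [hfaith h2, orderOf_one] at hlt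
      omega
    have hdeg : ((X - C 1 : K[X]) ^ s).natDegree = s := by
      rw [natDegree_pow, natDegree_X_sub_C, mul_one]
    have := Mod.critical (Coprime.isSolvable_of_isPGroup hQ) hQk hI (x := x)
      (Subgroup.le_normalizer_of_normal (K := ⊤) trivial) (fun y hy hy1 g hg hgy => ?_)
      (f := (X - C 1) ^ s) (pow_ne_zero _ (X_sub_C_ne_zero 1)) (by simpa using hs)
      (hdeg.symm ▸ hlt)
    · rw [hdeg] at this
      exact ⟨hne, this.resolve_left hne⟩
    · have hn' : (⊤ : Subgroup G) ≤ Subgroup.normalizer ((Q ⊓ Mod.scal ρ ⊤ : Subgroup G) : Set G) :=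
        Core.le_normalizer_inf Subgroup.le_normalizer_of_normal
          (Mod.normalizer_scal (Mod.isInv_top _))
      have hcop : (p ^ n).Coprime (Nat.card Q) :=
        hm ▸ Nat.Coprime.pow _ _ ((Nat.coprime_primes hp hq).2 hpq)
      obtain ⟨b, hb, hgb⟩ := Mod.exists_mul_commute_of_commutator_mem (hn' (Subgroup.mem_top g))
        (hn' (Subgroup.mem_top y))
        ((hcop.coprime_dvd_left (hn ▸ orderOf_dvd_of_mem_zpowers hy)).coprime_dvd_right
          (Subgroup.card_dvd_of_le inf_le_left))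
        ⟨Subgroup.commutator_le_left Q ⊤ (Subgroup.commutator_mem_commutator hg trivial), hgy⟩
      refine ((Mod.scal ρ ⊤).mul_mem_cancel_right hb.2).1 ?_
      have h1 : g * b ∈ Subgroup.centralizer ({y} : Set G) :=
        Subgroup.centralizer_le (by simp) hgb
      rw [hC y hy hy1] at h1
      obtain ⟨a, ha, z, hz, h2⟩ := (Core.mem_sup_of_le_normalizer
        Subgroup.le_normalizer_of_normal).1 h1
      have h3 : (g * b) ^ p ^ n ∈ Mod.scal ρ ⊤ := by
        rw [← h2, Commute.mul_pow (Subgroup.mem_center_iff.1 hz a),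
          orderOf_dvd_iff_pow_eq_one.1 (hn ▸ orderOf_dvd_of_mem_zpowers ha), one_mul]
        exact hZ (pow_mem hz _)
      refine Subgroup.zpowers_le.2 h3 (mem_zpowers_pow_iff.2 ?_)
      exact hcop.coprime_dvd_right (Subgroup.orderOf_dvd_natCard Q (Q.mul_mem hg hb.1))
  have hpos := orderOf_pos x
  refine ⟨?_, hle, fun h => ?_⟩
  · by_contra h
    have := key (by omega)
    omega
  · obtain ⟨h1, h2, -⟩ := key (by omega)
    obtain ⟨d, hd⟩ := hI.exists_finrank_eq_pow hQ hQk
    rw [finrank_top] at hd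
    refine ⟨⟨d, by omega⟩, fun hc => h1 ?_⟩
    rw [← finrank_top]
    refine hI.finrank_eq_one_of_comm ?_
    rw [Subgroup.commutator_eq_bot_iff_le_centralizer.2
      (Subgroup.le_centralizer_iff_isMulCommutative.2 hc)]
    exact bot_le

end Cfsg.Agent.S4282
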