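import Cfsg.Statements.S4283
import Cfsg.Agent.Lib.Cls.Basic
import Cfsg.Agent.Lib.Frob.Basic

set_option autoImplicit false
open Cfsg

namespace Cfsg.Agent.S4283

/-- Let G be a finite group with centre Z and let K, H be abelian subgroups of G containing Z such that G/Z is a Frobenius group with complement H/Z and kernel K/Z. Then the conjugacy class sizes of G are exactly 1, [G : K] and [G : H], and these two indices are coprime. (This is the converse half of the characterization of finite groups whose conjugacy class sizes are exactly 1, m and n with m and n coprime.) -/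
theorem result {G : Type*} [Group G] [Finite G] (K H : Subgroup G) (hZK : Subgroup.center G ≤ K) (hZH : Subgroup.center G ≤ H) (hK : IsMulCommutative K) (hH : IsMulCommutative H) (hFrob : Cfsg.IsFrobeniusComplement (H.map (QuotientGroup.mk' (Subgroup.center G)))) (hker : Cfsg.frobeniusKernel (H.map (QuotientGroup.mk' (Subgroup.center G))) = (K.map (QuotientGroup.mk' (Subgroup.center G)) : Set (G ⧸ Subgroup.center G))) : Set.range (fun x : G => (Subgroup.centralizer ({x} : Set G)).index) = ({1, K.index, H.index} : Set ℕ) ∧ K.index.Coprime H.index := by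
  set π := QuotientGroup.mk' (Subgroup.center G) with hπ
  have hker' : π.ker = Subgroup.center G := QuotientGroup.ker_mk' _
  have hs : Function.Surjective π := QuotientGroup.mk'_surjective _
  obtain ⟨hF, htop⟩ := Frob.isFrobPair_of_kernel_eq hFrob hker
  have hK' : ∀ x, π x ∈ K.map π → x ∈ K := fun x hx => by
    rwa [← Subgroup.mem_comap, Subgroup.comap_map_eq_self (hker'.le.trans hZK)] at hx
  have hH' : ∀ x, π x ∈ H.map π → x ∈ H := fun x hx => by
    rwa [← Subgroup.mem_comap, Subgroup.comap_map_eq_self (hker'.le.trans hZH)] at hx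
  have hne : ∀ x, x ∉ Subgroup.center G → π x ≠ 1 := fun x hx e => hx (hker' ▸ e)
  have hCK : ∀ x ∈ K, x ∉ Subgroup.center G → Subgroup.centralizer ({x} : Set G) = K :=
    fun x hx hz => by
      refine le_antisymm (fun c hc => hK' c (hF.mem_left_of_commute (htop ▸ Subgroup.mem_top _)
        ⟨x, hx, rfl⟩ (hne x hz) ?_)) fun c hc => Subgroup.mem_centralizer_singleton_iff.2
          (congrArg Subtype.val (hK.1.1 ⟨c, hc⟩ ⟨x, hx⟩))
      rw [← map_mul, ← map_mul, Subgroup.mem_centralizer_singleton_iff.1 hc]
  have hCH : ∀ x ∈ H, x ∉ Subgroup.center G → Subgroup.centralizer ({x} : Set G) = H :=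
    fun x hx hz => by
      refine le_antisymm (fun c hc => hH' c (hF.mem_right_of_commute (htop ▸ Subgroup.mem_top _)
        ⟨x, hx, rfl⟩ (hne x hz) ?_)) fun c hc => Subgroup.mem_centralizer_singleton_iff.2
          (congrArg Subtype.val (hH.1.1 ⟨c, hc⟩ ⟨x, hx⟩))
      rw [← map_mul, ← map_mul, Subgroup.mem_centralizer_singleton_iff.1 hc]
  have hex : ∀ A : Subgroup G, A.map π ≠ ⊥ → ∃ x ∈ A, x ∉ Subgroup.center G := fun A hA => by
    rw [Ne, Subgroup.map_eq_bot_iff, hker'] at hA
    exact SetLike.not_le_iff_exists.1 hA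
  constructor
  · ext n
    constructor
    · rintro ⟨x, rfl⟩
      dsimp only
      by_cases hz : x ∈ Subgroup.center G
      · exact Or.inl (Cls.index_centralizer_eq_one_iff.2 hz)
      by_cases hx : x ∈ K
      · exact Or.inr (Or.inl (by rw [hCK x hx hz]))
      obtain ⟨_, ⟨y, -, rfl⟩, hy⟩ := hF.exists_conj_mem (x := π x) (htop ▸ Subgroup.mem_top _)
        fun e => hx (hK' x e)
      rw [← map_inv, ← map_mul, ← map_mul] at hy
      refine Or.inr (Or.inr ?_)
      refine Eq.trans ?_ (congrArg Subgroup.index (hCH _ (hH' _ hy) fun e => hz ?_))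
      · exact Cls.index_centralizer_of_isConj (isConj_iff.2 ⟨y, by group⟩)
      · simpa [mul_assoc] using Subgroup.Normal.conj_mem inferInstance _ e y
    · rintro (rfl | rfl | rfl)
      · exact ⟨1, Cls.index_centralizer_eq_one_iff.2 (one_mem _)⟩
      · obtain ⟨x, hx, hz⟩ := hex K hF.left_ne_bot
        exact ⟨x, by dsimp only; rw [hCK x hx hz]⟩
      · obtain ⟨x, hx, hz⟩ := hex H hF.right_ne_bot
        exact ⟨x, by dsimp only; rw [hCH x hx hz]⟩
  · rw [← Subgroup.index_map_eq K hs (hker'.le.trans hZK), ← Subgroup.index_map_eq H hs (hker'.le.trans hZH),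
      hF.index_left htop, hF.index_right htop]
    exact hF.coprime.symm

end Cfsg.Agent.S4283
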