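import Cfsg.Statements.S4291
import Mathlib
import Cfsg.Agent.Lib.Schur.Zassenhaus
import Cfsg.Agent.S3742
import Cfsg.Agent.Lib.PGrp.DQS
import Cfsg.Agent.Lib.Core.PPrimeCore

set_option autoImplicit false
open Cfsg

namespace Cfsg.Agent.S4291

open Subgroup Cfsg.Agent.Schur
open scoped IsMulCommutative commutatorElement

section

variable {G : Type*} [Group G] [Finite G]

theorem isZGroup_comap (h : Frob.IsFC G) (O : Subgroup G) [O.Normal]
    (hO : (Nat.card O).Coprime 2) (C : Subgroup (G ⧸ O)) [IsCyclic C] :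
    IsZGroup (C.comap (QuotientGroup.mk' O)) := by
  refine ⟨fun p hp P => ?_⟩
  have := Fact.mk hp
  by_cases h2 : p = 2
  · subst h2
    refine isCyclic_of_injective (((QuotientGroup.mk' O).subgroupComap C).comp (Subgroup.subtype _))
      ((injective_iff_map_eq_one _).2 fun x hx => ?_)
    have h1 : ((x : C.comap (QuotientGroup.mk' O)) : G) ∈ O :=
      (QuotientGroup.eq_one_iff _).1 (congrArg Subtype.val hx)
    refine Subtype.ext (Transfer.eq_one_of_coprime_of_mem_isPGroup P.isPGroup' ?_ x.2)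
    rw [← orderOf_coe]
    exact hO.coprime_dvd_left (O.orderOf_dvd_natCard h1)
  · exact (h.subgroup _).isCyclic_of_odd h2 P.isPGroup'

omit [Finite G] in
theorem range_cases {n : ℕ} (f : G →* Equiv.Perm (Fin (n + 2)))
    (h : alternatingGroup (Fin (n + 2)) ≤ f.range) :
    (∃ f' : G →* alternatingGroup (Fin (n + 2)), Function.Surjective f' ∧ f'.ker = f.ker) ∨
      Function.Surjective f := by
  have h1 := index_dvd_of_le h
  rw [alternatingGroup.index_eq_two] at h1
  rcases (Nat.dvd_prime Nat.prime_two).1 h1 with h2 | h2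
  · exact .inr (MonoidHom.range_eq_top.1 (index_eq_one.1 h2))
  · have h3 := Equiv.Perm.eq_alternatingGroup_of_index_eq_two h2
    refine .inl ⟨f.codRestrict _ fun x => h3 ▸ ⟨x, rfl⟩, fun y => ?_, MonoidHom.ker_codRestrict _ _ _⟩
    obtain ⟨x, hx⟩ := h y.2
    exact ⟨x, Subtype.ext hx⟩

theorem not_isZGroup_of_involutions {u v : G} (hu : u ^ 2 = 1) (hv : v ^ 2 = 1)
    (h : u * v = v * u) (u1 : u ≠ 1) (v1 : v ≠ 1) (uv : u ≠ v) : ¬ IsZGroup G := fun _ => by
  classical
  have hcomm : IsMulCommutative ↥(closure ({u, v} : Set G)) :=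
    isMulCommutative_closure (by
      rintro _ (rfl | rfl) _ (rfl | rfl)
      exacts [rfl, h, h.symm, rfl])
  have hsq : ∀ x : closure ({u, v} : Set G), x ^ 2 = 1 := fun ⟨x, hx⟩ => by
    induction hx using closure_induction with
    | mem x hx => rcases hx with rfl | rfl <;> exact Subtype.ext ‹_›
    | one => exact one_pow 2
    | mul x y hx hy ex ey =>
      exact (mul_pow (⟨x, hx⟩ : closure ({u, v} : Set G)) ⟨y, hy⟩ 2).trans (by rw [ex, ey, one_mul])
    | inv x hx ex => exact (inv_pow (⟨x, hx⟩ : closure ({u, v} : Set G)) 2).trans (by rw [ex, inv_one])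
  have hp : IsPGroup 2 (closure ({u, v} : Set G)) := fun x => ⟨1, hsq x⟩
  have := hp.isCyclic_of_isZGroup
  have := Fintype.ofFinite (closure ({u, v} : Set G))
  have h2 := IsCyclic.card_pow_eq_one_le (α := closure ({u, v} : Set G)) two_pos
  have h3 : ({1, ⟨u, subset_closure (by simp)⟩, ⟨v, subset_closure (by simp)⟩} :
      Finset (closure ({u, v} : Set G))).card = 3 :=
    Finset.card_eq_three.2 ⟨_, _, _, fun e => u1 (congrArg Subtype.val e).symm,
      fun e => v1 (congrArg Subtype.val e).symm,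
      by simpa using uv, rfl⟩
  have h4 := Finset.card_le_card (s := {1, ⟨u, subset_closure (by simp)⟩,
    ⟨v, subset_closure (by simp)⟩}) (t := Finset.univ.filter fun a : closure ({u, v} : Set G) =>
      a ^ 2 = 1) fun x _ => by simpa using hsq x
  omega

theorem eq_bot_of_commutator {c : G} (H : ∀ g : G, g ≠ 1 → ∃ h : G, ⁅g, h⁆ ^ 2 = 1 ∧ ⁅g, h⁆ ≠ 1 ∧
    ⁅g, h⁆ ≠ c * ⁅g, h⁆ * c⁻¹ ∧ ⁅g, h⁆ * (c * ⁅g, h⁆ * c⁻¹) = (c * ⁅g, h⁆ * c⁻¹) * ⁅g, h⁆)
    (M : Subgroup G) [hM : M.Normal] (hZ : IsZGroup M) : M = ⊥ := by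
  by_contra h0
  obtain ⟨⟨g, hg⟩, g1⟩ := ne_bot_iff_exists_ne_one.1 h0
  obtain ⟨h, h1, h2, h3, h4⟩ := H g fun e => g1 (Subtype.ext e)
  have hu : ⁅g, h⁆ ∈ M := by
    rw [commutatorElement_def, mul_assoc, mul_assoc, ← mul_assoc h]
    exact mul_mem hg (hM.conj_mem _ (inv_mem hg) h)
  refine not_isZGroup_of_involutions (u := ⟨_, hu⟩) (v := ⟨_, hM.conj_mem _ hu c⟩)
    (Subtype.ext h1) (Subtype.ext ?_) (Subtype.ext h4) (fun e => h2 (congrArg Subtype.val e))
    (fun e => h2 ?_) (fun e => h3 (congrArg Subtype.val e)) hZ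
  · simp [conj_pow, h1]
  · simpa using congrArg Subtype.val e

end

def cyc : Equiv.Perm (Fin 4) := Equiv.swap 1 2 * Equiv.swap 2 3

theorem perm_four_aux : ∀ g : Equiv.Perm (Fin 4), g ≠ 1 → ∃ h : Equiv.Perm (Fin 4),
    Equiv.Perm.sign h = 1 ∧ ⁅g, h⁆ ^ 2 = 1 ∧ ⁅g, h⁆ ≠ 1 ∧
    ⁅g, h⁆ ≠ cyc * ⁅g, h⁆ * cyc⁻¹ ∧
    ⁅g, h⁆ * (cyc * ⁅g, h⁆ * cyc⁻¹) = (cyc * ⁅g, h⁆ * cyc⁻¹) * ⁅g, h⁆ := by
  decide +kernel

theorem bot_S4 (M : Subgroup (Equiv.Perm (Fin 4))) [M.Normal] (hZ : IsZGroup M) : M = ⊥ :=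
  eq_bot_of_commutator (c := cyc) (fun g hg => (perm_four_aux g hg).imp fun _ h => h.2) M hZ

theorem bot_A4 (M : Subgroup (alternatingGroup (Fin 4))) [M.Normal] (hZ : IsZGroup M) : M = ⊥ :=
  eq_bot_of_commutator (c := ⟨cyc, Equiv.Perm.mem_alternatingGroup.2 (by decide)⟩) (fun g hg => by
    obtain ⟨h, h0, h1, h2, h3, h4⟩ := perm_four_aux g fun e => hg (Subtype.ext e)
    exact ⟨⟨h, Equiv.Perm.mem_alternatingGroup.2 h0⟩, Subtype.ext h1,
      fun e => h2 (congrArg Subtype.val e), fun e => h3 (congrArg Subtype.val e),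
      Subtype.ext h4⟩) M hZ

theorem not_solvable_A5 : ¬ Group.IsSolvable (alternatingGroup (Fin 5)) := fun h => by
  have := IsSimpleGroup.comm_iff_isSolvable.2 h
    ⟨Equiv.swap 0 1 * Equiv.swap 1 2, Equiv.Perm.mem_alternatingGroup.2 (by decide)⟩
    ⟨Equiv.swap 1 2 * Equiv.swap 2 3, Equiv.Perm.mem_alternatingGroup.2 (by decide)⟩
  exact absurd (congrArg Subtype.val this) (by decide)

theorem bot_A5 (M : Subgroup (alternatingGroup (Fin 5))) [hM : M.Normal] (hZ : IsZGroup M) :
    M = ⊥ := by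
  refine hM.eq_bot_or_eq_top.resolve_right ?_
  rintro rfl
  exact not_solvable_A5 (Group.isSolvable_of_surjective (f := (⊤ : Subgroup _).subtype)
    fun x => ⟨⟨x, trivial⟩, rfl⟩)

theorem bot_S5 (M : Subgroup (Equiv.Perm (Fin 5))) [hM : M.Normal] (hZ : IsZGroup M) :
    M = ⊥ := by
  by_contra h0
  exact not_solvable_A5 (Coprime.isSolvable_of_le (Equiv.Perm.alternatingGroup_le_of_normal
    (by simp) ((nontrivial_iff_ne_bot M).2 h0)) inferInstance)

section

variable {G : Type*} [Group G] [Finite G]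

theorem max_of_bot {T : Type*} [Group T] (hT : ∀ (M : Subgroup T) [M.Normal], IsZGroup M → M = ⊥)
    (h3 : 3 ∣ Nat.card T) {f : G →* T} (hf : Function.Surjective f) :
    (∀ M : Subgroup G, M.Normal → IsZGroup M → M ≤ f.ker) ∧ 3 ∣ f.ker.index := by
  refine ⟨fun M hM hZ => ?_, ?_⟩
  · have := hM.map f hf
    exact (Subgroup.map_eq_bot_iff _).1 (hT _ (IsZGroup.of_surjective (f.subgroupMap_surjective M)))
  · rwa [index_ker, MonoidHom.range_eq_top.2 hf, card_top]

theorem ker_eq_of_dihedral (h : Frob.IsFC G) {f₁ f₂ : G →* DihedralGroup 2}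
    (h₁ : Function.Surjective f₁) : f₁.ker ≤ f₂.ker := by
  have hsq : ∀ x : DihedralGroup 2, x ^ 2 = 1 := by decide
  have hc : ∀ x y : DihedralGroup 2, x * y = y * x := by decide
  let f := f₁.prod f₂
  have : IsMulCommutative f.range := ⟨⟨fun x y => Subtype.ext (Prod.ext (hc _ _) (hc _ _))⟩⟩
  have h2 : ∀ x : f.range, x ^ 2 = 1 := fun x => Subtype.ext (Prod.ext (hsq _) (hsq _))
  obtain ⟨S⟩ : Nonempty (Sylow 2 G) := inferInstance
  have h3 : (S : Subgroup G).map f.rangeRestrict = ⊤ :=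
    ((S.mapSurjective f.rangeRestrict_surjective).is_maximal'
      (IsPGroup.to_subgroup (fun x => ⟨1, h2 x⟩) ⊤) le_top).symm
  have h4 : Group.rank f.range ≤ 2 := (Group.rank_le_of_surjective
    (f.rangeRestrict.comp (S : Subgroup G).subtype) fun y => by
      obtain ⟨x, hx, rfl⟩ : y ∈ (S : Subgroup G).map f.rangeRestrict := h3 ▸ mem_top y
      exact ⟨⟨x, hx⟩, rfl⟩).trans (rank_le_two_of_isFC h S.isPGroup')
  have h5 : f.ker.index ≤ 4 := by
    rw [index_ker]
    exact Nat.le_of_dvd (by norm_num) ((card_dvd_exponent_pow_rank' _ h2).trans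
      (pow_dvd_pow 2 h4))
  have h6 : f₁.ker.index = 4 := by
    rw [index_ker, MonoidHom.range_eq_top.2 h₁, card_top, DihedralGroup.nat_card]
  have h7 : f.ker = f₁.ker := by
    have h8 : f.ker ≤ f₁.ker := fun x hx => congrArg Prod.fst hx
    by_contra h9
    have := index_strictAnti (lt_of_le_of_ne h8 h9)
    omega
  rw [← h7]
  exact fun x hx => congrArg Prod.snd hx

theorem rank_quotient (h : Frob.IsFC G) (O : Subgroup G) [O.Normal]
    (hO : (Nat.card O).Coprime 2) : PRankLE 2 1 (G ⧸ O) := by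
  have key : ∀ x : G ⧸ O, orderOf x = 2 → ∃ y : G, orderOf y = 2 ∧ (y : G ⧸ O) = x := by
    intro x hx
    obtain ⟨g, rfl⟩ := QuotientGroup.mk_surjective x
    have h2 : (g : G ⧸ O) ^ 2 = 1 := hx ▸ pow_orderOf_eq_one _
    obtain ⟨k, hk⟩ := Nat.coprime_two_right.1 hO
    have h3 : ((g ^ Nat.card O : G) : G ⧸ O) = g := by
      rw [QuotientGroup.mk_pow, hk, pow_succ, pow_mul, h2, one_pow, one_mul]
    refine ⟨g ^ Nat.card O, orderOf_eq_prime ?_ fun e => ?_, h3⟩
    · rw [← pow_mul, mul_comm, pow_mul]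
      exact congrArg Subtype.val (pow_card_eq_one' (G := O)
        (x := ⟨g ^ 2, (QuotientGroup.eq_one_iff _).1 h2⟩))
    · rw [← h3, show g ^ Nat.card O = 1 from e] at hx
      simp at hx
  refine PGrp.rank_le_one_of_unique fun x y hx hy => ?_
  obtain ⟨x, hx', rfl⟩ := key x hx
  obtain ⟨y, hy', rfl⟩ := key y hy
  rw [h.eq_of_orderOf_eq_two hx' hy']
  exact mem_zpowers _

theorem mem_centralizer_of_isCyclic_two {X : Subgroup G} (hX : IsPGroup 2 X) [hc : IsCyclic X]
    {g : G} (hg : g ∈ normalizer (X : Set G)) (h2 : (orderOf g).Coprime 2) :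
    g ∈ centralizer (X : Set G) := by
  classical
  obtain ⟨x, hx⟩ := hc.exists_generator
  refine mem_centralizer_of_rank_le hX (d := 1) ((Group.rank_le (S := {x}) ?_).trans (by simp))
    hg h2 (by simp)
  rw [Finset.coe_singleton, ← zpowers_eq_closure, eq_top_iff]
  exact fun y _ => hx y

theorem mem_centralizer_of_dqs {R : Subgroup G} [hR : R.Normal] {n : ℕ} {x y : R}
    (h : PGrp.IsDQS n x y) (hn : 3 ≤ n) {g : G} (h2 : (orderOf g).Coprime 2) :
    g ∈ centralizer (R : Set G) := by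
  have hX : IsPGroup 2 (zpowers (x : G)) :=
    IsPGroup.of_card (by rw [Nat.card_zpowers, orderOf_coe, h.2.2.1])
  have hm : ∀ z : R, (z : G) ∈ zpowers (x : G) ↔ z ∈ zpowers x := fun z => by
    rw [← mem_map_iff_mem R.subtype_injective, MonoidHom.map_zpowers]; rfl
  have h1 : g ∈ normalizer (zpowers (x : G) : Set G) := by
    refine mem_normalizer_zpowers_of_mem ((hm ⟨_, hR.conj_mem _ x.2 g⟩).2 ?_)
    by_contra hc
    have h3 := orderOf_dvd_of_pow_eq_one (h.pow_four hc)
    rw [← orderOf_coe, show orderOf (g * x * g⁻¹) = orderOf (x : G) from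
      (MulAut.conj g).orderOf_eq _, orderOf_coe, h.2.2.1] at h3
    have := (Nat.pow_dvd_pow_iff_le_right one_lt_two).1 (show 2 ^ n ∣ 2 ^ 2 from h3)
    omega
  have h3 := mem_centralizer_of_isCyclic_two hX h1 h2
  have h4 : ⁅R, zpowers g⁆ ≤ zpowers (x : G) := by
    rw [commutator_le]
    intro r hr a ha
    have h5 : a ∈ normalizer (zpowers (x : G) : Set G) := zpowers_le.2 h1 ha
    have h6 : a * r * a⁻¹ ∈ R := hR.conj_mem _ hr a
    rw [show ⁅r, a⁆ = r * (a * r * a⁻¹)⁻¹ by rw [commutatorElement_def]; group]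
    by_cases h7 : r ∈ zpowers (x : G)
    · exact mul_mem h7 (inv_mem ((mem_normalizer_iff.1 h5 r).1 h7))
    · exact (hm (⟨r, hr⟩ * ⟨_, h6⟩⁻¹)).2 (h.mul_inv_mem (fun e => h7 ((hm _).2 e))
        fun e => h7 ((mem_normalizer_iff.1 h5 r).2 ((hm ⟨_, h6⟩).2 e)))
  have h5 := Coprime.centralizer_sup_eq_of_commutator_le (zpowers_le.2 x.2) h4
    (Coprime.coprime_card_of_isPGroup (by rwa [Nat.card_zpowers]) hX) (.inr inferInstance)
  have h6 : R ≤ centralizer (zpowers g : Set G) := by
    rw [← h5]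
    exact sup_le inf_le_right (le_centralizer_iff.1 (zpowers_le.2 h3))
  exact le_centralizer_iff.1 h6 (mem_zpowers g)

theorem exists_hom_of_solvable [Group.IsSolvable G] (hr : PRankLE 2 1 G)
    (h0 : pPrimeCore 2 G = ⊥) : IsCyclic G ∨
      (∃ f : G →* DihedralGroup 2, Function.Surjective f ∧ IsCyclic f.ker) ∨
      ∃ f : G →* Equiv.Perm (Fin 4), alternatingGroup (Fin 4) ≤ f.range ∧ IsCyclic f.ker := by
  by_cases h2 : IsPGroup 2 G
  · rcases PGrp.isCyclic_or_dqs_of_normal_abelian_cyclic h2 fun A _ hA =>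
      PGrp.isCyclic_of_comm_of_rank_le_one (h2.to_subgroup A) hA (PGrp.pRankLE_subgroup hr A) with
      hc | ⟨-, n, x, y, h⟩
    · exact .inl hc
    · have : Nontrivial (G ⧸ commutator G) := by
        rw [← Finite.one_lt_card_iff_nontrivial, ← index_eq_card, h.index_commutator]; norm_num
      have : IsKleinFour (G ⧸ commutator G) := ⟨h.index_commutator,
        (Monoid.exponent_eq_prime_iff Nat.prime_two).2 fun g hg => orderOf_eq_prime (by
          obtain ⟨g, rfl⟩ := QuotientGroup.mk_surjective g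
          rw [← QuotientGroup.mk_pow, QuotientGroup.eq_one_iff, h.commutator_eq, ← h.frattini_eq]
          exact PGrp.pow_mem_frattini h2 g) hg⟩
      obtain ⟨e⟩ := IsKleinFour.nonempty_mulEquiv (G₁ := G ⧸ commutator G) (G₂ := DihedralGroup 2)
      refine .inr (.inl ⟨e.toMonoidHom.comp (QuotientGroup.mk' _),
        e.surjective.comp (QuotientGroup.mk'_surjective _), ?_⟩)
      rw [MonoidHom.ker_comp_of_injective _ _ e.injective, QuotientGroup.ker_mk', h.commutator_eq]
      infer_instance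
  right; right
  have hC := Core.centralizer_pCore_le h0
  have hR := Core.isPGroup_pCore (G := G) 2
  set R := pCore 2 G
  obtain ⟨g, hg, g1⟩ : ∃ g : G, (orderOf g).Coprime 2 ∧ g ≠ 1 := by
    by_contra hc
    push Not at hc
    exact h2 ((Transfer.isPGroup_of_forall_coprime_eq_one (C := ⊤) fun g _ => hc g).of_equiv
      topEquiv)
  have hgC : g ∉ centralizer (R : Set G) := fun e =>
    g1 (Transfer.eq_one_of_coprime_of_mem_isPGroup hR hg (hC e))
  rcases PGrp.isCyclic_or_quaternion_gens_of_rank_le_one hR (PGrp.pRankLE_subgroup hr R) with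
    hc | ⟨-, n, x, y, hn, h1, h3, h4, h5, h6⟩
  · exact absurd (mem_centralizer_of_isCyclic_two hR (by simp [normalizer_eq_top]) hg) hgC
  have h : PGrp.IsDQS n x y := ⟨hn, h1, h3, h4, .inr (.inl ⟨h5, h6⟩)⟩
  obtain rfl : n = 2 := by
    by_contra hn2
    exact hgC (mem_centralizer_of_dqs h (by omega) hg)
  obtain ⟨e⟩ := PGrp.nonempty_mulEquiv_quaternion (n := 2) h3 h1 h4 h6 h5
  obtain ⟨e'⟩ := S3742.result
  let f : G →* Equiv.Perm (Fin 4) :=
    ((MulAut.congr e).trans e').toMonoidHom.comp MulAut.conjNormal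
  have hker : f.ker = centralizer (R : Set G) := by
    rw [MonoidHom.ker_comp_of_injective _ _ (MulEquiv.injective _)]
    ext a
    simp only [MonoidHom.mem_ker, MulEquiv.ext_iff, Subtype.ext_iff, MulAut.conjNormal_apply,
      MulAut.one_apply, Subtype.forall, mem_centralizer_iff, SetLike.mem_coe,
      mul_inv_eq_iff_eq_mul]
    exact forall₂_congr fun _ _ => eq_comm
  have hk2 : f.ker = (center R).map R.subtype := by
    rw [hker]
    ext a
    constructor
    · intro ha
      exact ⟨⟨a, hC ha⟩, Subgroup.mem_center_iff.2 fun b => Subtype.ext (ha b b.2), rfl⟩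
    · rintro ⟨a, ha, rfl⟩ b hb
      exact congrArg Subtype.val (Subgroup.mem_center_iff.1 ha ⟨b, hb⟩)
  have hk3 : Nat.card f.ker = 2 := by
    rw [hk2, card_map_of_injective R.subtype_injective, h.card_center]
  refine ⟨f, Equiv.Perm.alternatingGroup_le_of_index_le_two ?_, isCyclic_of_prime_card hk3⟩
  have e1 := f.ker.card_mul_index
  have e2 := f.range.card_mul_index
  rw [index_ker, hk3] at e1
  rw [Nat.card_perm, Nat.card_fin, show Nat.factorial 4 = 24 from rfl] at e2
  have d4 : 4 ∣ Nat.card f.range := by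
    have := card_subgroup_dvd_card R
    rw [h1, ← e1] at this
    omega
  have d3 : 3 ∣ Nat.card f.range := by
    have a1 : orderOf (f g) ∣ Nat.card f.range := f.range.orderOf_dvd_natCard ⟨g, rfl⟩
    have a2 : (orderOf (f g)).Coprime 2 := hg.coprime_dvd_left (orderOf_map_dvd f g)
    have a3 : orderOf (f g) ≠ 1 := fun e => hgC (hker ▸ orderOf_eq_one_iff.1 e)
    have a4 : orderOf (f g) ∣ 3 * 2 ^ 3 := a1.trans ⟨_, e2.symm⟩
    have a5 := (a2.pow_right 3).dvd_of_dvd_mul_right a4
    rw [← ((Nat.dvd_prime Nat.prime_three).1 a5).resolve_left a3]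
    exact a1
  obtain ⟨k, hk⟩ := Nat.Coprime.mul_dvd_of_dvd_of_dvd (by norm_num) d3 d4
  rw [hk] at e2
  have : k ≠ 0 := by rintro rfl; simp at e2
  nlinarith [Nat.pos_of_ne_zero this]

end

/-- Let G be a finite group that occurs as a Frobenius complement. Then G has exactly one normal subgroup N such that every Sylow subgroup of N is cyclic and the quotient of G by N is trivial or isomorphic to one of the following five groups: the Klein four-group, the alternating group of degree 4, the symmetric group of degree 4, the alternating group of degree 5, the symmetric group of degree 5. (The quotient is described by a surjective homomorphism with kernel N; the Klein four-group is written as the dihedral group of order 4.) -/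
theorem result {G : Type*} [Group G] [Finite G]
    (hFC : (∃ (L : Type) (_ : Group L) (_ : Finite L) (H : Subgroup L), Cfsg.IsFrobeniusComplement H ∧ Nonempty (G ≃* H))) :
    ∃! N : Subgroup G, N.Normal ∧ (∀ (p : ℕ) [Fact p.Prime] (P : Sylow p N), IsCyclic P) ∧
      (N = ⊤ ∨
        (∃ f : G →* DihedralGroup 2, Function.Surjective f ∧ f.ker = N) ∨
        (∃ f : G →* alternatingGroup (Fin 4), Function.Surjective f ∧ f.ker = N) ∨
        (∃ f : G →* Equiv.Perm (Fin 4), Function.Surjective f ∧ f.ker = N) ∨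
        (∃ f : G →* alternatingGroup (Fin 5), Function.Surjective f ∧ f.ker = N) ∨
        (∃ f : G →* Equiv.Perm (Fin 5), Function.Surjective f ∧ f.ker = N)) := by
  have h := Frob.isFC_of_exists_frobenius hFC
  have hZ : ∀ N : Subgroup G, (∀ (p : ℕ) [Fact p.Prime] (P : Sylow p N), IsCyclic P) ↔ IsZGroup N :=
    fun N => ⟨fun H => ⟨fun p hp P => @H p ⟨hp⟩ P⟩, fun _ _ _ _ => inferInstance⟩
  simp only [hZ]
  refine existsUnique_of_exists_of_unique ?_ ?_
  · by_cases hs : Group.IsSolvable G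
    · have hO := Core.coprime_card_pPrimeCore (G := G) 2
      rcases exists_hom_of_solvable (rank_quotient h _ hO) Core.pPrimeCore_quotient_pPrimeCore with
        hc | ⟨f, hf, hc⟩ | ⟨f, hf, hc⟩
      · exact ⟨⊤, inferInstance, isZGroup_comap h _ hO ⊤, .inl rfl⟩
      · exact ⟨_, inferInstance, isZGroup_comap h _ hO f.ker, .inr (.inl
          ⟨f.comp (QuotientGroup.mk' _), hf.comp (QuotientGroup.mk'_surjective _), rfl⟩)⟩
      · refine ⟨_, inferInstance, isZGroup_comap h _ hO f.ker, .inr (.inr ?_)⟩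
        rcases range_cases (f.comp (QuotientGroup.mk' _)) (by
          rwa [MonoidHom.range_comp, QuotientGroup.range_mk', ← MonoidHom.range_eq_map]) with
          h1 | h1
        · exact .inl h1
        · exact .inr (.inl ⟨_, h1, rfl⟩)
    · obtain ⟨e⟩ := zassenhaus h hs
      obtain ⟨f, hf, hk⟩ := exists_hom_perm_five h e
      refine ⟨f.ker, inferInstance, hk, .inr (.inr (.inr (.inr ?_)))⟩
      rcases range_cases f hf with h1 | h1
      · exact .inl h1
      · exact .inr ⟨_, h1, rfl⟩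
  · have key : ∀ N : Subgroup G, (N = ⊤ ∨
        (∃ f : G →* DihedralGroup 2, Function.Surjective f ∧ f.ker = N) ∨
        (∃ f : G →* alternatingGroup (Fin 4), Function.Surjective f ∧ f.ker = N) ∨
        (∃ f : G →* Equiv.Perm (Fin 4), Function.Surjective f ∧ f.ker = N) ∨
        (∃ f : G →* alternatingGroup (Fin 5), Function.Surjective f ∧ f.ker = N) ∨
        (∃ f : G →* Equiv.Perm (Fin 5), Function.Surjective f ∧ f.ker = N)) →
        N = ⊤ ∨ (∃ f : G →* DihedralGroup 2, Function.Surjective f ∧ f.ker = N) ∨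
          ((∀ M : Subgroup G, M.Normal → IsZGroup M → M ≤ N) ∧ 3 ∣ N.index) := by
      rintro N (h | h | ⟨f, hf, rfl⟩ | ⟨f, hf, rfl⟩ | ⟨f, hf, rfl⟩ | ⟨f, hf, rfl⟩)
      · exact .inl h
      · exact .inr (.inl h)
      · exact .inr (.inr (max_of_bot bot_A4 (by
          rw [alternatingGroup.card_of_card_eq_four (by simp)]; norm_num) hf))
      · exact .inr (.inr (max_of_bot bot_S4 (by rw [Nat.card_perm, Nat.card_fin]; decide) hf))
      · refine .inr (.inr (max_of_bot bot_A5 ?_ hf))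
        have := (alternatingGroup (Fin 5)).card_mul_index
        rw [alternatingGroup.index_eq_two, Nat.card_perm, Nat.card_fin,
          show Nat.factorial 5 = 120 from rfl] at this
        omega
      · exact .inr (.inr (max_of_bot bot_S5 (by rw [Nat.card_perm, Nat.card_fin]; decide) hf))
    have hD : ∀ f : G →* DihedralGroup 2, Function.Surjective f → ¬ IsZGroup (⊤ : Subgroup G) :=
      fun f hf _ => not_isZGroup_of_involutions (u := DihedralGroup.r 1) (v := DihedralGroup.sr 0)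
        (by decide) (by decide) (by decide) (by decide) (by decide) (by decide)
        (IsZGroup.of_surjective (f := f.comp (⊤ : Subgroup G).subtype) fun y => by
          obtain ⟨x, rfl⟩ := hf y
          exact ⟨⟨x, trivial⟩, rfl⟩)
    have hD' : ∀ f : G →* DihedralGroup 2, Function.Surjective f → ∀ N, f.ker ≤ N →
        ¬ 3 ∣ N.index := fun f hf N hN h3 => by
      have := h3.trans (index_dvd_of_le hN)
      rw [index_ker, MonoidHom.range_eq_top.2 hf, card_top, DihedralGroup.nat_card] at this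
      omega
    rintro N₁ N₂ ⟨n₁, z₁, h₁⟩ ⟨n₂, z₂, h₂⟩
    rcases key _ h₁ with rfl | ⟨f₁, s₁, rfl⟩ | ⟨a₁, b₁⟩ <;>
      rcases key _ h₂ with rfl | ⟨f₂, s₂, rfl⟩ | ⟨a₂, b₂⟩
    · rfl
    · exact absurd z₁ (hD f₂ s₂)
    · exact (top_le_iff.1 (a₂ _ n₁ z₁)).symm
    · exact absurd z₂ (hD f₁ s₁)
    · exact le_antisymm (ker_eq_of_dihedral h s₁) (ker_eq_of_dihedral h s₂)
    · exact absurd b₂ (hD' f₁ s₁ _ (a₂ _ n₁ z₁))
    · exact top_le_iff.1 (a₁ _ n₂ z₂)
    · exact absurd b₁ (hD' f₂ s₂ _ (a₁ _ n₂ z₂))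
    · exact le_antisymm (a₂ _ n₁ z₁) (a₁ _ n₂ z₂)

end Cfsg.Agent.S4291
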