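import Cfsg.Statements.S4294
import Cfsg.Agent.Lib.Schur.Zassenhaus
import Cfsg.Agent.Lib.Frob.Complement

set_option autoImplicit false
open Cfsg

namespace Cfsg.Agent.S4294

open Finset

/-- Gauss's identity for the cyclotomic polynomial -/
theorem gauss {K : Type*} [Field K] [CharZero K] {q : ℕ} (hq : q.Prime) (h4 : q % 4 = 3) (x : K)
    (E : Type*) [Field E] [Algebra K E] [IsCyclotomicExtension {q} K E] :
    ∃ A B : K, (x - 1) * (A ^ 2 + q * B ^ 2) = 4 * (x ^ q - 1) := by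
  haveI := Fact.mk hq
  haveI : CharZero E := charZero_of_injective_algebraMap (algebraMap K E).injective
  have hζ := IsCyclotomicExtension.zeta_spec q K E
  haveI := IsCyclotomicExtension.isGalois {q} K E
  haveI := IsCyclotomicExtension.finiteDimensional {q} K E
  generalize IsCyclotomicExtension.zeta q K E = ζ at hζ
  let ψ := AddChar.zmodChar q hζ.pow_eq_one
  let χ := quadraticChar (ZMod q)
  have h2 : ringChar (ZMod q) ≠ 2 := by rw [ZMod.ringChar_zmod_n]; omega
  let χ' := χ.ringHomComp (Int.castRingHom E)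
  have hg : gaussSum χ' ψ ^ 2 = -q := by
    rw [gaussSum_sq ((MulChar.ringHomComp_ne_one_iff Int.cast_injective).2 (quadraticChar_ne_one h2))
      ((quadraticChar_isQuadratic _).comp _) (AddChar.zmodChar_primitive_of_primitive_root q hζ),
      ZMod.card, MulChar.ringHomComp_apply, (quadraticChar_neg_one_iff_not_isSquare).2
        (by rw [ZMod.exists_sq_eq_neg_one_iff]; omega)]
    simp
  let f : ℤ → E := fun ε => ∏ a ∈ univ.filter (χ · = ε), (algebraMap K E x - ψ a)
  have h1 : (algebraMap K E x - 1) * (f 1 * f (-1)) = algebraMap K E x ^ q - 1 := by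
    have e := congrArg (Polynomial.eval (algebraMap K E x))
      (X_pow_sub_C_eq_prod hζ hq.pos (one_pow q))
    simp only [Polynomial.eval_sub, Polynomial.eval_pow, Polynomial.eval_X, Polynomial.eval_C,
      Polynomial.eval_prod, mul_one] at e
    have e1 : ∏ a : ZMod q, (algebraMap K E x - ψ a) = ∏ i ∈ range q, (algebraMap K E x - ζ ^ i) :=
      prod_bij (fun a _ => a.val) (fun a _ => mem_range.2 (ZMod.val_lt a))
        (fun a _ b _ e => ZMod.val_injective q e)
        (fun i hi => ⟨i, mem_univ _, ZMod.val_cast_of_lt (mem_range.1 hi)⟩) fun _ _ => rfl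
    rw [e, ← e1, ← prod_fiberwise_of_maps_to (g := χ) (t := {0, 1, -1}) fun a _ => by
      simpa [χ] using quadraticChar_isQuadratic _ a, prod_insert (by decide), prod_pair (by decide)]
    congr 1
    simp only [χ, quadraticChar_eq_zero_iff, filter_eq']
    simp
  have key : ∀ σ : E ≃ₐ[K] E, ∃ s : ℤ, (s = 1 ∨ s = -1) ∧ (∀ ε, σ (f ε) = f (s * ε)) ∧
      σ (gaussSum χ' ψ) = s * gaussSum χ' ψ := fun σ => by
    obtain ⟨c, -, hc⟩ := hζ.eq_pow_of_pow_eq_one (ξ := σ ζ) (by rw [← map_pow, hζ.pow_eq_one, map_one])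
    have h3 : ∀ a, σ (ψ a) = ψ (c * a) := fun a => by
      rw [AddChar.zmodChar_apply, map_pow, ← hc, ← pow_mul, ← AddChar.zmodChar_apply' hζ.pow_eq_one]
      simp [ψ]
    have h5 : (c : ZMod q) ≠ 0 := fun e => hζ.ne_one hq.one_lt (σ.injective (by
      have := h3 1
      rwa [e, zero_mul, AddChar.map_zero_eq_one, ← Nat.cast_one, AddChar.zmodChar_apply', pow_one,
        ← map_one σ] at this))
    have h6 := quadraticChar_dichotomy h5
    have h7 : χ c * χ c = 1 := by rcases h6 with e | e <;> simp [χ, e]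
    refine ⟨χ c, h6, fun ε => ?_, ?_⟩
    · simp only [f, map_prod, map_sub, AlgEquiv.commutes, h3]
      refine prod_bij (fun a _ => c * a) (fun a ha => ?_) (fun a _ b _ e => mul_left_cancel₀ h5 e)
        (fun b hb => ⟨(c : ZMod q)⁻¹ * b, ?_, mul_inv_cancel_left₀ h5 b⟩) fun _ _ => rfl
      · simp only [mem_filter, mem_univ, true_and, map_mul] at ha ⊢
        rw [ha]
      · simp only [mem_filter, mem_univ, true_and] at hb ⊢
        rw [← one_mul (χ _), ← h7, mul_assoc, ← map_mul, mul_inv_cancel_left₀ h5, hb, ← mul_assoc, h7,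
          one_mul]
    · have e := gaussSum_mulShift χ' ψ (Units.mk0 _ h5)
      have e1 : σ (gaussSum χ' ψ) = gaussSum χ' (ψ.mulShift c) := by
        simp [gaussSum, h3, χ']
      rw [e1, ← e, ← mul_assoc, Units.val_mk0, MulChar.ringHomComp_apply, eq_intCast, ← Int.cast_mul,
        h7, Int.cast_one, one_mul]
  have hg0 : gaussSum χ' ψ ≠ 0 := fun e => by
    rw [e, zero_pow two_ne_zero, eq_comm, neg_eq_zero, Nat.cast_eq_zero] at hg
    exact hq.ne_zero hg
  obtain ⟨A, hA⟩ := (IsGalois.mem_range_algebraMap_iff_fixed (F := K) (f 1 + f (-1))).2 fun σ => by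
    obtain ⟨s, rfl | rfl, h3, -⟩ := key σ <;> simp [h3, add_comm]
  obtain ⟨B, hB⟩ := (IsGalois.mem_range_algebraMap_iff_fixed (F := K)
      ((f 1 - f (-1)) / gaussSum χ' ψ)).2 fun σ => by
    obtain ⟨s, rfl | rfl, h3, h5⟩ := key σ <;> simp [h3, h5, div_neg]
    rw [← neg_div, neg_sub]
  refine ⟨A, B, (algebraMap K E).injective ?_⟩
  simp only [map_mul, map_sub, map_add, map_pow, map_one, map_natCast, map_ofNat, hA, hB]
  rw [← h1, div_pow, hg]
  have : (q : E) ≠ 0 := Nat.cast_ne_zero.2 hq.ne_zero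
  field_simp
  ring

theorem not_sq : ¬ IsSquare ((3 : ℕ) : ZMod 5) := by decide

/-- Thue's lemma for the form `u² + 5v²` -/
theorem thue {q : ℕ} (hq : q.Prime) (h20 : q % 20 = 3) :
    ∃ u v t : ℤ, t ≠ 0 ∧ u ^ 2 + 5 * v ^ 2 = 2 * q * t ^ 2 := by
  haveI := Fact.mk hq
  haveI : Fact (Nat.Prime 5) := ⟨by norm_num⟩
  obtain ⟨r, hr⟩ : IsSquare (-5 : ZMod q) := by
    have h1 : ¬ IsSquare ((5 : ℕ) : ZMod q) := by
      rw [← ZMod.exists_sq_eq_prime_iff_of_mod_four_eq_one rfl (by omega), ← ZMod.natCast_mod q 5,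
        show q % 5 = 3 by omega]
      exact not_sq
    have h2 : ¬ IsSquare (-1 : ZMod q) := by rw [ZMod.exists_sq_eq_neg_one_iff]; omega
    rw [← quadraticChar_neg_one_iff_not_isSquare] at h1 h2
    rw [← quadraticChar_one_iff_isSquare, ← neg_one_mul, map_mul, h2, ← Nat.cast_ofNat (n := 5), h1]
    · rfl
    · rw [neg_ne_zero, ← Nat.cast_ofNat, Ne, ZMod.natCast_eq_zero_iff,
        Nat.prime_dvd_prime_iff_eq hq Fact.out]
      omega
  obtain ⟨a, b, hab, e⟩ := Fintype.exists_ne_map_eq_of_card_lt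
    (fun a : Fin (q.sqrt + 1) × Fin (q.sqrt + 1) => ((a.1 : ℕ) : ZMod q) - r * (a.2 : ℕ)) (by
      simpa using Nat.lt_succ_sqrt q)
  obtain ⟨u, hu⟩ : ∃ u : ℤ, u = (a.1 : ℕ) - (b.1 : ℕ) := ⟨_, rfl⟩
  obtain ⟨v, hv⟩ : ∃ v : ℤ, v = (a.2 : ℕ) - (b.2 : ℕ) := ⟨_, rfl⟩
  obtain ⟨k, hk⟩ : (q : ℤ) ∣ u ^ 2 + 5 * v ^ 2 := by
    rw [← ZMod.intCast_zmod_eq_zero_iff_dvd, hu, hv]
    push_cast
    linear_combination (((a.1 : ℕ) : ZMod q) - (b.1 : ℕ) + r * ((a.2 : ℕ) - (b.2 : ℕ))) * e -
      (((a.2 : ℕ) : ZMod q) - (b.2 : ℕ)) ^ 2 * hr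
  have h1 : (q.sqrt : ℤ) * q.sqrt ≤ q := by exact_mod_cast Nat.sqrt_le q
  have h2 : u ^ 2 ≤ q := by
    have := a.1.2; have := b.1.2
    exact (sq_le_sq' (by omega) (by omega : u ≤ q.sqrt)).trans (by rwa [pow_two])
  have h3 : v ^ 2 ≤ q := by
    have := a.2.2; have := b.2.2
    exact (sq_le_sq' (by omega) (by omega : v ≤ q.sqrt)).trans (by rwa [pow_two])
  have h4 : 0 < u ^ 2 + 5 * v ^ 2 := by
    by_contra h
    have h5 : u = 0 := by nlinarith
    have h6 : v = 0 := by nlinarith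
    exact hab (Prod.ext (Fin.ext (by omega)) (Fin.ext (by omega)))
  have h0 : (0 : ℤ) < q := by exact_mod_cast hq.pos
  have h5 : 0 < k := by nlinarith
  have h6 : k ≤ 6 := by nlinarith
  have s4 : ∀ w : ℤ, w ^ 2 % 4 = 0 ∨ w ^ 2 % 4 = 1 := fun w => by
    obtain ⟨c, rfl | rfl⟩ := Int.even_or_odd' w
    · exact Or.inl (by ring_nf; omega)
    · exact Or.inr (by ring_nf; omega)
  have s8 : ∀ w : ℤ, (∃ c, w ^ 2 = 4 * c ^ 2) ∨ w ^ 2 % 8 = 1 := fun w => by
    obtain ⟨c, rfl | rfl⟩ := Int.even_or_odd' w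
    · exact Or.inl ⟨c, by ring⟩
    · obtain ⟨d, hd⟩ := Int.even_mul_succ_self c
      exact Or.inr (by rw [show (2 * c + 1) ^ 2 = 4 * (c * (c + 1)) + 1 by ring, hd]; omega)
  interval_cases k
  · have := s4 u; have := s4 v; omega
  · exact ⟨u, v, 1, one_ne_zero, by linarith⟩
  · exact ⟨u - 5 * v, u + v, 3, three_ne_zero, by linear_combination 6 * hk⟩
  · obtain ⟨c, hc⟩ | hc := s8 u <;> obtain ⟨d, hd⟩ | hd := s8 v
    · have := s4 c; have := s4 d; omega
    all_goals omega
  · obtain ⟨c, rfl⟩ : 5 ∣ u := Int.Prime.dvd_pow' (by norm_num) (⟨q - v ^ 2, by push_cast; linarith⟩ :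
      ((5 : ℕ) : ℤ) ∣ u ^ 2)
    rw [mul_pow] at hk
    have := s4 c; have := s4 v; omega
  · obtain ⟨c, hc⟩ | hc := s8 u <;> obtain ⟨d, hd⟩ | hd := s8 v <;> omega

/-- four squares in a field containing `√5` and a root of unity -/
theorem four_sq {K : Type*} [Field K] [CharZero K] {s x : K} (hs : s ^ 2 = 5)
    (hx : 2 < orderOf x) : ∃ a b c : K, a ^ 2 + b ^ 2 + c ^ 2 + 1 = 0 := by
  have key : ∀ l, l ∣ orderOf x → 1 < l → ∃ y : K, y ^ l = 1 ∧ ∀ k, 0 < k → k < l → y ^ k - 1 ≠ 0 :=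
    fun l hl _ => by
      have e := orderOf_pow_orderOf_div (by omega) hl
      exact ⟨_, e ▸ pow_orderOf_eq_one _, fun k h1 h2 => sub_ne_zero.2
        (pow_ne_one_of_lt_orderOf h1.ne' (e.symm ▸ h2))⟩
  obtain h | ⟨l, hl, h, ho⟩ := Nat.four_dvd_or_exists_odd_prime_and_dvd_of_two_lt hx
  · obtain ⟨y, h1, h2⟩ := key 4 h (by norm_num)
    exact ⟨y, 0, 0, mul_left_cancel₀ (h2 2 two_pos (by norm_num)) (by linear_combination h1)⟩
  obtain ⟨y, h1, h2⟩ := key l h hl.one_lt
  have h3 := h2 1 one_pos hl.one_lt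
  by_cases h5 : l = 5
  · subst h5
    exact ⟨y - y ^ 4, y ^ 2 + y ^ 3, 0, mul_left_cancel₀ h3
      (by linear_combination (y ^ 4 - y ^ 3 + y ^ 2 - y + 1) * h1)⟩
  have hc : Nat.Coprime 20 l := Nat.Coprime.mul_left (m := 4) (n := 5)
    ((Nat.coprime_two_left.2 ho).pow_left 2) ((Nat.coprime_primes (by norm_num) hl).2 (Ne.symm h5))
  obtain ⟨a, a1, a2⟩ := Nat.chineseRemainder hc 3 (l - 1)
  obtain ⟨q, -, hq, h6⟩ := Nat.forall_exists_prime_gt_and_modEq 0 (q := 20 * l) (a := a)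
    (mul_ne_zero (by norm_num) hl.ne_zero) (Nat.Coprime.mul_right
      (by rw [Nat.Coprime, a1.gcd_eq]; norm_num) (by
        rw [Nat.Coprime, a2.gcd_eq]; exact (Nat.coprime_self_sub_left hl.pos).2 (by simp)))
  have h7 : q % 20 = 3 := (h6.of_mul_right l).trans a1
  have h8 : y ^ (q + 1) = 1 := by
    rw [pow_eq_pow_mod _ h1, (((h6.of_mul_left 20).trans a2).add_right 1 :),
      Nat.sub_add_cancel hl.pos, Nat.mod_self, pow_zero]
  haveI := Fact.mk hq
  obtain ⟨A, B, h9⟩ := gauss hq (by omega) y (CyclotomicField q K)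
  obtain ⟨u, v, t, ht, h10⟩ := thue hq h7
  obtain ⟨m, rfl⟩ := ho
  have h11 : y * (A ^ 2 + q * B ^ 2) = -4 :=
    mul_left_cancel₀ h3 (by linear_combination y * h9 + 4 * h8)
  have h12 : (u : K) ^ 2 + 5 * v ^ 2 = 2 * q * t ^ 2 := by exact_mod_cast h10
  have h13 : (t : K) ≠ 0 := Int.cast_ne_zero.2 ht
  refine ⟨y ^ (m + 1) * A / 2, y ^ (m + 1) * B * (u - s * v) / (4 * t),
    y ^ (m + 1) * B * (u + s * v) / (4 * t), ?_⟩
  field_simp
  linear_combination 16 * t ^ 2 * h11 + 16 * t ^ 2 * y * (A ^ 2 + q * B ^ 2) * h1 +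
    8 * y ^ (2 * m + 2) * B ^ 2 * (h12 + v ^ 2 * hs)

theorem quat {K A : Type*} [CommRing K] [Ring A] [IsDomain A] [Algebra K A] {I J : A}
    (hI : I * I = -1) (hJ : J * J = -1) (h : J * I = -(I * J)) (h2 : (1 : A) ≠ -1) {a b c : K}
    (e : a ^ 2 + b ^ 2 + c ^ 2 + 1 = 0) : False := by
  have hI' : ∀ x, I * (I * x) = -x := fun x => by rw [← mul_assoc, hI, neg_one_mul]
  have hJ' : ∀ x, J * (J * x) = -x := fun x => by rw [← mul_assoc, hJ, neg_one_mul]
  have h' : ∀ x, J * (I * x) = -(I * (J * x)) := fun x => by rw [← mul_assoc, h, neg_mul, mul_assoc]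
  have h3 : (a • I + b • J + c • (I * J)) * (a • I + b • J + c • (I * J)) = 1 := by
    simp only [mul_add, add_mul, smul_mul_assoc, mul_smul_comm, mul_assoc, hI, hJ, h, hI', hJ', h',
      mul_neg, mul_one, neg_neg]
    linear_combination (norm := module) e • (-1 : A)
  have h4 : ∀ u : A, u = a • I + b • J + c • (I * J) →
      u - I * (u * I) - J * (u * J) + I * (J * (u * (J * I))) = 0 := by
    rintro _ rfl
    simp only [mul_add, add_mul, smul_mul_assoc, mul_smul_comm, mul_assoc, hI, hJ, h, hI', hJ', h',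
      mul_neg, mul_one, neg_neg, neg_mul]
    module
  have h5 : ((1 : A) - -1) * (1 - -1) = 0 := by
    rcases mul_self_eq_one_iff.1 h3 with e | e <;> have := h4 _ e.symm <;>
      simp only [one_mul, neg_mul, mul_neg, hI, hJ, hJ', neg_neg] at this
    · linear_combination (norm := noncomm_ring) this
    · linear_combination (norm := noncomm_ring) -this
  exact h2 (sub_eq_zero.1 (mul_self_eq_zero.1 h5))

theorem icos {D : Type*} [DivisionRing D] {a b x : D} (ha : a * a = -1) (h2 : (1 : D) ≠ -1)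
    (hb : b * b = -1 - b) (hy : (a * b) ^ 5 = 1) (hy' : ∑ i ∈ range 5, (a * b) ^ i = 0)
    (h1 : Commute x a) (h3 : Commute x b) (hx : 2 < orderOf x ∨ (5 : D) = 0) : False := by
  have e1 : a * b * (a + b * a) = 1 := by
    rw [show a * b * (a + b * a) = a * (b + b * b) * a by noncomm_ring, hb]
    linear_combination (norm := noncomm_ring) -ha
  have e2 : a + b * a = (a * b) ^ 4 := by
    rw [← one_mul (a + b * a), ← hy, pow_succ, mul_assoc, e1, mul_one]
  obtain ⟨t, ht⟩ : ∃ t, t = a * b + (a + b * a) := ⟨_, rfl⟩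
  have e3 : t ^ 2 + t - 1 = 0 := by
    simp only [sum_range_succ, range_zero, sum_empty] at hy'
    rw [ht, e2]
    generalize a * b = y at hy hy'
    linear_combination (norm := noncomm_ring) hy' + (1 + 1 + y ^ 3) * hy
  have e4 : Commute t a := by
    rw [ht, Commute, SemiconjBy]
    linear_combination (norm := noncomm_ring) b * ha - ha * b
  have e5 : Commute t b := by
    rw [ht, Commute, SemiconjBy]
    linear_combination (norm := noncomm_ring) a * hb - hb * a
  have e6 : Commute x t := ht ▸ (h1.mul_right h3).add_right (h1.add_right (h3.mul_right h1))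
  let C : Subfield D := { Subring.centralizer {x, t} with
    inv_mem' := fun _ h => Set.inv_mem_centralizer₀ h }
  have hm : ∀ y, Commute x y → Commute t y → y ∈ C := fun y h h' => by
    rintro _ (rfl | rfl); exacts [h, h']
  let K := Subring.center C
  let x' : K := ⟨⟨x, hm x rfl e6.symm⟩, Subring.mem_center_iff.2 fun y =>
    Subtype.ext (y.2 x (by simp)).symm⟩
  let t' : K := ⟨⟨t, hm t e6 rfl⟩, Subring.mem_center_iff.2 fun y =>
    Subtype.ext (y.2 t (by simp)).symm⟩
  have inj : Function.Injective (C.subtype.comp K.subtype) :=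
    Subtype.val_injective.comp Subtype.val_injective
  have e7 : t' ^ 2 + t' - 1 = 0 := inj (by simpa using e3)
  obtain ⟨c, d, e, h4⟩ : ∃ a b c : K, a ^ 2 + b ^ 2 + c ^ 2 + 1 = 0 := by
    obtain ⟨p, hp⟩ := CharP.exists K
    rcases eq_or_ne p 0 with rfl | h0
    · haveI := CharP.charP_to_charZero K
      refine four_sq (s := 2 * t' + 1) (x := x') (by linear_combination 4 * e7) (hx.elim (fun h => ?_)
        fun h => absurd (inj (a₁ := 5) (a₂ := 0) (by rw [map_ofNat, map_zero, h])) (by norm_num))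
      rwa [← orderOf_injective (C.subtype.comp K.subtype).toMonoidHom inj]
    · haveI := NeZero.mk h0
      obtain ⟨c, d, h⟩ := CharP.sq_add_sq K p (-1)
      exact ⟨c, d, 0, by rw [h]; simp⟩
  letI : Algebra K C := K.subtype.toAlgebra' fun c x => (Subring.mem_center_iff.1 c.2 x).symm
  let A : C := ⟨a, hm a h1 e4⟩
  let B : C := ⟨b, hm b h3 e5⟩
  have f1 : A * A = -1 := Subtype.ext ha
  have f2 : B * B = -1 - B := Subtype.ext hb
  have f3 : B * A = t' • 1 - A - A * B := Subtype.ext (by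
    change b * a = t * 1 - a - a * b
    rw [ht]; noncomm_ring)
  have f4 : A * (A * B) = -B := by rw [← mul_assoc, f1, neg_one_mul]
  refine quat (J := t' • (B + B + 1 + t' • A)) f1 ?_ ?_ (fun e => h2 (congrArg Subtype.val e)) h4
  · simp only [mul_add, add_mul, smul_mul_assoc, mul_smul_comm, f1, f2, f3, mul_one, one_mul]
    linear_combination (norm := module) ((t' ^ 2 - t' - 1) * e7) • (1 : C)
  · simp only [mul_add, add_mul, smul_mul_assoc, mul_smul_comm, f1, f3, mul_one, one_mul]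
    module

theorem no_frob {D : Type*} [DivisionRing D] {y g : D} (hg : g * (g * (g * g)) = -1)
    (h : g * y = y * (y * g)) (hy : ∑ i ∈ range 5, y ^ i = 0) (h2 : (1 : D) ≠ -1) : (5 : D) = 0 := by
  have h1 : ∀ x, g * (y * x) = y * (y * (g * x)) := fun x => by
    rw [← mul_assoc, h, mul_assoc, mul_assoc]
  have h3 : ∀ x, g * (g * (g * (g * x))) = -x := fun x => by
    rw [← neg_one_mul, ← hg]; simp only [mul_assoc]
  have h4 : y * (y * (y * y)) = -1 - y - y * y - y * (y * y) := by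
    simp only [sum_range_succ, range_zero, sum_empty] at hy
    linear_combination (norm := noncomm_ring) hy
  have h5 : ∀ x, y * (y * (y * (y * x))) = -x - y * x - y * (y * x) - y * (y * (y * x)) := fun x => by
    linear_combination (norm := noncomm_ring) h4 * x
  obtain ⟨s, hs⟩ : ∃ s, s = -1 - y * y - y * y - y * (y * y) - y * (y * y) := ⟨_, rfl⟩
  obtain ⟨e, he⟩ : ∃ e, e = g + g + y * g + y * (y * g) + y * (y * (y * g)) - g * (g * g) +
    y * (y * (y * (g * (g * g)))) := ⟨_, rfl⟩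
  have e1 : s * s = 5 • 1 := by
    simp only [hs, mul_sub, sub_mul, mul_neg, neg_mul, mul_assoc, mul_one, one_mul, h4, h5]
    abel
  have e2 : e * e = 5 • 1 := by
    simp only [he, mul_sub, sub_mul, mul_add, add_mul, mul_neg, mul_assoc, mul_one, h, h1,
      h3, hg, h4, h5]
    abel
  have f1 : g * s = -(s * g) := by
    simp only [hs, mul_sub, sub_mul, mul_neg, neg_mul, mul_assoc, mul_one, one_mul, h, h1, h5]
    abel
  have f2 : ∀ x, y * (s * x) = s * (y * x) := fun x => by rw [hs]; noncomm_ring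
  have f3 : ∀ x, g * (s * x) = -(s * (g * x)) := fun x => by
    rw [← mul_assoc, f1, neg_mul, mul_assoc]
  have e3 : e * s = -(s * e) := by
    simp only [he, mul_sub, sub_mul, mul_add, add_mul, mul_neg, mul_assoc, f1, f2, f3]
    abel
  have e4 : (s + (e + e) + s * e) * (s + (e + e) + s * e) = 0 := by
    linear_combination (norm := noncomm_ring) e1 + 4 • e2 + 2 • e3 + s * e3 + 2 • e3 * e +
      s * e3 * e - e1 * e * e - 5 • e2
  have e5 := mul_self_eq_zero.1 e4
  have e6 : (1 - -1) * (s * s) = 0 := by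
    linear_combination (norm := noncomm_ring) s * e5 + e5 * s - 2 • e3 - s * e3
  simpa [e1] using (mul_eq_zero.1 e6).resolve_left (sub_ne_zero.2 h2)

open Matrix MatrixGroups Subgroup Schur

def sa : SL(2, ZMod 5) := ⟨!![0, 4; 1, 0], by decide⟩

def sy : SL(2, ZMod 5) := ⟨!![1, 1; 0, 1], by decide⟩

theorem five_cases : ∀ z : SL(2, ZMod 5), z ^ 5 = 1 → z ≠ 1 →
    ∃ l : SL(2, ZMod 5), l * z = sy * l ∨ l * z = sy ^ 2 * l := by
  simp only [equivSL5.symm.surjective.forall, equivSL5.symm.surjective.exists]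
  decide +kernel

theorem four_cases : ∀ z : SL(2, ZMod 5), z ^ 4 = 1 → (z⁻¹ * sy) ^ 3 = 1 →
    ∃ k : Fin 5, sy ^ (k : ℕ) * z = sa * sy ^ (k : ℕ) := by
  rw [equivSL5.symm.surjective.forall]
  decide +kernel

theorem surj {D G : Type*} [DivisionRing D] [Group G] [Finite G] (φ : G →* D)
    (hφ : Function.Injective φ) (ι : SL(2, ZMod 5) →* G) (hι : Function.Injective ι)
    (hn : ι.range.Normal) : Function.Surjective ι := by
  have inv : ∀ c : G, c ^ 2 = 1 → c ≠ 1 → φ c = -1 := fun c h h1 =>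
    (mul_self_eq_one_iff.1 (by rw [← map_mul, ← pow_two, h, map_one])).resolve_left
      ((map_eq_one_iff _ hφ).not.2 h1)
  have geom : ∀ (c : G) (n : ℕ), c ^ n = 1 → c ≠ 1 → ∑ i ∈ range n, φ c ^ i = 0 := fun c n h h1 =>
    (mul_eq_zero.1 ((geom_sum_mul (φ c) n).trans (by rw [← map_pow, h, map_one, sub_self]))).resolve_right
      (sub_ne_zero.2 ((map_eq_one_iff _ hφ).not.2 h1))
  have ne : ∀ z, z ≠ 1 → ι z ≠ 1 := fun z h => (map_eq_one_iff _ hι).not.2 h
  have pw : ∀ z n, z ^ n = 1 → ι z ^ n = 1 := fun z n h => by rw [← map_pow, h, map_one]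
  have ha := inv (ι (sa * sa)) (pw _ _ (by decide)) (ne _ (by decide))
  have h2 : (1 : D) ≠ -1 := fun e => ne _ (by decide) (hφ (ha.trans (e.symm.trans φ.map_one.symm)))
  have hy := geom (ι sy) 5 (pw _ _ (by decide)) (ne _ (by decide))
  have hab : φ (ι sa) * φ (ι (sa⁻¹ * sy)) = φ (ι sy) := by rw [← map_mul, ← map_mul]; simp
  have key : ∀ c : G, Commute c (ι sa) → Commute c (ι sy) → ¬ (2 < orderOf (φ c) ∨ (5 : D) = 0) :=
    fun c h1 h3 => icos (by rw [← ha, map_mul, map_mul]) h2 (by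
      have := geom (ι (sa⁻¹ * sy)) 3 (pw _ _ (by decide)) (ne _ (by decide))
      simp only [sum_range_succ, range_zero, sum_empty] at this
      linear_combination (norm := noncomm_ring) this)
      (by rw [hab, ← map_pow, pw _ _ (by decide), map_one]) (by rwa [hab]) (h1.map φ)
      (((map_mul ι _ _).symm ▸ ((map_inv ι _).symm ▸ h1.inv_right).mul_right h3 :
        Commute c (ι (sa⁻¹ * sy))).map φ)
  have cj : ∀ g z, ∃ w, ι w = g * ι z * g⁻¹ := fun g z => hn.conj_mem _ ⟨z, rfl⟩ g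
  have A : ∀ g : G, Commute g (ι sy) → ∃ k : ℕ, ι sy ^ k * g = 1 ∨ ι sy ^ k * g = ι (sa * sa) :=
    fun g hg => by
      obtain ⟨w, hw⟩ := cj g sa
      obtain ⟨k, hk⟩ := four_cases w (hι (by rw [map_pow, hw, conj_pow, pw _ _ (by decide)]; simp))
        (hι (by
          have e : (g * ι sa * g⁻¹)⁻¹ * ι sy = g * ι (sa⁻¹ * sy) * g⁻¹ := by
            rw [map_mul, map_inv, mul_assoc g ((ι sa)⁻¹ * _), mul_assoc (ι sa)⁻¹, ← hg.inv_left.eq]
            group
          rw [map_pow, map_mul, map_inv, hw, e, conj_pow, pw _ _ (by decide)]; simp))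
      have h3 := not_or.1 (key (ι sy ^ (k : ℕ) * g) (by
        have := congrArg ι hk
        rw [map_mul, map_mul, map_pow, hw] at this
        rw [Commute, SemiconjBy, ← mul_assoc, ← this]; group) ((Commute.pow_self _ _).mul_left hg))
      rw [orderOf_injective φ hφ] at h3
      refine ⟨k, or_iff_not_imp_left.2 fun e => hφ ((inv _ ?_ e).trans ha.symm)⟩
      have h4 := orderOf_pos (ι sy ^ (k : ℕ) * g)
      have h5 := orderOf_eq_one_iff.not.2 e
      rw [← pow_orderOf_eq_one (ι sy ^ (k : ℕ) * g), show orderOf _ = 2 by omega]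
  intro g
  obtain ⟨w, hw⟩ := cj g sy
  obtain ⟨l, hl | hl⟩ := five_cases w (hι (by rw [map_pow, hw, conj_pow, pw _ _ (by decide)]; simp))
    fun e => ne sy (by decide) (by simpa [e] using hw.symm)
  all_goals
    replace hl := congrArg ι hl
    rw [map_mul, map_mul, hw] at hl
  · obtain ⟨k, e | e⟩ := A (ι l * g) (by rw [Commute, SemiconjBy, ← mul_assoc, ← hl]; group)
    · exact ⟨l⁻¹ * (sy ^ k)⁻¹, by rw [map_mul, map_inv, map_inv, map_pow, ← mul_one (ι sy ^ k)⁻¹, ← e]; group⟩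
    · exact ⟨l⁻¹ * (sy ^ k)⁻¹ * (sa * sa), by rw [map_mul, ← e, map_mul, map_inv, map_inv, map_pow]; group⟩
  have h3 : SemiconjBy (ι l * g) (ι sy) (ι sy ^ 2) := by
    rw [SemiconjBy, ← mul_assoc, ← map_pow, ← hl]; group
  generalize ι l * g = u at h3
  have h5 := pw sy 5 (by decide)
  have h4 : ∀ n : ℕ, SemiconjBy (u ^ n) (ι sy) (ι sy ^ 2 ^ n) := fun n => by
    induction n with
    | zero => simp
    | succ n ih => rw [pow_succ', pow_succ', pow_mul]; exact (h3.pow_right _).mul_left ih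
  have h6 : Commute (u ^ 4) (ι sy) := by
    have := h4 4
    rwa [pow_eq_pow_mod _ h5, show 2 ^ 4 % 5 = 1 from rfl, pow_one] at this
  obtain ⟨k, hk⟩ := A _ h6
  have h7 : (ι sy ^ k * u ^ 4) ^ 5 = (u ^ 5) ^ 4 := by
    rw [(h6.symm.pow_left k).mul_pow, ← pow_mul, mul_comm k, pow_mul, h5, one_pow, one_mul,
      ← pow_mul, ← pow_mul]
  refine absurd (Or.inr (no_frob (y := φ (ι sy)) (g := φ (u ^ 5)) ?_ ?_ hy h2))
    (key 1 (Commute.one_left _) (Commute.one_left _))
  · rw [← map_mul, ← map_mul, ← map_mul, show u ^ 5 * (u ^ 5 * (u ^ 5 * u ^ 5)) = (u ^ 5) ^ 4 by group]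
    rcases hk with e | e
    · rw [e, one_pow, eq_comm, show 4 = 2 * 2 from rfl, pow_mul] at h7
      have h8 : Commute ((u ^ 5) ^ 2) (ι sy) := by
        by_cases e : (u ^ 5) ^ 2 = 1
        · exact e ▸ Commute.one_left _
        · exact hφ (by rw [map_mul, map_mul, inv _ h7 e]; simp)
      have h9 := h4 10
      rw [pow_eq_pow_mod _ h5, ← map_pow, SemiconjBy, show 10 = 5 * 2 from rfl, pow_mul, h8.eq] at h9
      exact absurd (hι (mul_right_cancel h9)) (by decide)
    · rw [← h7, e, map_pow, ha]; norm_num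
  · have h9 := h4 5
    rw [pow_eq_pow_mod _ h5, show 2 ^ 5 % 5 = 2 from rfl, SemiconjBy, pow_two, mul_assoc] at h9
    simpa only [map_mul] using congrArg φ h9

/-- A finite non-solvable subgroup of the multiplicative group of a division ring is isomorphic to the binary icosahedral group SL(2,5). -/
theorem result {D : Type*} [DivisionRing D] (H : Subgroup Dˣ) [Finite H] (hH : ¬ Group.IsSolvable H) :
    Nonempty (H ≃* Matrix.SpecialLinearGroup (Fin 2) (ZMod 5)) := by
  have hφ : Function.Injective ((Units.coeHom D).comp H.subtype) :=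
    Units.val_injective.comp Subtype.val_injective
  obtain ⟨e⟩ := zassenhaus (Frob.isFC_of_isDomain _ hφ) hH
  have hι : Function.Injective ((Subgroup.subtype _).comp e.symm.toMonoidHom) :=
    Subtype.val_injective.comp e.symm.injective
  refine ⟨(MulEquiv.ofBijective _ ⟨hι, surj _ hφ _ hι ?_⟩).symm⟩
  rw [MonoidHom.range_comp, MonoidHom.range_eq_top.2 e.symm.surjective, ← MonoidHom.range_eq_map,
    range_subtype]
  infer_instance

end Cfsg.Agent.S4294
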