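import Cfsg.Statements.S4295
import Cfsg.Agent.Lib.Frob.QuatSquare

set_option autoImplicit false
open Cfsg

namespace Cfsg.Agent.S4295

/-- First generator. -/
def genX {R : Type*} [CommRing R] (a b : R) (h : a ^ 2 + b ^ 2 + 1 = 0) :
    MulAut (Multiplicative (R × R)) :=
  AddEquiv.toMultiplicative
    { toFun := fun v => (a * v.1 + b * v.2, b * v.1 - a * v.2)
      invFun := fun v => (-(a * v.1 + b * v.2), -(b * v.1 - a * v.2))
      left_inv := fun v => by
        ext
        · simp only; linear_combination (-v.1) * h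
        · simp only; linear_combination (-v.2) * h
      right_inv := fun v => by
        ext
        · simp only; linear_combination (-v.1) * h
        · simp only; linear_combination (-v.2) * h
      map_add' := fun v w => by ext <;> simp <;> ring }

/-- Second generator. -/
def genY (R : Type*) [CommRing R] : MulAut (Multiplicative (R × R)) :=
  AddEquiv.toMultiplicative
    { toFun := fun v => (v.2, -v.1)
      invFun := fun v => (-v.2, v.1)
      left_inv := fun v => by simp
      right_inv := fun v => by simp
      map_add' := fun v w => by ext <;> simp; ring }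

theorem genX_sq {R : Type*} [CommRing R] (a b : R) (h : a ^ 2 + b ^ 2 + 1 = 0)
    (v : Multiplicative (R × R)) : (genX a b h ^ 2) v = v⁻¹ := by
  rw [sq, MulAut.mul_apply]
  change ((a * (a * v.toAdd.1 + b * v.toAdd.2) + b * (b * v.toAdd.1 - a * v.toAdd.2),
    b * (a * v.toAdd.1 + b * v.toAdd.2) - a * (b * v.toAdd.1 - a * v.toAdd.2)) : R × R) =
      (-v.toAdd.1, -v.toAdd.2)
  ext
  · simp only; linear_combination (v.toAdd.1) * h
  · simp only; linear_combination (v.toAdd.2) * h

theorem genY_sq (R : Type*) [CommRing R] (v : Multiplicative (R × R)) : (genY R ^ 2) v = v⁻¹ :=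
  rfl

theorem gen_conj {R : Type*} [CommRing R] (a b : R) (h : a ^ 2 + b ^ 2 + 1 = 0) :
    genY R * genX a b h * (genY R)⁻¹ = (genX a b h)⁻¹ := by
  refine MulEquiv.ext fun v => ?_
  change ((b * (-v.toAdd.2) - a * v.toAdd.1, -(a * (-v.toAdd.2) + b * v.toAdd.1)) : R × R) =
      (-(a * v.toAdd.1 + b * v.toAdd.2), -(b * v.toAdd.1 - a * v.toAdd.2))
  ext
  · simp only; ring
  · simp only; ring


/-- For a natural number m the following are equivalent: (a) some finite group has a Frobenius complement isomorphic to the quaternion group of order 8 whose Frobenius kernel (the identity together with the elements lying in no conjugate of the complement) has exactly m elements; (b) m is an odd perfect square greater than 1. -/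
theorem result (m : ℕ) :
    (∃ (L : Type) (_ : Group L) (_ : Finite L) (H : Subgroup L), Cfsg.IsFrobeniusComplement H ∧
        Nonempty (H ≃* QuaternionGroup 2) ∧ Nat.card (Cfsg.frobeniusKernel H) = m) ↔
    (Odd m ∧ IsSquare m ∧ 1 < m) := by
  constructor
  · rintro ⟨L, _, _, H, hF, ⟨e⟩, rfl⟩
    obtain ⟨K, -, e', hK, -⟩ := Frob.exists_isFrobPair hF
    rw [← e', SetLike.coe_sort_coe]
    let f : QuaternionGroup 2 →* L := H.subtype.comp e.symm.toMonoidHom
    have hf : Function.Injective f := Subtype.val_injective.comp e.symm.injective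
    have := hK.odd_and_isSquare (i := f (.a 1)) (j := f (.xa 0)) (e.symm _).2 (e.symm _).2
      (by
        rw [← map_mul, orderOf_injective f hf]
        exact orderOf_eq_prime (by decide) (by decide))
      (by rw [← map_mul, ← map_mul]; exact congrArg f (by decide))
      (by rw [← map_inv, ← map_mul, ← map_mul, ← map_inv]; exact congrArg f (by decide))
    exact ⟨this.1, this.2, (Subgroup.one_lt_card_iff_ne_bot K).2 hK.left_ne_bot⟩
  · rintro ⟨hodd, ⟨n, rfl⟩, h1⟩
    have hn : Odd n := (Nat.odd_mul.1 hodd).1
    have hn1 : 1 < n := by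
      by_contra h
      have : n * n ≤ 1 * 1 := Nat.mul_le_mul (not_lt.1 h) (not_lt.1 h)
      omega
    have : Fact (1 < n) := ⟨hn1⟩
    have : NeZero n := ⟨by omega⟩
    obtain ⟨a, b, hab⟩ := Frob.exists_dvd_sq_add_sq_add_one hn
    have h : (a : ZMod n) ^ 2 + (b : ZMod n) ^ 2 + 1 = 0 := by
      have := (ZMod.intCast_zmod_eq_zero_iff_dvd _ _).2 hab
      push_cast at this
      exact this
    have hx : genX (a : ZMod n) b h ^ (2 * 2) = 1 := by
      refine MulEquiv.ext fun v => ?_
      rw [pow_mul, sq, MulAut.mul_apply, genX_sq, genX_sq, inv_inv]; rfl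
    have hy : genY (ZMod n) ^ 2 = genX (a : ZMod n) b h ^ 2 :=
      MulEquiv.ext fun v => by rw [genX_sq, genY_sq]
    let φ := PGrp.quaternionHom _ _ hx hy (gen_conj _ _ h)
    have hz : ∀ v, φ (.a 2) v = v → v = 1 := fun v hv => by
      have h2 : φ (.a 2) = genX (a : ZMod n) b h ^ 2 := by
        have := PGrp.quaternionHom_a _ _ hx hy (gen_conj _ _ h) 2
        rw [zpow_ofNat] at this
        exact this
      rw [h2, genX_sq] at hv
      have h3 : v ^ 2 = 1 := by rw [sq]; exact mul_eq_one_iff_inv_eq.2 hv
      have h4 : v ^ (n * n) = 1 := by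
        have := pow_card_eq_one' (x := v)
        simpa using this
      have h5 := pow_gcd_eq_one.2 ⟨h3, h4⟩
      rwa [Nat.coprime_two_left.2 hodd, pow_one] at h5
    have hq : ∀ g : QuaternionGroup 2, g ≠ 1 → g = .a 2 ∨ g * g = .a 2 := by decide
    have : Nontrivial (QuaternionGroup 2) := ⟨⟨.a 0, .xa 0, nofun⟩⟩
    obtain ⟨L, _, _, C, h2, ⟨e⟩, h3⟩ := Frob.exists_frobenius_of_action.{0} φ fun g g1 v hv => by
      rcases hq g g1 with rfl | h2
      · exact hz v hv
      · exact hz v (by rw [← h2, map_mul, MulAut.mul_apply, hv, hv])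
    exact ⟨L, _, inferInstance, C, h2, ⟨e.symm⟩, by simpa using h3⟩

end Cfsg.Agent.S4295
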