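import Cfsg.Statements.S4296
import Cfsg.Agent.Lib.Frob.QuatSquare

set_option autoImplicit false
open Cfsg

namespace Cfsg.Agent.S4296

/-- Let H be a Frobenius complement in a finite group, and suppose some Sylow subgroup of H is not cyclic. Then the number of elements of the Frobenius kernel (the identity together with the elements lying in no conjugate of H) is an odd perfect square. -/
theorem result {L : Type*} [Group L] [Finite L] (H : Subgroup L) (hF : Cfsg.IsFrobeniusComplement H)
    (hZ : ∃ (p : ℕ) (_ : Fact p.Prime) (P : Sylow p H), ¬ IsCyclic P) :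
    Odd (Nat.card (Cfsg.frobeniusKernel H)) ∧ IsSquare (Nat.card (Cfsg.frobeniusKernel H)) := by
  obtain ⟨K, -, e, hK, -⟩ := Frob.exists_isFrobPair hF
  obtain ⟨p, _, P, hP⟩ := hZ
  rw [← e, SetLike.coe_sort_coe]
  rcases PGrp.isCyclic_or_quaternion_gens_of_rank_le_one P.2
    ((hK.isFC.subgroup P).pRankLE p) with h | ⟨-, n, x, y, hn, -, hx, -, h1, h2⟩
  · exact absurd h hP
  obtain ⟨m, rfl⟩ : ∃ m, n = m + 2 := ⟨n - 2, by omega⟩
  let f : P →* L := H.subtype.comp (P : Subgroup H).subtype
  have hf : Function.Injective f := Subtype.val_injective.comp Subtype.val_injective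
  have hii : x ^ 2 ^ m * x ^ 2 ^ m = x ^ 2 ^ (m + 1) := by rw [← pow_add, pow_succ, mul_two]
  refine hK.odd_and_isSquare (i := f (x ^ 2 ^ m)) (j := f y) (x ^ 2 ^ m).1.2 y.1.2 ?_ ?_ ?_
  · rw [← map_mul, orderOf_injective f hf, hii, orderOf_pow_of_dvd (by positivity)
      (hx ▸ pow_dvd_pow 2 (by omega)), hx, pow_succ 2 (m + 1),
      Nat.mul_div_cancel_left _ (by positivity)]
  · rw [← map_mul, ← map_mul, hii, ← sq, h2]; rfl
  · rw [← map_inv, ← map_mul, ← map_mul, ← conj_pow, h1, inv_pow, map_inv]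

end Cfsg.Agent.S4296
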