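import Cfsg.Statements.S4298
import Cfsg.Agent.Lib.Frob.Complement

set_option autoImplicit false
open Cfsg

namespace Cfsg.Agent.S4298

/-- The faithful real character of degree two. -/
def chi (m : Matrix (Fin 2) (Fin 2) (ZMod 3)) : ℤ :=
  if m 0 1 = 0 ∧ m 1 0 = 0 then (if m 0 0 = 1 then 2 else -2) else
    if m 0 0 + m 1 1 = 0 then 0 else if m 0 0 + m 1 1 = 1 then 1 else -1

set_option synthInstance.maxSize 1000 in
set_option synthInstance.maxHeartbeats 200000 in
theorem key : ∀ a b c d : ZMod 3, a * d - b * c = 1 → ∀ x y z w : ZMod 3, x * w - y * z = 1 →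
    !![a, b; c, d] ≠ 1 →
    (!![a, b; c, d] * !![a, b; c, d] * !![a, b; c, d] = 1 →
      chi !![x, y; z, w] + chi (!![a, b; c, d] * !![x, y; z, w]) +
        chi (!![a, b; c, d] * !![a, b; c, d] * !![x, y; z, w]) = 0) ∧
    (!![a, b; c, d] * !![a, b; c, d] = 1 →
      chi !![x, y; z, w] + chi (!![a, b; c, d] * !![x, y; z, w]) = 0) := by
  decide +kernel

theorem key' (h g : Matrix (Fin 2) (Fin 2) (ZMod 3)) (hh : h.det = 1) (hg : g.det = 1)
    (h1 : h ≠ 1) : (h * h * h = 1 → chi g + chi (h * g) + chi (h * h * g) = 0) ∧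
      (h * h = 1 → chi g + chi (h * g) = 0) := by
  rw [Matrix.det_fin_two] at hh hg
  have := key _ _ _ _ hh _ _ _ _ hg
  rw [← Matrix.eta_fin_two h, ← Matrix.eta_fin_two g] at this
  exact this h1

theorem card_SL : Nat.card (Matrix.SpecialLinearGroup (Fin 2) (ZMod 3)) = 24 := by
  rw [Nat.card_eq_fintype_card]
  decide +kernel


/-- The group SL(2,3) of order 24 (the binary tetrahedral group) occurs as a Frobenius complement of some finite Frobenius group. -/
theorem result :
    ∃ (L : Type) (_ : Group L) (_ : Finite L) (H : Subgroup L), Cfsg.IsFrobeniusComplement H ∧ Nonempty (H ≃* Matrix.SpecialLinearGroup (Fin 2) (ZMod 3)) := by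
  have : Nontrivial (Matrix.SpecialLinearGroup (Fin 2) (ZMod 3)) :=
    Finite.one_lt_card_iff_nontrivial.1 (by rw [card_SL]; norm_num)
  have h : Frob.IsFC (Matrix.SpecialLinearGroup (Fin 2) (ZMod 3)) := by
    refine ⟨fun g => chi g.1, by decide, fun h hh g => ?_⟩
    have h1 : h.1 ≠ 1 := fun e => by
      have : h = 1 := Subtype.ext e
      rw [this, orderOf_one] at hh
      exact Nat.not_prime_one hh
    have h2 := key' h.1 g.1 h.2 g.2 h1
    have h3 : orderOf h ∣ 2 ^ 3 * 3 := by
      have := orderOf_dvd_natCard h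
      rwa [card_SL] at this
    have h4 := congrArg Subtype.val (pow_orderOf_eq_one h)
    rcases (Nat.Prime.dvd_mul hh).1 h3 with h5 | h5
    · rw [(Nat.prime_dvd_prime_iff_eq hh Nat.prime_two).1 (hh.dvd_of_dvd_pow h5)] at h4 ⊢
      simpa [Finset.sum_range_succ] using h2.2 (by simpa [sq] using h4)
    · rw [(Nat.prime_dvd_prime_iff_eq hh Nat.prime_three).1 h5] at h4 ⊢
      simpa [Finset.sum_range_succ, sq] using h2.1 (by simpa [pow_succ] using h4)
  obtain ⟨L, _, _, C, h1, ⟨e⟩⟩ := h.exists_frobenius.{0}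
  exact ⟨L, _, inferInstance, C, h1, ⟨e.symm⟩⟩

end Cfsg.Agent.S4298
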