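import Cfsg.Statements.S4300
import Mathlib

set_option autoImplicit false
open Cfsg

namespace Cfsg.Agent.S4300

/-- Let G act faithfully and primitively on a set X, and suppose the stabilizer of some point is a simple group. Then either G is simple, or G has a normal subgroup, neither trivial nor the whole group, that acts regularly on X (transitively with trivial point stabilizers). -/
theorem result {G : Type*} [Group G] {X : Type*} [MulAction G X] [FaithfulSMul G X]
    (hprim : MulAction.IsPreprimitive G X) (x : X) (hsimple : IsSimpleGroup (MulAction.stabilizer G x)) :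
    IsSimpleGroup G ∨ ∃ N : Subgroup G, N.Normal ∧ N ≠ ⊥ ∧ N ≠ ⊤ ∧
      MulAction.IsPretransitive N X ∧ ∀ y : X, MulAction.stabilizer N y = ⊥ := by
  by_cases hG : IsSimpleGroup G
  · exact Or.inl hG
  right
  have hnt : Nontrivial G := by
    have := hsimple.toNontrivial
    exact (MulAction.stabilizer G x).subtype_injective.nontrivial
  have : ∃ N : Subgroup G, N.Normal ∧ N ≠ ⊥ ∧ N ≠ ⊤ := by
    by_contra h
    push Not at h
    exact hG ⟨fun N hN => by
      by_cases h1 : N = ⊥
      · exact Or.inl h1
      · exact Or.inr (h N hN h1)⟩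
  obtain ⟨N, hN, h1, h2⟩ := this
  have htr : MulAction.IsPretransitive N X := by
    apply MulAction.IsQuasiPreprimitive.isPretransitive_of_normal
    intro h
    apply h1
    rw [eq_bot_iff]
    intro n hn
    rw [Subgroup.mem_bot]
    apply eq_of_smul_eq_smul (α := X)
    intro y
    have : y ∈ MulAction.fixedPoints N X := by rw [h]; trivial
    rw [one_smul]
    exact this ⟨n, hn⟩
  refine ⟨N, hN, h1, h2, htr, ?_⟩
  have hx : N.subgroupOf (MulAction.stabilizer G x) = ⊥ := by
    rcases (hN.subgroupOf (MulAction.stabilizer G x)).eq_bot_or_eq_top with h | h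
    · exact h
    · exfalso
      apply h2
      rw [Subgroup.subgroupOf_eq_top] at h
      rw [eq_top_iff]
      intro g _
      obtain ⟨n, hn⟩ := htr.exists_smul_eq x (g • x)
      have : (n : G)⁻¹ * g ∈ MulAction.stabilizer G x := by
        rw [MulAction.mem_stabilizer_iff, mul_smul, inv_smul_eq_iff]
        exact hn.symm
      have := N.mul_mem n.2 (h this)
      simpa using this
  intro y
  obtain ⟨g, rfl⟩ := hprim.exists_smul_eq x y
  rw [eq_bot_iff]
  intro n hn
  rw [MulAction.mem_stabilizer_iff] at hn
  have h3 : g⁻¹ * n * g ∈ MulAction.stabilizer G x := by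
    rw [MulAction.mem_stabilizer_iff, mul_smul, mul_smul, inv_smul_eq_iff]
    exact hn
  have h4 : (⟨_, h3⟩ : MulAction.stabilizer G x) ∈ N.subgroupOf (MulAction.stabilizer G x) := by
    rw [Subgroup.mem_subgroupOf]
    simpa using hN.conj_mem _ n.2 g⁻¹
  rw [hx, Subgroup.mem_bot, Subtype.ext_iff] at h4
  simp only [OneMemClass.coe_one] at h4
  rw [Subgroup.mem_bot, Subtype.ext_iff]
  calc (n : G) = g * (g⁻¹ * n * g) * g⁻¹ := by group
    _ = 1 := by rw [h4]; group

end Cfsg.Agent.S4300
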