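import Cfsg.Statements.S4301
import Mathlib

set_option autoImplicit false
open Cfsg

namespace Cfsg.Agent.S4301


/-- One-point extension of a multiply transitive group. Let X be a set and G a group of permutations of Option X (the set X with one extra point ∗ = none) all of whose elements fix ∗, such that G is k-transitive on the points of X for some k ≥ 2, X having at least k points. Suppose a permutation h of Option X and an element g of G satisfy: h interchanges ∗ with a point x of X and fixes a point y of X; g interchanges x and y; (g h)³ and h² lie in G; and for every f in G fixing x, the product h f h lies in G and fixes x. Then an element of the group generated by G and h fixes ∗ exactly when it lies in G, and that group acts (k+1)-transitively on Option X. -/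
theorem result {X : Type*} (G : Subgroup (Equiv.Perm (Option X))) (hfix : ∀ f ∈ G, f none = none)
    (k : ℕ) (hk : 2 ≤ k) (hkX : Nonempty (Fin k ↪ X))
    (htrans : ∀ a b : Fin k ↪ X, ∃ f ∈ G, ∀ i, f (some (a i)) = some (b i))
    (h g : Equiv.Perm (Option X)) (hg : g ∈ G) (x y : X)
    (h1 : h none = some x) (h2 : h (some x) = none) (h3 : h (some y) = some y)
    (h4 : g (some x) = some y) (h5 : g (some y) = some x)
    (h6 : (g * h) ^ 3 ∈ G) (h7 : h ^ 2 ∈ G)
    (h8 : ∀ f ∈ G, f (some x) = some x → h * f * h ∈ G ∧ (h * f * h) (some x) = some x) :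
    (∀ f ∈ Subgroup.closure ((G : Set (Equiv.Perm (Option X))) ∪ {h}), f none = none ↔ f ∈ G) ∧
      MulAction.IsMultiplyPretransitive (Subgroup.closure ((G : Set (Equiv.Perm (Option X))) ∪ {h})) (Option X) (k + 1) := by
  classical
  have hxy : x ≠ y := by
    rintro rfl
    rw [h2] at h3
    exact absurd h3 (by simp)
  -- elements of G send `some` points to `some` points
  have hsome : ∀ f ∈ G, ∀ z : X, ∃ w : X, f (some z) = some w := by
    intro f hf z
    cases hz : f (some z) with
    | none =>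
      rw [← hfix f hf] at hz
      exact absurd (f.injective hz) (by simp)
    | some w => exact ⟨w, rfl⟩
  -- double transitivity
  have h2t : ∀ a b c d : X, a ≠ b → c ≠ d → ∃ f ∈ G, f (some a) = some c ∧ f (some b) = some d := by
    intro a b c d hab hcd
    obtain ⟨e⟩ := hkX
    let i0 : Fin k := ⟨0, by omega⟩
    let i1 : Fin k := ⟨1, by omega⟩
    have hi : i0 ≠ i1 := by simp [i0, i1]
    have he : e i0 ≠ e i1 := fun h => hi (e.injective h)
    have key : ∀ u v : X, u ≠ v → ∃ σ : Equiv.Perm X, σ (e i0) = u ∧ σ (e i1) = v := by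
      intro u v huv
      have := Equiv.Perm.isMultiplyPretransitive X 2
      exact (MulAction.is_two_pretransitive_iff.1 this) he huv
    obtain ⟨σ, hσ0, hσ1⟩ := key a b hab
    obtain ⟨τ, hτ0, hτ1⟩ := key c d hcd
    obtain ⟨f, hf, hf'⟩ := htrans (e.trans σ.toEmbedding) (e.trans τ.toEmbedding)
    refine ⟨f, hf, ?_, ?_⟩
    · simpa [hσ0, hτ0] using hf' i0
    · simpa [hσ1, hτ1] using hf' i1
  have hinv : h⁻¹ = (h ^ 2)⁻¹ * h := by rw [sq]; group
  have hinv' : h⁻¹ = h * (h ^ 2)⁻¹ := by rw [sq]; group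
  -- the double coset
  let D : Set (Equiv.Perm (Option X)) := {f | ∃ a ∈ G, ∃ b ∈ G, f = a * h * b}
  have hDl : ∀ a ∈ G, ∀ f ∈ D, a * f ∈ D := by
    rintro a ha f ⟨u, hu, v, hv, rfl⟩
    exact ⟨a * u, G.mul_mem ha hu, v, hv, by group⟩
  have hDr : ∀ a ∈ G, ∀ f ∈ D, f * a ∈ D := by
    rintro a ha f ⟨u, hu, v, hv, rfl⟩
    exact ⟨u, hu, v * a, G.mul_mem hv ha, by group⟩
  have hhD : h ∈ D := ⟨1, G.one_mem, 1, G.one_mem, by simp⟩
  have hhinvD : h⁻¹ ∈ D := by
    rw [hinv]
    exact hDl _ (G.inv_mem h7) _ hhD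
  have hghD : h * g * h ∈ D := by
    have : h * g * h = g⁻¹ * ((g * h) ^ 3 * (h⁻¹ * g⁻¹)) := by
      rw [pow_succ, pow_succ, pow_one]; group
    rw [this]
    exact hDl _ (G.inv_mem hg) _ (hDl _ h6 _ (hDr _ (G.inv_mem hg) _ hhinvD))
  have hmid : ∀ a ∈ G, h * a * h ∈ G ∨ h * a * h ∈ D := by
    intro a ha
    by_cases hax : a (some x) = some x
    · exact Or.inl (h8 a ha hax).1
    · right
      obtain ⟨w, hw⟩ := hsome a ha x
      have hwx : w ≠ x := by
        rintro rfl
        exact hax hw
      -- u fixes x and sends y to w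
      obtain ⟨u, hu, hux, huy⟩ := h2t x y x w hxy hwx.symm
      have hv : g⁻¹ * u⁻¹ * a ∈ G := G.mul_mem (G.mul_mem (G.inv_mem hg) (G.inv_mem hu)) ha
      have hvx : (g⁻¹ * u⁻¹ * a) (some x) = some x := by
        simp only [Equiv.Perm.coe_mul, Function.comp_apply]
        rw [hw, ← huy, Equiv.Perm.inv_eq_iff_eq, h4]
        simp
      have e1 : h * a * h = (h * u * h) * ((h ^ 2)⁻¹ * (h * g * h) * (h ^ 2)⁻¹) *
          (h * (g⁻¹ * u⁻¹ * a) * h) := by
        rw [sq]; group
      rw [e1]
      exact hDr _ (h8 _ hv hvx).1 _ (hDl _ (h8 u hu hux).1 _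
        (hDr _ (G.inv_mem h7) _ (hDl _ (G.inv_mem h7) _ hghD)))
  let K : Subgroup (Equiv.Perm (Option X)) :=
    { carrier := {f | f ∈ G ∨ f ∈ D}
      one_mem' := Or.inl G.one_mem
      mul_mem' := by
        rintro a b (ha | ha) (hb | hb)
        · exact Or.inl (G.mul_mem ha hb)
        · exact Or.inr (hDl _ ha _ hb)
        · exact Or.inr (hDr _ hb _ ha)
        · obtain ⟨u, hu, v, hv, rfl⟩ := ha
          obtain ⟨u', hu', v', hv', rfl⟩ := hb
          have e : u * h * v * (u' * h * v') = u * (h * (v * u') * h) * v' := by group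
          rw [e]
          rcases hmid _ (G.mul_mem hv hu') with h' | h'
          · exact Or.inl (G.mul_mem (G.mul_mem hu h') hv')
          · exact Or.inr (hDr _ hv' _ (hDl _ hu _ h'))
      inv_mem' := by
        rintro a (ha | ⟨u, hu, v, hv, rfl⟩)
        · exact Or.inl (G.inv_mem ha)
        · right
          have e : (u * h * v)⁻¹ = v⁻¹ * h⁻¹ * u⁻¹ := by group
          rw [e]
          exact hDr _ (G.inv_mem hu) _ (hDl _ (G.inv_mem hv) _ hhinvD) }
  set C := Subgroup.closure ((G : Set (Equiv.Perm (Option X))) ∪ {h}) with hC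
  have hCK : C ≤ K := by
    rw [hC, Subgroup.closure_le]
    rintro f (hf | hf)
    · exact Or.inl hf
    · rw [Set.mem_singleton_iff.1 hf]
      exact Or.inr hhD
  have hGC : G ≤ C := fun f hf => Subgroup.subset_closure (Or.inl hf)
  have hhC : h ∈ C := Subgroup.subset_closure (Or.inr rfl)
  have hstab : ∀ f ∈ C, f none = none ↔ f ∈ G := by
    intro f hf
    refine ⟨fun hf0 => ?_, hfix f⟩
    rcases hCK hf with h' | ⟨u, hu, v, hv, rfl⟩
    · exact h'
    · simp only [Equiv.Perm.coe_mul, Function.comp_apply] at hf0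
      rw [hfix v hv, h1] at hf0
      obtain ⟨w, hw⟩ := hsome u hu x
      rw [hw] at hf0
      exact absurd hf0 (by simp)
  refine ⟨hstab, ?_⟩
  -- every point can be moved to `none`
  have hmove : ∀ z : Option X, ∃ f ∈ C, f z = none := by
    intro z
    cases z with
    | none => exact ⟨1, C.one_mem, rfl⟩
    | some z =>
      by_cases hz : z = x
      · exact ⟨h, hhC, by rw [hz, h2]⟩
      · obtain ⟨u, hu, hux, -⟩ := h2t z x x z hz (Ne.symm hz)
        refine ⟨h * u, C.mul_mem hhC (hGC hu), ?_⟩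
        simp only [Equiv.Perm.coe_mul, Function.comp_apply]
        rw [hux, h2]
  rw [MulAction.isMultiplyPretransitive_iff]
  intro a b
  obtain ⟨s, hs, hsa⟩ := hmove (a 0)
  obtain ⟨t, ht, htb⟩ := hmove (b 0)
  have hex : ∀ (c : Fin (k + 1) ↪ Option X) (s : Equiv.Perm (Option X)), s (c 0) = none →
      ∃ c' : Fin k ↪ X, ∀ i, s (c i.succ) = some (c' i) := by
    intro c s hs
    have : ∀ i : Fin k, ∃ w, s (c i.succ) = some w := by
      intro i
      cases hz : s (c i.succ) with
      | none =>
        rw [← hs] at hz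
        exact absurd (c.injective (s.injective hz)) (Fin.succ_ne_zero i)
      | some w => exact ⟨w, rfl⟩
    choose w hw using this
    refine ⟨⟨w, fun i j hij => ?_⟩, hw⟩
    have : s (c i.succ) = s (c j.succ) := by rw [hw, hw, hij]
    exact Fin.succ_injective _ (c.injective (s.injective this))
  obtain ⟨a', ha'⟩ := hex a s hsa
  obtain ⟨b', hb'⟩ := hex b t htb
  obtain ⟨f, hf, hf'⟩ := htrans a' b'
  refine ⟨⟨t⁻¹ * f * s, C.mul_mem (C.mul_mem (C.inv_mem ht) (hGC hf)) hs⟩, ?_⟩
  ext1 i
  change (t⁻¹ * f * s) (a i) = b i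
  simp only [Equiv.Perm.coe_mul, Function.comp_apply]
  rw [Equiv.Perm.inv_eq_iff_eq]
  refine Fin.cases ?_ (fun i => ?_) i
  · rw [hsa, htb, hfix f hf]
  · rw [ha', hb', hf']

end Cfsg.Agent.S4301
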