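import Cfsg.Statements.S4302
import Mathlib
import Cfsg.Agent.Lib.Core.Transv4
import Cfsg.Agent.Lib.Transfer.Basic2

set_option autoImplicit false
open Cfsg

namespace Cfsg.Agent.S4302

open Subgroup Cfsg.Agent.Core

/-- Let `X` be a finite solvable group whose Fitting subgroup is a 2-group (equivalently `F(X) = O₂(X)`), `T` a Sylow 2-subgroup of `X`, `J(T)` the subgroup generated by the abelian subgroups of `T` of largest order, `C` the largest normal subgroup of `X` centralizing the centre `Z(T)`, and `Y` the normal closure of `J(T)` in `X`. Then `X = C · Y · N_X(J(T))`, and either `Y ≤ C`, or `CY/C` is isomorphic to a direct product of at least one copy of the symmetric group of degree 3. -/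
theorem result {X : Type*} [Group X] [Finite X]
    [Group.IsSolvable X] (hF : Cfsg.fittingSubgroup X = Cfsg.pCore 2 X) (T : Sylow 2 X) :
    ((Subgroup.centralizer (((T : Subgroup X) ⊓ Subgroup.centralizer ((T : Subgroup X) : Set X) : Subgroup X) : Set X)).normalCore
        ⊔ Subgroup.normalClosure (Cfsg.thompsonSubgroupAOf (T : Subgroup X) : Set X)
        ⊔ Subgroup.normalizer (Cfsg.thompsonSubgroupAOf (T : Subgroup X) : Set X) = ⊤) ∧
    (Subgroup.normalClosure (Cfsg.thompsonSubgroupAOf (T : Subgroup X) : Set X)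
        ≤ (Subgroup.centralizer (((T : Subgroup X) ⊓ Subgroup.centralizer ((T : Subgroup X) : Set X) : Subgroup X) : Set X)).normalCore
      ∨ ∃ n : ℕ, 1 ≤ n ∧
        Nonempty (↥(Subgroup.normalClosure (Cfsg.thompsonSubgroupAOf (T : Subgroup X) : Set X)) ⧸
            ((Subgroup.centralizer (((T : Subgroup X) ⊓ Subgroup.centralizer ((T : Subgroup X) : Set X) : Subgroup X) : Set X)).normalCore).subgroupOf
              (Subgroup.normalClosure (Cfsg.thompsonSubgroupAOf (T : Subgroup X) : Set X))
          ≃* (Fin n → Equiv.Perm (Fin 3)))) := by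
  obtain ⟨Z, hZ⟩ : ∃ Z : Subgroup X, Z = (T : Subgroup X) ⊓ centralizer ((T : Subgroup X) : Set X) :=
    ⟨_, rfl⟩
  rw [← hZ]
  refine ⟨?_, ?_⟩
  · have h1 := ((Coprime.isSylowIn_top T).inf_of_le_normalizer
      (N := normalClosure (thompsonSubgroupAOf (T : Subgroup X) : Set X)) le_top
      (normal_iff_top_le_normalizer.1 inferInstance)).frattini_argument le_top
      (normal_iff_top_le_normalizer.1 inferInstance)
    rw [eq_top_iff, ← h1]
    refine sup_le (le_sup_of_le_left le_sup_right) (le_sup_of_le_right (inf_le_right.trans ?_))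
    exact normalizer_le_normalizer_thompsonSubgroupAOf
      (le_inf (thompsonSubgroupAOf_le _) le_normalClosure) inf_le_left
  have hQT : pCore 2 X ≤ T := pCore_le_sylow T
  have hZQ : Z ≤ pCore 2 X ⊓ centralizer (pCore 2 X : Set X) := by
    have : Z ≤ centralizer (pCore 2 X : Set X) := hZ ▸ inf_le_right.trans (centralizer_le hQT)
    refine le_inf ?_ this
    rw [← hF] at this ⊢
    exact this.trans centralizer_fitting_le
  obtain ⟨V, hV⟩ : ∃ V, V = normalClosure (Z : Set X) := ⟨_, rfl⟩
  have hVn : V.Normal := hV ▸ inferInstance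
  have hVQ : V ≤ pCore 2 X ⊓ centralizer (pCore 2 X : Set X) := hV ▸ normalClosure_le_normal hZQ
  have hVc : IsMulCommutative V :=
    ⟨⟨fun a b => Subtype.ext ((mem_inf.1 (hVQ b.2)).2 a (mem_inf.1 (hVQ a.2)).1)⟩⟩
  have hV2 : IsPGroup 2 V := (isPGroup_pCore 2).to_le (hVQ.trans inf_le_left)
  have hZV : Z ≤ V := hV ▸ le_normalClosure
  let W : Subgroup X :=
    { carrier := {v | v ∈ V ∧ v ^ 2 = 1}
      mul_mem' := fun {a b} ha hb => ⟨V.mul_mem ha.1 hb.1, by
        rw [(show Commute a b from Coprime.mul_comm_of_mem hVc ha.1 hb.1).mul_pow, ha.2, hb.2,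
          one_mul]⟩
      one_mem' := ⟨V.one_mem, one_pow 2⟩
      inv_mem' := fun {a} ha => ⟨V.inv_mem ha.1, by rw [inv_pow, ha.2, inv_one]⟩ }
  have hWn : W.Normal := ⟨fun w hw g => ⟨hVn.conj_mem w hw.1 g, by rw [conj_pow, hw.2]; simp⟩⟩
  have hWV : W ≤ V := fun w hw => hw.1
  have hCV : (centralizer (Z : Set X)).normalCore ≤ centralizer (V : Set X) := by
    rw [le_centralizer_iff, hV]
    exact normalClosure_le_normal (le_centralizer_iff.1 (normalCore_le _))
  have key : ∀ D : Subgroup X, D.Normal →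
      (∀ g ∈ D, (orderOf g).Coprime 2 → g ∈ centralizer (W : Set X)) →
      D ≤ (centralizer (Z : Set X)).normalCore := fun D hD h => by
    rw [normal_le_normalCore]
    have h1 := pResidualOf_sup_of_isSylowIn ((Coprime.isSylowIn_top T).inf_of_le_normalizer
      (N := D) le_top (normal_iff_top_le_normalizer.1 hD))
    rw [← h1]
    refine sup_le (pResidualOf_le_of_forall fun g hg ho => centralizer_le hZV ?_)
      (inf_le_left.trans (le_centralizer_iff.1 (hZ ▸ inf_le_right)))
    exact Transfer.mem_centralizer_of_omega hV2 hVc ho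
      (normal_iff_top_le_normalizer.1 hVn (mem_top g)) fun w hw hw2 => h g hg ho w ⟨hw, hw2⟩
  have hC : (centralizer (Z : Set X)).normalCore = centralizer (W : Set X) :=
    le_antisymm (hCV.trans (centralizer_le hWV)) (key _ inferInstance fun g hg _ => hg)
  obtain ⟨n, ⟨e⟩⟩ := exists_mulEquiv_pi_of_offenders inferInstance (W := W) (fun w hw => hw.2)
    (fun D hD h => hC ▸ key D hD h) (maxAbIn (T : Subgroup X)) fun A hA =>
      ⟨hA.2.1, T.2.to_le hA.1, fun B hB _ => offender_of_mem_maxAbIn hA
        (hWV.trans (hVQ.trans (inf_le_left.trans hQT)))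
        (isMulCommutative_of_sq_eq_one fun w hw => hw.2) hB⟩
  rcases n with _ | n
  · left
    rw [hC, thompsonSubgroupAOf_eq, ← subgroupOf_eq_top, ← index_eq_one, index,
      Nat.card_congr e.toEquiv]
    simp
  · right
    refine ⟨n + 1, by omega, ⟨MulEquiv.trans ?_ e⟩⟩
    rw [thompsonSubgroupAOf_eq]
    exact QuotientGroup.quotientMulEquivOfEq (by rw [hC])

end Cfsg.Agent.S4302
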