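import Cfsg.Statements.S4304
import Cfsg.Agent.Lib.Coprime.SylowCount

set_option autoImplicit false
open Cfsg

namespace Cfsg.Agent.S4304

/-- No finite group has exactly 15 Sylow 7-subgroups. -/
theorem result {G : Type*} [Group G] [Finite G] : Nat.card (Sylow 7 G) ≠ 15 := by
  haveI : Fact (Nat.Prime 7) := ⟨by norm_num⟩
  haveI : Fact (Nat.Prime 5) := ⟨by norm_num⟩
  refine (Coprime.card_sylow_induction 7 (fun n => n ≡ 1 [MOD 7] ∧ n ≠ 15) ⟨rfl, by norm_num⟩
    ?_ ?_ G ?_).2
  · rintro a b ⟨ha, ha'⟩ ⟨hb, hb'⟩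
    refine ⟨by simpa using ha.mul hb, fun h => ?_⟩
    have h1 : a ≤ 15 := Nat.le_of_dvd (by norm_num) (Dvd.intro _ h)
    have h2 : b ≤ 15 := Nat.le_of_dvd (by norm_num) (Dvd.intro_left _ h)
    unfold Nat.ModEq at ha hb
    interval_cases a <;> omega
  · intro q k hq h
    refine ⟨h, fun e => ?_⟩
    have h3 : 3 = q := (Nat.prime_dvd_prime_iff_eq Nat.prime_three hq).mp
      (Nat.prime_three.dvd_of_dvd_pow (e ▸ by norm_num : 3 ∣ q ^ k))
    have h5 : 5 = q := (Nat.prime_dvd_prime_iff_eq Nat.prime_five hq).mp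
      (Nat.prime_five.dvd_of_dvd_pow (e ▸ by norm_num : 5 ∣ q ^ k))
    omega
  · intro S _ _ hS hc _
    refine ⟨card_sylow_modEq_one 7 S, fun h => ?_⟩
    obtain ⟨r, h1, h2, h3, h4⟩ := Coprime.exists_card_eq_of_card_sylow (p := 7) hc (by norm_num) h
    have h5 : r ≤ 6 := Nat.le_of_dvd (by norm_num) h1
    obtain rfl : r = 3 := by
      obtain ⟨k, rfl⟩ := h3
      have : k ≤ 2 := by omega
      interval_cases k <;> simp_all
    obtain ⟨P⟩ : Nonempty (Sylow 5 S) := inferInstance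
    refine Coprime.not_hasNormalPComplement_of_isSimpleGroup (p := 5) hc (by rw [h4]; norm_num)
      (Coprime.hasNormalPComplement_of_card_eq_prime P ?_ (by rw [h4]; norm_num))
    rw [P.card_eq_multiplicity, h4,
      Nat.factorization_eq_of_coprime_left (a := 5) (b := 63) (by norm_num) (by simp),
      Nat.prime_five.factorization_self, pow_one]

end Cfsg.Agent.S4304
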