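import Cfsg.Statements.S4305
import Cfsg.Agent.Lib.Mod.SymThree

set_option autoImplicit false
open Cfsg

namespace Cfsg.Agent.S4305


/-- Let the symmetric group of degree 3 act by automorphisms on a finite solvable group `G` of order prime to 6, so that only the identity of `G` is fixed by all of it. Then the derived subgroup of `G` is nilpotent. -/
theorem result {G : Type*} [Group G] [Finite G] [Group.IsSolvable G]
    [MulDistribMulAction (Equiv.Perm (Fin 3)) G] (hcop : (Nat.card G).Coprime 6)
    (hfpf : ∀ g : G, (∀ a : Equiv.Perm (Fin 3), a • g = g) → g = 1) :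
    Group.IsNilpotent ↥(commutator G) := by
  have h := Mod.fpf_semidirect (MulDistribMulAction.toMulAut (Equiv.Perm (Fin 3)) G) inferInstance
    (by rw [Nat.card_eq_fintype_card, Fintype.card_perm]; exact hcop.symm) hfpf
  have e : (⊤ : Subgroup (Equiv.Perm (Fin 3))) =
      Subgroup.zpowers (Equiv.swap 0 1) ⊔ Subgroup.zpowers (finRotate 3) := by
    rw [eq_comm, Subgroup.eq_top_iff']
    intro x
    have : ∀ x : Equiv.Perm (Fin 3), ∃ i : Fin 2, ∃ j : Fin 3,
        x = Equiv.swap 0 1 ^ (i : ℕ) * finRotate 3 ^ (j : ℕ) := by decide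
    obtain ⟨i, j, rfl⟩ := this x
    exact Subgroup.mul_mem_sup (Subgroup.npow_mem_zpowers _ _) (Subgroup.npow_mem_zpowers _ _)
  rw [e, Subgroup.map_sup, MonoidHom.map_zpowers, MonoidHom.map_zpowers] at h
  refine Mod.isNilpotent_commutator_of_map SemidirectProduct.inl_injective
    (h.isNilpotent_commutator_of_sym_three ?_ ?_ ?_)
  · rw [← map_pow, show (finRotate 3) ^ 3 = 1 by decide, map_one]
  · rw [← map_pow, show (Equiv.swap (0 : Fin 3) 1) ^ 2 = 1 by decide, map_one]
  · rw [← map_inv, ← map_mul, ← map_mul, ← map_inv]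
    congr 1
    decide

end Cfsg.Agent.S4305
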