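import Cfsg.Statements.S4314
import Mathlib
import Cfsg.Agent.Lib.Cls.Basic
import Cfsg.Agent.Lib.Char.Induction
import Cfsg.Agent.Lib.PGrp.Aut
import Cfsg.Agent.Lib.Core.Fitting
import Cfsg.Agent.Lib.Transfer.Camina

set_option autoImplicit false
open Cfsg

namespace Cfsg.Agent.S4314

open Subgroup
open scoped commutatorElement IsMulCommutative Pointwise

section

variable {G : Type*} [Group G] [Finite G]

theorem index_inf_eq {H K : Subgroup G} (h : H.index.Coprime K.index) :
    (H ⊓ K).index = H.index * K.index :=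
  le_antisymm index_inf_le (Nat.le_of_dvd (Nat.pos_of_ne_zero FiniteIndex.index_ne_zero)
    (h.mul_dvd_of_dvd_of_dvd (index_dvd_of_le inf_le_left) (index_dvd_of_le inf_le_right)))

omit [Finite G] in
theorem eq_or_eq_top {H K : Subgroup G} (h : H.index.Prime) (hHK : H ≤ K) : H = K ∨ K = ⊤ := by
  rcases (Nat.dvd_prime h).1 (index_dvd_of_le hHK) with h1 | h1
  · exact Or.inr (index_eq_one.1 h1)
  · have h2 := relIndex_mul_index hHK
    rw [h1] at h2
    exact Or.inl (le_antisymm hHK (relIndex_eq_one.1
      (Nat.eq_of_mul_eq_mul_right h.pos (h2.trans (one_mul _).symm))))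

theorem key {x y : G} (hx : (centralizer ({x} : Set G)).index.Prime)
    (hy : (centralizer ({y} : Set G)).index.Prime)
    (hlt : (centralizer ({x} : Set G)).index < (centralizer ({y} : Set G)).index)
    (h : (centralizer ({x * y} : Set G)).index = 1 ∨ (centralizer ({x * y} : Set G)).index.Prime) :
    ∃ N : Subgroup G, Nat.card N = (centralizer ({y} : Set G)).index ∧ (∀ g : G, ⁅g, y⁆ ∈ N) ∧
      (∀ g, x⁻¹ * (g * x * g⁻¹) ∈ N) ∧ N = MulAction.stabilizer G (conjugatesOf y) := by
  have hcop := (Nat.coprime_primes hx hy).2 hlt.ne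
  have h1 : (centralizer ({x * y} : Set G)).index ≤ (centralizer ({y} : Set G)).index := by
    have h2 := index_dvd_of_le (show centralizer {x} ⊓ centralizer {y} ≤ centralizer {x * y} from
      fun g hg => mem_centralizer_singleton_iff.2 (Commute.mul_right
        (mem_centralizer_singleton_iff.1 hg.1) (mem_centralizer_singleton_iff.1 hg.2)))
    rw [index_inf_eq hcop] at h2
    rcases h with h | h
    · exact h ▸ hy.one_le
    · rcases h.dvd_mul.1 h2 with h3 | h3
      · exact (Nat.le_of_dvd hx.pos h3).trans hlt.le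
      · exact Nat.le_of_dvd hy.pos h3
  have h2 : ∀ a : G, (a * x * a⁻¹) • conjugatesOf y = conjugatesOf (x * y) := fun a => by
    refine Set.eq_of_subset_of_ncard_le ?_ (by
      rwa [Set.ncard_smul_set, Cls.ncard_conjugatesOf, Cls.ncard_conjugatesOf])
    rintro _ ⟨z, hz, rfl⟩
    obtain ⟨b, rfl⟩ := isConj_iff.1 hz
    obtain ⟨d, hd, c, hc, h3⟩ := Transfer.exists_mul_of_coprime_index hcop.symm (b⁻¹ * a)
    obtain rfl : a = b * d * c := by rw [mul_assoc, ← h3, mul_inv_cancel_left]
    refine isConj_iff.2 ⟨b * d, ?_⟩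
    calc b * d * (x * y) * (b * d)⁻¹ = b * d * (x * c) * c⁻¹ * d⁻¹ * (d * y) * d⁻¹ * b⁻¹ := by group
      _ = _ := by
        rw [← mem_centralizer_singleton_iff.1 hc, mem_centralizer_singleton_iff.1 hd]
        simp only [smul_eq_mul]
        group
  have h3 : ∀ g, x⁻¹ * (g * x * g⁻¹) ∈ MulAction.stabilizer G (conjugatesOf y) := fun g => by
    rw [MulAction.mem_stabilizer_iff, mul_smul, h2, ← h2 1, one_mul, inv_one, mul_one,
      inv_smul_smul]
  set N := MulAction.stabilizer G (conjugatesOf y)
  have hN : ∀ n ∈ N, ∀ z ∈ conjugatesOf y, n * z ∈ conjugatesOf y := fun n hn z hz =>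
    (MulAction.mem_stabilizer_iff.1 hn) ▸ Set.smul_mem_smul_set hz
  have h4 : Nat.card N ∣ (centralizer ({y} : Set G)).index := by
    let _ : MulAction N (conjugatesOf y) :=
      { smul := fun n z => ⟨n * z, hN n n.2 z z.2⟩
        one_smul := fun z => Subtype.ext (one_mul _)
        mul_smul := fun a b z => Subtype.ext (mul_assoc _ _ _) }
    rw [← Cls.ncard_conjugatesOf, ← Nat.card_coe_set_eq]
    exact PGrp.card_dvd_of_free fun z => (eq_bot_iff_forall _).2 fun n hn =>
      Subtype.ext (mul_eq_right.1 (congrArg Subtype.val hn))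
  have h5 : Nat.card N = (centralizer ({y} : Set G)).index := by
    refine ((Nat.dvd_prime hy).1 h4).resolve_left fun h5 => hx.ne_one ?_
    rw [index_eq_one, eq_top_iff]
    intro g _
    have h6 := h3 g
    rw [card_eq_one.1 h5, mem_bot, inv_mul_eq_one, eq_mul_inv_iff_mul_eq] at h6
    exact mem_centralizer_singleton_iff.2 h6.symm
  refine ⟨N, h5, fun g => ?_, h3, rfl⟩
  have h6 : (fun n => n * y) '' N = conjugatesOf y := by
    refine Set.eq_of_subset_of_ncard_le ?_ ?_
    · rintro _ ⟨n, hn, rfl⟩
      exact hN n hn y mem_conjugatesOf_self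
    · rw [Set.ncard_image_of_injective _ (mul_left_injective y), Cls.ncard_conjugatesOf, ← h5,
        ← Nat.card_coe_set_eq]
      rfl
  obtain ⟨n, hn, h7⟩ : g * y * g⁻¹ ∈ (fun n => n * y) '' N := h6 ▸ isConj_iff.2 ⟨g, rfl⟩
  rwa [commutatorElement_def, ← h7, mul_inv_cancel_right]

end


/-- Let `G` be a finite group every conjugacy class of which has size 1 or a prime. Then either `G` is nilpotent of class at most 2, or `G/Z(G)` is a non-abelian group of order `pq` for distinct primes `p, q` (a Frobenius group of order `pq`). -/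
theorem result {G : Type*} [Group G] [Finite G]
    (h : ∀ x : G, (Subgroup.centralizer ({x} : Set G)).index = 1 ∨ ((Subgroup.centralizer ({x} : Set G)).index).Prime) :
    Subgroup.upperCentralSeries G 2 = ⊤ ∨
      ∃ p q : ℕ, p.Prime ∧ q.Prime ∧ p ≠ q ∧ Nat.card (G ⧸ Subgroup.center G) = p * q ∧ ¬ IsMulCommutative (G ⧸ Subgroup.center G) := by
  refine or_iff_not_imp_left.2 fun h0 => ?_
  have hZ : ¬ _root_.commutator G ≤ center G := fun h1 => h0 (eq_top_iff.2 fun x _ =>
    Subgroup.mem_upperCentralSeries_succ_iff.2 fun y => Subgroup.upperCentralSeries_one G ▸ h1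
      (commutator_mem_commutator (mem_top x) (mem_top y)))
  obtain ⟨y, -, hy⟩ := Set.exists_max_image Set.univ
    (fun y : G => (centralizer ({y} : Set G)).index) Set.finite_univ ⟨1, trivial⟩
  obtain ⟨x, hx, hlt⟩ : ∃ x : G, (centralizer ({x} : Set G)).index.Prime ∧
      (centralizer ({x} : Set G)).index < (centralizer ({y} : Set G)).index := by
    by_contra h1
    push Not at h1
    have h2 : Group.IsNilpotent G := by
      rcases h y with h2 | h2
      · exact absurd (commutator_le.2 fun a _ b _ => Cls.index_centralizer_eq_one_iff.1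
          (le_antisymm (h2 ▸ hy _ trivial) (Nat.pos_of_ne_zero FiniteIndex.index_ne_zero))) hZ
      have := Fact.mk h2
      have h3 : IsPGroup (centralizer ({y} : Set G)).index (G ⧸ center G) := by
        refine Core.isPGroup_iff_forall_prime_dvd.2 fun q hq hd => ?_
        by_contra hne
        have := Fact.mk hq
        obtain ⟨Q⟩ : Nonempty (Sylow q G) := inferInstance
        have h4 := Char.eq_top_of_forall_exists_conj_mem _ fun g =>
          Cls.exists_conj_mem_centralizer_sylow Q (x := g) fun h4 => by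
            rcases h g with h5 | h5
            · exact hq.ne_one (Nat.dvd_one.1 (h5 ▸ h4))
            · exact hne (((Nat.prime_dvd_prime_iff_eq hq h5).1 h4).trans
                (le_antisymm (hy g trivial) (h1 g h5)))
        exact Cls.not_dvd_index_of_sylow_le (centralizer_eq_top_iff_subset.1 h4) hd
      have := h3.isNilpotent
      exact Subgroup.isNilpotent_of_ker_le_center (QuotientGroup.mk' (center G)) (by simp)
    refine hZ fun c hc => mem_center_iff.2 fun g => ?_
    rcases h g with h3 | h3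
    · exact (mem_center_iff.1 (Cls.index_centralizer_eq_one_iff.1 h3) c).symm
    · have h4 : (centralizer ({g} : Set G)).Normal :=
        Core.isNilpotent_iff_coatom_normal.1 h2 _ ⟨fun h4 => h3.ne_one (index_eq_one.2 h4),
          fun K hK => (eq_or_eq_top h3 hK.le).resolve_left hK.ne⟩
      have := Fact.mk h3
      have h5 : IsCyclic (G ⧸ centralizer ({g} : Set G)) := isCyclic_of_prime_card (index_eq_card _).symm
      have h6 := Abelianization.commutator_subset_ker (A := G ⧸ centralizer ({g} : Set G))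
        (QuotientGroup.mk' _) hc
      rw [QuotientGroup.ker_mk'] at h6
      exact (mem_centralizer_singleton_iff.1 h6).symm
  have hq : (centralizer ({y} : Set G)).index.Prime :=
    (h y).resolve_left fun h1 => by have := hx.two_le; omega
  obtain ⟨N, hN, hN1, hN2, hN3⟩ := key hx hq hlt (h _)
  have := Fact.mk hq
  have hNn : N.Normal := ⟨fun n hn g => by
    rw [hN3, MulAction.mem_stabilizer_iff] at hn ⊢
    have h1 : ∀ g : G, ∀ z, z ∈ conjugatesOf y ↔ g⁻¹ * z * g ∈ conjugatesOf y := fun g z =>
      ⟨fun h => IsConj.trans h (isConj_iff.2 ⟨g⁻¹, by simp⟩),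
        fun h => IsConj.trans h (isConj_iff.2 ⟨g, by simp [mul_assoc]⟩)⟩
    ext z
    rw [Set.mem_smul_set_iff_inv_smul_mem, h1 g, h1 g z]
    nth_rw 2 [← hn]
    rw [Set.mem_smul_set_iff_inv_smul_mem]
    simp [mul_assoc]⟩
  obtain ⟨a, ha⟩ : ∃ a : G, x⁻¹ * (a * x * a⁻¹) ≠ 1 := by
    by_contra h1
    push Not at h1
    refine hx.ne_one (Cls.index_centralizer_eq_one_iff.2 (mem_center_iff.2 fun g => ?_))
    have := h1 g
    rw [inv_mul_eq_one, eq_mul_inv_iff_mul_eq] at this
    exact this.symm
  have hgen : ∀ M : Subgroup G, Nat.card M = (centralizer ({y} : Set G)).index → ∀ n ∈ M, n ≠ 1 →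
      M = zpowers n := fun M hM n hn hn1 => by
    refine (eq_of_le_of_card_ge (zpowers_le.2 hn) (Eq.le ?_)).symm
    rw [Nat.card_zpowers, hM]
    exact ((Nat.dvd_prime hq).1 (hM ▸ M.orderOf_dvd_natCard hn)).resolve_left
      (by simpa using hn1) |>.symm
  have hG' : _root_.commutator G ≤ N := commutator_le.2 fun g _ z _ => by
    rcases h z with h1 | h1
    · rw [commutatorElement_eq_one_iff_mul_comm.2
        (mem_center_iff.1 (Cls.index_centralizer_eq_one_iff.1 h1) g)]
      exact N.one_mem
    rcases (hy z trivial).lt_or_eq with h2 | h2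
    · obtain ⟨M, -, -, h3, h4⟩ := key h1 hq h2 (h _)
      have := hNn.conj_mem _ (hN3 ▸ h4 ▸ h3 g) z
      simpa [commutatorElement_def, mul_assoc] using this
    · obtain ⟨M, h3, h4, h5, -⟩ := key hx h1 (h2 ▸ hlt) (h _)
      rw [hgen N hN _ (hN2 a) ha, ← hgen M (h3.trans h2) _ (h5 a) ha]
      exact h4 g
  obtain ⟨n, hn, hnZ⟩ := SetLike.not_le_iff_exists.1 fun h1 => hZ (hG'.trans h1)
  have hn1 : n ≠ 1 := by rintro rfl; exact hnZ (one_mem _)
  obtain ⟨w, hw⟩ : ∃ w, w * n ≠ n * w := by simpa [mem_center_iff] using hnZ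
  have hr := (h n).resolve_left fun h1 => hnZ (Cls.index_centralizer_eq_one_iff.1 h1)
  have hr' : (centralizer ({n} : Set G)).index < (centralizer ({y} : Set G)).index := by
    rw [← Cls.ncard_conjugatesOf, ← hN]
    refine lt_of_lt_of_eq ?_ (Nat.card_coe_set_eq (N : Set G)).symm
    refine Set.ncard_lt_ncard ⟨fun z hz => ?_, fun h1 => hn1 ?_⟩
    · obtain ⟨g, rfl⟩ := isConj_iff.1 hz
      exact hNn.conj_mem n hn g
    · exact isConj_one_left.1 (h1 N.one_mem)
  have hw' := (h w).resolve_left fun h1 =>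
    hw (mem_center_iff.1 (Cls.index_centralizer_eq_one_iff.1 h1) n).symm
  have h1 : N ⊓ centralizer {w} = ⊥ := (eq_bot_iff_forall _).2 fun m hm => by
    by_contra hm1
    have h2 : N ≤ centralizer {w} := hgen N hN m hm.1 hm1 ▸ zpowers_le.2 hm.2
    exact hw (mem_centralizer_singleton_iff.1 (h2 hn)).symm
  have h2 : N ⊔ centralizer {w} = ⊤ := (eq_or_eq_top hw' le_sup_right).resolve_left fun h2 =>
    hw (mem_centralizer_singleton_iff.1 (h2 ▸ mem_sup_left hn : n ∈ centralizer {w})).symm
  have h3 : (centralizer ({w} : Set G)).index = (centralizer ({y} : Set G)).index := by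
    rw [← hN]
    exact (isComplement'_of_disjoint_and_mul_eq_univ (disjoint_iff.2 h1)
      (by rw [← normal_mul, h2, coe_top])).index_eq_card
  have h4 : center G = centralizer {n} ⊓ centralizer {w} := by
    refine le_antisymm (le_inf (center_le_centralizer _) (center_le_centralizer _)) fun c hc => ?_
    rw [← Cls.centralizer_single_eq_top_iff, eq_top_iff, ← h2, hgen N hN n hn hn1]
    refine sup_le (zpowers_le.2 (mem_centralizer_singleton_iff.2
      (mem_centralizer_singleton_iff.1 hc.1).symm)) fun d hd => mem_centralizer_singleton_iff.2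
      (commutatorElement_eq_one_iff_mul_comm.1 (mem_bot.1 (h1 ▸ mem_inf.2 ⟨hG' (commutator_mem_commutator
        (mem_top _) (mem_top _)), ?_⟩)))
    exact mul_mem (mul_mem (mul_mem hd hc.2) (inv_mem hd)) (inv_mem (mem_inf.1 hc).2)
  refine ⟨_, _, hr, hq, hr'.ne, ?_, fun h5 => hZ ?_⟩
  · rw [← index, h4, index_inf_eq (h3 ▸ (Nat.coprime_primes hr hq).2 hr'.ne), h3]
  · have h6 := Abelianization.commutator_subset_ker (A := G ⧸ center G) (QuotientGroup.mk' _)
    rwa [QuotientGroup.ker_mk'] at h6

end Cfsg.Agent.S4314
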