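import Cfsg.Statements.S4316
import Cfsg.Agent.Lib.Coprime.IndexBound

set_option autoImplicit false
universe u
open Cfsg

namespace Cfsg.Agent.S4316

open Subgroup Cfsg.Agent.Coprime
open scoped commutatorElement

theorem aux {q m : ℕ} {A G : Type*} [Group A] [Finite A] [Group G] [Finite G] (φ : A →* MulAut G)
    (hq : q.Prime) (hA : Nat.card A = q ^ 3) (hc : ∀ a b : A, a * b = b * a)
    (he : ∀ a : A, a ^ q = 1) (hG : ¬ q ∣ Nat.card G)
    (h : ∀ a : A, a ≠ 1 → Nat.card (_root_.commutator (fixedSub φ (zpowers a))) ≤ m) :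
    Nat.card (_root_.commutator G) ≤
      (q ^ 3 * m * (m ^ q ^ 3 * m ^ q ^ 3) + 1) ^ (q ^ 3 * m * (m ^ q ^ 3 * m ^ q ^ 3) * m) := by
  classical
  have := Fintype.ofFinite A
  have hcomm : ∀ B : Subgroup A, IsMulCommutative B := fun B => ⟨⟨fun a b => Subtype.ext (hc a b)⟩⟩
  have hcop : ∀ (B : Subgroup A) (H : Subgroup G), (Nat.card B).Coprime (Nat.card H) := by
    intro B H
    have h1 : (Nat.card A).Coprime (Nat.card G) := by
      rw [hA]; exact Nat.Coprime.pow_left _ ((Nat.Prime.coprime_iff_not_dvd hq).mpr hG)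
    exact (h1.coprime_dvd_left B.card_subgroup_dvd_card).coprime_dvd_right H.card_subgroup_dvd_card
  have hz : ∀ a : A, Nat.card (zpowers a) ≤ q := fun a => by
    rw [Nat.card_zpowers]; exact orderOf_le_of_pow_eq_one hq.pos (he a)
  have hq1 := hq.one_lt
  have hm : 1 ≤ m := by
    have : Nontrivial A := by
      rw [← Finite.one_lt_card_iff_nontrivial, hA]; exact Nat.one_lt_pow (by norm_num) hq1
    obtain ⟨a, ha⟩ := exists_ne (1 : A)
    exact le_trans Nat.card_pos (h a ha)
  -- big subgroups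
  have hbig : ∀ B : Subgroup A, (∃ b ∈ (⊤ : Subgroup A), B ⊔ zpowers b = ⊤) → q ^ 2 ≤ Nat.card B := by
    rintro B ⟨b, -, hb⟩
    have : B.Normal := ⟨fun n hn g => by rw [hc g n, mul_inv_cancel_right]; exact hn⟩
    have h1 := card_mul_card_eq_of_forall_exists_mul (A := B) (B := zpowers b) (L := ⊤) le_top le_top
      fun x _ => by
        have hx : x ∈ B ⊔ zpowers b := hb ▸ mem_top x
        rw [← SetLike.mem_coe, normal_mul] at hx
        obtain ⟨u, hu, v, hv, rfl⟩ := hx
        exact ⟨u, hu, v, hv, rfl⟩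
    rw [card_top, hA] at h1
    have h2 : q ^ 3 ≤ Nat.card B * q := by
      calc q ^ 3 ≤ q ^ 3 * Nat.card ↥(B ⊓ zpowers b) := Nat.le_mul_of_pos_right _ Nat.card_pos
        _ = _ := h1.symm
        _ ≤ _ := Nat.mul_le_mul_left _ (hz b)
    rw [pow_succ] at h2
    exact Nat.le_of_mul_le_mul_right h2 hq.pos
  have hnc : ∀ B : Subgroup A, q ^ 2 ≤ Nat.card B → ¬ IsCyclic B := by
    intro B hB hcy
    obtain ⟨g, hg⟩ := hcy.exists_ofOrder_eq_natCard
    have : orderOf g ≤ q := orderOf_le_of_pow_eq_one hq.pos (Subtype.ext (he g))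
    nlinarith
  have hint : ∀ B C : Subgroup A, q ^ 2 ≤ Nat.card B → q ^ 2 ≤ Nat.card C →
      ∃ a ∈ B ⊓ C, a ≠ 1 := by
    intro B C hB hC
    by_contra hcon
    push Not at hcon
    have h0 : B ⊓ C = ⊥ := eq_bot_iff.mpr fun a ha => mem_bot.mpr (hcon a ha)
    have h1 := card_mul_card_le (A := B) (B := C) (L := ⊤) le_top le_top
    rw [h0, card_bot, card_top, hA, mul_one] at h1
    have h2 : q ^ 2 * q ^ 2 ≤ q ^ 3 := (Nat.mul_le_mul hB hC).trans h1
    rw [← pow_add] at h2
    have := (Nat.pow_le_pow_iff_right hq1).mp h2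
    omega
  set X : Set G := {x | ∃ B : Subgroup A, q ^ 2 ≤ Nat.card B ∧ x ∈ fixedSub φ B} with hX
  have hgen : closure X = ⊤ := by
    refine top_le_iff.mp (act_le_of_forall_cyclic_quotient φ (B := ⊤) (hcomm _)
      (fun _ _ _ _ => mem_top _) (hcop _ _) fun C _ hC x hx => subset_closure ⟨C, hbig C hC, hx.2⟩)
  set n := m ^ q ^ 3 with hn
  have hidx : ∀ x ∈ X, (centralizer {x}).index ≤ n := by
    rintro x ⟨B, hB, hx⟩
    have hinv : InvBy φ B (centralizer {x}) := by
      intro b hb g hg
      rw [mem_centralizer_singleton_iff] at hg ⊢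
      rw [← hx b hb, ← map_mul, ← map_mul, hg]
    have h1 := relIndex_dvd_prod φ (hcomm B) (hnc B hB) (le_top (a := centralizer {x})) hinv
      (fun _ _ _ _ => mem_top _) (hcop _ _) (Finset.univ.filter fun a => a ∈ B ∧ a ≠ 1) (by simp)
    rw [relIndex_top_right] at h1
    have h2 : ∀ a ∈ (Finset.univ.filter fun a => a ∈ B ∧ a ≠ 1),
        (centralizer {x} ⊓ fixedSub φ (zpowers a)).relIndex (⊤ ⊓ fixedSub φ (zpowers a)) ≤ m := by
      intro a ha
      rw [Finset.mem_filter] at ha
      rw [top_inf_eq, inf_relIndex_right]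
      exact (relIndex_centralizer_le_card_commutator
        (fixedSub_anti φ (zpowers_le.mpr ha.2.1) hx)).trans (h a ha.2.2)
    refine (Nat.le_of_dvd (Finset.prod_pos fun a _ => Nat.pos_of_ne_zero
      FiniteIndex.index_ne_zero) h1).trans ((Finset.prod_le_pow_card _ _ m h2).trans ?_)
    refine Nat.pow_le_pow_right hm ?_
    rw [← hA, Nat.card_eq_fintype_card]
    exact Finset.card_le_univ _
  set D : A → Subgroup G := fun a => ⁅fixedSub φ (zpowers a), fixedSub φ (zpowers a)⁆ with hD
  have hDc : ∀ a, a ≠ 1 → Nat.card (D a) ≤ m := fun a ha => by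
    have e : Nat.card (_root_.commutator (fixedSub φ (zpowers a))) = Nat.card (D a) := by
      simp only [hD]
      rw [← map_subtype_commutator]
      exact (card_map_of_injective (subtype_injective _)).symm
    exact e ▸ h a ha
  set T : Set G := {t | (∃ a, a ≠ 1 ∧ t ∈ D a) ∧ (centralizer {t}).index ≤ n * n} with hT
  set S : Set G := {s | ∃ t ∈ T, ∃ g : G, s = g * t * g⁻¹} with hS
  have hTc : T.ncard ≤ q ^ 3 * m := by
    have h1 : T ⊆ ((Finset.univ.filter fun a : A => a ≠ 1).biUnion
        fun a => (Set.toFinite (D a : Set G)).toFinset : Finset G) := by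
      rintro t ⟨⟨a, ha, ht⟩, -⟩
      simp only [Finset.coe_biUnion, Set.mem_iUnion]
      exact ⟨a, by simpa using ha, by simpa using ht⟩
    refine (Set.ncard_le_ncard h1 (Set.toFinite _)).trans ?_
    rw [Set.ncard_coe_finset]
    refine (Finset.card_biUnion_le_card_mul _ _ m fun a ha => ?_).trans ?_
    · rw [← Set.ncard_eq_toFinset_card]
      exact hDc a (by simpa using ha)
    · refine Nat.mul_le_mul_right _ ?_
      rw [← hA, Nat.card_eq_fintype_card]
      exact Finset.card_le_univ _
  have hSc : S.ncard ≤ q ^ 3 * m * (n * n) := by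
    have h1 : S ⊆ ((Set.toFinite T).toFinset.biUnion
        fun t => (Set.toFinite {y | ∃ g ∈ (⊤ : Subgroup G), y = g * t * g⁻¹}).toFinset :
          Finset G) := by
      rintro s ⟨t, ht, g, rfl⟩
      simp only [Finset.coe_biUnion, Set.mem_iUnion]
      exact ⟨t, by simpa using ht, (Set.Finite.mem_toFinset _).mpr ⟨g, mem_top _, rfl⟩⟩
    refine (Set.ncard_le_ncard h1 (Set.toFinite _)).trans ?_
    rw [Set.ncard_coe_finset]
    refine (Finset.card_biUnion_le_card_mul _ _ (n * n) fun t ht => ?_).trans ?_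
    · rw [← Set.ncard_eq_toFinset_card, ← relIndex_centralizer_eq_ncard, relIndex_top_right]
      exact ((Set.Finite.mem_toFinset _).mp ht).2
    · refine Nat.mul_le_mul_right _ ?_
      rwa [← Set.ncard_eq_toFinset_card]
  have hSconj : ∀ s ∈ S, ∀ g : G, g * s * g⁻¹ ∈ S := by
    rintro s ⟨t, ht, g, rfl⟩ k
    exact ⟨t, ht, k * g, by group⟩
  have hSinv : ∀ s ∈ S, s⁻¹ ∈ S := by
    rintro s ⟨t, ⟨⟨a, ha, ht⟩, hi⟩, g, rfl⟩
    refine ⟨t⁻¹, ⟨⟨a, ha, inv_mem ht⟩, ?_⟩, g, by group⟩
    have : centralizer {t⁻¹} = centralizer {t} := by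
      ext y
      rw [mem_centralizer_singleton_iff, mem_centralizer_singleton_iff]
      exact Commute.inv_right_iff
    rwa [this]
  have hSord : ∀ s ∈ S, orderOf s ≤ m := by
    rintro s ⟨t, ⟨⟨a, ha, ht⟩, -⟩, g, rfl⟩
    have e : orderOf (g * t * g⁻¹) = orderOf t := (MulAut.conj g).orderOf_eq t
    rw [e]
    exact (Nat.le_of_dvd Nat.card_pos (orderOf_dvd_natCard _ ht)).trans (hDc a ha)
  refine le_trans (card_le_of_le ?_) (card_closure_le_of_conj_invariant hSconj hSinv hSord hSc)
  have hN : (closure S).Normal := by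
    refine ⟨fun x hx g => ?_⟩
    have : (closure S).map (MulAut.conj g).toMonoidHom ≤ closure S := by
      rw [MonoidHom.map_closure, closure_le]
      rintro _ ⟨s, hs, rfl⟩
      exact subset_closure (hSconj s hs g)
    exact this ⟨x, hx, rfl⟩
  have hXX : ∀ x ∈ X, ∀ y ∈ X, ⁅x, y⁆ ∈ closure S := by
    intro x hx y hy
    refine subset_closure ⟨⁅x, y⁆, ⟨?_, ?_⟩, 1, by group⟩
    · obtain ⟨B, hB, hx⟩ := hx
      obtain ⟨C, hC, hy⟩ := hy
      obtain ⟨a, ha, ha1⟩ := hint B C hB hC
      exact ⟨a, ha1, commutator_mem_commutator (fixedSub_anti φ (zpowers_le.mpr ha.1) hx)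
        (fixedSub_anti φ (zpowers_le.mpr ha.2) hy)⟩
    · have h1 : centralizer {x} ⊓ centralizer {y} ≤ centralizer {⁅x, y⁆} := by
        rintro g ⟨g1, g2⟩
        have g1' : Commute g x := mem_centralizer_singleton_iff.mp g1
        have g2' : Commute g y := mem_centralizer_singleton_iff.mp g2
        exact mem_centralizer_singleton_iff.mpr
          (((g1'.mul_right g2').mul_right g1'.inv_right).mul_right g2'.inv_right)
      exact (index_antitone h1).trans (index_inf_le.trans (Nat.mul_le_mul (hidx x hx) (hidx y hy)))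
  set π := QuotientGroup.mk' (closure S) with hπ
  have k1 : ∀ x ∈ X, ∀ g : G, π g * π x = π x * π g := by
    intro x hx g
    have : closure X ≤ (centralizer {π x}).comap π := by
      rw [closure_le]
      intro y hy
      refine mem_centralizer_singleton_iff.mpr ?_
      rw [← commutatorElement_eq_one_iff_mul_comm, ← map_commutatorElement, hπ,
        QuotientGroup.mk'_apply, QuotientGroup.eq_one_iff]
      exact hXX y hy x hx
    exact mem_centralizer_singleton_iff.mp (this (hgen ▸ mem_top g))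
  rw [_root_.commutator_def, commutator_le]
  intro g _ y _
  have : closure X ≤ (centralizer {π g}).comap π := by
    rw [closure_le]
    intro x hx
    exact mem_centralizer_singleton_iff.mpr (k1 x hx g).symm
  have h1 := mem_centralizer_singleton_iff.mp (this (hgen ▸ mem_top y))
  rw [← QuotientGroup.eq_one_iff, ← QuotientGroup.mk'_apply, ← hπ, map_commutatorElement,
    commutatorElement_eq_one_iff_mul_comm]
  exact h1.symm

/-- There is a function `f` of two natural-number arguments with the following property. Let `q` be a prime and `A` an elementary abelian group of order `q³` acting by automorphisms on a finite group `G` of order prime to `q`, and suppose that for every non-identity `a ∈ A` the derived subgroup of the fixed-point subgroup `C_G(a)` has order at most `m`. Then the derived subgroup of `G` has order at most `f(q, m)`. -/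
theorem result :
    ∃ f : ℕ → ℕ → ℕ, ∀ (q m : ℕ) (A G : Type u) [Group A] [Finite A] [Group G] [Finite G] [MulDistribMulAction A G],
      q.Prime → Nat.card A = q ^ 3 → (∀ a b : A, a * b = b * a) → (∀ a : A, a ^ q = 1) → ¬ q ∣ Nat.card G →
      (∀ a : A, a ≠ 1 → Nat.card ↥(commutator ↥(FixedPoints.subgroup (Subgroup.zpowers a) G)) ≤ m) →
      Nat.card ↥(commutator G) ≤ f q m := by
  refine ⟨fun q m => (q ^ 3 * m * (m ^ q ^ 3 * m ^ q ^ 3) + 1) ^
    (q ^ 3 * m * (m ^ q ^ 3 * m ^ q ^ 3) * m), ?_⟩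
  intro q m A G _ _ _ _ _ hq hA hc he hG h
  refine aux (MulDistribMulAction.toMulAut A G) hq hA hc he hG fun a ha => ?_
  have e : fixedSub (MulDistribMulAction.toMulAut A G) (zpowers a) =
      FixedPoints.subgroup (zpowers a) G := by
    ext g
    rw [mem_fixedSub, FixedPoints.mem_subgroup]
    exact ⟨fun h b => h b b.2, fun h b hb => h ⟨b, hb⟩⟩
  rw [e]
  exact h a ha

end Cfsg.Agent.S4316
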