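import Cfsg.Statements.S4320
import Mathlib

set_option autoImplicit false
open Cfsg

namespace Cfsg.Agent.S4320

open Finset MonoidAlgebra

section
variable {G A : Type*} [Group G] [Finite G] [CommGroup A] [Fintype A]

/-- augmentation -/
noncomputable def aug (A : Type*) [CommGroup A] : MonoidAlgebra ℤ A →ₐ[ℤ] ℤ :=
  MonoidAlgebra.lift ℤ ℤ A 1

omit [Fintype A] in
theorem aug_of (a : A) : aug A (of ℤ A a) = 1 := by simp [aug]

theorem exists_det (π : G →* A) (hπ : Function.Surjective π) (hker : π.ker ≤ commutator G)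
    {M : Type*} [AddCommGroup M] [Module (MonoidAlgebra ℤ A) M] (d : G → M)
    (hd : ∀ x y, d (x * y) = of ℤ A (π y) • d x + d y) :
    ∃ D : MonoidAlgebra ℤ A, (aug A D).natAbs = Fintype.card A ∧ ∀ g, D • d g = 0 := by
  classical
  have := Fintype.ofFinite G
  let R := MonoidAlgebra ℤ A
  let I : Ideal R := RingHom.ker (aug A)
  -- the submodule of combinations with coefficients in `I`
  let J : Submodule R M := (Submodule.pi Set.univ fun _ : G => I).map
    (Fintype.linearCombination R d)
  have hJ : ∀ (r : R) (g : G), r ∈ I → r • d g ∈ J := fun r g hr =>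
    ⟨Pi.single g r, fun i _ => by
      by_cases h : i = g
      · subst h; simpa using hr
      · simp [Pi.single_eq_of_ne h], by simp⟩
  let δ : G →* Multiplicative (M ⧸ J) := MonoidHom.mk' (fun g => .ofAdd (J.mkQ (d g))) (by
    intro x y
    rw [← ofAdd_add, ← map_add, hd]
    congr 1
    rw [Submodule.mkQ_apply, Submodule.mkQ_apply, Submodule.Quotient.eq]
    have := hJ (of ℤ A (π y) - 1) x (by
      change aug A _ = 0
      rw [map_sub, aug_of, map_one, sub_self])
    rw [sub_smul, one_smul] at this
    convert this using 1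
    abel)
  have hδ : π.ker ≤ δ.ker := hker.trans (Abelianization.commutator_subset_ker δ)
  let δ' : A →* Multiplicative (M ⧸ J) := π.liftOfRightInverse _
    (Function.rightInverse_surjInv hπ) ⟨δ, hδ⟩
  have hδ' : ∀ g, δ' (π g) = δ g := fun g => π.liftOfRightInverse_comp_apply _ _ _ g
  let ψ : (G → ℤ) →ₗ[ℤ] Additive A := Fintype.linearCombination ℤ fun g => Additive.ofMul (π g)
  have hψ : Function.Surjective ψ := fun a => by
    obtain ⟨g, hg⟩ := hπ a.toMul
    exact ⟨Pi.single g 1, by simp [ψ, hg]⟩
  let K : AddSubgroup (G → ℤ) := ψ.toAddMonoidHom.ker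
  have hK : K.index = Fintype.card A := by
    rw [AddSubgroup.index_ker, AddMonoidHom.range_eq_top.mpr hψ, AddSubgroup.card_top,
      ← Nat.card_eq_fintype_card]
    rfl
  have : K.FiniteIndex := ⟨by rw [hK]; exact Fintype.card_ne_zero⟩
  have hrel : ∀ m : K, ∃ μ : G → R, (∀ i, aug A (μ i) = m.1 i) ∧ ∑ i, μ i • d i = 0 := by
    rintro ⟨m, hm⟩
    have h1 : ∑ i, m i • d i ∈ J := by
      rw [← Submodule.Quotient.mk_eq_zero, ← Submodule.mkQ_apply, map_sum]
      have h2 := congrArg (MonoidHom.toAdditiveLeft δ') (AddMonoidHom.mem_ker.mp hm)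
      simpa [ψ, Fintype.linearCombination_apply, hδ', δ] using h2
    obtain ⟨ν, hν, h2⟩ := h1
    refine ⟨fun i => (m i : R) - ν i, fun i => ?_, ?_⟩
    · have : aug A (ν i) = 0 := hν i trivial
      simp [this]
    · simp only [sub_smul, sum_sub_distrib, Int.cast_smul_eq_zsmul]
      rw [← h2, Fintype.linearCombination_apply, sub_self]
  let b : Module.Basis G ℤ K := (Module.finBasisOfFinrankEq ℤ K
    (n := Fintype.card G) (by rw [AddSubgroup.finrank_eq_of_finiteIndex]; simp)).reindex
    (Fintype.equivFin G).symm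
  choose μ hμ1 hμ2 using fun k => hrel (b k)
  let Mx : Matrix G G R := Matrix.of μ
  refine ⟨Mx.det, ?_, fun g => ?_⟩
  · rw [← hK, AddSubgroup.index_eq_natAbs_det (Pi.basisFun ℤ G) K b, AlgHom.map_det,
      Module.Basis.det_apply, ← Matrix.det_transpose]
    congr 2
    ext i j
    simp [Mx, hμ1, Module.Basis.toMatrix_apply]
  · have h1 : ∑ k, Mx.adjugate g k • ∑ i, μ k i • d i = 0 := by simp [hμ2]
    simp only [smul_sum, smul_smul] at h1
    rw [sum_comm] at h1
    simp only [← sum_smul] at h1
    have h2 : ∀ i, ∑ k, Mx.adjugate g k * μ k i = (Mx.det • (1 : Matrix G G R)) g i := fun i => by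
      rw [← Matrix.adjugate_mul]; rfl
    simpa [h2, Matrix.one_apply] using h1

theorem norm_smul (π : G →* A) (hπ : Function.Surjective π) (hker : π.ker ≤ commutator G)
    {M : Type*} [AddCommGroup M] [Module (MonoidAlgebra ℤ A) M] (d : G → M)
    (hd : ∀ x y, d (x * y) = of ℤ A (π y) • d x + d y) (g : G) :
    (∑ a, of ℤ A a) • d g = 0 := by
  classical
  obtain ⟨D, h1, h2⟩ := exists_det π hπ hker (fun g => (d g, of ℤ A (π g) - 1)) (fun x y => by
    ext1
    · exact hd x y
    · simp only [map_mul, Prod.snd_add, Prod.smul_snd, smul_eq_mul]; ring)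
  have h3 : ∀ a, D.coeff a = D.coeff 1 := fun a => by
    obtain ⟨g, rfl⟩ := hπ a
    have := congrArg Prod.snd (h2 g)
    simp only [Prod.smul_snd, smul_eq_mul, mul_sub, mul_one, Prod.snd_zero, sub_eq_zero] at this
    conv_lhs => rw [← this]
    simp
  have h4 : D = D.coeff 1 • ∑ a, of ℤ A a := by
    ext a
    rw [coeff_smul_apply, coeff_sum]
    simp [h3 a, Finsupp.single_apply]
  have h5 : aug A D = D.coeff 1 * Fintype.card A := by
    conv_lhs => rw [h4]
    simp [aug]
  rw [h5, Int.natAbs_mul, Int.natAbs_natCast] at h1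
  have h6 : (D.coeff 1).natAbs = 1 :=
    Nat.eq_of_mul_eq_mul_right Fintype.card_pos (h1.trans (one_mul _).symm)
  have h7 := congrArg Prod.fst (h2 g)
  rw [h4] at h7
  simp only [Prod.smul_fst, Prod.fst_zero, smul_assoc] at h7
  rcases Int.natAbs_eq_iff.mp h6 with h | h <;> simpa [h] using h7

theorem norm_act (π : G →* A) (hπ : Function.Surjective π) (hker : π.ker ≤ commutator G)
    {M : Type*} [AddCommGroup M] (act : A →* Module.End ℤ M) (d : G → M)
    (hd : ∀ x y, d (x * y) = act (π y) (d x) + d y) (g : G) :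
    ∑ a, act a (d g) = 0 := by
  let _ : Module (MonoidAlgebra ℤ A) M :=
    Module.compHom M (MonoidAlgebra.lift ℤ _ _ act).toRingHom
  have hact : ∀ (a : A) (f : M), of ℤ _ a • f = act a f := fun a f => by
    change MonoidAlgebra.lift ℤ _ _ act (of ℤ _ a) f = _
    rw [lift_of]
  have h := norm_smul π hπ hker d (fun x y => by rw [hact, hd]) g
  rw [sum_smul] at h
  simpa only [hact] using h

end

/-- The Principal Ideal Theorem of class field theory in its group-theoretic form: for every finite group `G`, the transfer homomorphism from `G` into the abelianization `G'/G''` of its derived subgroup `G'` is the trivial homomorphism. -/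
theorem result {G : Type*} [Group G] [Finite G] :
    MonoidHom.transfer (Abelianization.of : ↥(commutator G) →* Abelianization ↥(commutator G)) =
      (1 : G →* Abelianization ↥(commutator G)) := by
  classical
  let H := commutator G
  let T : H.LeftTransversal := default
  let α := T.2.leftQuotientEquiv
  let _ := H.fintypeQuotientOfFiniteIndex
  let _ : CommGroup (G ⧸ H) := inferInstanceAs (CommGroup (Abelianization G))
  let M := G ⧸ H → Additive (Abelianization H)
  let act : G ⧸ H →* Module.End ℤ M :=
    { toFun := fun a => LinearMap.funLeft ℤ _ (a * ·)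
      map_one' := by ext; simp
      map_mul' := fun a b => by ext; simp [mul_left_comm, mul_assoc] }
  have hact : ∀ (a : G ⧸ H) (f : M) (q : G ⧸ H), act a f q = f (a * q) := fun a f q => rfl
  have hα : ∀ q, ((α q : G) : G ⧸ H) = q := fun q => α.symm_apply_apply q
  have hmem : ∀ (g : G) (q : G ⧸ H), (α ((g : G ⧸ H) * q) : G)⁻¹ * (g * α q) ∈ H := fun g q => by
    rw [← QuotientGroup.eq, QuotientGroup.mk_mul, hα, hα]
  let d : G → M := fun g q => .ofMul (Abelianization.of ⟨_, hmem g q⟩)
  ext g
  have h := norm_act (QuotientGroup.mk' H) (QuotientGroup.mk'_surjective H)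
    (QuotientGroup.ker_mk' H).le act d (fun x y => by
      funext q
      rw [Pi.add_apply, hact]
      simp only [d, ← ofMul_mul, ← map_mul]
      congr 2
      ext
      simp [mul_assoc]) g
  have h2 := congrFun h 1
  rw [Finset.sum_apply] at h2
  simp only [hact, mul_one, d, ← ofMul_prod] at h2
  rw [MonoidHom.transfer_def _ T, MonoidHom.one_apply]
  refine Eq.trans ?_ h2
  refine (Fintype.prod_equiv (MulAction.toPerm g) _ _ fun q => ?_).symm
  refine congrArg Abelianization.of (Subtype.ext ?_)
  simp only [Subgroup.smul_apply_eq_smul_apply_inv_smul, MulAction.toPerm_apply, inv_smul_smul,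
    smul_eq_mul]
  rfl

end Cfsg.Agent.S4320
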