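import Cfsg.Statements.S4321
import Mathlib
import Cfsg.Agent.Lib.Reg.MaxClassPow
import Cfsg.Agent.Lib.Perm.ClassGraph
import Cfsg.Agent.Lib.Coprime.Action

set_option autoImplicit false
open Cfsg

namespace Cfsg.Agent.S4321

open Subgroup Cfsg.Agent.Reg
open scoped commutatorElement

variable {G : Type*} [Group G] [Finite G] {p : ℕ} [hp : Fact p.Prime]

theorem aux {x y : G} (hx : x ^ p = 1) (hxZ : x ∉ center G)
    (h : (centralizer ({x} : Set G)).index.Coprime (centralizer ({y} : Set G)).index)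
    (h' : (centralizer ({x * y} : Set G)).index.Coprime (centralizer ({x} : Set G)).index) :
    p ∣ (centralizer ({y} : Set G)).index ∧ ∀ g : G, Commute (g * x * g⁻¹) x := by
  have h1 := Perm.mem_stabilizer_of_coprime h (Nat.le_of_dvd
    (Nat.pos_of_ne_zero FiniteIndex.index_ne_zero)
    (h'.dvd_of_dvd_mul_left (Perm.index_mul_dvd_of_coprime h)))
  have h2 : ∀ g : G, Commute (g * x * g⁻¹) x := fun g => by
    simpa using (Commute.refl x).mul_left
      (mem_centralizer_singleton_iff.1 (Perm.stabilizer_le_centralizer h (h1 g)))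
  refine ⟨by_contra fun hd => hxZ (mem_center_iff.2 fun g => ?_), h2⟩
  have h3 : orderOf (x⁻¹ * (g * x * g⁻¹)) = 1 := Nat.eq_one_of_dvd_coprimes
    (hp.out.coprime_iff_not_dvd.2 hd) (orderOf_dvd_of_pow_eq_one (by
      rw [(h2 g).symm.inv_left.mul_pow, conj_pow, inv_pow, hx]; simp))
    ((orderOf_dvd_natCard _ (h1 g)).trans (Perm.card_stabilizer_conjugatesOf_dvd y))
  rwa [orderOf_eq_one_iff, inv_mul_eq_one, eq_comm, mul_inv_eq_iff_eq_mul] at h3

theorem le_centralizer_of_not_dvd {V : Subgroup G} [V.Normal] (hV : IsPGroup p V) {y : G}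
    (hy : ¬ p ∣ (centralizer ({y} : Set G)).index) : V ≤ centralizer {y} := by
  obtain ⟨k, hk⟩ := IsPGroup.iff_card.1 hV
  exact relIndex_eq_one.1 (Nat.eq_one_of_dvd_coprimes
    ((hp.out.coprime_iff_not_dvd.2 hy).pow_left k) (hk ▸ relIndex_dvd_card _ _)
    (Cls.relIndex_dvd_index_of_normal' _ _))

theorem core (hZ : ¬ p ∣ Nat.card (center G)) {a b : G} (ha : orderOf a = p) (hb : orderOf b = p)
    (hpb : ¬ p ∣ (centralizer ({b} : Set G)).index)
    (H : ∀ z : G, p ∣ orderOf z →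
      (centralizer ({z} : Set G)).index.Coprime (centralizer ({a} : Set G)).index ∨
        (centralizer ({z} : Set G)).index.Coprime (centralizer ({b} : Set G)).index) : False := by
  obtain ⟨S, hS⟩ := Cls.exists_sylow_le_of_not_dvd_index hpb
  wlog hab : Commute a b generalizing a
  · obtain ⟨g, hg⟩ := Cls.exists_conj_mem_sylow S ⟨1, ha.trans (pow_one p).symm⟩
    refine this (a := g⁻¹ * a * g⁻¹⁻¹) ((MulAut.conj g⁻¹).orderOf_eq a ▸ ha) ?_
      (mem_centralizer_singleton_iff.1 (hS (by rwa [inv_inv])))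
    rwa [Cls.index_centralizer_conj]
  have haZ : a ∉ center G := fun e => hZ (ha ▸ orderOf_dvd_natCard _ e)
  have hbZ : b ∉ center G := fun e => hZ (hb ▸ orderOf_dvd_natCard _ e)
  have hap : a ^ p = 1 := ha ▸ pow_orderOf_eq_one a
  have hbp : b ^ p = 1 := hb ▸ pow_orderOf_eq_one b
  have h0 := (H a ha.symm.dvd).resolve_left fun e =>
    haZ (Cls.index_centralizer_eq_one_iff.1 (Nat.coprime_self _ |>.1 e))
  have h1 : orderOf (a * b) = p := orderOf_eq_prime (by rw [hab.mul_pow, hap, hbp, mul_one])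
    fun e => by
      rw [eq_inv_of_mul_eq_one_left e, Cls.centralizer_single_inv, Nat.coprime_self] at h0
      exact hbZ (Cls.index_centralizer_eq_one_iff.1 h0)
  obtain ⟨h2, h3⟩ := aux hbp hbZ h0.symm (hab.eq ▸ (H _ h1.symm.dvd).resolve_left fun e =>
    hpb (aux hap haZ h0 e).1)
  have H' : ∀ z : G, p ∣ orderOf z → p ∣ (centralizer ({z} : Set G)).index →
      (centralizer ({z} : Set G)).index.Coprime (centralizer ({b} : Set G)).index :=
    fun z hz hz' => (H z hz).resolve_left fun e =>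
      hp.out.one_lt.ne' (Nat.eq_one_of_dvd_coprimes e hz' h2)
  have hV : IsPGroup p (normalClosure ({b} : Set G)) := by
    refine PGrp.IsElementaryAbelian.isPGroup (PGrp.isElementaryAbelian_closure ?_ ?_)
    · intro x hx y hy
      simp only [Group.mem_conjugatesOfSet_iff, Set.mem_singleton_iff, exists_eq_left] at hx hy
      obtain ⟨g, rfl⟩ := isConj_iff.1 hy
      obtain ⟨h, rfl⟩ := isConj_iff.1 hx
      simpa [mul_assoc] using ((h3 (g⁻¹ * h)).map (MulAut.conj g)).eq
    · intro x hx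
      simp only [Group.mem_conjugatesOfSet_iff, Set.mem_singleton_iff, exists_eq_left] at hx
      obtain ⟨h, rfl⟩ := isConj_iff.1 hx
      rw [conj_pow, hbp, mul_one, mul_inv_cancel]
  have h4 : ∀ y : G, ¬ p ∣ (centralizer ({y} : Set G)).index → y ∈ centralizer {b} := fun y hy =>
    mem_centralizer_singleton_iff.2 (mem_centralizer_singleton_iff.1
      (le_centralizer_of_not_dvd hV hy (subset_normalClosure rfl))).symm
  have hord : ∀ y : G, (∃ k, orderOf y = p ^ k) → p ∣ (centralizer ({y} : Set G)).index →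
      p ∣ orderOf y := by
    rintro y ⟨_ | k, hk⟩ hy
    · rw [pow_zero, orderOf_eq_one_iff] at hk
      rw [hk, Cls.index_centralizer_eq_one_iff.2 (one_mem _), Nat.dvd_one] at hy
      exact absurd hy hp.out.one_lt.ne'
    · exact hk ▸ dvd_pow_self p k.succ_ne_zero
  have h5 : ∀ y : G, (∃ k, orderOf y = p ^ k) → y ∈ centralizer {b} := fun y hy => by
    by_cases hy' : p ∣ (centralizer ({y} : Set G)).index
    · obtain ⟨g, hg⟩ := Cls.exists_conj_mem_sylow S hy
      exact mem_centralizer_singleton_iff.2 (Perm.commute_of_coprime (H' y (hord y hy hy') hy')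
        (isConj_iff.2 ⟨g⁻¹, by rw [inv_inv]⟩) (IsConj.refl b)
        (mem_centralizer_singleton_iff.1 (hS hg)))
    · exact h4 y hy'
  have h6 : ∀ y ∈ centralizer ({b} : Set G), (orderOf y).Coprime p →
      ¬ p ∣ (centralizer ({y} : Set G)).index := fun y hy hy' hd => by
    have h7 : Commute y b := mem_centralizer_singleton_iff.1 hy
    have h8 := Cls.centralizer_single_mul h7 (hb ▸ hy')
    have h9 := H' (y * b) (by
      rw [h7.orderOf_mul_eq_mul_orderOf_of_coprime (hb ▸ hy'), hb]; exact Dvd.intro_left _ rfl)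
      (hd.trans (h8 ▸ index_dvd_of_le inf_le_left))
    exact hbZ (Cls.index_centralizer_eq_one_iff.1 (Nat.eq_one_of_dvd_coprimes h9
      (h8 ▸ index_dvd_of_le inf_le_right) dvd_rfl))
  have hN : (centralizer ({b} : Set G)).Normal := ⟨fun c hc g => by
    obtain ⟨u, -, v, hv, rfl, ⟨k, hu'⟩, hv'⟩ := Cls.exists_p_part hp.out c
    rw [← conj_mul]
    refine mul_mem (h5 _ ⟨k, ((MulAut.conj g).orderOf_eq u).trans hu'⟩) (h4 _ ?_)
    rw [Cls.index_centralizer_conj]
    exact h6 v (zpowers_le.2 hc hv) hv'⟩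
  obtain ⟨T⟩ : Nonempty (Sylow p (centralizer ({b} : Set G))) := inferInstance
  obtain ⟨h7, h8⟩ := Transfer.sylow_normal_of_not_dvd_index
    (G := centralizer ({b} : Set G)) (fun x hx hd =>
    h6 x x.2 ((orderOf_coe x).symm ▸ hx) (hd.trans (Cls.index_centralizer_normal_dvd x))) T
  have := T.characteristic_of_normal h7
  set P := (T : Subgroup (centralizer ({b} : Set G))).map (Subgroup.subtype _) with hP
  have hPp : IsPGroup p P := T.isPGroup'.map _
  have h9 : ∀ y : G, (∃ k, orderOf y = p ^ k) → y ∈ P := fun y hy =>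
    ⟨⟨y, h5 y hy⟩, Cls.mem_sylow_of_mem_normalizer T (by simpa [← orderOf_coe] using hy)
      (by rw [normalizer_eq_top]; trivial), rfl⟩
  have h10 : ∀ u ∈ P, u ∉ centralizer (P : Set G) → ∀ g : G, u ∈ commIn ⁅P, P⁆ g := by
    intro u hu hu' g
    have h11 : p ∣ (centralizer ({u} : Set G)).index := by_contra fun e => hu' fun w hw =>
      mem_centralizer_singleton_iff.1 (le_centralizer_of_not_dvd hPp e hw)
    obtain ⟨c, hc, d, hd, rfl⟩ := Transfer.exists_mul_of_coprime_index (H' u (hord u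
      (by simpa [← orderOf_coe] using IsPGroup.iff_orderOf.1 hPp ⟨u, hu⟩) h11) h11).symm g
    obtain ⟨v, -, w, hw, rfl, hv', hw'⟩ := Cls.exists_p_part hp.out c
    obtain ⟨u, hu, rfl⟩ := hu
    have h12 : (u : G) * w = w * u := congrArg Subtype.val
      (h8 ⟨w, zpowers_le.2 hc hw⟩ (by simpa [← orderOf_coe] using hw') u hu)
    rw [mem_commIn, commutatorElement_mem_comm, coe_subtype,
      show ⁅v * w * d, (u : G)⁆ = ⁅v, (u : G)⁆ by
        simp only [commutatorElement_def, mul_left_inj]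
        rw [mul_assoc _ d, show d * (u : G) = u * d from mem_centralizer_singleton_iff.1 hd,
          mul_assoc v w, ← mul_assoc w, ← h12]
        group]
    exact commutator_mem_commutator (h9 v hv') (mem_map_of_mem _ hu)
  have haP := h9 a ⟨1, ha.trans (pow_one p).symm⟩
  have haC : a ∉ centralizer (P : Set G) := fun e => by
    refine Cls.not_dvd_index_of_sylow_le (Q := S) (fun w hw => mem_centralizer_singleton_iff.2
      (e w (h9 w ?_))) h2
    simpa [← orderOf_coe] using IsPGroup.iff_orderOf.1 S.isPGroup' ⟨w, hw⟩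
  refine hbZ (mem_center_iff.2 fun g => ?_)
  obtain ⟨u, -, v, -, rfl, hu, hv⟩ := Cls.exists_p_part hp.out g
  refine mem_centralizer_singleton_iff.1 (mul_mem (h5 u hu) (mem_centralizer_singleton_iff.2
    (Coprime.le_centralizer_of_commutator_le_frattini (A := zpowers v) (G := P) ?_ ?_
      (mem_zpowers v) b (h9 b ⟨1, hb.trans (pow_one p).symm⟩)).symm))
  · obtain ⟨k, hk⟩ := IsPGroup.iff_card.1 hPp
    rw [Nat.card_zpowers, hk]
    exact hv.pow_right k
  refine (commutator_le.2 fun w hw g _ => mem_commIn.1 ?_).trans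
    ((map_subtype_commutator P).ge.trans (map_mono (PGrp.commutator_le_frattini hPp)))
  by_cases hw' : w ∈ centralizer (P : Set G)
  · exact (mul_mem_cancel_right (h10 a haP haC g)).1 (h10 _ (mul_mem hw haP)
      (fun e => haC ((mul_mem_cancel_left hw').1 e)) g)
  · exact h10 w hw hw' g

/-- Let `G` be a finite group and `p` a prime not dividing the order of the centre of `G`. Consider the primes dividing the size of some conjugacy class of a `p`-singular element (an element of order divisible by `p`), two of them adjacent when their product divides such a class size. Then any two distinct such primes are joined by a path with at most 3 edges (the graph is connected of diameter at most 3). -/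
theorem result {G : Type*} [Group G] [Finite G] (p : ℕ) [Fact p.Prime]
    (hZ : ¬ p ∣ Nat.card ↥(Subgroup.center G)) (r s : ℕ) (hr : (r.Prime ∧ ∃ x : G, p ∣ orderOf x ∧ r ∣ (Subgroup.centralizer ({x} : Set G)).index)) (hs : (s.Prime ∧ ∃ x : G, p ∣ orderOf x ∧ s ∣ (Subgroup.centralizer ({x} : Set G)).index)) (hrs : r ≠ s) :
    (∃ x : G, p ∣ orderOf x ∧ r * s ∣ (Subgroup.centralizer ({x} : Set G)).index) ∨ (∃ t : ℕ, (t.Prime ∧ ∃ x : G, p ∣ orderOf x ∧ t ∣ (Subgroup.centralizer ({x} : Set G)).index) ∧ t ≠ r ∧ t ≠ s ∧ (∃ x : G, p ∣ orderOf x ∧ r * t ∣ (Subgroup.centralizer ({x} : Set G)).index) ∧ (∃ x : G, p ∣ orderOf x ∧ t * s ∣ (Subgroup.centralizer ({x} : Set G)).index)) ∨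
      (∃ t u : ℕ, (t.Prime ∧ ∃ x : G, p ∣ orderOf x ∧ t ∣ (Subgroup.centralizer ({x} : Set G)).index) ∧ (u.Prime ∧ ∃ x : G, p ∣ orderOf x ∧ u ∣ (Subgroup.centralizer ({x} : Set G)).index) ∧ t ≠ r ∧ u ≠ s ∧ t ≠ u ∧ (∃ x : G, p ∣ orderOf x ∧ r * t ∣ (Subgroup.centralizer ({x} : Set G)).index) ∧ (∃ x : G, p ∣ orderOf x ∧ t * u ∣ (Subgroup.centralizer ({x} : Set G)).index) ∧ (∃ x : G, p ∣ orderOf x ∧ u * s ∣ (Subgroup.centralizer ({x} : Set G)).index)) := by
  have hp : p.Prime := Fact.out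
  let A : ℕ → ℕ → Prop := fun r s => ∃ g : G, p ∣ orderOf g ∧
    r ∣ (centralizer ({g} : Set G)).index ∧ s ∣ (centralizer ({g} : Set G)).index
  have hA : ∀ {r s}, r.Prime → s.Prime → r ≠ s → A r s →
      ∃ g : G, p ∣ orderOf g ∧ r * s ∣ (centralizer ({g} : Set G)).index :=
    fun hr hs hrs ⟨g, h0, h1, h2⟩ =>
      ⟨g, h0, ((Nat.coprime_primes hr hs).2 hrs).mul_dvd_of_dvd_of_dvd h1 h2⟩
  suffices h : ∃ t u, t.Prime ∧ u.Prime ∧ A r t ∧ A t u ∧ A u s by
    obtain ⟨t, u, ht, hu, h1, h2, h3⟩ := h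
    by_contra h
    rw [not_or, not_or] at h
    obtain ⟨h4, h5, h6⟩ := h
    have h7 : ¬ A r s := fun h => h4 (hA hr.1 hs.1 hrs h)
    have h8 : ∀ t, t.Prime → A r t → A t s → False := fun t ht h8 h9 => by
      by_cases htp : t = r
      · exact h7 (htp ▸ h9)
      by_cases htq : t = s
      · exact h7 (htq ▸ h8)
      exact h5 ⟨t, ⟨ht, h9.imp fun _ h => ⟨h.1, h.2.1⟩⟩, htp, htq, hA hr.1 ht (Ne.symm htp) h8,
        hA ht hs.1 htq h9⟩
    have hrp : t ≠ r := by rintro rfl; exact h8 u hu h2 h3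
    have hsq : u ≠ s := by rintro rfl; exact h8 t ht h1 h2
    have hrs : t ≠ u := by rintro rfl; exact h8 t ht h1 h3
    exact h6 ⟨t, u, ⟨ht, h2.imp fun _ h => ⟨h.1, h.2.1⟩⟩, ⟨hu, h3.imp fun _ h => ⟨h.1, h.2.1⟩⟩,
      hrp, hsq, hrs, hA hr.1 ht hrp.symm h1, hA ht hu hrs h2, hA hu hs.1 hsq h3⟩
  obtain ⟨-, x, hx, hx'⟩ := hr
  obtain ⟨-, y, hy, hy'⟩ := hs
  have h1 : ∀ x : G, p ∣ orderOf x → ∃ a : G, orderOf a = p ∧
      (centralizer ({a} : Set G)).index ∣ (centralizer ({x} : Set G)).index := fun x hx =>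
    ⟨_, orderOf_pow_orderOf_div (orderOf_pos x).ne' hx, Cls.index_centralizer_pow_dvd _ _⟩
  obtain ⟨a, ha, ha'⟩ := h1 x hx
  obtain ⟨b, hb, hb'⟩ := h1 y hy
  by_contra h
  have H : ∀ z : G, p ∣ orderOf z →
      (centralizer ({z} : Set G)).index.Coprime (centralizer ({a} : Set G)).index ∨
        (centralizer ({z} : Set G)).index.Coprime (centralizer ({b} : Set G)).index := by
    intro z hz
    by_contra h2
    obtain ⟨t, ht, h3, h4⟩ := Nat.Prime.not_coprime_iff_dvd.1 (not_or.1 h2).1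
    obtain ⟨u, hu, h5, h6⟩ := Nat.Prime.not_coprime_iff_dvd.1 (not_or.1 h2).2
    exact h ⟨t, u, ht, hu, ⟨x, hx, hx', h4.trans ha'⟩, ⟨z, hz, h3, h5⟩, y, hy, h6.trans hb', hy'⟩
  by_cases hpb : p ∣ (centralizer ({b} : Set G)).index
  · refine core hZ hb ha (fun e => ?_) fun z hz => (H z hz).symm
    rcases H a ha.symm.dvd with h2 | h2
    exacts [hp.one_lt.ne' (Nat.eq_one_of_dvd_coprimes h2 e e),
      hp.one_lt.ne' (Nat.eq_one_of_dvd_coprimes h2 e hpb)]
  · exact core hZ ha hb hpb H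

end Cfsg.Agent.S4321
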