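import Cfsg.Statements.S4323
import Cfsg.Agent.Lib.Core.MartC
import Cfsg.Agent.Lib.Coprime.Semidirect

set_option autoImplicit false
open Cfsg

namespace Cfsg.Agent.S4323

open Subgroup SemidirectProduct Cfsg.Agent.Coprime Cfsg.Agent.OO

/-- Let `q` be a prime and `A` a non-cyclic group of order `q²` acting by automorphisms on a finite group `G` of order prime to `q`, such that the fixed-point subgroup `C_G(a)` is abelian for every non-identity `a ∈ A`. Then `G` is solvable. -/
theorem result {A G : Type*} [Group A] [Finite A]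
    [Group G] [Finite G] [MulDistribMulAction A G] (q : ℕ) (hq : q.Prime) (hA : Nat.card A = q ^ 2) (hnc : ¬ IsCyclic A)
    (hcop : ¬ q ∣ Nat.card G) (h : ∀ a : A, a ≠ 1 → IsMulCommutative ↥(FixedPoints.subgroup (Subgroup.zpowers a) G)) :
    Group.IsSolvable G := by
  set φ := MulDistribMulAction.toMulAut A G with hφ
  have h1 : Mart.Hyp q ((⊤ : Subgroup A).map (inr : A →* G ⋊[φ] A))
      ((⊤ : Subgroup G).map (inl : G →* G ⋊[φ] A)) := by
    refine ⟨hq, by rw [card_map_inr, card_top, hA], fun e => hnc ?_,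
      (map_inr_le_normalizer_iff φ).2 fun _ _ _ _ => trivial, ?_, ?_⟩
    · exact (topEquiv.symm.trans (equivMapOfInjective ⊤ _ inr_injective)).isCyclic.2 e
    · rw [card_map_inl, card_map_inr, card_top, card_top, hA]
      exact ((Nat.Prime.coprime_iff_not_dvd hq).2 hcop).symm.pow_right 2
    · rintro _ ⟨a, -, rfl⟩ ha
      have h2 := h a fun e => ha (by rw [e, map_one])
      refine ab_of_le (ab_map h2 (inl : G →* G ⋊[φ] A)) ?_
      rintro _ ⟨⟨g, -, rfl⟩, hg⟩
      refine mem_map_of_mem _ fun b => ?_
      exact (mem_fixedSub_zpowers φ).2 ((inl_mem_centralizer_singleton_iff φ).1 hg) b b.2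
  exact (Core.isSolvable_congr (topEquiv.symm.trans (equivMapOfInjective ⊤ _ inl_injective))).2
    h1.sol

end Cfsg.Agent.S4323
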